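import Cfsg.Agent.Root.Max6
import Cfsg.Agent.S5652

/-! Low-dimensional versions of the maximality of stabilisers of totally singular subspaces
(`stab_tsL`, `stab_tsL'`, `stab_ts_quadL`) and of `O < Sp` in characteristic two (`orth_in_sp`). -/

set_option autoImplicit false

namespace Cfsg.Agent.Root.Mx

open Cfsg.Agent.Geom Cfsg.Agent.AutCl Module QuadraticMap

section TS
variable {F : Type*} [Field F] {σ : F →+* F} {V : Type*} [AddCommGroup V] [Module F V]
  {Φ : Formed σ V} [FiniteDimensional F V]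

theorem stab_tsL (hn : Φ.Nondeg) {W : Submodule F V} (h0 : W ≠ ⊥) (hW : Φ.TotSing W)
    (H0 : ∀ p r, Φ.IsPair p r →
      ∃ y ∈ Φ.pairPerp p r, ∃ d ≠ (0 : F), Φ.τ * d = Φ.Q y ∧ Φ.ε * d + σ d = Φ.B y y)
    (H : ∀ p ∈ Φ.perp W, ∀ r ∈ Φ.perp W, Φ.IsPair p r →
      ∃ y ∈ Φ.perp W, y ∈ Φ.pairPerp p r ∧ ∃ d ≠ (0 : F), Φ.τ * d = Φ.Q y ∧ Φ.ε * d + σ d = Φ.B y y) :
    Geo.IsMaximalIn (EG Φ) (stab W ⊓ EG Φ) := by
  refine max_crit inf_le_right ?_ fun X h2 h3 g hg hg' => ?_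
  · obtain ⟨x, hx, hx0⟩ := Submodule.exists_mem_ne_zero_of_ne_bot h0
    obtain ⟨r, hr⟩ := hn.exists_isPair hx0 (hW.sing hx)
    obtain ⟨y, hy, d, hd, e1, e2⟩ := H0 x r hr
    rw [Φ.mem_pairPerp] at hy
    obtain ⟨s, hs⟩ := exists_isE hn hr.sf hy.2 e1 e2
    refine ⟨s, IsE_mem_EG hs, fun h => hd ?_⟩
    have := hW.1 x hx _ ((h.1 x).1 hx)
    rw [hs.app] at this
    simpa [(hW.sing hx).2, hy.1, Φ.B_eq_zero_symm hy.1, hr.ef, hr.fe, Φ.ε_ne_zero] using this
  have h4 : ∀ x ∈ W, Full Φ X x := fun x hx => ⟨hW.sing hx, fun a d g hg =>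
    h2 ⟨mem_stab_of_le fun v hv => by
      rw [hg.apply_perp (hW.1 x hx v hv)]; exact add_mem hv (W.smul_mem _ hx), IsE_mem_EG hg⟩⟩
  obtain ⟨x, hx, hp⟩ := exists_notMem_of_stab fun e => hg' ⟨e, h3 hg⟩
  have h5 := (h4 x hx).map hg (EG_le_isom (h3 hg))
  by_cases h6 : g x ∈ Φ.perp W
  swap
  · obtain ⟨y, hy, e⟩ : ∃ y ∈ W, Φ.B y (g x) ≠ 0 := by by_contra! hc; exact h6 hc
    exact EG_le_of_full hn (h4 y hy) h5 e
  obtain ⟨r, hr, e⟩ := hn.exists_hyperbolic_partner hp h6 h5.1.1 h5.1.2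
  have hpr : Φ.IsPair (g x) r := ⟨h5.1, ⟨e.1, e.2.1⟩, e.2.2⟩
  obtain ⟨y, hy, hy', d, hd, e1, e2⟩ := H _ h6 r hr hpr
  rw [Φ.mem_pairPerp] at hy'
  obtain ⟨s, hs⟩ := exists_isE hn hpr.sf hy'.2 e1 e2
  refine EG_le_of_full' hn h5 (h2 ⟨fix_le_stab _ (IsE.fix hs hr hy), IsE_mem_EG hs⟩) hs.mem_isom ?_
  rw [hs.app]
  simp [h5.1.2, hy'.1, Φ.B_eq_zero_symm hy'.1, hpr.ef, hpr.fe, hd, Φ.ε_ne_zero]

theorem stab_tsL' (hn : Φ.Nondeg) {W : Submodule F V}
    (h0 : W ≠ ⊥) (hW : Φ.TotSing W) {d : F} (hd : d ≠ 0) (h1 : Φ.τ * d = 0) (h2 : Φ.ε * d + σ d = 0) :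
    Geo.IsMaximalIn (EG Φ) (stab W ⊓ EG Φ) :=
  stab_tsL hn h0 hW (fun _ _ _ => ⟨0, zero_mem _, d, hd, by simpa using h1, by simpa using h2⟩)
    fun _ _ _ _ _ => ⟨0, zero_mem _, zero_mem _, d, hd, by simpa using h1, by simpa using h2⟩

theorem stab_ts_quadL {Q : QuadraticForm F V} (hn : (Formed.ofQuad Q).Nondeg)
    (h3 : 3 ≤ finrank F V) {W : Submodule F V} (h0 : W ≠ ⊥) (hW : ∀ x ∈ W, Q x = 0)
    (H : 2 * (finrank F W + 1) = finrank F V → ∀ U : Submodule F V, (∀ x ∈ U, Q x = 0) →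
      2 * finrank F U ≠ finrank F V) :
    Geo.IsMaximalIn (EG (Formed.ofQuad Q)) (stab W ⊓ EG (Formed.ofQuad Q)) := by
  have hW' := Formed.totSing_ofQuad.2 hW
  refine stab_tsL hn h0 hW' (fun p r hpr => ?_) fun p hp r hr hpr => ?_
  · by_contra! hc
    have h1 : (Formed.ofQuad Q).TotSing ((Formed.ofQuad Q).pairPerp p r) :=
      Formed.totSing_ofQuad.2 fun y hy => by
        by_contra e
        exact hc y hy (Q y) e (one_mul _) (isE_eich (map_zero Q) (by simp)).hB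
    have h4 := hpr.finrank_pairPerp hn
    obtain ⟨y, hy, hy0⟩ := exists_notMem_of_lt (U := (Formed.ofQuad Q).pairPerp p r) (R := ⊥)
      (by rw [finrank_bot]; omega)
    exact hy0 (eq_zero_of_nd (hpr.nondeg_pairPerp hn) hy fun x hx => h1.1 x hx y hy)
  by_contra! hc
  have h1 : (Formed.ofQuad Q).TotSing ((Formed.ofQuad Q).perp (W ⊔ ((F ∙ p) ⊔ F ∙ r))) :=
    Formed.totSing_ofQuad.2 fun y hy => by
      rw [Formed.perp_sup] at hy
      by_contra e
      exact hc y hy.1 hy.2 (Q y) e (one_mul _) (isE_eich (map_zero Q) (by simp)).hB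
  have nm : ∀ S : Submodule F V, r ∈ (Formed.ofQuad Q).perp S → finrank F ↥(S ⊔ F ∙ p) = finrank F S + 1 :=
    fun S hS => by
      have hp : p ∉ S := fun e => one_ne_zero (hpr.ef.symm.trans (hS p e))
      have := Submodule.finrank_sup_add_finrank_inf_eq S (F ∙ p)
      rwa [finrank_span_singleton hpr.left_ne_zero,
        ((Submodule.disjoint_span_singleton_of_notMem hp)).eq_bot, finrank_bot, add_zero] at this
  have h2 := h1.sup_span (Formed.le_perp_perp _ _ (Submodule.mem_sup_right (Submodule.mem_sup_left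
    (Submodule.mem_span_singleton_self p)))) hpr.se.1 hpr.se.2
  have h3 := hW'.sup_span hp hpr.se.1 hpr.se.2
  have h4 := hn.two_mul_finrank_le h2.le_perp
  have h5 := hn.two_mul_finrank_le h3.le_perp
  rw [nm _ (Formed.le_perp_perp _ _ (Submodule.mem_sup_right (mem_sup_self _ _)))] at h4
  have h6 := hn.finrank_add_finrank_perp (W ⊔ ((F ∙ p) ⊔ F ∙ r))
  have h7 := Submodule.finrank_add_le_finrank_add_finrank W ((F ∙ p) ⊔ F ∙ r)
  rw [hpr.finrank_span] at h7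
  have h8 := nm W hr
  exact H (by omega) _ h3.2 (by omega)

end TS

open S5652 in
theorem orth_in_sp_aux {F : Type*} [Field F] [Finite F] (m : ℕ) (hm : 2 ≤ m) (hc : ringChar F = 2)
    (Q : QuadraticForm F (Fin m ⊕ Fin m → F)) (hQ : (Formed.ofQuad Q).Nondeg)
    (hpol : ∀ u v, QuadraticMap.polar Q u v = Cfsg.sympForm m F u v) :
    Geo.IsMaximalIn (sympFormed m F).isom (Formed.ofQuad Q).isom := by
  have h2 : (2 : F) = 0 := by
    have := (ringChar.spec F 2).2 (by rw [hc]); exact_mod_cast this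
  have hd : finrank F (⊤ : Submodule F (Fin m ⊕ Fin m → F)) = m + m := by simp
  have hle : (Formed.ofQuad Q).isom ≤ (sympFormed m F).isom := fun g hg =>
    (mem_sympFormed_isom m F).2 fun u v => by rw [← hpol, ← hpol]; exact hg.1 u v
  have hv : ∀ w : Fin m ⊕ Fin m → F, w ≠ 0 → ∀ b : F, ∃ v, Q v = 1 ∧ QuadraticMap.polar Q w v = b := by
    intro w hw b
    obtain ⟨y, hy⟩ := hQ.exists_eq_one hw
    have hy : polar Q w y = 1 := hy
    have hS : ((Formed.ofQuad Q).restrict ((F ∙ w) ⊔ F ∙ y)).Nondeg :=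
      nondeg_plane (by simp [polar_self', h2]) (by simp [hy])
    have h5 := hQ.finrank_add_finrank_perp ((F ∙ w) ⊔ F ∙ y)
    have h6 := finrank_sup_one (F ∙ w) y
    have h7 := finrank_span_one (F := F) w
    obtain ⟨u, hu, e⟩ := exists_Q_eq Q _ (hQ.restrict_perp hS) (by
      rw [finrank_top] at hd; omega) (1 - Q (b • y))
    have a := (Formed.ofQuad Q).mem_pairPerp.1 hu
    have a1 : polar Q w u = 0 := a.1
    have a2 : polar Q y u = 0 := a.2
    exact ⟨b • y + u, by rw [quad_add, e]; simp [a2], by simp [a1, hy]⟩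
  obtain ⟨e, -, f, -, hef⟩ := exists_pair hQ (nondeg_top hQ) (by omega)
  refine max_crit hle ?_ fun X h1 h3 g hg hg' => ?_
  · obtain ⟨g, hg⟩ := exists_isE (sympFormed_nondeg m F) (p := e) (a := 0) (d := 1)
      ⟨rfl, sympB_isAlt m F e⟩ (by simp) (by simp [sympFormed, Formed.ofAlt])
      (by simp [sympFormed, Formed.ofAlt])
    refine ⟨g, hg.mem_isom, fun h => ?_⟩
    have := h.2 f
    rw [hg.app, sympFormed_B, sympFormed_B, ← hpol, ← hpol, hef.polar_eq] at this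
    simp [quad_sub, ← sub_eq_add_neg, hef.Q_left, hef.polar_eq', hef.Q_right] at this
  have hW : ∀ v, Q v = 1 → HasE (sympFormed m F) X v 0 1 := fun v h =>
    ⟨_, h1 (refl Q v).2, isE_tv fun x => by rw [refl_apply, h, hpol]; simp⟩
  by_cases hA : ∀ w, w ≠ 0 → HasE (sympFormed m F) X w 0 1 → Q w = 1
  · have key : ∀ g ∈ X, ∀ v, Q v ≠ 0 → Q (g v) = Q v := by
      intro g hg v hv
      obtain ⟨c, hc'⟩ := FiniteField.isSquare_of_char_two hc (Q v)
      have hc0 : c ≠ 0 := by rintro rfl; simp [hc'] at hv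
      have h4 : Q (c⁻¹ • v) = 1 := by rw [quad_smul, hc']; field_simp
      have h5 := hA _ (by simpa [hc0] using fun h : v = 0 => hv (by simp [h]))
        (((hW _ h4).conj hg (h3 hg)).congr (map_zero _) rfl)
      rw [map_smul, quad_smul] at h5
      rw [hc']; field_simp at h5; linear_combination h5
    refine absurd (Formed.mem_isom_ofQuad.2 fun v => ?_) hg'
    by_cases h : Q (g v) = 0
    · by_contra h'
      exact h' (key g hg v fun h'' => h' (h.trans h''.symm))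
    · simpa using (key _ (X.inv_mem hg) _ h).symm
  push Not at hA
  obtain ⟨w, hw, hT, ha⟩ := hA
  have tr : ∀ u v, u ≠ 0 → v ≠ 0 → Q v = Q u → HasE (sympFormed m F) X u 0 1 →
      HasE (sympFormed m F) X v 0 1 := fun u v hu hv h h' => by
    obtain ⟨s, hs, rfl⟩ := hQ.witt_vec hu hv (by simp [polar_self', h2]) h
    exact (h'.conj (h1 hs) (hle hs)).congr (map_zero _) rfl
  have all : ∀ v, v ≠ 0 → HasE (sympFormed m F) X v 0 1 := fun v hv0 => by
    obtain ⟨b, hb⟩ := FiniteField.isSquare_of_char_two hc ((Q v - 1) / (Q w - 1))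
    obtain ⟨u, hu, hb'⟩ := hv w hw b
    obtain ⟨s, hs, hs'⟩ := hT
    refine tr (s u) v (by simpa using fun h : u = 0 => by simp [h] at hu) hv0 ?_
      (((hW u hu).conj hs (h3 hs)).congr (map_zero _) rfl)
    rw [hs'.app, sympFormed_B, sympFormed_B, ← hpol, ← hpol, hb']
    rw [div_eq_iff (sub_ne_zero.2 ha)] at hb
    simp [quad_add, quad_sub, ← sub_eq_add_neg, quad_smul, hu, QuadraticMap.polar_comm _ u w, hb']
    linear_combination hb
  refine tv_gen fun v c => ?_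
  obtain ⟨d, rfl⟩ := FiniteField.isSquare_of_char_two hc c
  by_cases h : d • v = 0
  · exact ⟨1, X.one_mem, isE_tv fun x => by
      rw [mul_right_comm, mul_smul, h]; simp⟩
  · exact ((all _ h).of_smul (by rintro rfl; simp at h)).congr (by simp) (by simp)

theorem orth_in_sp {F : Type*} [Field F] [Fintype F] (m : ℕ) (hm : 2 ≤ m) (heven : ¬ Odd (Fintype.card F))
    (Q : (Fin m ⊕ Fin m → F) → F) (hQ : Geo.IsNondegenerateQuadraticForm Q)
    (hpol : ∀ u v, QuadraticMap.polar Q u v = Cfsg.sympForm m F u v) :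
    Geo.IsMaximalIn (spGL m F) (Geo.quadSimilarityGroup Q ⊓ spGL m F) := by
  obtain ⟨Q, rfl, h1⟩ := Mx.exists_quad hQ
  have hc : ringChar F = 2 := FiniteField.even_card_iff_char_two.2 (by
    rw [Nat.odd_iff] at heven; omega)
  refine Mx.isMaximalIn_of_equiv (Geom.glEquiv _ F) (fun g => by rw [mem_sympFormed_isom]; rfl)
    (fun g => ?_) (orth_in_sp_aux m hm hc Q h1 hpol)
  refine ⟨fun ⟨⟨c, hc⟩, h⟩ => Formed.mem_isom_ofQuad.2 fun v => ?_, fun h => ⟨⟨1, fun v => by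
    simpa using h.2 v⟩, fun u v => by rw [← hpol, ← hpol]; exact h.1 u v⟩⟩
  obtain ⟨e, -, f, -, hef⟩ := exists_pair h1 (nondeg_top h1) (by simp; omega)
  have : sympForm m F (g.1.mulVec e) (g.1.mulVec f) = _ := h e f
  rw [← hpol, ← hpol, hef.polar_eq, QuadraticMap.polar, ← Matrix.mulVec_add, hc, hc, hc,
    hef.Q_left, hef.Q_right, quad_add, hef.Q_left, hef.Q_right, hef.polar_eq] at this
  rw [glEquiv_apply, hc]
  linear_combination Q v * this

end Cfsg.Agent.Root.Mx
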