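import Cfsg.Agent.LES.Basic
import Mathlib.LinearAlgebra.UnitaryGroup
import Mathlib.Analysis.Real.Sqrt

/-! The real twisted group algebra of an `F₂`-space with a bilinear cocycle `c` (`L u`), Skolem–Noether by averaging
(`exists_intertwiner`), and the extension `2^{1+2n}.K` realising an orthogonal module (`core`). -/

set_option autoImplicit false
set_option linter.unusedSectionVars false
set_option linter.unusedVariables false

namespace Cfsg.Agent.Low.Cliff

open Matrix

/-- sign character of `ZMod 2` -/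
noncomputable def sg (a : ZMod 2) : ℝ := if a = 0 then 1 else -1

theorem z2 (a : ZMod 2) : a = 0 ∨ a = 1 := by revert a; decide

@[simp] theorem sg_zero : sg 0 = 1 := by simp [sg]
@[simp] theorem sg_one : sg 1 = -1 := by simp [sg]

theorem sg_add (a b : ZMod 2) : sg (a + b) = sg a * sg b := by
  have h : (1 + 1 : ZMod 2) = 0 := by decide
  rcases z2 a with rfl | rfl <;> rcases z2 b with rfl | rfl <;> simp [h]

theorem sg_mul_self (a : ZMod 2) : sg a * sg a = 1 := by
  rcases z2 a with rfl | rfl <;> simp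

theorem sg_ne (a : ZMod 2) : sg a ≠ 0 := by
  rcases z2 a with rfl | rfl <;> simp

theorem sg_inj {a b : ZMod 2} (h : sg a = sg b) : a = b := by
  rcases z2 a with rfl | rfl <;> rcases z2 b with rfl | rfl <;> simp at h ⊢ <;> norm_num at h

theorem aa (a : ZMod 2) : a + a = 0 := by revert a; decide

variable {U : Type} [AddCommGroup U] [Module (ZMod 2) U] [Fintype U] [DecidableEq U]
  (c : LinearMap.BilinForm (ZMod 2) U)

theorem uu (u : U) : u + u = 0 := by
  rw [← two_smul (ZMod 2) u, show (2 : ZMod 2) = 0 from rfl, zero_smul]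

/-- left multiplication in the twisted group algebra -/
noncomputable def L (u : U) : Matrix U U ℝ := Matrix.of fun x y => if x = u + y then sg (c u y) else 0

theorem L_mul (u v : U) : L c u * L c v = sg (c u v) • L c (u + v) := by
  ext x z
  simp only [L, mul_apply, of_apply, Matrix.smul_apply, smul_eq_mul]
  rw [Finset.sum_eq_single (v + z)]
  · simp only [if_true, add_assoc, map_add, LinearMap.add_apply, sg_add]
    split_ifs <;> ring
  · intro y _ hy; simp [hy]
  · simp

theorem L_T (u : U) : (L c u)ᵀ = sg (c u u) • L c u := by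
  ext x y
  simp only [L, transpose_apply, of_apply, Matrix.smul_apply, smul_eq_mul]
  by_cases h : x = u + y
  · subst h
    rw [if_pos (by rw [← add_assoc, uu, zero_add]), if_pos rfl, map_add, sg_add]
  · rw [if_neg h, if_neg, mul_zero]
    rintro rfl
    exact h (by rw [← add_assoc, uu, zero_add])

theorem L_zero : L c 0 = 1 := by
  ext x y; simp [L, one_apply]

theorem L_T_mul (u : U) : (L c u)ᵀ * L c u = 1 := by
  rw [L_T, Matrix.smul_mul, L_mul, uu, L_zero, smul_smul, sg_mul_self, one_smul]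

theorem L_col (u x : U) : L c u x 0 = if x = u then 1 else 0 := by simp [L]

theorem coef (m : U → ℝ) (u w : U) : (∑ v, m v • L c (v + u)) (w + u) 0 = m w := by
  simp only [Matrix.sum_apply, Matrix.smul_apply, L_col, add_left_inj, smul_eq_mul]
  rw [Finset.sum_eq_single w] <;> simp +contextual [eq_comm]

/-- the twisted group algebra -/
noncomputable def A : Submodule ℝ (Matrix U U ℝ) := Submodule.span ℝ (Set.range (L c))

theorem L_mem (u : U) : L c u ∈ A c := Submodule.subset_span ⟨u, rfl⟩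

theorem mem_A {M : Matrix U U ℝ} (h : M ∈ A c) : ∃ m : U → ℝ, ∑ v, m v • L c v = M :=
  (Submodule.mem_span_range_iff_exists_fun ℝ).1 h

theorem A_mul {M N : Matrix U U ℝ} (hM : M ∈ A c) (hN : N ∈ A c) : M * N ∈ A c := by
  obtain ⟨m, rfl⟩ := mem_A c hM
  obtain ⟨n, rfl⟩ := mem_A c hN
  rw [Finset.sum_mul]
  refine Submodule.sum_mem _ fun u _ => ?_
  rw [Finset.mul_sum]
  refine Submodule.sum_mem _ fun v _ => ?_
  rw [Matrix.smul_mul, Matrix.mul_smul, L_mul]
  exact Submodule.smul_mem _ _ (Submodule.smul_mem _ _ (Submodule.smul_mem _ _ (L_mem c _)))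

theorem A_T {M : Matrix U U ℝ} (hM : M ∈ A c) : Mᵀ ∈ A c := by
  obtain ⟨m, rfl⟩ := mem_A c hM
  rw [transpose_sum]
  refine Submodule.sum_mem _ fun u _ => ?_
  rw [transpose_smul, L_T]
  exact Submodule.smul_mem _ _ (Submodule.smul_mem _ _ (L_mem c _))

theorem coef_rel (m : U → ℝ) (u : U) (s : ZMod 2)
    (h : (∑ v, m v • L c v) * L c u = sg s • (L c u * ∑ v, m v • L c v)) (v : U) (hv : m v ≠ 0) :
    c v u + c u v = s := by
  rw [Finset.sum_mul, Finset.mul_sum, Finset.smul_sum] at h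
  simp only [Matrix.smul_mul, Matrix.mul_smul, L_mul, smul_smul, add_comm u] at h
  have e := congrFun (congrFun h (v + u)) 0
  rw [coef c (fun v => m v * sg (c v u)), coef c (fun v => sg s * (m v * sg (c u v)))] at e
  apply sg_inj
  rw [sg_add]
  have := sg_mul_self (c u v)
  apply mul_left_cancel₀ hv
  linear_combination (sg (c u v)) * e + (sg s * m v) * this

variable {c}

theorem single_of (hB : ∀ v, (∀ u, c v u + c u v = 0) → v = 0) {M : Matrix U U ℝ} (hM : M ∈ A c)
    (h : ∀ u, ∃ s, M * L c u = sg s • (L c u * M)) : ∃ v, ∃ a : ℝ, M = a • L c v := by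
  obtain ⟨m, rfl⟩ := mem_A c hM
  by_cases h0 : ∀ v, m v = 0
  · exact ⟨0, 0, by simp [h0]⟩
  push Not at h0
  obtain ⟨v, hv⟩ := h0
  refine ⟨v, m v, Finset.sum_eq_single v (fun w _ hw => ?_) (by simp)⟩
  by_contra hn
  have hw0 : m w ≠ 0 := fun e => hn (by simp [e])
  apply hw
  have : w + v = 0 := hB _ fun u => by
    obtain ⟨s, hs⟩ := h u
    have e1 := coef_rel c m u s hs v hv
    have e2 := coef_rel c m u s hs w hw0
    simp only [map_add, LinearMap.add_apply]
    linear_combination e1 + e2 + aa s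
  rw [← add_zero w, ← uu v, ← add_assoc, this, zero_add]

theorem scalar_of (hB : ∀ v, (∀ u, c v u + c u v = 0) → v = 0) {M : Matrix U U ℝ} (hM : M ∈ A c)
    (h : ∀ u, M * L c u = L c u * M) : ∃ a : ℝ, M = a • 1 := by
  obtain ⟨m, rfl⟩ := mem_A c hM
  refine ⟨m 0, ?_⟩
  rw [← L_zero c]
  refine Finset.sum_eq_single 0 (fun w _ hw => ?_) (by simp)
  by_contra hn
  have hw0 : m w ≠ 0 := fun e => hn (by simp [e])
  exact hw (hB _ fun u => coef_rel c m u 0 (by simpa using h u) w hw0)

theorem char_sum (f : U → ZMod 2) (hf : ∀ x y, f (x + y) = f x + f y) (x0 : U) (h : f x0 ≠ 0) :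
    ∑ x, sg (f x) = 0 := by
  have h1 : f x0 = 1 := (z2 _).resolve_left h
  have e : ∑ x, sg (f x) = ∑ x, sg (f (x + x0)) := (Equiv.sum_comp (Equiv.addRight x0) fun x => sg (f x)).symm
  simp only [hf, h1, sg_add, sg_one, mul_neg, mul_one, Finset.sum_neg_distrib] at e
  linarith

theorem exists_eps (β : LinearMap.BilinForm (ZMod 2) U) (hβ : ∀ u, β u u = 0) :
    ∃ ε : U → ZMod 2, ε 0 = 0 ∧ ∀ u v, ε (u + v) = ε u + ε v + β u v := by
  have sy : ∀ u v, β u v = β v u := fun u v => by
    have := hβ (u + v)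
    simp only [map_add, LinearMap.add_apply, hβ] at this
    linear_combination this - aa (β v u)
  let b := Module.finBasis (ZMod 2) U
  let T : LinearMap.BilinForm (ZMod 2) U :=
    b.constr (ZMod 2) fun i => b.constr (ZMod 2) fun j => if i < j then β (b i) (b j) else 0
  have hT : T + T.flip = β := LinearMap.BilinForm.ext_basis b fun i j => by
    simp only [T, LinearMap.add_apply, LinearMap.BilinForm.flip_apply, Module.Basis.constr_basis]
    rcases lt_trichotomy i j with h | rfl | h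
    · simp [h, h.not_gt]
    · simp [hβ]
    · simp [h, h.not_gt, sy (b j)]
  refine ⟨fun u => T u u, by simp, fun u v => ?_⟩
  rw [← hT]
  simp only [map_add, LinearMap.add_apply, LinearMap.BilinForm.flip_apply]
  ring

theorem exists_intertwiner (hB : ∀ v, (∀ u, c v u + c u v = 0) → v = 0) (g : U →ₗ[ZMod 2] U)
    (hg : Function.Injective g) (hc : ∀ u, c (g u) (g u) = c u u) :
    ∃ M ∈ A c, Mᵀ * M = 1 ∧ ∀ u, ∃ s, M * L c u = sg s • (L c (g u) * M) := by
  obtain ⟨ε, e0, hε⟩ := exists_eps (c.comp g g + c) fun u => by simp [hc, aa]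
  let α : U → Matrix U U ℝ := fun u => sg (ε u) • L c (g u)
  have hα : ∀ u v, α (u + v) = sg (c u v) • (α u * α v) := fun u v => by
    simp only [α, Matrix.smul_mul, Matrix.mul_smul, L_mul, smul_smul, hε, map_add, LinearMap.add_apply,
      LinearMap.BilinForm.comp_apply, sg_add]
    congr 1; ring
  have hL : ∀ u v, L c (u + v) = sg (c u v) • (L c u * L c v) := fun u v => by
    rw [L_mul, smul_smul, sg_mul_self, one_smul]
  let M : U → Matrix U U ℝ := fun x => ∑ u, α u * L c x * (L c u)ᵀ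
  have hMA : ∀ x, M x ∈ A c := fun x => Submodule.sum_mem _ fun u _ =>
    A_mul c (A_mul c (Submodule.smul_mem _ _ (L_mem c _)) (L_mem c _)) (A_T c (L_mem c _))
  have hM : ∀ x w, M x * L c w = α w * M x := fun x w => by
    simp only [M, Finset.sum_mul, Finset.mul_sum]
    rw [← Equiv.sum_comp (Equiv.addLeft w)]
    refine Finset.sum_congr rfl fun u _ => ?_
    simp only [Equiv.coe_addLeft, hα, hL, transpose_smul, transpose_mul, Matrix.smul_mul, Matrix.mul_smul,
      smul_smul, sg_mul_self, one_smul, Matrix.mul_assoc, L_T_mul, Matrix.mul_one]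
  have hne : ∃ x, M x ≠ 0 := by
    by_contra hn
    push Not at hn
    have e : ∑ x, (L c x)ᵀ * M x = (Fintype.card U : ℝ) • (1 : Matrix U U ℝ) := by
      simp only [M, Finset.mul_sum]
      rw [Finset.sum_comm, Finset.sum_eq_single 0]
      · simp [α, e0, L_zero, L_T_mul, ← Matrix.mul_assoc, Nat.cast_smul_eq_nsmul]
      · intro u _ hu
        have e1 : ∀ x, (L c x)ᵀ * (α u * L c x * (L c u)ᵀ) =
            sg (c (g u) x + c x (g u)) • (α u * (L c u)ᵀ) := fun x => by
          have e2 : L c (g u) * L c x = sg (c (g u) x + c x (g u)) • (L c x * L c (g u)) := by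
            rw [L_mul, L_mul, smul_smul, sg_add, mul_assoc, sg_mul_self, mul_one, add_comm]
          simp only [α, Matrix.smul_mul, Matrix.mul_smul, e2, smul_smul, ← Matrix.mul_assoc, L_T_mul,
            Matrix.one_mul, mul_comm]
        simp only [e1]
        rw [← Finset.sum_smul]
        have : ¬ ∀ x, c (g u) x + c x (g u) = 0 := fun h => hu (hg (by rw [hB _ h, map_zero]))
        push Not at this
        obtain ⟨x0, hx0⟩ := this
        rw [char_sum (fun x => c (g u) x + c x (g u)) (fun x y => by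
          simp only [map_add, LinearMap.add_apply]; ring) x0 hx0, zero_smul]
      · simp
    simp only [hn, Matrix.mul_zero, Finset.sum_const_zero] at e
    have := congrFun (congrFun e 0) 0
    simp only [Matrix.zero_apply, Matrix.smul_apply, one_apply_eq, smul_eq_mul, mul_one] at this
    exact Fintype.card_ne_zero (α := U) (by exact_mod_cast this.symm)
  obtain ⟨x, hx⟩ := hne
  have hT : ∀ w, L c w * (M x)ᵀ = (M x)ᵀ * α w := fun w => by
    have := congrArg transpose (hM x w)
    simp only [α, transpose_mul, transpose_smul, L_T, Matrix.smul_mul, Matrix.mul_smul, smul_smul, hc] at this ⊢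
    have h2 := congrArg (sg (c w w) • ·) this
    simp only [smul_smul, sg_mul_self, one_smul] at h2
    rw [h2, mul_left_comm, sg_mul_self, mul_one]
  obtain ⟨a, ha⟩ := scalar_of hB (A_mul c (A_T c (hMA x)) (hMA x)) fun u => by
    rw [Matrix.mul_assoc, hM, ← Matrix.mul_assoc, ← Matrix.mul_assoc, hT]
  have a0 : 0 ≤ a := by
    have := congrFun (congrFun ha 0) 0
    simp only [mul_apply, transpose_apply, Matrix.smul_apply, one_apply_eq, smul_eq_mul, mul_one] at this
    rw [← this]
    exact Finset.sum_nonneg fun _ _ => mul_self_nonneg _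
  have a1 : a ≠ 0 := by
    rintro rfl
    apply hx
    ext i j
    have := congrFun (congrFun ha j) j
    simp only [mul_apply, transpose_apply, zero_smul, Matrix.zero_apply] at this
    rw [Finset.sum_eq_zero_iff_of_nonneg fun _ _ => mul_self_nonneg _] at this
    simpa using this i (Finset.mem_univ _)
  have hs : √a ≠ 0 := by rwa [Ne, Real.sqrt_eq_zero a0]
  refine ⟨(√a)⁻¹ • M x, Submodule.smul_mem _ _ (hMA x), ?_, fun u => ⟨ε u, ?_⟩⟩
  · rw [transpose_smul, Matrix.smul_mul, Matrix.mul_smul, ha, smul_smul, smul_smul, ← mul_inv,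
      Real.mul_self_sqrt a0, inv_mul_cancel₀ a1, one_smul]
  · rw [Matrix.smul_mul, hM, Matrix.mul_smul, smul_comm]
    simp only [α, Matrix.smul_mul]

theorem sgL_inj {a b : ℝ} {v w : U} (ha : a ≠ 0) (h : a • L c v = b • L c w) : v = w ∧ a = b := by
  have e := congrFun (congrFun h v) 0
  simp only [Matrix.smul_apply, L_col, if_true, smul_eq_mul, mul_one] at e
  by_cases hv : v = w
  · exact ⟨hv, by simpa [hv] using e⟩
  · simp [hv, ha] at e

variable (c) in
/-- the extension group -/
def RR {K : Type} [Group K] (ρ : K →* Module.End (ZMod 2) U) : Subgroup (K × unitaryGroup U ℝ) where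
  carrier := {x | x.2.1 ∈ A c ∧ ∀ u, ∃ s, x.2.1 * L c u = sg s • (L c (ρ x.1 u) * x.2.1)}
  one_mem' := ⟨by simpa [L_zero] using L_mem c 0, fun u => ⟨0, by simp⟩⟩
  mul_mem' := by
    rintro ⟨k, M⟩ ⟨l, N⟩ ⟨h1, h2⟩ ⟨h3, h4⟩
    refine ⟨A_mul c h1 h3, fun u => ?_⟩
    obtain ⟨s, hs⟩ := h4 u
    obtain ⟨t, ht⟩ := h2 (ρ l u)
    refine ⟨s + t, ?_⟩
    simp only [Prod.snd_mul, Prod.fst_mul, Submonoid.coe_mul, map_mul, Module.End.mul_apply] at hs ht ⊢
    rw [Matrix.mul_assoc, hs, Matrix.mul_smul, ← Matrix.mul_assoc, ht, Matrix.smul_mul, smul_smul, sg_add,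
      Matrix.mul_assoc]
  inv_mem' := by
    rintro ⟨k, M⟩ ⟨h1, h2⟩
    refine ⟨A_T c h1, fun u => ?_⟩
    obtain ⟨s, hs⟩ := h2 (ρ k⁻¹ u)
    refine ⟨s, ?_⟩
    have e : ρ k (ρ k⁻¹ u) = u := by rw [← Module.End.mul_apply, ← map_mul, mul_inv_cancel, map_one]; rfl
    have i1 : star M.1 * M.1 = 1 := M.2.1
    have i2 : M.1 * star M.1 = 1 := M.2.2
    simp only [e] at hs
    show star M.1 * L c u = sg s • (L c (ρ k⁻¹ u) * star M.1)
    have := congrArg (fun X => sg s • (star M.1 * X * star M.1)) hs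
    simp only [Matrix.mul_smul, Matrix.smul_mul, smul_smul, sg_mul_self, one_smul, ← Matrix.mul_assoc, i1,
      Matrix.one_mul] at this
    rw [this, Matrix.mul_assoc, i2, Matrix.mul_one]

theorem core {K : Type} [Group K] [Finite K] [Nontrivial U] (ρ : K →* Module.End (ZMod 2) U)
    (hc : ∀ k u, c (ρ k u) (ρ k u) = c u u) (hB : ∀ v, (∀ u, c v u + c u v = 0) → v = 0) :
    ∃ (R : Type) (_ : Group R) (_ : Finite R) (φ : R →* K) (χ : φ.ker →* Multiplicative U),
      Function.Surjective φ ∧ IsExtraspecial 2 φ.ker ∧ Nat.card φ.ker = 2 * Nat.card U ∧ Function.Surjective χ ∧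
      χ.ker = Subgroup.center φ.ker ∧
      (∀ (r : R) (a : φ.ker), χ ⟨r * a * r⁻¹, φ.normal_ker.conj_mem (a : R) a.2 r⟩ =
        Multiplicative.ofAdd (ρ (φ r) (Multiplicative.toAdd (χ a)))) ∧
      ∀ a : φ.ker, a * a = 1 ↔ c (Multiplicative.toAdd (χ a)) (Multiplicative.toAdd (χ a)) = 0 := by
  let φ : RR c ρ →* K := (MonoidHom.fst _ _).comp (RR c ρ).subtype
  let mat : RR c ρ →* Matrix U U ℝ :=
    (unitaryGroup U ℝ).subtype.comp ((MonoidHom.snd _ _).comp (RR c ρ).subtype)
  have hmat : ∀ a b : φ.ker, mat a = mat b → a = b := fun a b h =>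
    Subtype.ext (Subtype.ext (Prod.ext ((show a.1.1.1 = 1 from a.2).trans (show b.1.1.1 = 1 from b.2).symm)
      (Subtype.ext h)))
  have hrel : ∀ (r : RR c ρ) u, ∃ s, mat r * L c u = sg s • (L c (ρ (φ r) u) * mat r) := fun r => r.2.2
  have hQ : ∀ a : φ.ker, ∃ v s, mat a = sg s • L c v := fun a => by
    obtain ⟨v, t, ht⟩ := single_of hB (M := mat a) a.1.2.1 fun u => by
      have := hrel a u
      rwa [show φ a = 1 from a.2, map_one] at this
    have i1 : (mat a)ᵀ * mat a = 1 := a.1.1.2.2.1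
    rw [ht, transpose_smul, Matrix.smul_mul, Matrix.mul_smul, L_T_mul, smul_smul] at i1
    have i2 := congrFun (congrFun i1 0) 0
    simp only [Matrix.smul_apply, one_apply_eq, smul_eq_mul, mul_one] at i2
    rcases mul_self_eq_one_iff.1 i2 with rfl | rfl
    · exact ⟨v, 0, by simpa using ht⟩
    · exact ⟨v, 1, by simpa using ht⟩
  choose vv ss hvs using hQ
  have hex : ∀ v s, ∃ a : φ.ker, mat a = sg s • L c v := fun v s => by
    have i1 : star (sg s • L c v) * (sg s • L c v) = 1 := by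
      show (sg s • L c v)ᵀ * _ = 1
      rw [transpose_smul, Matrix.smul_mul, Matrix.mul_smul, L_T_mul, smul_smul, sg_mul_self, one_smul]
    refine ⟨⟨⟨(1, ⟨sg s • L c v, mem_unitaryGroup_iff'.2 i1⟩), Submodule.smul_mem _ _ (L_mem c v), fun u =>
      ⟨c v u + c u v, ?_⟩⟩, rfl⟩, rfl⟩
    simp only [map_one, Module.End.one_apply, Matrix.smul_mul, Matrix.mul_smul, L_mul, smul_smul, sg_add, add_comm u]
    congr 1
    linear_combination (-sg s * sg (c v u)) * sg_mul_self (c u v)
  have huniq : ∀ (a : φ.ker) v s, mat a = sg s • L c v → vv a = v ∧ ss a = s := fun a v s h => by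
    have := sgL_inj (sg_ne _) ((hvs a).symm.trans h)
    exact ⟨this.1, sg_inj this.2⟩
  have hmul : ∀ a b : φ.ker, mat (a * b : φ.ker) = sg (ss a + ss b + c (vv a) (vv b)) • L c (vv a + vv b) :=
    fun a b => by
      rw [Subgroup.coe_mul, map_mul, hvs, hvs, Matrix.smul_mul, Matrix.mul_smul, L_mul, smul_smul, smul_smul, sg_add,
        sg_add]
  let χ : φ.ker →* Multiplicative U := MonoidHom.mk' (fun a => Multiplicative.ofAdd (vv a)) fun a b => by
    rw [(huniq _ _ _ (hmul a b)).1]; rfl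
  have hχ : ∀ a, Multiplicative.toAdd (χ a) = vv a := fun a => rfl
  let e : φ.ker ≃ ZMod 2 × U := Equiv.ofBijective (fun a => (ss a, vv a)) ⟨fun a b h => hmat a b (by
    rw [hvs, hvs, show ss a = ss b from (Prod.ext_iff.1 h).1, show vv a = vv b from (Prod.ext_iff.1 h).2]), fun ⟨s, v⟩ => by
      obtain ⟨a, ha⟩ := hex v s
      exact ⟨a, Prod.ext (huniq a v s ha).2 (huniq a v s ha).1⟩⟩
  haveI : Finite φ.ker := Finite.of_equiv _ e.symm
  haveI : Finite (RR c ρ ⧸ φ.ker) := Finite.of_injective _ (QuotientGroup.kerLift_injective φ)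
  haveI hfin : Finite (RR c ρ) := Finite.of_subgroup_quotient φ.ker
  have hone : mat (1 : φ.ker) = sg 0 • L c 0 := by simp [L_zero]
  have hcomm : ∀ a b : φ.ker, a * b = b * a ↔ c (vv a) (vv b) + c (vv b) (vv a) = 0 := fun a b => by
    constructor
    · intro h
      have h1 := (huniq _ _ _ (hmul a b)).2
      rw [h, (huniq _ _ _ (hmul b a)).2] at h1
      linear_combination -h1 + aa (c (vv b) (vv a))
    · intro h
      apply hmat
      rw [hmul, hmul, add_comm (vv a)]
      congr 2
      linear_combination h - aa (c (vv b) (vv a))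
  have hcen : ∀ a : φ.ker, (∀ b, a * b = b * a) ↔ vv a = 0 := fun a => by
    refine ⟨fun h => hB _ fun u => ?_, fun h b => (hcomm a b).2 (by simp [h])⟩
    obtain ⟨b, hb⟩ := hex u 0
    have := (hcomm a b).1 (h b)
    rwa [(huniq b u 0 hb).1] at this
  obtain ⟨z, hz⟩ := hex 0 1
  have hz' := huniq z 0 1 hz
  have hsq : ∀ a : φ.ker, mat (a * a : φ.ker) = sg (c (vv a) (vv a)) • L c 0 := fun a => by
    rw [hmul, aa, zero_add, uu]
  have h0 : ∀ a : φ.ker, vv a = 0 → a = 1 ∨ a = z := fun a h => by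
    rcases z2 (ss a) with h1 | h1
    · exact Or.inl (hmat _ _ (by rw [hvs, hone, h, h1]))
    · exact Or.inr (hmat _ _ (by rw [hvs, hz, h, h1]))
  have z1 : z ≠ 1 := fun h => by
    have := (huniq z 0 0 (h ▸ hone)).2
    rw [hz'.2] at this
    exact one_ne_zero this
  have hES : LES.ES (⊤ : Subgroup φ.ker) z := by
    refine ⟨orderOf_eq_prime (by rw [pow_two]; exact hmat _ _ (by rw [hsq, hone, hz'.1]; simp)) z1, trivial,
      fun y _ => ((hcen z).2 hz'.1 y).symm, fun x _ h => h0 x ((hcen x).1 fun b => h b trivial), fun x _ y _ => ?_,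
      fun x _ => h0 _ (huniq _ _ _ (hsq x)).1, ?_⟩
    · have : vv (y⁻¹ * (x * y * x⁻¹)) = 0 := by
        rw [← hχ]
        simp [mul_comm, mul_left_comm]
      rcases h0 _ this with h | h
      · exact Or.inl (inv_mul_eq_one.1 h).symm
      · exact Or.inr (inv_mul_eq_iff_eq_mul.1 h)
    · obtain ⟨v, hv⟩ := exists_ne (0 : U)
      obtain ⟨a, ha⟩ := hex v 0
      have : ¬ ∀ b, a * b = b * a := fun h => hv ((huniq a v 0 ha).1 ▸ (hcen a).1 h)
      push Not at this
      obtain ⟨b, hb⟩ := this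
      exact ⟨a, trivial, b, trivial, hb⟩
  refine ⟨RR c ρ, inferInstance, hfin, φ, χ, fun k => ?_, PGrp.ES_of_mulEquiv hES.isExtraspecial Subgroup.topEquiv,
    by rw [Nat.card_congr e, Nat.card_prod, Nat.card_zmod], fun v => ?_, ?_, fun r a => ?_, fun a => ?_⟩
  · obtain ⟨M, h1, h2, h3⟩ := exists_intertwiner hB (ρ k) (fun x y h => by
      have := congrArg (ρ k⁻¹) h
      simpa [← Module.End.mul_apply, ← map_mul] using this) (hc k)
    exact ⟨⟨(k, ⟨M, mem_unitaryGroup_iff'.2 h2⟩), h1, h3⟩, rfl⟩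
  · obtain ⟨a, ha⟩ := hex (Multiplicative.toAdd v) 0
    exact ⟨a, congrArg Multiplicative.ofAdd (huniq _ _ _ ha).1⟩
  · ext a
    rw [MonoidHom.mem_ker, Subgroup.mem_center_iff]
    exact ⟨fun h b => ((hcen a).2 h b).symm, fun h => (hcen a).1 fun b => (h b).symm⟩
  · obtain ⟨s, hs⟩ := hrel r (vv a)
    refine congrArg Multiplicative.ofAdd (huniq _ _ (ss a + s) ?_).1
    show mat (r * a * r⁻¹) = _
    rw [map_mul, map_mul, hvs, Matrix.mul_smul, hs, smul_smul, Matrix.smul_mul, Matrix.mul_assoc, ← map_mul,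
      mul_inv_cancel, map_one, Matrix.mul_one, sg_add, hχ]
  · rw [hχ]
    refine ⟨fun h => ?_, fun h => hmat _ _ (by rw [hsq, h, hone])⟩
    rw [← (huniq _ _ _ (hsq a)).2, h, (huniq _ _ _ hone).2]

end Cfsg.Agent.Low.Cliff
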