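import Cfsg.Agent.Low.SU6e
import Cfsg.Agent.Low.Fr5

/-! A fusion criterion for sign changes on six points (`Fus.le`) and the local analysis of two orthonormal frames of a
six-dimensional space (`Loc.caseA`, `Loc.caseB`, `Loc.caseC`). -/

set_option autoImplicit false

namespace Cfsg.Agent.Root.Mx

open Cfsg.Agent.Geom Cfsg.Agent.AutCl Module QuadraticMap

section Fus
variable {G : Type*} [Group G] {X M : Subgroup G} {s : Fin 6 → Fin 6 → G}

/-- Involutions indexed by the pairs of six points, strongly closed in `M`. -/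
structure Fus (X M : Subgroup G) (s : Fin 6 → Fin 6 → G) : Prop where
  mX : ∀ i j, s i j ∈ X
  mM : ∀ i j, s i j ∈ M
  sq : ∀ i j, s i j * s i j = 1
  symm : ∀ i j, s i j = s j i
  inj : ∀ i j k l, i ≠ j → k ≠ l → s i j = s k l → Pe i j k l
  perm : ∀ g ∈ M, ∃ π : Equiv.Perm (Fin 6), ∀ i j, g * s i j * g⁻¹ = s (π i) (π j)
  mul : ∀ i j k l, i ≠ j → k ≠ l → ¬ Pe i j k l → ∃ a b, a ≠ b ∧ ∃ z ∈ M, (∀ g, g * z = z * g) ∧ s a b = s i j * s k l * z
  Z : ∀ g ∈ X, ∀ k l, k ≠ l → g * s k l * g⁻¹ ∈ M → g ∈ M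

namespace Fus

/-- The conjugacy class. -/
def Dm (X : Subgroup G) (s : Fin 6 → Fin 6 → G) (t : G) : Prop := ∃ w ∈ X, ∃ i j, i ≠ j ∧ t = w * s i j * w⁻¹

theorem dm_conj {t c : G} (hs : Dm X s t) (hc : c ∈ X) : Dm X s (c * t * c⁻¹) :=
  let ⟨w, a, i, j, b, d⟩ := hs; ⟨c * w, mul_mem hc a, i, j, b, by rw [d]; group⟩

variable (h : Fus X M s)
include h

theorem dm_mem {t : G} (hs : Dm X s t) : t ∈ X ∧ t * t = 1 := by
  obtain ⟨w, a, i, j, -, rfl⟩ := hs
  exact ⟨mul_mem (mul_mem a (h.mX i j)) (inv_mem a), by rw [conj_mul, h.sq]; simp⟩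

theorem dm_H {t : G} (hs : Dm X s t) (hm : t ∈ M) : ∃ i j, i ≠ j ∧ t = s i j := by
  obtain ⟨w, a, i, j, b, rfl⟩ := hs
  obtain ⟨π, hπ⟩ := h.perm w (h.Z w a i j b hm)
  exact ⟨π i, π j, π.injective.ne b, hπ i j⟩

theorem Z2 {g : G} (hg : g ∈ X) {i j k l : Fin 6} (hij : i ≠ j) (hkl : k ≠ l) (ne : s i j ≠ s k l)
    (H : g * (s i j * s k l) * g⁻¹ ∈ M) : g ∈ M := by
  obtain ⟨a, b, hab, z, z1, z2, e⟩ := h.mul i j k l hij hkl (by
    rintro (⟨rfl, rfl⟩ | ⟨rfl, rfl⟩)
    exacts [ne rfl, ne (h.symm _ _)])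
  refine h.Z g hg a b hab ?_
  rw [e, ← mul_assoc g, mul_assoc _ z, ← z2, ← mul_assoc]
  exact mul_mem H z1

variable [Finite G]

theorem odd_u {t : G} {i j : Fin 6} (hij : i ≠ j) (ht : Dm X s t) (hM : t ∉ M) :
    ∃ u, Dm X s u ∧ u * s i j * u⁻¹ = t ∧ ∀ k, Commute k (s i j) → Commute k t → Commute k u := by
  have hs' : Dm X s (s i j) := ⟨1, one_mem _, i, j, hij, by simp⟩
  obtain ⟨a1, a2⟩ := h.dm_mem hs'
  obtain ⟨b1, b2⟩ := h.dm_mem ht
  rcases Nat.even_or_odd (orderOf (s i j * t)) with ho | ho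
  swap
  · obtain ⟨n, hn⟩ := odd_swap a2 b2 ho
    exact ⟨_, dm_conj hs' (pow_mem (mul_mem a1 b1) n), hn, fun k x y =>
      (((x.mul_right y).pow_right n).mul_right x).mul_right ((x.mul_right y).pow_right n).inv_right⟩
  obtain ⟨z1, z2, z3⟩ := Invol.half_pow_spec a2 b2 ho
  obtain ⟨n, hn⟩ := dih a2 b2 (orderOf (s i j * t) / 2)
  have m := pow_mem (mul_mem a1 b1) (orderOf (s i j * t) / 2)
  have m' := inv_mem (pow_mem (mul_mem a1 b1) n)
  generalize (s i j * t) ^ (orderOf (s i j * t) / 2) = z at *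
  have d : Dm X s (s i j * z) := by
    rcases hn with hn | hn <;> rw [hn]
    exacts [by simpa using dm_conj hs' m', by simpa using dm_conj ht m']
  have zM : z ∈ M := h.Z z m i j hij (by rw [z2.eq, mul_inv_cancel_right]; exact h.mM i j)
  obtain ⟨k, l, hkl, c⟩ := h.dm_H d (mul_mem (h.mM i j) zM)
  refine absurd (h.Z2 b1 hij hkl (fun e => Invol.ne_one_of z1 (by simpa [← e] using c)) ?_) hM
  rwa [← c, ← mul_assoc (s i j), a2, one_mul, ← z3.eq, mul_inv_cancel_right]

theorem le : X ≤ M := fun g hg => by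
  by_contra hc
  choose π hπ using fun u : {u // Dm X s u ∧ g⁻¹ * u ∈ M} => h.perm _ u.2.2
  refine no_sharp π fun i j k m hij hkm => ?_
  have key : ∀ u, Pe (π u i) (π u j) k m ↔ u.1 * s i j * u.1⁻¹ = g * s k m * g⁻¹ := fun u => by
    rw [show u.1 * s i j * u.1⁻¹ = g * s k m * g⁻¹ ↔ g⁻¹ * u.1 * s i j * (g⁻¹ * u.1)⁻¹ = s k m from
      ⟨fun e => by rw [mul_inv_rev, inv_inv, mul_assoc _ _ (s i j), mul_assoc, ← mul_assoc (_ * s i j), e]; group,
        fun e => by rw [← e]; group⟩, hπ]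
    refine ⟨?_, h.inj _ _ _ _ ((π u).injective.ne hij) hkm⟩
    rintro (⟨rfl, rfl⟩ | ⟨rfl, rfl⟩)
    exacts [rfl, h.symm _ _]
  simp only [key]
  have t1 : Dm X s (g * s k m * g⁻¹) := ⟨g, hg, k, m, hkm, rfl⟩
  obtain ⟨u, u1, u2, u3⟩ := h.odd_u hij t1 fun e => hc (h.Z g hg k m hkm e)
  obtain ⟨uX, uu⟩ := h.dm_mem u1
  have u4 : g⁻¹ * u ∈ M := h.Z _ (mul_mem (inv_mem hg) uX) i j hij (by
    rw [show g⁻¹ * u * s i j * (g⁻¹ * u)⁻¹ = g⁻¹ * (u * s i j * u⁻¹) * g by group, u2]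
    simpa [mul_assoc] using h.mM k m)
  refine ⟨⟨u, u1, u4⟩, u2, fun ⟨v, v1, v4⟩ v2 => Subtype.ext (by_contra fun ne => ?_)⟩
  simp only at v2 ne
  obtain ⟨vX, vv⟩ := h.dm_mem v1
  have ui := inv_eq_of_mul_eq_one_right uu
  have vi := inv_eq_of_mul_eq_one_right vv
  have c1 : Commute (u * v) (s i j) := by
    change u * v * s i j = s i j * (u * v)
    rw [show u * v * s i j = u * (v * s i j * v⁻¹) * v by group, v2, ← u2, ui]
    simp only [← mul_assoc, uu, one_mul]
  have c2 : Commute (u * v) (g * s k m * g⁻¹) := by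
    change u * v * _ = _ * (u * v)
    nth_rw 1 [← v2]; rw [← u2, ui, vi]
    simp only [← mul_assoc, mul_assoc _ v v, mul_assoc _ u u, uu, vv, mul_one]
  have c3 : Commute u v := by
    have := (u3 _ c1 c2).eq
    rw [← mul_assoc, uu, one_mul] at this
    change u * v = v * u
    nth_rw 1 [← this]
    rw [← mul_assoc, ← mul_assoc, uu, one_mul]
  obtain ⟨w, w1, a, b, hab, rfl⟩ := id u1
  have d := dm_conj v1 (inv_mem w1)
  obtain ⟨a', b', hab', q2⟩ := h.dm_H d (h.Z _ (h.dm_mem d).1 a b hab (by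
    rw [show w⁻¹ * v * w⁻¹⁻¹ * s a b * (w⁻¹ * v * w⁻¹⁻¹)⁻¹ = w⁻¹ * (v * (w * s a b * w⁻¹)) * v⁻¹ * w by group, ← c3.eq]
    simpa [mul_assoc] using h.mM a b))
  have n : s a b ≠ s a' b' := fun e => ne (by rw [e, ← q2]; group)
  have k1 : w * s a b * w⁻¹ * v ∈ M := by
    have := mul_mem (inv_mem u4) v4
    rwa [mul_inv_rev, ui, inv_inv, mul_assoc, mul_inv_cancel_left] at this
  have k2 : g⁻¹ * (w * s a b * w⁻¹ * v) * g ∈ M := by
    have := mul_mem u4 (inv_mem v4)
    rwa [mul_inv_rev, vi, inv_inv, mul_assoc g⁻¹, ← mul_assoc _ v, ← mul_assoc g⁻¹] at this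
  have m1 := h.Z2 w1 hab hab' n (by convert k1 using 1; rw [← q2]; group)
  have m2 := h.Z2 (mul_mem (inv_mem hg) w1) hab hab' n (by convert k2 using 1; rw [← q2]; group)
  exact hc (by simpa using mul_mem m1 (inv_mem m2))

end Fus
end Fus

variable {F : Type*} [Field F] {V : Type*} [AddCommGroup V] [Module F V] {Q : QuadraticForm F V} {e : Fin 6 → V}
  {P S : V → Prop} {x y f u w : V}

attribute [-simp] QuadraticMap.polar_self

/-- A second frame `S` preserved by the admissible rotations fixing one of its vectors. -/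
structure Loc (Q : QuadraticForm F V) (e : Fin 6 → V) (P S : V → Prop) : Prop extends Fo Q e where
  three : (3 : F) ≠ 0
  p1 : ∀ i, P (e i)
  p2 : ∀ i j (δ : F), i ≠ j → δ * δ = 1 → P (e i - δ • e j)
  q : ∀ x, S x → Q x = 1
  ns : ∀ x, S x → ∀ i, ∃ j ≠ i, polar Q (e j) x ≠ 0
  tri : ∀ x f, S x → S f → ∀ u w, P u → P w → Q u ≠ 0 → Q w ≠ 0 → IsSquare (Q u * Q w) → polar Q u x = 0 →
    polar Q w x = 0 → (refl Q u * refl Q w).1 f = f ∨ (refl Q u * refl Q w).1 f = -f ∨
      polar Q f ((refl Q u * refl Q w).1 f) = 0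

theorem Fo.perm (h : Fo Q e) (σ : Equiv.Perm (Fin 6)) : Fo Q (e ∘ σ) :=
  ⟨h.two, h.prime, fun i j => by simp [h.on], fun v =>
    (Equiv.sum_comp σ fun i => (polar Q (e i) v / 2) • e i).trans (h.sum v)⟩

theorem Fo.Q_sub' (h : Fo Q e) {i j : Fin 6} (hij : i ≠ j) {δ : F} (hδ : δ * δ = 1) : Q (e i - δ • e j) = 2 := by
  rw [quad_sub, quad_smul, h.Q_e, h.Q_e, polar_smul_right, h.on, if_neg hij, _root_.sq, hδ]; simp; ring

namespace Loc
variable (h : Loc Q e P S)
include h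

theorem perm (σ : Equiv.Perm (Fin 6)) : Loc Q (e ∘ σ) P S :=
  ⟨h.toFo.perm σ, h.three, fun _ => h.p1 _, fun _ _ δ a => h.p2 _ _ δ (σ.injective.ne a), h.q, fun x hx i =>
    let ⟨j, a, b⟩ := h.ns x hx (σ i); ⟨σ.symm j, fun e => a (by simp [← e]), by simpa using b⟩, h.tri⟩

theorem t2 (hx : S x) (hf : S f) (hu : P u) (hw : P w) (qu : Q u ≠ 0) (qw : Q w ≠ 0) (sq : IsSquare (Q u * Q w))
    (a : polar Q u x = 0) (b : polar Q w x = 0) (o : polar Q u w = 0) :
    (polar Q u f = 0 ∧ polar Q w f = 0) ∨ (∀ v, polar Q v u = 0 → polar Q v w = 0 → polar Q v f = 0) ∨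
      polar Q u f ^ 2 * Q w + polar Q w f ^ 2 * Q u = 2 * (Q u * Q w) := by
  have h2 := h.two
  have := h.tri x f hx hf u w hu hw qu qw sq a b
  simp only [OG.mul_apply, refl_apply, polar_sub_right, polar_smul_right, o, smul_zero, sub_zero] at this
  refine this.imp (fun e0 => ⟨?_, ?_⟩) (Or.imp (fun e0 v c d => ?_) fun e0 => ?_)
  · simpa [o, polar_self', qu, h2] using congrArg (polar Q u) e0
  · simpa [polar_comm Q w u, o, polar_self', qw, h2] using congrArg (polar Q w) e0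
  · have := congrArg (polar Q v) e0
    simp only [polar_sub_right, polar_smul_right, c, d, smul_zero, sub_zero, polar_neg_right] at this
    exact mul_left_cancel₀ h2 (by linear_combination this)
  · rw [polar_self', h.q f hf, polar_comm Q f, polar_comm Q f, smul_eq_mul, smul_eq_mul] at e0
    field_simp at e0
    linear_combination -e0

theorem t1 (hx : S x) (hf : S f) (hu : P u) (hw : P w) (qu : Q u ≠ 0) (qw : Q w ≠ 0) (sq : IsSquare (Q u * Q w))
    (a : polar Q u x = 0) (b : polar Q w x = 0) (o : polar Q w f = 0) :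
    polar Q u f = 0 ∨ (polar Q u f ^ 2 = 4 * Q u ∧ ∀ v, polar Q v u = 0 → polar Q v f = 0) ∨
      polar Q u f ^ 2 = 2 * Q u := by
  have h2 := h.two
  have := h.tri x f hx hf u w hu hw qu qw sq a b
  simp only [OG.mul_apply, refl_of_perp o, refl_apply Q u] at this
  refine this.imp (fun e0 => ?_) (Or.imp (fun e0 => ⟨?_, fun v c => ?_⟩) fun e0 => ?_)
  · simpa [polar_self', qu, h2] using congrArg (polar Q u) e0
  · have := congrArg (polar Q f) e0
    rw [polar_sub_right, polar_neg_right, polar_smul_right, polar_self', h.q f hf, polar_comm Q f, smul_eq_mul] at this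
    field_simp at this
    linear_combination -this
  · have := congrArg (polar Q v) e0
    simp only [polar_sub_right, polar_smul_right, c, smul_zero, sub_zero, polar_neg_right] at this
    exact mul_left_cancel₀ h2 (by linear_combination this)
  · rw [polar_sub_right, polar_smul_right, polar_self', h.q f hf, polar_comm Q f, smul_eq_mul] at e0
    field_simp at e0
    linear_combination -e0

theorem no2 (hx : S x) (hf : S f) {i j : Fin 6} (hij : i ≠ j) {δ : F} (hδ : δ * δ = 1) (hw : P w) (qw : Q w ≠ 0)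
    (sq : IsSquare (2 * Q w)) (a : polar Q (e i) x = δ * polar Q (e j) x) (b : polar Q w x = 0) (o : polar Q w f = 0) :
    (polar Q (e i) f - δ * polar Q (e j) f) ^ 2 ≠ 2 := fun e0 => by
  have := h.t1 hx hf (h.p2 i j δ hij hδ) hw (by simp [h.Q_sub' hij hδ, h.two]) qw (by rwa [h.Q_sub' hij hδ])
    (by simp [a]) b o
  rw [h.Q_sub' hij hδ, polar_sub_left, polar_smul_left, smul_eq_mul] at this
  rcases this with a | ⟨a, -⟩ | a
  · exact h.two (by rw [← e0, a]; simp)
  · exact mul_ne_zero h.two h.three (by linear_combination e0 - a)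
  · exact h.two (by linear_combination e0 - a)

theorem pair (hf : S f) {i j : Fin 6} (hij : i ≠ j) (H : ∀ m, m ≠ i → m ≠ j → polar Q (e m) f = 0) :
    polar Q (e i) f ^ 2 + polar Q (e j) f ^ 2 = 4 ∧ polar Q (e i) f ≠ 0 ∧ polar Q (e j) f ≠ 0 := by
  have := h.sum_sq (h.q f hf) (S := {i, j}) fun m hm => by
    simp only [Finset.mem_insert, Finset.mem_singleton, not_or] at hm; exact H m hm.1 hm.2
  rw [Finset.sum_pair hij] at this
  refine ⟨this, fun e0 => ?_, fun e0 => ?_⟩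
  · obtain ⟨m, a, b⟩ := h.ns f hf j
    exact b (by by_cases c : m = i; exacts [c ▸ e0, H m c a])
  · obtain ⟨m, a, b⟩ := h.ns f hf i
    exact b (by by_cases c : m = j; exacts [c ▸ e0, H m a c])

theorem sg (hx : S x) (hf : S f) {i j : Fin 6} (hij : i ≠ j) (a : polar Q (e i) x = 0) (b : polar Q (e j) x = 0) :
    (polar Q (e i) f = 0 ∧ polar Q (e j) f = 0) ∨ (∀ m, m ≠ i → m ≠ j → polar Q (e m) f = 0) ∨
      polar Q (e i) f ^ 2 + polar Q (e j) f ^ 2 = 2 := by
  simpa [h.Q_e] using (h.t2 hx hf (h.p1 i) (h.p1 j) (by simp [h.Q_e]) (by simp [h.Q_e]) (by simp [h.Q_e]) a b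
    (by simp [h.on, hij])).imp_right (Or.imp_left fun H m c d => H (e m) (by simp [h.on, c]) (by simp [h.on, d]))

theorem full (hx : S x) (hf : S f) {i j k : Fin 6} (hij : i ≠ j) (hik : i ≠ k) (hjk : j ≠ k) (a : polar Q (e i) x = 0)
    (b : polar Q (e j) x = 0) (c : polar Q (e k) x = 0) (n : polar Q (e i) f ≠ 0) :
    polar Q (e i) f ^ 2 = 1 ∧ polar Q (e j) f ^ 2 = 1 ∧ polar Q (e k) f ^ 2 = 1 := by
  have h2 := h.two
  have s4 : IsSquare ((2 : F) * 2) := ⟨2, rfl⟩
  have K : ∀ j k, i ≠ j → i ≠ k → j ≠ k → polar Q (e j) x = 0 → polar Q (e k) x = 0 →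
      polar Q (e j) f ^ 2 + polar Q (e k) f ^ 2 = 2 → ¬ ∀ m, m ≠ i → m ≠ j → polar Q (e m) f = 0 :=
    fun j k hij hik hjk b c d H => by
      have k0 := H k hik.symm hjk.symm
      have p := (h.pair hf hij H).1
      rw [k0] at d
      have dd : polar Q (e i) f * polar Q (e j) f / 2 * (polar Q (e i) f * polar Q (e j) f / 2) = 1 := by
        field_simp; linear_combination polar Q (e j) f ^ 2 * p - (polar Q (e j) f ^ 2 - 2) * d
      refine h.no2 hx hf hik (δ := 1) (by simp) (h.p2 i j _ hij dd) (by simp [h.Q_sub' hij dd, h2])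
        (by rwa [h.Q_sub' hij dd]) (by simp [a, c]) (by simp [a, b]) ?_ (by rw [k0]; linear_combination p - d)
      rw [polar_sub_left, polar_smul_left, smul_eq_mul]
      field_simp; linear_combination -polar Q (e i) f * d
  have H1 := (h.sg hx hf hij a b).resolve_left fun e0 => n e0.1
  have H2 := (h.sg hx hf hik a c).resolve_left fun e0 => n e0.1
  rcases h.sg hx hf hjk b c with ⟨j0, k0⟩ | H | H
  · refine absurd ?_ (h.no2 hx hf hij (δ := 1) (by simp) (h.p2 j k 1 hjk (by simp))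
      (by simp [h.Q_sub hjk, h2]) (by simpa [h.Q_sub hjk] using s4) (by simp [a, b]) (by simp [b, c]) (by simp [j0, k0]))
    simpa [j0] using H1.resolve_left fun H => (h.pair hf hij H).2.2 j0
  · exact absurd (H i hij hik) n
  have a1 := H1.resolve_left (K j k hij hik hjk b c H)
  have a2 := H2.resolve_left (K k j hik hij hjk.symm c b (by rw [add_comm, H]))
  exact ⟨mul_left_cancel₀ h2 (by linear_combination a1 + a2 - H), mul_left_cancel₀ h2 (by linear_combination a1 - a2 + H),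
    mul_left_cancel₀ h2 (by linear_combination a2 - a1 + H)⟩

theorem caseA (hx : S x) (hf : S f) {a b : Fin 6} (hab : a ≠ b) (H : ∀ m, m ≠ a → m ≠ b → polar Q (e m) x = 0)
    (fa : polar Q (e a) f = 0) (fb : polar Q (e b) f = 0) : False := by
  have h2 := h.two
  obtain ⟨i, hi, n⟩ := h.ns f hf a
  have hib : i ≠ b := by rintro rfl; exact n fb
  obtain ⟨j, hj⟩ := exists_out_list [a, b, i] (by simp)
  obtain ⟨k, hk⟩ := exists_out_list [a, b, i, j] (by simp)
  simp only [List.mem_cons, List.not_mem_nil, or_false, not_or] at hj hk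
  obtain ⟨s1, s2, -⟩ := h.full hx hf (Ne.symm hj.2.2) (Ne.symm hk.2.2.1) (Ne.symm hk.2.2.2) (H i hi hib) (H j hj.1 hj.2.1)
    (H k hk.1 hk.2.1) n
  have dd : polar Q (e i) f * polar Q (e j) f * (polar Q (e i) f * polar Q (e j) f) = 1 := by
    linear_combination polar Q (e j) f ^ 2 * s1 + s2
  obtain ⟨p, p1, p2⟩ := h.pair hx hab H
  have T := h.t1 hf hx (h.p2 a b 1 hab (by simp)) (h.p2 i j _ (Ne.symm hj.2.2) dd) (by simp [h.Q_sub hab, h2])
    (by simp [h.Q_sub' (Ne.symm hj.2.2) dd, h2]) (by rw [h.Q_sub' (Ne.symm hj.2.2) dd, h.Q_sub' hab (by simp)]; exact ⟨2, rfl⟩)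
    (by simp [fa, fb]) (by simp; linear_combination -polar Q (e i) f * s2) (by simp [H i hi hib, H j hj.1 hj.2.1])
  rw [h.Q_sub' hab (by simp), polar_sub_left, one_smul] at T
  obtain ⟨ε, e1, e2⟩ : ∃ ε : F, ε * ε = 1 ∧ polar Q (e a) x = ε * polar Q (e b) x := by
    rcases T with T | ⟨T, -⟩ | T
    · exact ⟨1, by simp, by linear_combination T⟩
    · exact ⟨-1, by simp, by
        linear_combination pow_eq_zero_iff (a := polar Q (e a) x + polar Q (e b) x) two_ne_zero |>.1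
          (by linear_combination 2 * p - T)⟩
    · exact absurd (by linear_combination p - T) (mul_ne_zero h2 (mul_ne_zero p1 p2))
  have s : polar Q (e b) x * polar Q (e b) x = 2 := mul_left_cancel₀ h2 (by
    rw [e2] at p; linear_combination p - polar Q (e b) x ^ 2 * e1)
  have := h.t1 hx hf (h.p1 i) (h.p2 a b ε hab e1) (by simp [h.Q_e]) (by simp [h.Q_sub' hab e1, h2])
    (by rw [h.Q_sub' hab e1, h.Q_e, one_mul]; exact ⟨_, s.symm⟩) (H i hi hib) (by simp [e2]) (by simp [fa, fb])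
  rw [s1, h.Q_e] at this
  rcases this with a | ⟨a, -⟩ | a
  exacts [n a, h.three (by linear_combination -a), one_ne_zero (α := F) (by linear_combination -a)]

theorem caseB (hx : S x) (hf : S f) {ε : F} (hε : ε * ε = 1) (x0 : polar Q (e 0) x = -ε * polar Q (e 1) x)
    (x3 : polar Q (e 3) x = 0) (x4 : polar Q (e 4) x = 0) (x5 : polar Q (e 5) x = 0)
    (f0 : polar Q (e 0) f = ε * polar Q (e 1) f) (f2 : polar Q (e 2) f = 0) (n : polar Q (e 3) f ≠ 0) : False := by
  obtain ⟨s1, s2, s3⟩ := h.full hx hf (by decide) (by decide) (by decide) x3 x4 x5 n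
  have dd : polar Q (e 3) f * polar Q (e 4) f * (polar Q (e 3) f * polar Q (e 4) f) = 1 := by
    linear_combination polar Q (e 4) f ^ 2 * s1 + s2
  have := h.sum_sq (h.q f hf) (S := Finset.univ) (by simp)
  rw [Fin.sum_univ_six, f0, f2, s1, s2, s3] at this
  have q := h.Q_sub' (show (3 : Fin 6) ≠ 4 by decide) dd
  refine h.no2 hx hf (show (0 : Fin 6) ≠ 1 by decide) (δ := -ε) (by simp [hε]) (h.p2 3 4 _ (by decide) dd)
    (by simp [q, h.two]) (by rw [q]; exact ⟨2, rfl⟩) x0 (by simp [x3, x4]) (by simp; linear_combination -polar Q (e 3) f * s2) ?_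
  rw [f0]; linear_combination 2 * this + 2 * polar Q (e 1) f ^ 2 * hε

theorem c13 (hx : S x) (hf : S f) {a b : Fin 6} (h1 : a ≠ 4) (h3 : b ≠ a) (h4 : b ≠ 4) {ε η : F} (hη : η * η = 1)
    (x0 : polar Q (e a) x = ε * polar Q (e b) x) (x4 : polar Q (e 4) x = 0) (x5 : polar Q (e 5) x = 0)
    (fa : polar Q (e a) f ^ 2 = 1) (f4 : polar Q (e 4) f ^ 2 = 1) (f5 : polar Q (e 4) f = η * polar Q (e 5) f) :
    polar Q (e a) x ^ 2 = 0 ∨ polar Q (e a) x ^ 2 = 4 := by
  have dd : polar Q (e a) f * polar Q (e 4) f * (polar Q (e a) f * polar Q (e 4) f) = 1 := by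
    linear_combination polar Q (e 4) f ^ 2 * fa + f4
  have q := h.Q_sub' h1 dd
  have q' := h.Q_sub' (show (4 : Fin 6) ≠ 5 by decide) hη
  have := h.t1 hf hx (h.p2 a 4 _ h1 dd) (h.p2 4 5 η (by decide) hη) (by simp [q, h.two]) (by simp [q', h.two])
    (by rw [q, q']; exact ⟨2, rfl⟩) (by simp; linear_combination -polar Q (e a) f * f4) (by simp [← f5]) (by simp [x4, x5])
  rw [q, polar_sub_left, polar_smul_left, x4, smul_zero, sub_zero] at this
  rcases this with c | ⟨-, c⟩ | c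
  · simp [c]
  · simp [x0, c (e b) (by simp [h.on, h3, h4])]
  · exact .inr (by linear_combination c)

theorem caseC (hx : S x) (hy : S y) (hf : S f) {ε δ : F} (hε : ε * ε = 1) (hδ : δ * δ = 1)
    (x0 : polar Q (e 0) x = -ε * polar Q (e 1) x) (x2 : polar Q (e 2) x = -δ * polar Q (e 3) x)
    (x4 : polar Q (e 4) x = 0) (x5 : polar Q (e 5) x = 0)
    (y0 : polar Q (e 0) y = -ε * polar Q (e 1) y) (y2 : polar Q (e 2) y = -δ * polar Q (e 3) y)
    (y4 : polar Q (e 4) y = 0) (y5 : polar Q (e 5) y = 0) (m0 : polar Q (e 0) x ^ 2 + polar Q (e 0) y ^ 2 = 2)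
    (m2 : polar Q (e 2) x ^ 2 + polar Q (e 2) y ^ 2 = 2)
    (f0 : polar Q (e 0) f = ε * polar Q (e 1) f) (f2 : polar Q (e 2) f = δ * polar Q (e 3) f) (n : polar Q (e 4) f ≠ 0) :
    False := by
  have h2 := h.two
  have s := ((h.sg hx hf (show (4 : Fin 6) ≠ 5 by decide) x4 x5).resolve_left fun a => n a.1).resolve_left
    fun H => h.caseA hf hx (by decide) H x4 x5
  have s' := h.sum_sq (h.q f hf) (S := Finset.univ) (by simp)
  rw [Fin.sum_univ_six] at s'
  replace s' : polar Q (e 0) f ^ 2 + polar Q (e 2) f ^ 2 = 1 := mul_left_cancel₀ h2 (by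
    rw [f0, f2] at *
    linear_combination s' - s + polar Q (e 1) f ^ 2 * hε + polar Q (e 3) f ^ 2 * hδ)
  have ne : ∀ a b : F, (a = 0 ∨ a = 4) → (b = 0 ∨ b = 4) → a + b ≠ 2 := by
    rintro _ _ (rfl | rfl) (rfl | rfl) e0
    exacts [h2 (by linear_combination -e0), h2 (by linear_combination e0), h2 (by linear_combination e0),
      mul_ne_zero h2 h.three (by linear_combination e0)]
  have K : ∀ η : F, η * η = 1 → polar Q (e 4) f = η * polar Q (e 5) f →
      polar Q (e 0) f ≠ 0 ∧ polar Q (e 2) f ≠ 0 := fun η hη e0 => by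
    have f4 : polar Q (e 4) f ^ 2 = 1 := mul_left_cancel₀ h2 (by
      linear_combination s + (polar Q (e 4) f + η * polar Q (e 5) f) * e0 + polar Q (e 5) f ^ 2 * hη)
    refine ⟨fun z => ?_, fun z => ?_⟩
    · have : polar Q (e 2) f ^ 2 = 1 := by simpa [z] using s'
      exact ne _ _ (h.c13 hx hf (by decide) (by decide) (by decide) hη x2 x4 x5 this f4 e0)
        (h.c13 hy hf (by decide) (by decide) (by decide) hη y2 y4 y5 this f4 e0) m2
    · have : polar Q (e 0) f ^ 2 = 1 := by simpa [z] using s'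
      exact ne _ _ (h.c13 hx hf (by decide) (by decide) (by decide) hη x0 x4 x5 this f4 e0)
        (h.c13 hy hf (by decide) (by decide) (by decide) hη y0 y4 y5 this f4 e0) m0
  have hε' : -ε * -ε = 1 := by simp [hε]
  have q := h.Q_sub' (show (0 : Fin 6) ≠ 1 by decide) hε'
  have A : polar Q (e 0) f - -ε * polar Q (e 1) f = 2 * polar Q (e 0) f := by rw [f0]; ring
  have T : ∀ η : F, η * η = 1 → 4 * polar Q (e 0) f ^ 2 + (polar Q (e 4) f - η * polar Q (e 5) f) ^ 2 = 4 := fun η hη => by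
    have q' := h.Q_sub' (show (4 : Fin 6) ≠ 5 by decide) hη
    have := h.t2 hx hf (h.p2 0 1 _ (by decide) hε') (h.p2 4 5 η (by decide) hη) (by simp only [q]; exact h2)
      (by simp [q', h2]) (by rw [q, q']; exact ⟨2, rfl⟩) (by simp [x0]) (by simp [x4, x5]) (by simp [h.on])
    rw [q, q', polar_sub_left, polar_smul_left, smul_eq_mul, A, polar_sub_left, polar_smul_left, smul_eq_mul] at this
    rcases this with ⟨a, b⟩ | a | a
    · exact absurd ((mul_eq_zero.1 a).resolve_left h2) (K η hη (sub_eq_zero.1 b)).1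
    · refine absurd (a (e 2) (by simp [h.on]) (by simp [h.on])) (K (-η) (by simp [hη]) ?_).2
      simpa [add_eq_zero_iff_eq_neg] using a (e 4 - (-η) • e 5) (by simp [h.on]) (by simp [h.on]; linear_combination -2 * hη)
    · exact mul_left_cancel₀ h2 (by linear_combination a)
  have T1 := T 1 (by simp)
  have T2 := T (-1) (by simp)
  have f5 : polar Q (e 5) f = 0 := mul_left_cancel₀ (mul_ne_zero (mul_ne_zero h2 h2) n) (by linear_combination T2 - T1)
  have z : 2 * polar Q (e 0) f * (2 * polar Q (e 0) f) = 2 := by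
    linear_combination T1 - s + 2 * polar Q (e 4) f * f5
  exact h.no2 hx hf (show (0 : Fin 6) ≠ 1 by decide) hε' (h.p1 5) (by simp [h.Q_e]) (by rw [h.Q_e, mul_one]; exact ⟨_, z.symm⟩)
    x0 x5 f5 (by rw [A]; linear_combination z)

end Loc

end Cfsg.Agent.Root.Mx
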