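import Cfsg.Agent.Root.Fr3

/-! The signed involutions of six points of trace two (`types6`). -/

set_option autoImplicit false

namespace Cfsg.Agent.Root.Mx

/-- The weight of a signed involution. -/
def wt6 (π : Fin 6 → Fin 6) (n : Fin 6 → Bool) (i : Fin 6) : ℕ := if π i = i then if n i then 2 else 0 else 1

theorem types6' : ∀ a b c d f g : Fin 6, let π := ![a, b, c, d, f, g]; (∀ i, π (π i) = i) →
    ∀ p q r s t u : Bool, let n := ![p, q, r, s, t, u]; (∑ i, wt6 π n i ∈ [0, 2, 6, 8, 10, 12]) ∨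
      (∃ a b, a ≠ b ∧ wt6 π n a = 2 ∧ wt6 π n b = 2 ∧ ∀ m, m ≠ a → m ≠ b → wt6 π n m = 0) ∨
      (∃ a, π a ≠ a ∧ ∃ c, wt6 π n c = 2 ∧ ∃ i, wt6 π n i = 0 ∧ ∃ j, wt6 π n j = 0 ∧ ∃ k, wt6 π n k = 0 ∧
        (![a, π a, c, i, j, k]).Injective) ∨
      ∃ a, π a ≠ a ∧ ∃ c, π c ≠ c ∧ ∃ i, wt6 π n i = 0 ∧ ∃ j, wt6 π n j = 0 ∧ (![a, π a, c, π c, i, j]).Injective := by
  decide +kernel

theorem types6 (π : Fin 6 → Fin 6) (hπ : ∀ i, π (π i) = i) (n : Fin 6 → Bool) :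
    (∑ i, wt6 π n i ∈ [0, 2, 6, 8, 10, 12]) ∨
      (∃ a b, a ≠ b ∧ wt6 π n a = 2 ∧ wt6 π n b = 2 ∧ ∀ m, m ≠ a → m ≠ b → wt6 π n m = 0) ∨
      (∃ a, π a ≠ a ∧ ∃ c, wt6 π n c = 2 ∧ ∃ i, wt6 π n i = 0 ∧ ∃ j, wt6 π n j = 0 ∧ ∃ k, wt6 π n k = 0 ∧
        (![a, π a, c, i, j, k]).Injective) ∨
      ∃ a, π a ≠ a ∧ ∃ c, π c ≠ c ∧ ∃ i, wt6 π n i = 0 ∧ ∃ j, wt6 π n j = 0 ∧ (![a, π a, c, π c, i, j]).Injective := by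
  obtain ⟨a, b, c, d, f, g, rfl⟩ : ∃ a b c d f g, π = ![a, b, c, d, f, g] :=
    ⟨π 0, π 1, π 2, π 3, π 4, π 5, by ext i; fin_cases i <;> rfl⟩
  obtain ⟨p, q, r, s, t, u, rfl⟩ : ∃ a b c d f g, n = ![a, b, c, d, f, g] :=
    ⟨n 0, n 1, n 2, n 3, n 4, n 5, by ext i; fin_cases i <;> rfl⟩
  exact types6' a b c d f g hπ p q r s t u

end Cfsg.Agent.Root.Mx
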