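import Cfsg.Agent.Low.Fr6a
import Cfsg.Agent.Low.Fr6t

/-! A group of isometries of a six-dimensional space containing the monomial rotations for an orthonormal frame, in
which the stabiliser of a frame vector is monomial, is monomial (`F6.mon`). -/

set_option autoImplicit false

namespace Cfsg.Agent.Root.Mx

open Cfsg.Agent.Geom Cfsg.Agent.AutCl Module QuadraticMap

variable {F : Type*} [Field F] {V : Type*} [AddCommGroup V] [Module F V] {Q : QuadraticForm F V} {e : Fin 6 → V}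
  {Y : Subgroup (OG Q)} {g : OG Q}

attribute [-simp] QuadraticMap.polar_self

namespace Fo
variable (h : Fo Q e)
include h

theorem mperm (hg : Mon e g) : ∃ π : Equiv.Perm (Fin 6), ∃ ε : Fin 6 → F, ∀ i, ε i * ε i = 1 ∧ g.1 (e i) = ε i • e (π i) := by
  choose π ε h1 h2 using hg
  refine ⟨.ofBijective π (Finite.injective_iff_bijective.1 fun i j hij => by_contra fun n => ?_), ε, fun i => ⟨h1 i, h2 i⟩⟩
  simpa [h2, hij, h.on, n, h.two, ne_zero_of_sq (h1 _)] using OG.map_polar g (e i) (e j)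

/-- The monomial group. -/
def monG : Subgroup (OG Q) where
  carrier := {g | Mon e g}
  one_mem' i := ⟨i, 1, by simp, by simp⟩
  mul_mem' := Mon.mul
  inv_mem' := fun {g} hg j => by
    obtain ⟨π, ε, H⟩ := h.mperm hg
    obtain ⟨i, rfl⟩ := π.surjective j
    exact ⟨i, ε i, (H i).1, by rw [← OG.inv_apply_apply g (ε i • e i), map_smul, (H i).2, smul_smul, (H i).1, one_smul]⟩

theorem mon_sub' {i j : Fin 6} (hij : i ≠ j) {δ : F} (hδ : δ * δ = 1) : Mon e (refl Q (e i - δ • e j)) := by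
  rcases mul_self_eq_one_iff.1 hδ with rfl | rfl
  · simpa using h.mon_sub hij
  · have := ((h.mon_e j).mul (h.mon_sub hij)).mul (h.mon_e j)
    nth_rw 2 [← refl_inv Q (e j)] at this
    rwa [conj_refl, map_sub, refl_self (by simp [h.Q_e]), refl_of_perp (by simp [h.on, hij.symm]), ← neg_one_smul F] at this

theorem ext_e {s t : OG Q} (H : ∀ m, s.1 (e m) = t.1 (e m)) : s = t :=
  OG.ext fun v => by rw [← h.sum v]; simp [map_sum, H]

theorem sg_app {i j : Fin 6} (hij : i ≠ j) (m : Fin 6) :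
    (refl Q (e i) * refl Q (e j)).1 (e m) = if m = i ∨ m = j then -e m else e m := by
  rw [OG.mul_apply]
  by_cases a : m = j
  · subst a; rw [refl_self (by simp [h.Q_e]), map_neg, refl_of_perp (by simp [h.on, hij])]; simp
  rw [refl_of_perp (v := e j) (by simp [h.on, Ne.symm a])]
  by_cases b : m = i
  · subst b; simp [refl_self, h.Q_e]
  · simp [a, b, refl_of_perp, h.on, Ne.symm b]

theorem sg_symm (i j : Fin 6) : refl Q (e i) * refl Q (e j) = refl Q (e j) * refl Q (e i) := by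
  by_cases a : i = j
  · rw [a]
  · exact h.ext_e fun m => by simp only [h.sg_app a, h.sg_app (Ne.symm a), or_comm]

theorem sg_sq (i j : Fin 6) : refl Q (e i) * refl Q (e j) * (refl Q (e i) * refl Q (e j)) = 1 := by
  nth_rw 1 [h.sg_symm]; rw [mul_assoc, refl_mul_cancel, refl_mul_self]

end Fo

/-- A group containing the monomial rotations, with monomial point stabiliser. -/
structure F6 (Y : Subgroup (OG Q)) (e : Fin 6 → V) : Prop extends Fo Q e where
  three : (3 : F) ≠ 0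
  r2 : ∀ u w, Q u ≠ 0 → Q w ≠ 0 → IsSquare (Q u * Q w) → Mon e (refl Q u) → Mon e (refl Q w) → refl Q u * refl Q w ∈ Y
  p0 : ∀ g ∈ Y, g.1 (e 0) = e 0 → Mon e g

namespace F6
variable (h : F6 Y e)
include h

theorem sg (i j : Fin 6) : refl Q (e i) * refl Q (e j) ∈ Y :=
  h.r2 _ _ (by simp [h.Q_e]) (by simp [h.Q_e]) (by simp [h.Q_e]) (h.mon_e i) (h.mon_e j)

theorem mv (i k : Fin 6) : ∃ m ∈ Y, Mon e m ∧ m.1 (e i) = e k := by
  by_cases hik : i = k
  · exact ⟨1, one_mem _, h.monG.one_mem, by simp [hik]⟩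
  obtain ⟨a, ha⟩ := exists_out_list [i] (by simp)
  obtain ⟨b, hb⟩ := exists_out_list [i, a] (by simp)
  simp only [List.mem_cons, List.not_mem_nil, or_false, not_or] at ha hb
  refine ⟨refl Q (e i - e k) * refl Q (e b - e a), h.r2 _ _ (by simp [h.Q_sub hik, h.two]) (by simp [h.Q_sub hb.2, h.two])
    (by rw [h.Q_sub hik, h.Q_sub hb.2]; exact ⟨2, rfl⟩) (h.mon_sub hik) (h.mon_sub hb.2),
    (h.mon_sub hik).mul (h.mon_sub hb.2), h.ext fun m => ?_⟩
  rw [OG.mul_apply, refl_of_perp (v := e b - e a) (by simp [h.on, ha, hb.1]), h.co_swap hik, h.on, h.on]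
  simp only [Equiv.swap_apply_eq_iff, Equiv.swap_apply_left]

theorem p1 (hg : g ∈ Y) {i k : Fin 6} {ε : F} (hε : ε * ε = 1) (H : g.1 (e i) = ε • e k) : Mon e g := by
  obtain ⟨a, a1, a2, a3⟩ := h.mv 0 i
  obtain ⟨b, b1, b2, b3⟩ := h.mv k 0
  obtain ⟨s, s1, s2, s3⟩ : ∃ s ∈ Y, Mon e s ∧ s.1 (ε • e 0) = e 0 := by
    rcases mul_self_eq_one_iff.1 hε with rfl | rfl
    · exact ⟨1, one_mem _, h.monG.one_mem, by simp⟩
    · exact ⟨_, h.sg 0 1, (h.mon_e 0).mul (h.mon_e 1), by rw [map_smul, h.sg_app (by decide)]; simp⟩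
  have := h.p0 (s * b * g * a) (mul_mem (mul_mem (mul_mem s1 b1) hg) a1) (by
    simp only [OG.mul_apply, a3, H, map_smul b.1, b3, s3])
  change g ∈ h.monG
  rwa [← h.monG.mul_mem_cancel_left (h.monG.mul_mem s2 b2), ← h.monG.mul_mem_cancel_right a2]

theorem loc (hg : g ∈ Y) (hM : ¬ Mon e g) : Loc Q e (fun u => Mon e (refl Q u)) fun x => ∃ j, x = g.1 (e j) := by
  have h2 := h.two
  refine ⟨h.toFo, h.three, h.mon_e, fun i j δ a b => h.mon_sub' a b, ?_, ?_, ?_⟩
  · rintro _ ⟨j, rfl⟩; rw [OG.map_Q, h.Q_e]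
  · rintro _ ⟨k, rfl⟩ i
    by_contra! hc
    have e1 := h.sum_sq (x := g.1 (e k)) (by rw [OG.map_Q, h.Q_e]) (S := {i}) fun m hm => hc m (by simpa using hm)
    rw [Finset.sum_singleton] at e1
    refine hM (h.p1 hg (i := k) (k := i) (ε := polar Q (e i) (g.1 (e k)) / 2) (by field_simp; linear_combination e1)
      (h.ext fun m => ?_))
    by_cases hm : m = i
    · simp [hm, h.on, h2]
    · simp [hm, h.on, hc m hm]
  rintro _ _ ⟨k, rfl⟩ ⟨j, rfl⟩ u w hu hw qu qw sq a b
  obtain ⟨m, ε, e1, e2⟩ := h.p1 (mul_mem (mul_mem (inv_mem hg) (h.r2 u w qu qw sq hu hw)) hg) (i := k) (k := k) (ε := 1)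
    (by simp) (by simp [OG.mul_apply, refl_of_perp a, refl_of_perp b]) j
  replace e2 := congrArg g.1 e2
  rw [OG.mul_apply, OG.mul_apply, OG.apply_inv_apply, map_smul] at e2
  rw [e2]
  by_cases hm : j = m
  · rcases mul_self_eq_one_iff.1 e1 with rfl | rfl <;> simp [hm]
  · simp [OG.map_polar, h.on, hm]

theorem Z (hg : g ∈ Y) {k l : Fin 6} (hkl : k ≠ l) (H : Mon e (g * (refl Q (e k) * refl Q (e l)) * g⁻¹)) : Mon e g := by
  classical
  by_contra hM
  have L := h.loc hg hM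
  have h2 := h.two
  obtain ⟨t, ht⟩ : ∃ t, t = g * (refl Q (e k) * refl Q (e l)) * g⁻¹ := ⟨_, rfl⟩
  rw [← ht] at H
  have ta : ∀ m, t.1 (g.1 (e m)) = if m = k ∨ m = l then -g.1 (e m) else g.1 (e m) := fun m => by
    rw [ht, OG.mul_apply, OG.inv_apply_apply, OG.mul_apply, h.sg_app hkl, apply_ite g.1, map_neg]
  obtain ⟨x, hx⟩ : ∃ x, x = g.1 (e k) := ⟨_, rfl⟩
  obtain ⟨y, hy⟩ : ∃ y, y = g.1 (e l) := ⟨_, rfl⟩
  have tv : ∀ v, t.1 v = v - polar Q y v • y - polar Q x v • x := fun v => by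
    rw [ht, ← conj_mul, conj_refl, conj_refl, OG.mul_apply, refl_apply, refl_apply, OG.map_Q, OG.map_Q, h.Q_e, h.Q_e,
      polar_sub_right, polar_smul_right, OG.map_polar, h.on, ← hx, ← hy]
    simp [hkl]
  obtain ⟨π, ε, hπ⟩ := h.mperm H
  have co : ∀ v (η : F), t.1 v = η • v → ∀ i, polar Q (e i) v = ε i * η * polar Q (e (π i)) v := fun v η hv i => by
    rw [← OG.map_polar t, (hπ i).2, hv]; simp [mul_assoc, mul_left_comm]
  have cx := co x (-1) (by simp [hx, ta])
  have cy := co y (-1) (by simp [hy, ta])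
  have iv : ∀ i, π (π i) = i := fun i => by_contra fun n => by
    have : t.1 (t.1 (e i)) = e i := by
      rw [← OG.mul_apply, ht, conj_mul, h.sg_sq]; simp
    rw [(hπ _).2, map_smul, (hπ _).2] at this
    simpa [h.on, Ne.symm n, h2.symm] using congrArg (polar Q (e i)) this
  obtain ⟨n, hn⟩ : ∃ n : Fin 6 → Bool, ∀ i, ε i = if n i then -1 else 1 := ⟨fun i => ε i = -1, fun i => by
    rcases mul_self_eq_one_iff.1 (hπ i).1 with a | a <;> simp only [decide_eq_true_eq] <;> split_ifs <;> simp_all⟩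
  have wt : ∀ i, polar Q (e i) x ^ 2 + polar Q (e i) y ^ 2 = 2 * wt6 π n i := fun i => by
    have := congrArg (polar Q (e i)) (tv (e i))
    rw [(hπ i).2, hn] at this
    simp only [polar_sub_right, polar_smul_right, h.on, polar_comm Q x, polar_comm Q y, smul_eq_mul, eq_comm (a := i)] at this
    unfold wt6
    split_ifs at this ⊢ <;> first | contradiction | (push_cast; linear_combination this)
  have w0 : ∀ i, wt6 π n i = 0 → π i = i ∧ ε i = 1 := fun i => by
    unfold wt6; rw [hn]; split_ifs with a b <;> simp [a]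
  have w2 : ∀ i, wt6 π n i = 2 → π i = i ∧ ε i = -1 := fun i => by
    unfold wt6; rw [hn]; split_ifs with a b <;> simp [a]
  have z0 : ∀ i, wt6 π n i = 0 → polar Q (e i) x = 0 ∧ polar Q (e i) y = 0 := fun i a => by
    have b := cx i
    have c := cy i
    rw [(w0 i a).1, (w0 i a).2] at b c
    exact ⟨mul_left_cancel₀ h2 (by linear_combination b), mul_left_cancel₀ h2 (by linear_combination c)⟩
  have ex : ∀ i, wt6 π n i = 0 → ∃ f, (∃ j, f = g.1 (e j)) ∧ polar Q (e i) f ≠ 0 ∧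
      (∀ i, polar Q (e i) f = ε i * polar Q (e (π i)) f) ∧ ∀ i, wt6 π n i = 2 → polar Q (e i) f = 0 := fun i a => by
    obtain ⟨j, hj⟩ : ∃ j, polar Q (e i) (g.1 (e j)) ≠ 0 := by
      by_contra! hc
      have : (g⁻¹).1 (e i) = 0 := h.ext fun j => by rw [OG.polar_inv_right, polar_comm, hc, polar_zero_right]
      have a := (OG.map_Q g⁻¹ (e i)).trans (h.Q_e i)
      rw [this] at a; simp at a
    have c := co (g.1 (e j)) 1 (by
      rw [ta, if_neg, one_smul]
      rintro (rfl | rfl)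
      exacts [hj (hx ▸ (z0 i a).1), hj (hy ▸ (z0 i a).2)])
    refine ⟨_, ⟨j, rfl⟩, hj, by simpa using c, fun i b => mul_left_cancel₀ h2 ?_⟩
    have := c i
    rw [(w2 i b).1, (w2 i b).2] at this
    linear_combination this
  have w1 : ∀ i, π i ≠ i → polar Q (e i) x ^ 2 + polar Q (e i) y ^ 2 = 2 := fun i a => by simp [wt, wt6, a]
  rcases types6 π iv n with T | ⟨a, b, hab, a1, a2, a3⟩ | ⟨a, a1, c, a2, i, a3, j, a4, m, a5, T⟩ |
    ⟨a, a1, c, a2, i, a3, j, a4, T⟩
  · have s : ((∑ i, wt6 π n i : ℕ) : F) * 2 = 8 := by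
      rw [Nat.cast_sum, mul_comm, Finset.mul_sum, ← Finset.sum_congr rfl fun i _ => wt i, Finset.sum_add_distrib,
        h.sum_sq (L.q x ⟨k, hx⟩) (by simp), h.sum_sq (L.q y ⟨l, hy⟩) (by simp)]
      norm_num
    have h4 := mul_ne_zero h2 h2
    simp only [List.mem_cons, List.not_mem_nil, or_false] at T
    rcases T with T | T | T | T | T | T <;> rw [T] at s <;> push_cast at s
    exacts [mul_ne_zero h2 h4 (by linear_combination -s), h4 (by linear_combination -s), h4 (by linear_combination s),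
      mul_ne_zero h2 h4 (by linear_combination s), mul_ne_zero h.three h4 (by linear_combination s),
      mul_ne_zero h4 h4 (by linear_combination s)]
  · obtain ⟨i, hi⟩ := exists_out_list [a, b] (by simp)
    simp only [List.mem_cons, List.not_mem_nil, or_false, not_or] at hi
    obtain ⟨f, f1, -, -, f2⟩ := ex i (a3 i hi.1 hi.2)
    exact L.caseA ⟨k, hx⟩ f1 hab (fun m c d => (z0 m (a3 m c d)).1) (f2 a a1) (f2 b a2)
  · obtain ⟨f, f1, f0, f2, f3⟩ := ex i a3
    exact (L.perm (.ofBijective _ (Finite.injective_iff_bijective.1 T))).caseB ⟨k, hx⟩ f1 (hπ a).1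
      ((cx a).trans (by simp)) (z0 i a3).1 (z0 j a4).1 (z0 m a5).1 (f2 a) (f3 c a2) f0
  · obtain ⟨f, f1, f0, f2, -⟩ := ex i a3
    exact (L.perm (.ofBijective _ (Finite.injective_iff_bijective.1 T))).caseC ⟨k, hx⟩ ⟨l, hy⟩ f1 (hπ a).1 (hπ c).1
      ((cx a).trans (by simp)) ((cx c).trans (by simp)) (z0 i a3).1 (z0 j a4).1 ((cy a).trans (by simp))
      ((cy c).trans (by simp)) (z0 i a3).2 (z0 j a4).2 (w1 a a1) (w1 c a2) (f2 a) (f2 c) f0

theorem mon [Finite V] (hg : g ∈ Y) : Mon e g := by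
  have : Finite (V ≃ₗ[F] V) := Finite.of_injective _ (DFunLike.coe_injective (F := V ≃ₗ[F] V))
  have c : ∀ x, ¬ (-e x = e x) := fun x e0 => mul_ne_zero h.two h.two (by
    have := congrArg (polar Q (e x)) e0; simp [h.on] at this; linear_combination -this)
  refine Fus.le (M := h.monG) (s := fun i j => refl Q (e i) * refl Q (e j)) ⟨h.sg, fun i j => (h.mon_e i).mul (h.mon_e j),
    h.sg_sq, h.sg_symm, fun i j k l a b H => ?_, fun g hg => ?_, fun i j k l a b n => ?_, fun g hg k l => h.Z hg⟩ hg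
  · have b := fun x => (h.sg_app a x).symm.trans (H ▸ h.sg_app b x)
    have b1 := b i
    have b2 := b j
    simp only [true_or, or_true, if_true] at b1 b2
    split_ifs at b1 b2 with x y
    · unfold Pe; omega
    all_goals simp [c] at b1 b2
  · obtain ⟨π, ε, H⟩ := h.mperm hg
    exact ⟨π, fun i j => by
      rw [← conj_mul, conj_refl, conj_refl, (H i).2, (H j).2, refl_smul (ne_zero_of_sq (H i).1),
        refl_smul (ne_zero_of_sq (H j).1)]⟩
  obtain ⟨p, q, pq, ε, hε⟩ := (pair_xor i j k l a b).resolve_left n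
  obtain ⟨z, z1, z2⟩ : ∃ z : OG Q, ∃ η : F, (η = if ε then -1 else 1) ∧ ∀ v, z.1 v = η • v := by
    cases ε
    exacts [⟨1, 1, rfl, by simp⟩, ⟨⟨LinearEquiv.neg F, Formed.mem_isom_ofQuad.2 (by simp)⟩, -1, rfl, by simp⟩]
  refine ⟨p, q, pq, z, fun i => ⟨i, z1, by rw [z2.1]; split_ifs <;> simp, z2.2 _⟩,
    fun g => OG.ext fun v => by simp [OG.mul_apply, z2.2], h.ext_e fun m => ?_⟩
  have := hε m
  rw [h.sg_app pq, OG.mul_apply, z2.2, map_smul, OG.mul_apply, h.sg_app b, apply_ite (refl Q (e i) * refl Q (e j)).1, map_neg, h.sg_app a, z2.1]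
  cases ε <;> by_cases x : m = i ∨ m = j <;> by_cases y : m = k ∨ m = l <;> by_cases z : m = p ∨ m = q <;>
    simp [x, y, z] at this ⊢

end F6

end Cfsg.Agent.Root.Mx
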