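import Cfsg.Agent.Root.Fr4

/-! Maximality of the stabiliser of an orthonormal frame in `Ω_n(p)` for odd `n ≥ 7`
(`ODec.isMaximalIn_frame_odd`): an overgroup times `±1` contains the reflections in the frame vectors. -/

set_option autoImplicit false

namespace Cfsg.Agent.Root.Mx

open Cfsg.Agent.Geom Cfsg.Agent.AutCl Module QuadraticMap

variable {F : Type*} [Field F] {V : Type*} [AddCommGroup V] [Module F V] {Q : QuadraticForm F V}
  {Y : Subgroup (OG Q)} {ι : Type*} [Fintype ι] [DecidableEq ι] {e : ι → V}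

attribute [-simp] QuadraticMap.polar_self

/-- A frame of norm-one vectors over a prime field. -/
structure Fo (Q : QuadraticForm F V) (e : ι → V) : Prop where
  two : (2 : F) ≠ 0
  prime : ∀ c : F, ∃ n : ℕ, (n : F) = c
  on : ∀ i j, polar Q (e i) (e j) = if i = j then 2 else 0
  sum : ∀ v, ∑ i, (polar Q (e i) v / 2) • e i = v

namespace Fo

theorem ext (h : Fo Q e) {x y : V} (H : ∀ i, polar Q (e i) x = polar Q (e i) y) : x = y := by
  rw [← h.sum x, ← h.sum y]; simp [H]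

theorem polar_eq (h : Fo Q e) (x y : V) : 2 * polar Q x y = ∑ i, polar Q (e i) x * polar Q (e i) y := by
  have h2 := h.two
  nth_rw 1 [← h.sum x]
  simp only [← polarBilin_apply_apply, map_sum, LinearMap.sum_apply, map_smul, LinearMap.smul_apply,
    smul_eq_mul, Finset.mul_sum]
  exact Finset.sum_congr rfl fun i _ => by field_simp

theorem hn (h : Fo Q e) : (Formed.ofQuad Q).Nondeg := fun x hx =>
  h.ext fun i => by rw [polar_comm, polar_zero_right]; exact hx _

theorem Q_e (h : Fo Q e) (i : ι) : Q (e i) = 1 := by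
  have := h.on i i
  rw [polar_self', if_pos rfl] at this
  exact mul_left_cancel₀ h.two (by simpa using this)

theorem Q_sub (h : Fo Q e) {i j : ι} (hij : i ≠ j) : Q (e i - e j) = 2 := by
  rw [quad_sub, h.Q_e, h.Q_e, h.on, if_neg hij]; ring

theorem co_refl (h : Fo Q e) (k i : ι) (x : V) :
    polar Q (e i) ((refl Q (e k)).1 x) = if i = k then -polar Q (e i) x else polar Q (e i) x := by
  rw [refl_apply, h.Q_e]
  by_cases hi : i = k
  · subst hi; simp [h.on]; ring
  · simp [h.on, hi]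

theorem co_swap (h : Fo Q e) {k l : ι} (hkl : k ≠ l) (i : ι) (x : V) :
    polar Q (e i) ((refl Q (e k - e l)).1 x) = polar Q (e (Equiv.swap k l i)) x := by
  have h2 := h.two
  rw [refl_apply, h.Q_sub hkl]
  by_cases h1 : i = k
  · subst h1; simp [h.on, hkl]; field_simp; ring
  by_cases h3 : i = l
  · subst h3; simp [h.on, h1]; field_simp; ring
  · simp [h.on, h1, h3, Equiv.swap_apply_of_ne_of_ne h1 h3]

theorem polar_swap (h : Fo Q e) {k l : ι} (hkl : k ≠ l) {x : V} (hx : Q x = 1) (h0 : polar Q (e l) x = 0) :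
    polar Q x ((refl Q (e k - e l)).1 x) = 2 - polar Q (e k) x ^ 2 / 2 := by
  rw [refl_apply, h.Q_sub hkl, polar_sub_right, polar_self', hx, polar_smul_right, polar_comm Q x,
    polar_sub_left, h0, smul_eq_mul]
  ring

theorem sum_sq (h : Fo Q e) {x : V} (hx : Q x = 1) {S : Finset ι} (hS : ∀ i ∉ S, polar Q (e i) x = 0) :
    ∑ i ∈ S, polar Q (e i) x ^ 2 = 4 := by
  have := h.polar_eq x x
  rw [polar_self', hx, ← Finset.sum_subset (Finset.subset_univ S) fun i _ hi => by simp [hS i hi]] at this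
  simp only [_root_.sq, ← this]; ring

theorem polar_sign (h : Fo Q e) {I : Finset ι} {x y : V} (hx : Q x = 1)
    (H : ∀ i, polar Q (e i) y = if i ∈ I then -polar Q (e i) x else polar Q (e i) x) :
    polar Q x y = 2 - ∑ i ∈ I, polar Q (e i) x ^ 2 := by
  refine mul_left_cancel₀ h.two ?_
  have := h.sum_sq hx (S := Finset.univ) (by simp)
  rw [← Finset.sum_compl_add_sum I] at this
  rw [h.polar_eq, ← Finset.sum_compl_add_sum I,
    Finset.sum_congr rfl (s₁ := Iᶜ) (g := fun i => polar Q (e i) x ^ 2) fun i hi => by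
      rw [H, if_neg (by simpa using hi), _root_.sq],
    Finset.sum_congr rfl (s₁ := I) (g := fun i => -polar Q (e i) x ^ 2) fun i hi => by rw [H, if_pos hi]; ring,
    Finset.sum_neg_distrib]
  linear_combination this

theorem sq_three (h : Fo Q e) (h3 : (3 : F) = 0) (c : F) : c = 0 ∨ c * c = 1 := by
  obtain ⟨n, rfl⟩ := h.prime c
  rw [← Nat.div_add_mod n 3]
  rcases (by omega : n % 3 = 0 ∨ n % 3 = 1 ∨ n % 3 = 2) with e | e | e <;> simp [e, h3]
  right; linear_combination h3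

end Fo

/-- A group containing the frame reflections and the even permutations. -/
structure FY (Y : Subgroup (OG Q)) (e : ι → V) : Prop extends Fo Q e where
  seven : 7 ≤ Fintype.card ι
  r1 : ∀ i, refl Q (e i) ∈ Y
  r2 : ∀ i j k l, i ≠ j → k ≠ l → refl Q (e i - e j) * refl Q (e k - e l) ∈ Y

namespace FY
variable {x : V}

theorem ro (h : FY Y e) (i : ι) : Ro Y (e i) := ⟨h.Q_e i, h.r1 i⟩

theorem sign (h : FY Y e) (hx : Ro Y x) (I : Finset ι) :
    ∃ y, Ro Y y ∧ ∀ i, polar Q (e i) y = if i ∈ I then -polar Q (e i) x else polar Q (e i) x := by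
  induction I using Finset.induction_on with
  | empty => exact ⟨x, hx, by simp⟩
  | insert k I hk ih =>
    obtain ⟨y, hy, H⟩ := ih
    refine ⟨_, hy.map (h.r1 k), fun i => ?_⟩
    rw [h.co_refl, H]
    by_cases hi : i = k
    · simp [hi, hk]
    · simp [hi]

theorem swap (h : FY Y e) (hx : Ro Y x) {a b : ι} (hab : a ≠ b)
    (H : polar Q (e a) x ^ 2 = polar Q (e b) x ^ 2) {i k : ι} (hik : i ≠ k) :
    Ro Y ((refl Q (e i - e k)).1 x) := by
  have : Ro Y ((refl Q (e a - e b)).1 x) := by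
    rcases sq_eq_sq_iff_eq_or_eq_neg.1 H with H | H
    · rwa [refl_of_perp (by rw [polar_sub_left, H, sub_self])]
    · convert (hx.map (h.r1 a)).map (h.r1 b) using 1
      refine h.ext fun m => ?_
      rw [h.co_swap hab, h.co_refl, h.co_refl]
      by_cases h1 : m = a
      · simp [h1, hab, H]
      by_cases h2 : m = b
      · simp [h2, hab.symm, H]
      · simp [h1, h2, Equiv.swap_apply_of_ne_of_ne h1 h2]
  have := this.map (h.r2 i k a b hik hab)
  rwa [← OG.mul_apply, mul_assoc, refl_mul_self, mul_one] at this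

theorem rg (h : FY Y e) (hx : Ro Y x) {a b : ι} (hab : a ≠ b) (ha : polar Q (e a) x ≠ 0)
    (hb : polar Q (e b) x ≠ 0) : RG Y := by
  have h7 := h.seven
  obtain ⟨L, hL⟩ : ∃ L : ι → ι → Prop, ∀ a b, L a b ↔ ∃ x, Ro Y x ∧ polar Q (e a) x ≠ 0 ∧ polar Q (e b) x ≠ 0 :=
    ⟨_, fun _ _ => Iff.rfl⟩
  have sy : ∀ a b, L a b → L b a := fun a b H => by
    obtain ⟨x, h1, h2, h3⟩ := (hL _ _).1 H; exact (hL _ _).2 ⟨x, h1, h3, h2⟩
  have st : ∀ a b, a ≠ b → L a b → ∀ k, k ≠ a → L a k := fun a b hab H k hk => by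
    by_cases hkb : k = b
    · exact hkb ▸ H
    obtain ⟨x, h1, h2, h3⟩ := (hL _ _).1 H
    obtain ⟨u, hu⟩ := exists_out_list [a, b, k] (by simp; omega)
    obtain ⟨v, hv⟩ := exists_out_list [a, b, k, u] (by simp; omega)
    simp only [List.mem_cons, List.not_mem_nil, or_false, not_or] at hu hv
    refine (hL _ _).2 ⟨_, h1.map (h.r2 k b u v hkb (Ne.symm hv.2.2.2)), ?_, ?_⟩
    · rwa [OG.mul_apply, h.co_swap hkb, h.co_swap (Ne.symm hv.2.2.2), Equiv.swap_apply_of_ne_of_ne hk.symm hab,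
        Equiv.swap_apply_of_ne_of_ne (Ne.symm hu.1) (Ne.symm hv.1)]
    · rwa [OG.mul_apply, h.co_swap hkb, h.co_swap (Ne.symm hv.2.2.2), Equiv.swap_apply_left,
        Equiv.swap_apply_of_ne_of_ne (Ne.symm hu.2.1) (Ne.symm hv.2.1)]
  have al : ∀ i j, i ≠ j → L i j := fun i j hij => by
    have h0 := st a b hab ((hL _ _).2 ⟨x, hx, ha, hb⟩)
    by_cases hi : i = a
    · subst hi; exact h0 j hij.symm
    · exact st i a hi (sy _ _ (h0 i hi)) j hij.symm
  refine ⟨h.hn, h.two, h.prime, fun U hU H => ?_⟩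
  obtain ⟨u, hu, hu0⟩ := (Submodule.ne_bot_iff _).1 hU
  obtain ⟨i, hi⟩ : ∃ i, polar Q (e i) u ≠ 0 := by
    by_contra! hc; exact hu0 (h.ext fun i => by simp [hc])
  have step : ∀ a ∈ U, ∀ b, Ro Y b → polar Q a b ≠ 0 → b ∈ U := fun a ha b hb e =>
    (H b hb).resolve_right fun hc => e (hc a ha)
  have h1 := step u hu _ (h.ro i) (by rwa [polar_comm])
  refine eq_top_iff.2 fun v _ => h.sum v ▸ U.sum_mem fun l _ => U.smul_mem _ ?_
  by_cases hl : i = l
  · exact hl ▸ h1
  obtain ⟨y, h2, h3, h4⟩ := (hL _ _).1 (al i l hl)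
  exact step y (step _ h1 y h2 h3) _ (h.ro l) (by rwa [polar_comm])

section Big
variable [Finite F] [FiniteDimensional F V]

theorem a2 (h : FY Y e) (h3 : (3 : F) ≠ 0) (hN : ¬ NE Y) (hx : Ro Y x) {i j k : ι} (hij : i ≠ j) (hki : k ≠ i)
    (hkj : k ≠ j) (hi : polar Q (e i) x ≠ 0) (hj : polar Q (e j) x ≠ 0) (hk : polar Q (e k) x ≠ 0) :
    A2 (polar Q (e i) x ^ 2) (polar Q (e j) x ^ 2) := by
  have := rank3 h.hn h.two (h.ro i) (h.ro j) hx (by simp [h.on, hij]) hi hj (fun hs => hk (by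
    obtain ⟨α, β, rfl⟩ := Submodule.mem_span_pair.1 hs
    simp [h.on, hki, hkj])) hN
  exact a2_of_g3 h.two h3 (pow_ne_zero _ hi) (pow_ne_zero _ hj) this.1 this.2.1 this.2.2

theorem no3 (h : FY Y e) (h3 : (3 : F) ≠ 0) (hN : ¬ NE Y) (hx : Ro Y x) {i j k : ι} (hij : i ≠ j) (hik : i ≠ k)
    (hjk : j ≠ k) (hi : polar Q (e i) x ≠ 0) (hj : polar Q (e j) x ≠ 0) : polar Q (e k) x = 0 := by
  classical
  by_contra hk
  obtain ⟨h7, h2⟩ := And.intro h.seven h.two
  have h4 : (4 : F) ≠ 0 := fun h => mul_ne_zero h2 h2 (by linear_combination h)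
  obtain ⟨S, hS⟩ : ∃ S : Finset ι, ∀ i, i ∈ S ↔ polar Q (e i) x ≠ 0 :=
    ⟨Finset.univ.filter fun i => polar Q (e i) x ≠ 0, by simp⟩
  have c3 : 2 < S.card := Finset.two_lt_card_iff.2 ⟨i, j, k, (hS _).2 hi, (hS _).2 hj, (hS _).2 hk, hij, hik, hjk⟩
  clear hi hj hk hij hik hjk i j k
  have A : ∀ i ∈ S, ∀ j ∈ S, i ≠ j → A2 (polar Q (e i) x ^ 2) (polar Q (e j) x ^ 2) := fun i hi j hj hij => by
    obtain ⟨k, hk, hk'⟩ := Finset.exists_mem_notMem_of_card_lt_card (s := {i, j})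
      (Finset.card_le_two.trans_lt c3)
    simp only [Finset.mem_insert, Finset.mem_singleton, not_or] at hk'
    exact h.a2 h3 hN hx hij hk'.1 hk'.2 ((hS _).1 hi) ((hS _).1 hj) ((hS _).1 hk)
  obtain ⟨T, hT⟩ : ∃ T : Finset ι, ∀ i, i ∈ T ↔ i ∈ S ∧ polar Q (e i) x ^ 2 ≠ 1 :=
    ⟨S.filter fun i => polar Q (e i) x ^ 2 ≠ 1, by simp⟩
  have cT : T.card ≤ 2 := by
    by_contra! hc
    obtain ⟨i, j, k, hi, hj, hk, hij, hik, hjk⟩ := Finset.two_lt_card_iff.1 hc
    rw [hT] at hi hj hk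
    have a := ((A i hi.1 j hj.1 hij).2.2.2.resolve_left hi.2).resolve_left hj.2
    have b := ((A i hi.1 k hk.1 hik).2.2.2.resolve_left hi.2).resolve_left hk.2
    exact hj.2 ((A j hj.1 k hk.1 hjk).2.2.1 (by linear_combination a - b))
  have cT' : 5 ≤ Tᶜ.card := by rw [Finset.card_compl]; omega
  have one : ∀ i ∈ S, i ∉ T → polar Q (e i) x ^ 2 = 1 := fun i hi hi' => by_contra fun e => hi' ((hT i).2 ⟨hi, e⟩)
  by_cases hZ : ∀ k, k ∈ S
  · obtain ⟨I, hI, hI4⟩ := Finset.exists_subset_card_eq (s := Tᶜ) (n := 4) (by omega)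
    obtain ⟨y, hy, H⟩ := h.sign hx I
    obtain ⟨m, hm⟩ := exists_out I (by omega)
    refine hN (hx.ne hy.neg ?_ fun e0 => ?_)
    · rw [polar_neg_right, h.polar_sign hx.1 H, Finset.sum_congr rfl fun i hi =>
        one i (hZ i) (by simpa using hI hi)]
      simp [hI4]; norm_num
    · have := congrArg (polar Q (e m)) e0
      rw [polar_neg_right, H, if_neg hm] at this
      exact mul_ne_zero h2 ((hS m).1 (hZ m)) (by linear_combination -this)
  push Not at hZ
  obtain ⟨k, hk⟩ := hZ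
  have k0 : polar Q (e k) x = 0 := by simpa [hS] using hk
  obtain ⟨i, hi, hi'⟩ := Finset.exists_mem_notMem_of_card_lt_card (cT.trans_lt c3)
  have i1 := one i hi hi'
  have hik : i ≠ k := by rintro rfl; exact hk hi
  obtain ⟨a, -, b, -, hab, H⟩ := Finset.exists_ne_map_eq_of_card_lt_of_maps_to (s := Tᶜ) (t := ({0, 1} : Finset F))
    (Finset.card_le_two.trans_lt (by omega)) (f := fun i => polar Q (e i) x ^ 2) fun a ha => by
      by_cases h1 : a ∈ S
      · simp [one a h1 (by simpa using ha)]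
      · simp [show polar Q (e a) x = 0 by simpa [hS] using h1]
  have hy := hx.refl (h.swap hx hab H hik)
  rw [h.polar_swap hik hx.1 k0, i1] at hy
  obtain ⟨y, hy'⟩ : ∃ y, y = (refl Q (e i - e k)).1 x - ((2 : F) - 1 / 2) • x := ⟨_, rfl⟩
  rw [← hy'] at hy
  have c1 : ∀ j ∈ S.erase i, polar Q (e j) y = -polar Q (e j) x / 2 := fun j hj => by
    obtain ⟨h1, h5⟩ := Finset.mem_erase.1 hj
    rw [hy', polar_sub_right, h.co_swap hik, Equiv.swap_apply_of_ne_of_ne h1 (by rintro rfl; exact hk h5),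
      polar_smul_right, smul_eq_mul]
    field_simp; ring
  have c2 : polar Q (e k) y ≠ 0 := by
    rw [hy', polar_sub_right, h.co_swap hik, Equiv.swap_apply_right, polar_smul_right, k0, smul_zero, sub_zero]
    exact (hS i).1 hi
  have B : ∀ j ∈ S.erase i, ∀ l ∈ S.erase i, j ≠ l → polar Q (e j) x ^ 2 ≠ polar Q (e l) x ^ 2 ∧
      polar Q (e j) x ^ 2 + polar Q (e l) x ^ 2 = 12 := fun j hj l hl hjl => by
    have hj' := Finset.mem_of_mem_erase hj
    have hl' := Finset.mem_of_mem_erase hl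
    obtain ⟨-, -, a1, a2⟩ := h.a2 h3 hN hy hjl (k := k) (by rintro rfl; exact hk hj') (by rintro rfl; exact hk hl')
      (by simp [c1 j hj, (hS j).1 hj', h2]) (by simp [c1 l hl, (hS l).1 hl', h2]) c2
    obtain ⟨b1, b2, -⟩ := A j hj' l hl' hjl
    rw [c1 j hj, c1 l hl] at a1 a2
    have f : ∀ c : F, (-c / 2) ^ 2 = 1 → c ^ 2 = 4 := fun c e => by field_simp at e; linear_combination e
    refine ⟨fun e => b1 (f _ (a1 (by rw [div_pow, div_pow, neg_sq, neg_sq, e]))), ?_⟩
    have := (a2.resolve_left fun e => b1 (f _ e)).resolve_left fun e => b2 (f _ e)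
    field_simp at this; linear_combination this
  have c4 : (S.erase i).card = S.card - 1 := Finset.card_erase_of_mem hi
  by_cases hc : 2 < (S.erase i).card
  · obtain ⟨j, l, m, hj, hl, hm, h1, h5, h6⟩ := Finset.two_lt_card_iff.1 hc
    exact (B l hl m hm h6).1 (by linear_combination (B j hj l hl h1).2 - (B j hj m hm h5).2)
  obtain ⟨j, l, hjl, e1⟩ := Finset.card_eq_two.1 (show (S.erase i).card = 2 by omega)
  have e2 := h.sum_sq hx.1 (S := S) fun i hi => by simpa [hS] using hi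
  rw [← Finset.add_sum_erase _ _ hi, e1, Finset.sum_pair hjl, (B j (by simp [e1]) l (by simp [e1]) hjl).2, i1] at e2
  exact mul_ne_zero h3 h3 (by linear_combination e2)

theorem long (h : FY Y e) (h3 : (3 : F) ≠ 0) (hN : ¬ NE Y) (hx : Ro Y x) {i j : ι} (hij : i ≠ j)
    (hi : polar Q (e i) x ≠ 0) (hj : polar Q (e j) x ≠ 0) :
    polar Q (e i) x ^ 2 = 2 ∧ ∃ y, Ro Y y ∧ polar Q x y = 1 := by
  have h7 := h.seven
  have h2 := h.two
  obtain ⟨k, hk⟩ := exists_out_list [i, j] (by simp; omega)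
  obtain ⟨l, hl⟩ := exists_out_list [i, j, k] (by simp; omega)
  simp only [List.mem_cons, List.not_mem_nil, or_false, not_or] at hk hl
  have z : ∀ m, m ≠ i → m ≠ j → polar Q (e m) x = 0 := fun m h1 h4 => h.no3 h3 hN hx hij h1.symm h4.symm hi hj
  have hy := h.swap hx (Ne.symm hl.2.2) (by rw [z k hk.1 hk.2, z l hl.1 hl.2.1]) (Ne.symm hk.1)
  have e1 := h.polar_swap (Ne.symm hk.1) hx.1 (z k hk.1 hk.2)
  have e2 := h.sum_sq hx.1 (S := {i, j}) fun m hm => by
    simp only [Finset.mem_insert, Finset.mem_singleton, not_or] at hm; exact z m hm.1 hm.2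
  rw [Finset.sum_pair hij] at e2
  have e3 : polar Q x ((refl Q (e i - e k)).1 x) ≠ 0 := fun e0 => hj (pow_eq_zero_iff two_ne_zero |>.1 (by
    rw [e1] at e0; field_simp at e0; linear_combination e2 + e0))
  have e4 := h.no3 h3 hN (hx.refl hy) (Ne.symm hk.1) hij hk.2
    (by simpa [h.co_swap (Ne.symm hk.1), z k hk.1 hk.2, hi] using e3)
    (by simpa [h.co_swap (Ne.symm hk.1), z k hk.1 hk.2] using hi)
  rw [polar_sub_right, h.co_swap (Ne.symm hk.1), Equiv.swap_apply_of_ne_of_ne hij.symm (Ne.symm hk.2),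
    polar_smul_right, smul_eq_mul] at e4
  have e5 : polar Q x ((refl Q (e i - e k)).1 x) = 1 :=
    (mul_right_cancel₀ hj (by linear_combination -e4))
  refine ⟨?_, _, hy, e5⟩
  rw [e1] at e5; field_simp at e5; linear_combination -e5

theorem ne_one (h : FY Y e) (h3 : (3 : F) ≠ 0) (hN : ¬ NE Y) (hx : Ro Y x) (i : ι) : polar Q (e i) x ≠ 1 := by
  intro hi
  by_cases hj : ∃ j ≠ i, polar Q (e j) x ≠ 0
  · obtain ⟨j, hj, hj0⟩ := hj
    have := (h.long h3 hN hx hj.symm (by simp [hi]) hj0).1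
    rw [hi] at this
    exact one_ne_zero (α := F) (by linear_combination -this)
  · push Not at hj
    have := h.sum_sq hx.1 (S := {i}) fun m hm => hj m (by simpa using hm)
    rw [Finset.sum_singleton, hi] at this
    exact h3 (by linear_combination -this)

end Big

theorem four [FiniteDimensional F V] (h : FY Y e) (h3 : (3 : F) = 0) (hx : Ro Y x) {J : Finset ι}
    (hJ : J.card = 4) (H : ∀ i, polar Q (e i) x ≠ 0 ↔ i ∈ J) : EG (Formed.ofQuad Q) ≤ Y.map (OG Q).subtype := by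
  have h7 := h.seven
  have h2 := h.two
  obtain ⟨c, hc⟩ : ∃ c : ι → F, ∀ i, polar Q (e i) x = c i := ⟨_, fun _ => rfl⟩
  simp only [hc] at H
  have q : ∀ i ∈ J, c i * c i = 1 := fun i hi => (h.sq_three h3 _).resolve_left ((H i).2 hi)
  obtain ⟨k, hk⟩ := Finset.card_pos.1 (show 0 < J.card by omega)
  obtain ⟨a, b, d, hab, had, hbd, hK⟩ := Finset.card_eq_three.1 (show (J.erase k).card = 3 by
    rw [Finset.card_erase_of_mem hk, hJ])
  have ha := Finset.mem_erase.1 (hK ▸ show a ∈ ({a, b, d} : Finset ι) by simp)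
  have hb := Finset.mem_erase.1 (hK ▸ show b ∈ ({a, b, d} : Finset ι) by simp)
  have hd := Finset.mem_erase.1 (hK ▸ show d ∈ ({a, b, d} : Finset ι) by simp)
  have z : ∀ m, m ≠ a → m ≠ b → m ≠ d → m ≠ k → c m = 0 := fun m h1 h4 h5 h6 => by
    by_contra h0
    have : m ∈ J.erase k := Finset.mem_erase.2 ⟨h6, (H m).1 h0⟩
    simp [hK, h1, h4, h5] at this
  have R := h.rg hx hab (hc a ▸ (H a).2 ha.2) (hc b ▸ (H b).2 hb.2)
  have sw : ∀ i j, i ≠ j → Ro Y ((refl Q (e i - e j)).1 x) := fun i j hij =>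
    h.swap hx hab (by rw [hc, hc, _root_.sq, _root_.sq, q a ha.2, q b hb.2]) hij
  obtain ⟨p, hp⟩ : ∃ p, p = (-c a) • e a + (-c b) • e b + (-c d) • e d := ⟨_, rfl⟩
  have pa : polar Q (e a) p = c a := by simp [hp, h.on, hab, had]; linear_combination -c a * h3
  have pb : polar Q (e b) p = c b := by simp [hp, h.on, hab.symm, hbd]; linear_combination -c b * h3
  have pd : polar Q (e d) p = c d := by simp [hp, h.on, had.symm, hbd.symm]; linear_combination -c d * h3
  have p0 : ∀ m, m ≠ a → m ≠ b → m ≠ d → polar Q (e m) p = 0 := fun m h1 h4 h5 => by simp [hp, h.on, h1, h4, h5]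
  have pv : ∀ v, polar Q p v = -(c a * polar Q (e a) v + c b * polar Q (e b) v + c d * polar Q (e d) v) :=
    fun v => by simp [hp]; ring
  have key : ∀ y, Ro Y y → ∀ l, l ≠ a → l ≠ b → l ≠ d → polar Q (e l) y = c k →
      (∀ m, m ≠ l → polar Q (e m) y = polar Q (e m) p) → Ae Y p (e l) := fun y hy l h1 h4 h5 e1 e2 => by
    have e3 : y = p + (-c k) • e l := h.ext fun m => by
      by_cases hm : m = l
      · subst hm; simp [e1, p0 m h1 h4 h5, h.on]; linear_combination c k * h3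
      · simp [e2 m hm, h.on, hm]
    have h6 := hy.ae (hy.map (h.r1 l)).neg (by
      rw [polar_neg_right, (h.ro l).app, polar_sub_right, polar_self', hy.1, polar_smul_right, polar_comm Q y, e1,
        smul_eq_mul, q k hk]
      linear_combination -h3)
    rw [show -(refl Q (e l)).1 y - y = p by
      rw [(h.ro l).app, e1, e3]; match_scalars
      · linear_combination -h3
      · linear_combination c k * h3] at h6
    have := h6.sub (ae_smul h6.1 1)
    rw [e3, one_smul, add_sub_cancel_left] at this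
    exact R.of_smul this (neg_ne_zero.2 ((H k).2 hk))
  have xp : ∀ m, m ≠ k → c m = polar Q (e m) p := fun m hm => by
    by_cases h1 : m = a
    · rw [h1, pa]
    by_cases h4 : m = b
    · rw [h4, pb]
    by_cases h5 : m = d
    · rw [h5, pd]
    · rw [p0 m h1 h4 h5, z m h1 h4 h5 hm]
  have hk' := key x hx k ha.1.symm hb.1.symm hd.1.symm (hc k) fun m hm => by rw [hc, xp m hm]
  have h5 : ∀ l, l ≠ a → l ≠ b → l ≠ d → Ae Y p (e l) := fun l h1 h4 h5 => by
    by_cases hl : k = l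
    · exact hl ▸ hk'
    refine key _ (sw k l hl) l h1 h4 h5 (by rw [h.co_swap hl, Equiv.swap_apply_right, hc]) fun m hm => ?_
    rw [h.co_swap hl, hc]
    by_cases h6 : m = k
    · rw [h6, Equiv.swap_apply_left, z l h1 h4 h5 (Ne.symm hl), p0 k ha.1.symm hb.1.symm hd.1.symm]
    · rw [Equiv.swap_apply_of_ne_of_ne h6 hm, xp m h6]
  have h6 : ∀ w, polar Q (e a) w = 0 → polar Q (e b) w = 0 → polar Q (e d) w = 0 → Ae Y p w := fun w h1 h4 h8 => by
    rw [← h.sum w]
    refine Finset.sum_induction _ _ (fun _ _ => Ae.add) (by simpa using ae_smul hk'.1 0) fun l _ => ?_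
    by_cases h0 : polar Q (e l) w = 0
    · simpa [h0] using ae_smul hk'.1 0
    · exact R.smul (h5 l (by rintro rfl; exact h0 h1) (by rintro rfl; exact h0 h4) (by rintro rfl; exact h0 h8)) _
  obtain ⟨l, hl⟩ := exists_out_list [a, b, d, k] (by simp; omega)
  simp only [List.mem_cons, List.not_mem_nil, or_false, not_or] at hl
  have hdl : d ≠ l := Ne.symm hl.2.2.1
  have hy := (sw d l hdl).map (h.r1 b)
  obtain ⟨y, hy'⟩ : ∃ y, y = (refl Q (e b)).1 ((refl Q (e d - e l)).1 x) := ⟨_, rfl⟩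
  rw [← hy'] at hy
  have ya : polar Q (e a) y = c a := by
    rw [hy', h.co_refl, if_neg hab, h.co_swap hdl, Equiv.swap_apply_of_ne_of_ne had (Ne.symm hl.1), hc]
  have yb : polar Q (e b) y = -c b := by
    rw [hy', h.co_refl, if_pos rfl, h.co_swap hdl, Equiv.swap_apply_of_ne_of_ne hbd (Ne.symm hl.2.1), hc]
  have yd : polar Q (e d) y = 0 := by
    rw [hy', h.co_refl, if_neg hbd.symm, h.co_swap hdl, Equiv.swap_apply_left, hc, z l hl.1 hl.2.1 hl.2.2.1 hl.2.2.2]
  have yk : polar Q (e k) y = c k := by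
    rw [hy', h.co_refl, if_neg hb.1.symm, h.co_swap hdl, Equiv.swap_apply_of_ne_of_ne hd.1.symm (Ne.symm hl.2.2.2), hc]
  have h8 := R.of_root hk' hy (by rw [polar_comm, pv, ya, yb, yd]; linear_combination q b hb.2 - q a ha.2)
    (by rw [polar_comm, yk]; exact (H k).2 hk)
  refine R.EG_le_of_full (p := p) (fun e0 => (H a).2 ha.2 (by rw [← pa, e0, polar_zero_right])) hk'.1
    fun v hv => ?_
  rw [pv, neg_eq_zero] at hv
  have := ((h6 (v - (c d * polar Q (e d) v) • p - (c a * polar Q (e a) v - c d * polar Q (e d) v) • y) ?_ ?_ ?_).add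
    (ae_smul hk'.1 (c d * polar Q (e d) v))).add (R.smul h8 (c a * polar Q (e a) v - c d * polar Q (e d) v))
  · convert this using 1; abel
  · simp only [polar_sub_right, polar_smul_right, pa, ya, smul_eq_mul]
    linear_combination -polar Q (e a) v * q a ha.2
  · simp only [polar_sub_right, polar_smul_right, pb, yb, smul_eq_mul]
    linear_combination c b * hv - polar Q (e b) v * q b hb.2 - c b * c d * polar Q (e d) v * h3
  · simp only [polar_sub_right, polar_smul_right, pd, yd, smul_eq_mul]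
    linear_combination -polar Q (e d) v * q d hd.2

theorem three [FiniteDimensional F V] (h : FY Y e) (h3 : (3 : F) = 0) (hx : Ro Y x) {a b : ι} (hab : a ≠ b)
    (ha : polar Q (e a) x ≠ 0) (hb : polar Q (e b) x ≠ 0) : EG (Formed.ofQuad Q) ≤ Y.map (OG Q).subtype := by
  have h2 := h.two
  have sm : ∀ I : Finset ι, (∀ i ∈ I, polar Q (e i) x ≠ 0) → ∑ i ∈ I, polar Q (e i) x ^ 2 = I.card :=
    fun I hI => by
      rw [Finset.sum_congr rfl (g := fun _ => 1) fun i hi => by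
        rw [_root_.sq, (h.sq_three h3 _).resolve_left (hI i hi)]]
      simp
  obtain ⟨J, H⟩ : ∃ J : Finset ι, ∀ i, polar Q (e i) x ≠ 0 ↔ i ∈ J := by
    classical exact ⟨Finset.univ.filter fun i => polar Q (e i) x ≠ 0, by simp⟩
  have e1 : (J.card : F) = 4 := by
    rw [← sm J fun i => (H i).2, h.sum_sq hx.1 fun i hi => not_not.1 (mt (H i).1 hi)]
  have e2 : J.card % 3 = 1 := by
    rw [← Nat.div_add_mod J.card 3] at e1
    rcases (by omega : J.card % 3 = 0 ∨ J.card % 3 = 1 ∨ J.card % 3 = 2) with e | e | e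
    · simp [e, h3] at e1; exact absurd (by linear_combination -e1 - h3) (one_ne_zero (α := F))
    · exact e
    · simp [e, h3] at e1; exact absurd (by linear_combination -e1) h2
  have e3 : 1 < J.card := Finset.one_lt_card.2 ⟨a, (H a).1 ha, b, (H b).1 hb, hab⟩
  obtain ⟨K, hK, hK4⟩ := Finset.exists_subset_card_eq (s := J) (n := 4) (by omega)
  obtain ⟨y, hy, G⟩ := h.sign hx (J \ K)
  have e4 : polar Q x y = 2 := by
    rw [h.polar_sign hx.1 G, sm _ fun i hi => (H i).2 (Finset.mem_sdiff.1 hi).1, Finset.card_sdiff_of_subset hK,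
      Nat.cast_sub (by omega), e1, hK4]
    norm_num
  refine h.four h3 (hx.refl hy) hK4 fun i => ?_
  rw [e4, polar_sub_right, G, polar_smul_right, smul_eq_mul]
  by_cases h1 : i ∈ K
  · simp only [Finset.mem_sdiff, h1, not_true, and_false, if_false, iff_true]
    exact fun e0 => (H i).2 (hK h1) (by linear_combination -e0)
  by_cases h4 : i ∈ J
  · simp only [Finset.mem_sdiff, h1, h4, not_false_iff, and_true, if_true, iff_false, not_not]
    linear_combination -polar Q (e i) x * h3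
  · simp [h1, h4, not_not.1 (mt (H i).1 h4)]

theorem mon [Finite F] [FiniteDimensional F V] (h : FY Y e) (hE : ¬ EG (Formed.ofQuad Q) ≤ Y.map (OG Q).subtype)
    {g : OG Q} (hg : g ∈ Y) : Mon e g := fun i => by
  have h2 := h.two
  have hx := (h.ro i).map hg
  by_cases hc : ∃ a b, a ≠ b ∧ polar Q (e a) (g.1 (e i)) ≠ 0 ∧ polar Q (e b) (g.1 (e i)) ≠ 0
  · obtain ⟨a, b, hab, ha, hb⟩ := hc
    by_cases h3 : (3 : F) = 0
    · exact absurd (h.three h3 hx hab ha hb) hE
    have hN : ¬ NE Y := fun ⟨_, _, a1, a2, a3⟩ => hE ((h.rg hx hab ha hb).EG_le h3 a1 a2 a3)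
    obtain ⟨-, y, hy, e1⟩ := h.long h3 hN hx hab ha hb
    exact absurd (by rwa [OG.polar_inv_right]) (h.ne_one h3 hN (hy.map (inv_mem hg)) i)
  push Not at hc
  obtain ⟨j, hj⟩ : ∃ j, polar Q (e j) (g.1 (e i)) ≠ 0 := by
    by_contra! H
    have := hx.1
    rw [show g.1 (e i) = 0 from h.ext fun j => by simp [H]] at this
    simp at this
  have e1 := h.sum_sq hx.1 (S := {j}) fun m hm => hc j m (Ne.symm (by simpa using hm)) hj
  rw [Finset.sum_singleton] at e1
  refine ⟨j, polar Q (e j) (g.1 (e i)) / 2, by field_simp; linear_combination e1, h.ext fun m => ?_⟩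
  by_cases hm : m = j
  · simp [hm, h.on, h2]
  · simp [hm, h.on, hc j m (Ne.symm hm) hj]

end FY

theorem Fo.mon_e (h : Fo Q e) (k : ι) : Mon e (refl Q (e k)) := fun i => by
  by_cases hi : k = i
  · exact ⟨i, -1, by simp, by rw [hi, refl_self (by simp [h.Q_e]), neg_one_smul]⟩
  · exact ⟨i, 1, by simp, by rw [refl_of_perp (by simp [h.on, hi]), one_smul]⟩

theorem Fo.mon_sub (h : Fo Q e) {k l : ι} (hkl : k ≠ l) : Mon e (refl Q (e k - e l)) := fun i =>
  ⟨Equiv.swap k l i, 1, by simp, h.ext fun m => by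
    rw [h.co_swap hkl, one_smul, h.on, h.on]; simp only [Equiv.swap_apply_eq_iff]⟩

theorem Fo.isMaximalIn [Finite F] [FiniteDimensional F V] (h : Fo Q e) (h7 : 7 ≤ Fintype.card ι)
    (ho : Odd (Fintype.card ι)) (h5 : 5 ≤ finrank F V) {H : Subgroup (V ≃ₗ[F] V)}
    (hH : ∀ g : OG Q, g.1 ∈ H ↔ Mon e g) :
    Geo.IsMaximalIn (EG (Formed.ofQuad Q)) (H ⊓ EG (Formed.ofQuad Q)) := by
  have h2 := h.two
  have rr : ∀ u v, Q u = Q v → Q v ≠ 0 → (refl Q u * refl Q v).1 ∈ EG (Formed.ofQuad Q) := fun u v e1 e2 =>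
    (mem_EG_quad h.hn h5).2 (refl_mul_refl_mem_commutator h.hn e2 one_ne_zero (by simp [e1]))
  refine max_crit inf_le_right ?_ fun X h1 h3 g hg hg' => ?_
  · obtain ⟨J, -, hJ⟩ := Finset.exists_subset_card_eq (s := (Finset.univ : Finset ι)) (n := 3) (by simp; omega)
    obtain ⟨i, j, k, hij, hik, hjk, -⟩ := Finset.card_eq_three.1 hJ
    obtain ⟨l, hl⟩ := exists_out_list [i, j, k] (by simp; omega)
    simp only [List.mem_cons, List.not_mem_nil, or_false, not_or] at hl
    obtain ⟨y, hy⟩ : ∃ y, y = (2 : F)⁻¹ • (e i + e j + e k + e l) := ⟨_, rfl⟩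
    have c : polar Q (e i) y = 1 ∧ polar Q (e j) y = 1 ∧ polar Q (e k) y = 1 ∧ polar Q (e l) y = 1 := by
      simp [hy, h.on, hij, hik, hjk, hij.symm, hik.symm, hjk.symm, hl, Ne.symm hl.1, Ne.symm hl.2.1,
        Ne.symm hl.2.2, h2]
    have q : Q y = 1 := mul_left_cancel₀ h2 (by
      rw [← polar_self']; nth_rw 1 [hy]; simp [c]; field_simp; ring)
    refine ⟨_, rr (e i) y (by rw [q, h.Q_e]) (by simp [q]), fun hc => ?_⟩
    obtain ⟨n, ε, -, e1⟩ := (h.mon_e i).mul ((hH _).1 hc.1) i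
    rw [refl_mul_cancel, refl_apply, q, polar_comm, c.1] at e1
    have e2 := congrArg (polar Q (e j)) e1
    have e3 := congrArg (polar Q (e k)) e1
    by_cases hn : j = n
    · simp [c, h.on, hik.symm, ← hn, hjk.symm] at e3
    · simp [c, h.on, hij.symm, hn] at e2
  by_contra hc
  have mX : ∀ u v, Q u = Q v → Q v ≠ 0 → Mon e (refl Q u) → Mon e (refl Q v) → (refl Q u * refl Q v).1 ∈ X :=
    fun u v a b c d => h1 ⟨(hH _).2 (c.mul d), rr u v a b⟩
  have sg : ∀ m, ∀ I : Finset ι, I.card = 2 * m → ∃ g : OG Q, g.1 ∈ X ∧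
      ∀ x i, polar Q (e i) (g.1 x) = if i ∈ I then -polar Q (e i) x else polar Q (e i) x := fun m => by
    induction m with
    | zero => exact fun I hI => ⟨1, one_mem _, by simp [Finset.card_eq_zero.1 hI]⟩
    | succ m ih =>
      intro I hI
      obtain ⟨k, hk, l, hl, hkl⟩ := Finset.one_lt_card.1 (show 1 < I.card by omega)
      obtain ⟨g, hg, H⟩ := ih ((I.erase k).erase l) (by
        rw [Finset.card_erase_of_mem (by simp [hl, hkl.symm]), Finset.card_erase_of_mem hk]; omega)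
      refine ⟨refl Q (e k) * refl Q (e l) * g, mul_mem (mX _ _ (by simp [h.Q_e]) (by simp [h.Q_e]) (h.mon_e k)
        (h.mon_e l)) hg, fun x i => ?_⟩
      rw [OG.mul_apply, OG.mul_apply, h.co_refl, h.co_refl, H]
      by_cases h1 : i = k
      · simp [h1, hk, hkl]
      by_cases h2 : i = l
      · simp [h2, hl, hkl.symm]
      · simp [h1, h2]
  have nr : ∀ i, ∃ g : OG Q, g.1 ∈ X ∧ ∀ v, (refl Q (e i)).1 v = (-1 : F) • g.1 v := fun i => by
    obtain ⟨m, hm⟩ := ho
    obtain ⟨g, hg, H⟩ := sg m (Finset.univ.erase i) (by simp [hm])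
    refine ⟨g, hg, fun v => h.ext fun j => ?_⟩
    rw [h.co_refl, polar_smul_right, H]
    by_cases hj : j = i <;> simp [hj]
  let Y : Subgroup (OG Q) :=
    { carrier := {g | ∃ ε : F, ε * ε = 1 ∧ ∃ k : OG Q, k.1 ∈ X ∧ ∀ v, g.1 v = ε • k.1 v}
      one_mem' := ⟨1, by simp, 1, one_mem _, by simp⟩
      mul_mem' := fun {a b} ⟨ε, a1, k, a2, a3⟩ ⟨δ, b1, l, b2, b3⟩ =>
        ⟨ε * δ, by linear_combination δ * δ * a1 + b1, k * l, mul_mem a2 b2, fun v => by
          rw [OG.mul_apply, OG.mul_apply, a3, b3, map_smul, smul_smul]⟩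
      inv_mem' := fun {a} ⟨ε, a1, k, a2, a3⟩ => ⟨ε, a1, k⁻¹, inv_mem a2, fun v => a.1.injective (by
        rw [OG.apply_inv_apply, map_smul, a3, OG.apply_inv_apply, smul_smul, a1, one_smul])⟩ }
  have hY : FY Y e := ⟨h, h7, fun i => ⟨-1, by simp, nr i⟩, fun i j k l a b => ⟨1, by simp, _,
    mX _ _ (by rw [h.Q_sub a, h.Q_sub b]) (by rwa [h.Q_sub b]) (h.mon_sub a) (h.mon_sub b), by simp⟩⟩
  refine hg' ⟨(hH ⟨g, EG_le_isom (h3 hg)⟩).2 (hY.mon (fun H => hc fun g hg => ?_) 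
    ⟨1, by simp, ⟨g, EG_le_isom (h3 hg)⟩, hg, by simp⟩), h3 hg⟩
  obtain ⟨g', ⟨ε, a1, k, a2, a3⟩, rfl⟩ := H hg
  rcases mul_self_eq_one_iff.1 a1 with rfl | rfl
  · rwa [show g' = k from OG.ext fun v => by simpa using a3 v]
  obtain ⟨i⟩ : Nonempty ι := Fintype.card_pos_iff.1 (by omega)
  obtain ⟨l, b1, b2⟩ := nr i
  have e1 : refl Q (e i) = g' * k⁻¹ * l := OG.ext fun v => by
    rw [b2, OG.mul_apply, OG.mul_apply, a3, OG.apply_inv_apply]
  have := noRefl_quad h.hn h5 (refl Q (e i)).1 (e1 ▸ mul_mem (mul_mem hg (inv_mem (h3 a2))) (h3 b1)) (e i)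
    (fun v => by
      rw [refl_apply]; simpa using Submodule.smul_mem _ _ (Submodule.mem_span_singleton_self _)) (e i)
  rw [refl_self (by simp [h.Q_e]), ← neg_add', ← two_smul F] at this
  simp [Formed.ofQuad, quad_smul, h.Q_e, h2] at this

theorem ODec.isMaximalIn_frame_odd [Finite F] [FiniteDimensional F V] {t : ℕ} {D : Fin t → Submodule F V}
    (h : ODec (Formed.ofQuad Q) 1 D) (h2 : (2 : F) ≠ 0) (hp : (Nat.card F).Prime) (h7 : 7 ≤ finrank F V)
    (ho : Odd (finrank F V)) (iso : ∀ i j, ∃ f : D i ≃ₗ[F] D j, ∀ x, Q (f x) = Q x) :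
    Geo.IsMaximalIn (EG (Formed.ofQuad Q)) (dstab D ⊓ EG (Formed.ofQuad Q)) := by
  have ht : finrank F V = t := by simpa using h.finrank_eq
  obtain ⟨i₀⟩ : Nonempty (Fin t) := ⟨⟨0, by omega⟩⟩
  obtain ⟨x, hx, hx0⟩ := h.exists_ne i₀
  choose f hf using iso i₀
  obtain ⟨e, he⟩ : ∃ e : Fin t → V, ∀ i, e i = f i ⟨x, hx⟩ := ⟨_, fun _ => rfl⟩
  have m : ∀ i, e i ∈ D i := fun i => he i ▸ (f i _).2
  have sp : ∀ i, ∀ y ∈ D i, ∃ c : F, c • e i = y := fun i y hy => by
    obtain ⟨c, hc⟩ := (finrank_eq_one_iff_of_nonzero' (f i ⟨x, hx⟩) (by simpa using hx0)).1 (h.rk i) ⟨y, hy⟩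
    exact ⟨c, he i ▸ congrArg Subtype.val hc⟩
  have q : ∀ i, polar Q (e i) (e i) = 2 * Q x := fun i => by rw [polar_self', he, hf]
  have hc : Q x ≠ 0 := fun e0 => hx0 (h.eq_zero' fun i y hy => by
    rcases eq_or_ne i i₀ with rfl | hi
    · obtain ⟨c, rfl⟩ := sp _ y hy
      obtain ⟨d, hd⟩ := sp _ x hx
      nth_rw 1 [← hd]; simp [q, e0]
    · exact h.orth _ _ hi y hy x hx)
  rw [← EG_smul Q (inv_ne_zero hc)]
  have ps : ∀ u v, polar ((Q x)⁻¹ • Q :) u v = (Q x)⁻¹ * polar Q u v := fun u v => by simp [polar, mul_sub]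
  generalize (Q x)⁻¹ • Q = Q' at ps
  have on : ∀ i j, polar Q' (e i) (e j) = if i = j then 2 else 0 := fun i j => by
    rw [ps]
    split_ifs with hij
    · rw [hij, q]; field_simp
    · rw [show polar Q (e i) (e j) = 0 from h.orth i j hij _ (m i) _ (m j), mul_zero]
  have H : Fo Q' e := by
    refine ⟨h2, fun c => ?_, on, fun v => ?_⟩
    · have : Fact (Nat.card F).Prime := ⟨hp⟩
      obtain ⟨n, hn⟩ := mem_powers_of_prime_card (G := Multiplicative F) (p := Nat.card F) rfl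
        (g := Multiplicative.ofAdd 1) (g' := Multiplicative.ofAdd c) (by simp)
      exact ⟨n, by simpa [← ofAdd_nsmul] using hn⟩
    · obtain ⟨π, h1, -, rfl⟩ := h.exists_sum v
      choose c hc using fun i => sp i _ (h1 i)
      simp only [← hc, ← polarBilin_apply_apply, map_sum]
      simp [on, h2]
  refine H.isMaximalIn (by simpa [← ht]) (by simpa [← ht]) (by omega)
    fun g => ⟨fun ⟨s, hs⟩ i => ?_, fun hg => h.mem_dstab fun i => ?_⟩
  · obtain ⟨c, hc⟩ := sp (s i) (g.1 (e i)) (hs i ▸ ⟨_, m i, rfl⟩)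
    have := OG.map_polar g (e i) (e i)
    simp only [← hc, on, polar_smul_left, polar_smul_right, smul_eq_mul, if_true] at this
    exact ⟨s i, c, mul_right_cancel₀ h2 (by linear_combination this), hc.symm⟩
  · obtain ⟨j, ε, -, e1⟩ := hg i
    refine ⟨j, fun y hy => ?_⟩
    obtain ⟨c, rfl⟩ := sp i y hy
    rw [map_smul, e1]
    exact (D j).smul_mem _ ((D j).smul_mem _ (m j))

end Cfsg.Agent.Root.Mx
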