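import Cfsg.Agent.Root.Max5
import Cfsg.Agent.Root.Max6

/-! Stabilisers of non-degenerate subspaces `A` of orthogonal spaces with `dim A ≥ 4`, `dim A^⊥ ≥ 3`
(`stab_nd_odd`, `stab_nd_two`). -/

set_option autoImplicit false

namespace Cfsg.Agent.Root.Mx

open Cfsg.Agent.Geom Cfsg.Agent.AutCl Module QuadraticMap

variable {F : Type*} [Field F] {V : Type*} [AddCommGroup V] [Module F V] [FiniteDimensional F V]
  {Q : QuadraticForm F V}

local notation "Φ" => Formed.ofQuad Q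

/-- An overgroup of the stabiliser of an orthogonal pair. -/
structure NX (Q : QuadraticForm F V) (A B : Submodule F V) (X : Subgroup (V ≃ₗ[F] V)) : Prop where
  hn : (Formed.ofQuad Q).Nondeg
  hA : ((Formed.ofQuad Q).restrict A).Nondeg
  hB : ((Formed.ofQuad Q).restrict B).Nondeg
  orth : ∀ x ∈ A, ∀ y ∈ B, (Formed.ofQuad Q).B x y = 0
  top : ∀ v, ∃ a ∈ A, ∃ b ∈ B, v = a + b
  iA : InE (Formed.ofQuad Q) X A
  iB : InE (Formed.ofQuad Q) X B
  isom : X ≤ (Formed.ofQuad Q).isom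
  dA : 3 ≤ finrank F A
  dB : 3 ≤ finrank F B
  rf : ∀ u ∈ A, ∀ w ∈ B, Q w ≠ 0 → Q u = Q w → (refl Q u * refl Q w).1 ∈ X

theorem HasE.zero_of_sing {X : Subgroup (V ≃ₗ[F] V)} {p z : V} {hp : (Φ).Sing p} (h : z ∈ AE Φ X hp)
    (hz : Q z = 0) : HasE Φ X p z 0 :=
  let ⟨_, hd⟩ := h; hd.congr rfl ((one_mul _).symm.trans (hd.hQ.trans hz))

theorem fpf (Q : QuadraticForm F V) {k : ℕ} (s : Fin k → V) (U : Submodule F V) :
    finrank F U ≤ finrank F ↥(U ⊓ pf (Formed.ofQuad Q) s) + k := finrank_pf s U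

namespace NX
variable {A B : Submodule F V} {X : Subgroup (V ≃ₗ[F] V)}

omit [FiniteDimensional F V] in
theorem symm (h : NX Q A B X) : NX Q B A X :=
  ⟨h.hn, h.hB, h.hA, fun x hx y hy => (Φ).B_eq_zero_symm (h.orth y hy x hx),
    fun v => let ⟨a, ha, b, hb, e⟩ := h.top v; ⟨b, hb, a, ha, e.trans (add_comm _ _)⟩, h.iB, h.iA, h.isom,
    h.dB, h.dA, fun u hu w hw h0 e => by
      have := X.inv_mem (h.rf w hw u hu (e ▸ h0) e.symm)
      rwa [← Subgroup.coe_inv, mul_inv_rev, refl_inv, refl_inv] at this⟩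

omit [FiniteDimensional F V] in
theorem disj (h : NX Q A B X) {v : V} (ha : v ∈ A) (hb : v ∈ B) : v = 0 :=
  eq_zero_of_nd h.hB hb fun y hy => (Φ).B_eq_zero_symm (h.orth v ha y hy)

omit [FiniteDimensional F V] in
theorem mem_of_perp (h : NX Q A B X) {v : V} (hv : ∀ y ∈ B, (Φ).B y v = 0) : v ∈ A := by
  obtain ⟨a, ha, b, hb, rfl⟩ := h.top v
  rw [eq_zero_of_nd h.hB hb fun y hy => by
    simpa only [map_add, h.symm.orth y hy a ha, zero_add] using hv y hy, add_zero]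
  exact ha

variable [Finite F]

theorem win (h : NX Q A B X) {x a : V} {d : F} (hx : x ∈ A) (hx0 : x ≠ 0) (ha : HasE Φ X x a d)
    (ha' : a ∉ A) : EG Φ ≤ X := by
  have h1 := h.iB.le_AE (irr_of_three h.hn h.hB h.dB) ha.sp (fun w hw => h.symm.orth w hw x hx) ⟨d, ha⟩
    (by by_contra! hc; exact ha' (h.mem_of_perp hc))
  have h2 : Full Φ X x := full_of_AE ha.sp (fun v hv => by
    obtain ⟨a, ha1, b, hb, rfl⟩ := h.top v
    exact add_mem (h.iA.hasE h.hn hx ha1 ha.sp (by simpa only [map_add, h.orth x hx b hb, add_zero] using hv)) (h1 b hb))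
    (fullT_of_τ one_ne_zero)
  obtain ⟨r, hr, hxr⟩ := exists_pair_mem h.hn h.hA hx hx0 ha.sp
  have hs : (F ∙ x) ⊔ (F ∙ r) ≤ A := sup_le ((Submodule.span_singleton_le_iff_mem _ _).2 hx)
    ((Submodule.span_singleton_le_iff_mem _ _).2 hr)
  have h3 := finrank_inf_perp h.hn h.hA hs
  rw [hxr.finrank_span] at h3
  have h4 := nondeg_inf_perp h.hn h.hA hxr.nondeg_span hs
  obtain ⟨y, hy, hy0⟩ : ∃ y ∈ A ⊓ (Φ).pairPerp x r, Q y ≠ 0 := by
    by_contra! hc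
    have := h.dA
    obtain ⟨y, hy, hy0⟩ := exists_notMem_of_lt (U := A ⊓ (Φ).pairPerp x r) (R := ⊥) (by
      rw [finrank_bot]; unfold Formed.pairPerp; omega)
    exact hy0 (eq_zero_of_nd h4 hy fun z hz => (Formed.totSing_ofQuad.2 hc).1 z hz y hy)
  have e := (Φ).mem_pairPerp.1 hy.2
  obtain ⟨d', s, s1, s2⟩ := h.iA.hasE h.hn hr hy.1 hxr.sf e.2
  refine EG_le_of_full' h.hn h2 s1 s2.mem_isom ?_
  have : d' = Q y := (one_mul _).symm.trans s2.hQ
  rw [s2.app]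
  simp only [map_add, map_sub, map_smul, ha.sp.2, e.1, (Φ).B_eq_zero_symm e.1, hxr.ef, hxr.fe, this]
  simpa [(Φ).ε_ne_zero]

theorem win0 (h : NX Q A B X) {p z : V} {hp : (Φ).Sing p} (hz : z ∈ A) (hz0 : z ≠ 0) (hs : Q z = 0)
    (ha : z ∈ AE Φ X hp) (hp' : p ∉ A) : EG Φ ≤ X :=
  h.win hz hz0 (HasE.zero_of_sing ha hs).swap (by simpa [A.smul_mem_iff (Φ).ε_ne_zero])

theorem notMem (h : NX Q A B X) {x y : V} (hx : x ∈ A) (hy : y ∈ B) (hy0 : y ≠ 0) : x + y ∉ A :=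
  fun e => hy0 (h.disj ((A.add_mem_iff_right hx).1 e) hy)

theorem exists_sub (h : NX Q A B X) {x a : V} (hx : x ∈ A)
    (H : ∀ y ∈ A, (Φ).B x y = 0 → (Φ).B y a = 0) : ∃ c : F, a - c • x ∈ B := by
  obtain ⟨a, ha, b, hb, rfl⟩ := h.top a
  by_cases h1 : a ∈ F ∙ x
  · obtain ⟨c, rfl⟩ := Submodule.mem_span_singleton.1 h1
    exact ⟨c, by simpa⟩
  obtain ⟨y, hy, h2, h3⟩ := sep h.hn h.hA ((Submodule.span_singleton_le_iff_mem _ _).2 hx) ha h1
  have := H y hy ((Φ).mem_perp_span_singleton.1 h2)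
  rw [map_add, h.orth y hy b hb, add_zero] at this
  exact absurd (h3.symm.trans ((Φ).B_eq_zero_symm this)) one_ne_zero

theorem fin_two (h : NX Q A B X) {x y a : V} (hx : x ∈ A) (hy : y ∈ B) (h1 : ∃ c : F, a - c • x ∈ B)
    (h2 : ∃ c : F, a - c • y ∈ A) : ∃ α β : F, a = α • x + β • y := by
  obtain ⟨c, h1⟩ := h1
  obtain ⟨c', h2⟩ := h2
  refine ⟨c, c', sub_eq_zero.1 (h.disj ?_ ?_)⟩
  · convert sub_mem h2 (A.smul_mem c hx) using 1; abel
  · convert sub_mem h1 (B.smul_mem c' hy) using 1; abel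

theorem stageS (h : NX Q A B X) {x y a : V} {hp : (Φ).Sing (x + y)} (hx : x ∈ A) (hy : y ∈ B) (hx0 : x ≠ 0)
    (hy0 : y ≠ 0) (hs : Q x = 0) (ha : a ∈ AE Φ X hp) : EG Φ ≤ X ∨ ∃ c : F, a - c • x ∈ B := by
  have hs' := Formed.sing_ofQuad.2 hs
  have n := h.notMem hx hy hy0
  have fx : ∀ z ∈ A, ∀ d g, IsE Φ x z d g → g a ∈ AE Φ X hp := fun z hz d g hg =>
    map_mem_AE (h.iA x hx z hz d g hg) hg.mem_isom (by
      rw [hg.apply_perp (by rw [map_add, hs'.2, h.orth x hx y hy, add_zero]), map_add, hg.ap,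
        h.orth z hz y hy]; simp) ha
  by_cases e : (Φ).B x a = 0
  swap; · exact Or.inl (h.win0 hx hx0 hs (mem_of_key h.hn h.hA h.dA _ hx hs' fx ha e) n)
  refine or_iff_not_imp_left.2 fun hw => h.exists_sub hx fun z hz e' => by_contra fun e2 => hw ?_
  obtain ⟨d, g, hg⟩ := exists_isE' h.hn hs' e'
  have := sub_mem (fx z hz d g hg) ha
  rw [hg.apply_perp e, add_sub_cancel_left] at this
  exact h.win0 (A.smul_mem _ hx) (smul_ne_zero e2 hx0) (by rw [quad_smul, hs, mul_zero]) this n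

theorem Q_add (h : NX Q A B X) {x y : V} (hx : x ∈ A) (hy : y ∈ B) : Q (x + y) = Q x + Q y := by
  rw [quad_add, show polar Q x y = 0 from h.orth x hx y hy, add_zero]

theorem mixS (h : NX Q A B X) {x y a : V} {hp : (Φ).Sing (x + y)} (hx : x ∈ A) (hy : y ∈ B) (hx0 : x ≠ 0)
    (hy0 : y ≠ 0) (hs : Q x = 0) (ha : ∀ c : F, c • a ∈ AE Φ X hp) (hn : a ∉ F ∙ (x + y)) : EG Φ ≤ X := by
  have hs' : Q y = 0 := by simpa [h.Q_add hx hy, hs] using (show Q (x + y) = 0 from hp.1)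
  have ha1 : a ∈ AE Φ X hp := by simpa using ha 1
  rcases h.stageS hx hy hx0 hy0 hs ha1 with h1 | h1
  · exact h1
  have hp' : (Φ).Sing (y + x) := add_comm x y ▸ hp
  rcases h.symm.stageS (hp := hp') hy hx hy0 hx0 hs' (a := a) (by
    obtain ⟨d, hd⟩ := ha1; exact ⟨d, add_comm x y ▸ hd⟩) with h2 | h2
  · exact h2
  obtain ⟨α, β, rfl⟩ := h.fin_two hx hy h1 h2
  refine h.win0 (A.smul_mem (α - β) hx) (smul_ne_zero (fun e => hn ?_) hx0)
    (by rw [quad_smul, hs, mul_zero]) (hp := hp) ?_ (h.notMem hx hy hy0)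
  · rw [sub_eq_zero.1 e, ← smul_add]; exact Submodule.smul_mem _ _ (Submodule.mem_span_singleton_self _)
  · convert sub_mem ha1 (smul_mem_AE hp β) using 1; module

theorem stageN (h : NX Q A B X) (h2 : (2 : F) ≠ 0) (h4 : 4 ≤ finrank F A) {x y a : V} {hp : (Φ).Sing (x + y)}
    (hx : x ∈ A) (hy : y ∈ B) (hy0 : y ≠ 0) (hs : Q x ≠ 0) (ha : a ∈ AE Φ X hp) :
    EG Φ ≤ X ∨ ∃ c : F, a - c • x ∈ B := by
  refine or_iff_not_imp_left.2 fun hw => h.exists_sub hx fun z hz e' => by_contra fun e2 => hw ?_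
  have hle := (Submodule.span_singleton_le_iff_mem _ _).2 hx
  have h3 := finrank_inf_perp h.hn h.hA hle
  have := finrank_span_one (F := F) x
  obtain ⟨w, hw, hw0, h5⟩ := (h.iA.mono (W' := A ⊓ (Φ).perp (F ∙ x)) inf_le_left).exists_siegel h.hn
    (nondeg_inf_perp h.hn h.hA (Formed.nondeg_span_singleton _ (by
      rw [ofQuad_B_apply, polar_self']; exact mul_ne_zero h2 hs)) hle) (by omega) hp (fun w hw => by
      rw [map_add, h.orth w hw.1 y hy, add_zero]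
      exact (Φ).B_eq_zero_symm ((Φ).mem_perp_span_singleton.1 hw.2)) ha
    ⟨z, ⟨hz, (Φ).mem_perp_span_singleton.2 e'⟩, e2⟩
  exact h.win0 (hp := hp) hw.1 hw0 h5.sing.1 ⟨_, h5⟩ (h.notMem hx hy hy0)

theorem stage2 (h : NX Q A B X) (h2 : (2 : F) = 0) (h4 : 4 ≤ finrank F A) {x y a : V} {hp : (Φ).Sing (x + y)}
    (hx : x ∈ A) (hy : y ∈ B) (hy0 : y ≠ 0) (hs : Q x ≠ 0) (ha : ∀ c : F, c • a ∈ AE Φ X hp) :
    EG Φ ≤ X ∨ ((Φ).B x a = 0 ∧ ∃ c : F, a - c • x ∈ B) ∨ ((Φ).B x a ≠ 0 ∧ ∀ c : F, c ≠ 0 → c = 1) := by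
  refine or_iff_not_imp_left.2 fun hw => ?_
  have n := h.notMem hx hy hy0
  have e0 : Q x = Q y := by
    linear_combination (h.Q_add hx hy).symm.trans (show Q (x + y) = 0 from hp.1) - Q y * h2
  have xx : (Φ).B x x = 0 := by rw [ofQuad_B_apply, polar_self', h2, zero_mul]
  have xy := h.orth x hx y hy
  have k0 : (Q x)⁻¹ • x ∈ AE Φ X hp := ⟨(Q x)⁻¹, _, h.rf x hx y hy (e0 ▸ hs) e0, hp, by
    simp only [map_add, map_smul, LinearMap.add_apply, xx, (Φ).B_eq_zero_symm xy, add_zero, smul_zero], by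
    change 1 * _ = Q _; rw [quad_smul]; field_simp, by
    simp only [Formed.B_smul_left, map_smul, xx]; change 1 * _ + _ = _; simp [← two_mul, h2], fun v => by
    change (refl Q x).1 ((refl Q y).1 v) = _
    rw [refl_apply, refl_apply, ← e0]
    simp only [← ofQuad_B_apply, map_sub, map_smul, xy, Formed.B_smul_left, Formed.B_add_left,
      LinearMap.smul_apply, RingHom.id_apply, show (Φ).ε = 1 from rfl, smul_eq_mul]
    match_scalars
    · ring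
    · ring
    · linear_combination (Q x)⁻¹ * (Φ).B y v * h2⟩
  have key : ∀ z ∈ A, z ≠ 0 → Q z = 0 → (Φ).B x z = 0 → ∀ c : F, c ≠ 0 →
      (Φ).B x a = c * Q x * (Φ).B z a := fun z hz hz0 hzs e c hc => by_contra fun ne => hw (by
    obtain ⟨d, g, g1, g2⟩ := h.iA.hasE h.hn hz (A.smul_mem c hx) (Formed.sing_ofQuad.2 hzs)
      (by rw [map_smul, (Φ).B_eq_zero_symm e, smul_zero])
    have hd : d = c ^ 2 * Q x := (one_mul _).symm.trans (g2.hQ.trans (quad_smul _ _ _))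
    have k : ∀ t : F, t • (g a - a) ∈ AE Φ X hp := fun t => by
      rw [smul_sub, ← map_smul]
      exact sub_mem (map_mem_AE g1 g2.mem_isom (by
        rw [g2.apply_perp (by rw [map_add, (Φ).B_eq_zero_symm e, h.orth z hz y hy, add_zero])]
        simp only [Formed.B_smul_left, map_add, xx, xy]; simp) (ha t)) (ha t)
    by_cases e1 : (Φ).B z a = 0
    · refine h.win0 (A.smul_mem (c * (Φ).B x a) hz) (smul_ne_zero (mul_ne_zero hc (by rwa [e1, mul_zero] at ne)) hz0)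
        (by rw [quad_smul, hzs, mul_zero]) (hp := hp) ?_ n
      simpa only [g2.apply_perp e1, add_sub_cancel_left, one_smul, Formed.B_smul_left, RingHom.id_apply]
        using k 1
    refine h.win0 (A.smul_mem (((Φ).B x a - c * Q x * (Φ).B z a) / (Q x * (Φ).B z a)) hz)
      (smul_ne_zero (div_ne_zero (sub_ne_zero.2 ne) (mul_ne_zero hs e1)) hz0)
      (by rw [quad_smul, hzs, mul_zero]) (hp := hp) ?_ n
    convert add_mem (k (c * Q x * (Φ).B z a)⁻¹) k0 using 1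
    rw [g2.app, hd, Formed.B_smul_left, show (Φ).ε = 1 from rfl, RingHom.id_apply]
    match_scalars <;> field_simp <;> ring)
  by_cases e : (Φ).B x a = 0
  · refine Or.inl ⟨e, h.exists_sub hx fun u hu e' => ?_⟩
    haveI : CharP F 2 := CharTwo.of_one_ne_zero_of_two_eq_zero one_ne_zero h2
    obtain ⟨t, ht⟩ := FiniteField.isSquare_of_char_two (ringChar.eq F 2) (Q u / Q x)
    have e1 : (Φ).B u a = (Φ).B (u + t • x) a := by rw [Formed.B_add_left, Formed.B_smul_left, e]; simp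
    rw [e1]
    by_cases e2 : u + t • x = 0
    · rw [e2]; simp
    have := key _ (add_mem hu (A.smul_mem t hx)) e2 (by
      rw [quad_add, quad_smul, polar_smul_right, show polar Q u x = 0 from (Φ).B_eq_zero_symm e', _root_.sq, ← ht]
      field_simp; simp [← two_mul, h2]) (by rw [map_add, map_smul, e', xx]; simp) 1 one_ne_zero
    rw [e, one_mul] at this
    exact (mul_eq_zero.1 this.symm).resolve_left hs
  obtain ⟨z, hz, hz0, hzs, e1⟩ := exists_sing_pf Φ ![x] (U := A) (R := ⊥) (by rw [finrank_bot]; omega)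
  refine Or.inr ⟨e, fun c hc => ?_⟩
  have k1 := key z hz hz0 hzs.1 (e1 0) 1 one_ne_zero
  have k2 := key z hz hz0 hzs.1 (e1 0) c hc
  rw [mul_assoc] at k1 k2
  exact mul_right_cancel₀ (fun e3 => e (by rw [k1, e3, mul_zero])) (k2.symm.trans k1)

end NX

variable [Finite F] {A : Submodule F V}

theorem nx_of_le (hn : (Φ).Nondeg) (hA : ((Φ).restrict A).Nondeg) (h3 : 3 ≤ finrank F A)
    (h3' : 3 ≤ finrank F ((Φ).perp A)) {X : Subgroup (V ≃ₗ[F] V)} (h1 : stab A ⊓ EG Φ ≤ X) (h2 : X ≤ EG Φ) :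
    NX Q A ((Φ).perp A) X := by
  have st : ∀ g ∈ (Φ).isom, (∀ v ∈ (Φ).perp A, g v = v) → g ∈ stab A :=
    fun g hg h => mem_stab_of_le fun x hx => mem_of_fix_perp hn hg h hx
  have := hn.finrank_add_finrank_perp A
  exact ⟨hn, hA, hn.restrict_perp hA, fun x hx y hy => hy x hx, fun v => by
    obtain ⟨w, y, e⟩ := exists_add_of_isCompl (hn.isCompl_perp hA) v
    exact ⟨w, w.2, y, y.2, e⟩, fun x hx y hy _ _ hg => h1 ⟨st _ hg.mem_isom
    (IsE.fix hg ((Φ).le_perp_perp _ hx) ((Φ).le_perp_perp _ hy)), IsE_mem_EG hg⟩,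
    fun x hx y hy _ _ hg => h1 ⟨fix_le_stab _ (IsE.fix hg hx hy), IsE_mem_EG hg⟩, h2.trans EG_le_isom, h3, h3',
    fun u hu w hw h0 e => h1 ⟨mul_mem (st _ (refl Q u).2 (refl_mem_fix (Formed.le_perp_perp _ _ hu)))
      (fix_le_stab _ (refl_mem_fix hw)),
      (mem_EG_quad hn (by omega)).2 (refl_mul_refl_mem_commutator hn h0 one_ne_zero (by simp [e]))⟩⟩

theorem stab_nd_of (hn : (Φ).Nondeg) (hA : ((Φ).restrict A).Nondeg) (h3 : 3 ≤ finrank F A)
    (h3' : 3 ≤ finrank F ((Φ).perp A)) (hi : ∀ g ∈ (Φ).isom, ¬ ∀ x ∈ A, g x ∈ (Φ).perp A)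
    (H : ∀ X, NX Q A ((Φ).perp A) X → ∀ g ∈ X, ∀ p ∈ A, Q p = 0 → g p ∉ A → g p ∉ (Φ).perp A → EG Φ ≤ X) :
    Geo.IsMaximalIn (EG Φ) (stab A ⊓ EG Φ) := by
  have dj := fun x hx hx' => Submodule.disjoint_def.1 ((Φ).restrict_nondeg_iff.1 hA) x hx hx'
  obtain ⟨e, he, f, hf, hef⟩ := exists_pair hn hA (by omega)
  refine max_crit inf_le_right ?_ fun X h2 h4 g hg hg' => ?_
  · obtain ⟨b, hb, hb0⟩ := exists_notMem_of_lt (U := (Φ).perp A) (R := ⊥) (by rw [finrank_bot]; omega)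
    obtain ⟨d, g, hg⟩ := exists_isE' hn hef.se (hb e he)
    refine ⟨g, IsE_mem_EG hg, fun h => hb0 (dj b ?_ hb)⟩
    have := (h.1 f).1 hf
    rw [hg.apply_r hef (hb f hf)] at this
    simpa [A.smul_mem_iff (Φ).ε_ne_zero] using sub_mem (sub_mem hf (A.smul_mem d he)) this
  have hg1 := EG_le_isom (h4 hg)
  by_contra hc
  have dich : ∀ x ∈ A, (Φ).Sing x → g x ∈ A ∨ g x ∈ (Φ).perp A := fun x hx hs => by
    by_contra! h5
    exact hc (H X (nx_of_le hn hA h3 h3' h2 h4) g hg x hx hs.1 h5.1 h5.2)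
  have all : ∀ C C' : Submodule F V, (∀ x ∈ C, ∀ y ∈ C', (Φ).B x y = 0) →
      (∀ x ∈ A, (Φ).Sing x → g x ∈ C ∨ g x ∈ C') → g e ∈ C → ∀ x ∈ A, g x ∈ C := by
    intro C C' o di hj
    have opp : ∀ x, ∀ y ∈ A, (Φ).Sing y → (Φ).B x y ≠ 0 → g x ∈ C → g y ∈ C := fun x y hy hs e h1 =>
      (di y hy hs).resolve_right fun h => e ((hg1.1 x y).symm.trans (o _ h1 _ h))
    refine sing_ind he hf hef (C.comap (g : V →ₗ[F] V)).toAddSubgroup fun x hx hs => ?_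
    rcases eq_or_ne x 0 with rfl | hx0
    · exact zero_mem _
    by_cases e' : (Φ).B x e = 0
    · obtain ⟨w, hw, hws, h1, h2⟩ := exists_sing_both hn hA he hef.left_ne_zero hef.se hx hx0 e'
      exact opp w x hx hs (fun e => h2 ((Φ).B_eq_zero_symm e)) (opp e w hw hws h1 hj)
    · exact opp e x hx hs (fun e => e' ((Φ).B_eq_zero_symm e)) hj
  rcases dich e he hef.se with h4' | h4'
  · exact hg' ⟨mem_stab_of_le (all A ((Φ).perp A) (fun x hx y hy => hy x hx) dich h4'), h4 hg⟩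
  · exact hi g hg1 (all _ A (fun x hx y hy => (Φ).B_eq_zero_symm (hx y hy))
      (fun x hx hs => (dich x hx hs).symm) h4')

namespace NX
variable {B : Submodule F V} {X : Subgroup (V ≃ₗ[F] V)}

omit [Finite F] in
theorem mem_AE (h : NX Q A B X) {g : V ≃ₗ[F] V} (hg : g ∈ X) {p a : V} (hp : p ∈ A) (hs : Q p = 0)
    (ha : a ∈ A) (e : (Φ).B p a = 0) {x : V} (ex : g p = x) (hx : (Φ).Sing x) (c : F) :
    c • g a ∈ AE Φ X hx := by
  obtain ⟨d, hd⟩ := h.iA.hasE h.hn hp (A.smul_mem c ha) (Formed.sing_ofQuad.2 hs) (by rw [map_smul, e, smul_zero])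
  exact ⟨d, ex ▸ (hd.conj hg (h.isom hg)).congr (map_smul _ _ _) rfl⟩

omit [Finite F] in
theorem split (h : NX Q A B X) {g : V ≃ₗ[F] V} (hg : g ∈ X) {p : V} (hs : Q p = 0) (h1 : g p ∉ A)
    (h2 : g p ∉ B) : ∃ x ∈ A, ∃ y ∈ B, x ≠ 0 ∧ y ≠ 0 ∧ g p = x + y ∧ (Φ).Sing (x + y) := by
  obtain ⟨x, hx, y, hy, e⟩ := h.top (g p)
  exact ⟨x, hx, y, hy, by rintro rfl; exact h2 (by simpa [e]), by rintro rfl; exact h1 (by simpa [e]), e,
    e ▸ Formed.sing_ofQuad.2 (((h.isom hg).2 p).trans hs)⟩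

omit [Finite F] in
theorem exists_out (h : NX Q A B X) (g : V ≃ₗ[F] V) {k : ℕ} (s : Fin k → V) (hk : k + 1 < finrank F A)
    (p : V) : ∃ a ∈ A, g a ∉ F ∙ g p ∧ ∀ i, (Φ).B (s i) a = 0 := by
  have := finrank_span_one (F := F) p
  have := fpf Q s A
  obtain ⟨a, ha, n⟩ := exists_notMem_of_lt (U := A ⊓ pf Φ s) (R := F ∙ p) (by omega)
  refine ⟨a, ha.1, fun hm => n ?_, mem_pf.1 ha.2⟩
  obtain ⟨c, hc⟩ := Submodule.mem_span_singleton.1 hm
  exact Submodule.mem_span_singleton.2 ⟨c, g.injective (by rw [map_smul, hc])⟩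

theorem odd (h : NX Q A B X) (h2 : (2 : F) ≠ 0) (h4 : 4 ≤ finrank F A) {g : V ≃ₗ[F] V} (hg : g ∈ X)
    {p : V} (hp : p ∈ A) (hs : Q p = 0) (h1 : g p ∉ A) (h1' : g p ∉ B) : EG Φ ≤ X := by
  by_contra hw
  have hi := h.isom hg
  have res : ∀ p ∈ A, Q p = 0 → g p ∉ A → g p ∉ B → ∃ x ∈ A, ∃ y ∈ B, x ≠ 0 ∧ g p = x + y ∧ Q y ≠ 0 ∧
      ∃ hx : (Φ).Sing (x + y), ∀ a ∈ A, (Φ).B p a = 0 → g a ∈ AE Φ X hx ∧ ∃ c : F, g a - c • x ∈ B := by
    intro p hp hs h1 h1'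
    obtain ⟨x, hx, y, hy, hx0, hy0, e, hxy⟩ := h.split hg hs h1 h1'
    have hx1 : Q x ≠ 0 := fun e0 => by
      obtain ⟨a, ha, n, e1⟩ := h.exists_out g ![p] (by omega) p
      exact hw (h.mixS hx hy hx0 hy0 e0 (h.mem_AE hg hp hs ha (e1 0) e hxy) (e ▸ n))
    refine ⟨x, hx, y, hy, hx0, e, fun e0 => hx1 (by
      simpa [h.Q_add hx hy, e0] using (show Q (x + y) = 0 from hxy.1)), hxy, fun a ha e1 => ?_⟩
    have m : g a ∈ AE Φ X hxy := by simpa using h.mem_AE hg hp hs ha e1 e hxy 1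
    exact ⟨m, (h.stageN h2 h4 hx hy hy0 hx1 m).resolve_left hw⟩
  obtain ⟨x, hx, y, hy, hx0, e, hy1, hxy, H⟩ := res p hp hs h1 h1'
  by_cases h4' : 4 ≤ finrank F B
  · obtain ⟨a, ha, n, e1⟩ := h.exists_out g ![p] (by omega) p
    obtain ⟨m, k⟩ := H a ha (e1 0)
    obtain ⟨α, β, k'⟩ := h.fin_two hx hy k ((h.symm.stageN h2 h4' (hp := add_comm x y ▸ hxy) hy hx hx0 hy1 (by
      obtain ⟨d, hd⟩ := m; exact ⟨d, add_comm x y ▸ hd⟩)).resolve_left hw)
    have k1 : (Φ).B (x + y) (α • x + β • y) = 0 := by rw [← e, ← k', hi.1]; exact e1 0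
    have k2 : Q x + Q y = 0 := (h.Q_add hx hy).symm.trans hxy.1
    have k3 := h.orth x hx y hy
    simp only [map_add, map_smul, LinearMap.add_apply, k3, (Φ).B_eq_zero_symm k3, smul_eq_mul] at k1
    rw [ofQuad_B_apply, ofQuad_B_apply, polar_self', polar_self'] at k1
    have : β = α := mul_right_cancel₀ (mul_ne_zero h2 hy1) (by linear_combination k1 - 2 * α * k2)
    exact n (by rw [k', e, this, ← smul_add]; exact Submodule.smul_mem _ _ (Submodule.mem_span_singleton_self _))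
  have hB := h.dB
  have C0 : ∀ z ∈ A, z ≠ 0 → Q z = 0 → g z ∉ B := fun z hz hz0 hzs hm => by
    have hs' := Formed.sing_ofQuad.2 hzs
    have r1 := fpf Q ![z] A
    have r2 := finrank_inf_perp h.hn h.hB ((Submodule.span_singleton_le_iff_mem _ _).2 hm)
    rw [finrank_span_singleton (by simpa)] at r2
    obtain ⟨a, ha, n⟩ := exists_notMem_of_lt (U := A ⊓ pf Φ ![z])
      (R := (B ⊓ (Φ).perp (F ∙ g z)).map (g.symm : V →ₗ[F] V)) (by rw [LinearEquiv.finrank_map_eq]; omega)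
    have e1 : (Φ).B z a = 0 := mem_pf.1 ha.2 0
    obtain ⟨d, hd⟩ := h.iA.hasE h.hn hz ha.1 hs' e1
    exact hw (h.symm.win hm (by simpa) (hd.conj hg hi) fun hm' => n ⟨g a, ⟨hm',
      (Φ).mem_perp_span_singleton.2 ((hi.1 _ _).trans e1)⟩, by simp⟩)
  let C := A ⊓ B.comap (g : V →ₗ[F] V)
  have C2 : finrank F C ≤ 2 := by
    by_contra hc
    obtain ⟨z, hz, hz0, hzs⟩ := exists_sing_notMem Φ (U := C) (R := ⊥) (by rw [finrank_bot]; omega)
    exact C0 z hz.1 hz0 hzs.1 hz.2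
  have key : ∀ p ∈ A, p ≠ 0 → Q p = 0 → g p ∉ A → 2 ≤ finrank F ↥(C ⊓ pf Φ ![p]) := fun p hp hp0 hs h1 => by
    obtain ⟨x, hx, y, hy, -, e, -, _, H⟩ := res p hp hs h1 (C0 p hp hp0 hs)
    have r1 := fpf Q ![p] A
    have r2 := finrank_sup_one (C ⊓ pf Φ ![p]) p
    have := Submodule.finrank_mono (show A ⊓ pf Φ ![p] ≤ (C ⊓ pf Φ ![p]) ⊔ F ∙ p from fun a ha => by
      have e1 : (Φ).B p a = 0 := mem_pf.1 ha.2 0
      obtain ⟨c, hc⟩ := (H a ha.1 e1).2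
      rw [show a = (a - c • p) + c • p by abel]
      refine add_mem (Submodule.mem_sup_left ⟨⟨sub_mem ha.1 (A.smul_mem c hp), ?_⟩, mem_pf.2 fun i => ?_⟩)
        (Submodule.smul_mem _ _ (mem_sup_self _ _))
      · change g _ ∈ B
        convert sub_mem hc (B.smul_mem c hy) using 1
        rw [map_sub, map_smul, e]; module
      · fin_cases i
        change (Φ).B p _ = 0
        rw [map_sub, map_smul, e1, (Formed.sing_ofQuad.2 hs).2]; simp)
    omega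
  have hp0 : p ≠ 0 := by rintro rfl; simp at h1
  obtain ⟨r, hr, hpr⟩ := exists_pair_mem h.hn h.hA hp hp0 (Formed.sing_ofQuad.2 hs)
  have k := key p hp hp0 hs h1
  obtain ⟨c, hc, hc0⟩ := exists_notMem_of_lt (U := C ⊓ pf Φ ![p]) (R := ⊥) (by rw [finrank_bot]; omega)
  refine hc0 (eq_zero_of_nd h.hA hc.1.1 (sing_ind hp hr hpr
    (LinearMap.ker ((Φ).B c)).toAddSubgroup (fun z hz hzs => ?_) · · |> (Φ).B_eq_zero_symm))
  change (Φ).B c z = 0
  by_cases hm : g z ∈ A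
  · exact (hi.1 _ _).symm.trans (h.symm.orth _ hc.1.2 _ hm)
  have := Submodule.eq_of_le_of_finrank_le (inf_le_left : C ⊓ pf Φ ![z] ≤ C)
    (C2.trans (key z hz (by rintro rfl; simp at hm) hzs.1 hm))
  exact (Φ).B_eq_zero_symm (mem_pf.1 (this.ge hc.1).2 0)

theorem two (h : NX Q A B X) (h2 : (2 : F) = 0) (h4 : 4 ≤ finrank F A) (h4' : 4 ≤ finrank F B)
    (hq : (∀ c : F, c ≠ 0 → c = 1) → ∀ x ∈ A, ∀ y ∈ A, x ≠ 0 → Q x = 0 → Q y = 0 → (Φ).B x y = 0 → y ∈ F ∙ x)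
    {g : V ≃ₗ[F] V} (hg : g ∈ X) {p : V} (hp : p ∈ A) (hs : Q p = 0) (h1 : g p ∉ A) (h1' : g p ∉ B) :
    EG Φ ≤ X := by
  by_contra hw
  have hi := h.isom hg
  have res : ∀ p ∈ A, Q p = 0 → g p ∉ A → g p ∉ B → ∃ x ∈ A, ∃ y ∈ B, y ≠ 0 ∧ g p = x + y ∧ Q x ≠ 0 ∧
      (Φ).Sing (x + y) ∧ g.symm x ∈ A := by
    intro p hp hs h1 h1'
    obtain ⟨x, hx, y, hy, hx0, hy0, e, hxy⟩ := h.split hg hs h1 h1'
    obtain ⟨a, ha, n, e1⟩ := h.exists_out g ![p, g.symm x] (by omega) p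
    have m := h.mem_AE hg hp hs ha (e1 0) e hxy
    have hx1 : Q x ≠ 0 := fun e0 => hw (h.mixS hx hy hx0 hy0 e0 m (e ▸ n))
    have hy1 : Q y ≠ 0 := fun e0 => hx1 (by simpa [h.Q_add hx hy, e0] using (show Q (x + y) = 0 from hxy.1))
    have e2 : (Φ).B x (g a) = 0 := by
      have : (Φ).B (g.symm x) a = 0 := e1 1
      rwa [← hi.1, LinearEquiv.apply_symm_apply] at this
    have e3 : (Φ).B y (g a) = 0 := by
      have : (Φ).B p a = 0 := e1 0
      rwa [← hi.1, e, Formed.B_add_left, e2, zero_add] at this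
    obtain ⟨α, β, k⟩ := h.fin_two hx hy
      (((h.stage2 h2 h4 hx hy hy0 hx1 m).resolve_left hw).resolve_right fun e => e.1 e2).2
      (((h.symm.stage2 h2 h4' (hp := add_comm x y ▸ hxy) hy hx hx0 hy1 fun c => by
        obtain ⟨d, hd⟩ := m c; exact ⟨d, add_comm x y ▸ hd⟩).resolve_left hw).resolve_right fun e => e.1 e3).2
    have ne : α - β ≠ 0 := fun e0 => n (by
      rw [k, e, sub_eq_zero.1 e0, ← smul_add]; exact Submodule.smul_mem _ _ (Submodule.mem_span_singleton_self _))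
    refine ⟨x, hx, y, hy, hy0, e, hx1, hxy, (A.smul_mem_iff ne).1 ?_⟩
    convert sub_mem ha (A.smul_mem β hp) using 1
    rw [← map_smul, LinearEquiv.symm_apply_eq, map_sub, map_smul, k, e]; module
  obtain ⟨x, hx, y, hy, hy0, e, hx1, hxy, m⟩ := res p hp hs h1 h1'
  have hp0 : p ≠ 0 := by rintro rfl; simp at h1
  obtain ⟨r, hr, hpr⟩ := exists_pair_mem h.hn h.hA hp hp0 (Formed.sing_ofQuad.2 hs)
  have spl : ∀ v ∈ A, v ∈ (A ⊓ A.comap (g : V →ₗ[F] V)) ⊔ (A ⊓ B.comap (g : V →ₗ[F] V)) :=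
    sing_ind hp hr hpr ((A ⊓ A.comap (g : V →ₗ[F] V)) ⊔ (A ⊓ B.comap (g : V →ₗ[F] V))).toAddSubgroup
      fun z hz hzs => by
      change z ∈ (A ⊓ A.comap (g : V →ₗ[F] V)) ⊔ (A ⊓ B.comap (g : V →ₗ[F] V))
      by_cases a1 : g z ∈ A
      · exact Submodule.mem_sup_left ⟨hz, a1⟩
      by_cases a2 : g z ∈ B
      · exact Submodule.mem_sup_right ⟨hz, a2⟩
      obtain ⟨x, hx, y, hy, -, e, -, -, m⟩ := res z hz hzs.1 a1 a2
      exact Submodule.mem_sup.2 ⟨_, ⟨m, by simpa⟩, z - g.symm x, ⟨sub_mem hz m, by simpa [e]⟩, by simp⟩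
  obtain ⟨a, ha, e1, e2⟩ := sep h.hn h.hA ((Submodule.span_singleton_le_iff_mem _ _).2 hp) m fun hm => by
    obtain ⟨c, hc⟩ := Submodule.mem_span_singleton.1 hm
    exact hx1 (by rw [← g.apply_symm_apply x, show Q (g _) = _ from hi.2 _, ← hc]; exact (quad_smul _ _ _).trans (by simp [hs]))
  have e1 := (Φ).mem_perp_span_singleton.1 e1
  rw [← hi.1, LinearEquiv.apply_symm_apply] at e2
  have q2 := (((h.stage2 h2 h4 hx hy hy0 hx1 (h.mem_AE hg hp hs ha e1 e hxy)).resolve_left hw).resolve_left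
    fun e => one_ne_zero (e2.symm.trans e.1)).2
  obtain ⟨u, ⟨u1, u2⟩, w, ⟨w1, w2⟩, rfl⟩ := Submodule.mem_sup.1 (spl a ha)
  have u2 : g u ∈ A := u2
  have w2 : g w ∈ B := w2
  have uw : (Φ).B u w = 0 := (hi.1 _ _).symm.trans (h.orth _ u2 _ w2)
  have e3 : (Φ).B x (g u) = 1 := by simpa only [map_add, h.orth x hx _ w2, add_zero] using e2
  have e4 : (Φ).B y (g w) ≠ 0 := fun e0 => by
    rw [← hi.1, e] at e1
    simp only [map_add, LinearMap.add_apply, e3, e0, h.orth x hx _ w2, h.symm.orth y hy _ u2] at e1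
    simp at e1
  have m' : g.symm y ∈ A := by
    convert sub_mem hp m using 1
    rw [LinearEquiv.symm_apply_eq, map_sub, e]; simp
  have k1 : Q u ≠ 0 := fun e0 => by
    obtain ⟨d, hd⟩ := h.iA.hasE h.hn u1 m' (Formed.sing_ofQuad.2 e0) (by
      rw [← hi.1, LinearEquiv.apply_symm_apply]; exact h.orth _ u2 y hy)
    exact hw (h.win u2 (fun e0 => by simp [e0] at e3) (hd.conj hg hi) fun hm => hy0 (h.disj (by simpa using hm) hy))
  have k2 : Q w ≠ 0 := fun e0 => by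
    obtain ⟨d, hd⟩ := h.iA.hasE h.hn w1 m (Formed.sing_ofQuad.2 e0) (by
      rw [← hi.1, LinearEquiv.apply_symm_apply]; exact h.symm.orth _ w2 x hx)
    exact hw (h.symm.win w2 (fun e0 => by simp [e0] at e4) (hd.conj hg hi) fun hm => hx1 (by
      rw [h.disj hx (by simpa using hm), map_zero]))
  obtain ⟨c, hc⟩ := Submodule.mem_span_singleton.1 (hq q2 p hp _ ha hp0 hs (by
    rw [quad_add, q2 _ k1, q2 _ k2, show polar Q u w = 0 from uw]; linear_combination h2) e1)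
  rw [← hc, map_smul, map_smul, e, map_add, h.orth x hx y hy, ofQuad_B_apply, polar_self', h2] at e2
  simp at e2

end NX

theorem stab_nd_odd (hn : (Φ).Nondeg) (hA : ((Φ).restrict A).Nondeg) (h2 : (2 : F) ≠ 0) (h4 : 4 ≤ finrank F A)
    (h3 : 3 ≤ finrank F ((Φ).perp A)) (hi : ∀ g ∈ (Φ).isom, ¬ ∀ x ∈ A, g x ∈ (Φ).perp A) :
    Geo.IsMaximalIn (EG Φ) (stab A ⊓ EG Φ) :=
  stab_nd_of hn hA (by omega) h3 hi fun _ h _ hg _ hp => h.odd h2 h4 hg hp

theorem stab_nd_two (hn : (Φ).Nondeg) (hA : ((Φ).restrict A).Nondeg) (h2 : (2 : F) = 0) (h4 : 4 ≤ finrank F A)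
    (h4' : 4 ≤ finrank F ((Φ).perp A)) (hi : ∀ g ∈ (Φ).isom, ¬ ∀ x ∈ A, g x ∈ (Φ).perp A)
    (hq : ∀ x ∈ A, ∀ y ∈ A, x ≠ 0 → Q x = 0 → Q y = 0 → (Φ).B x y = 0 → y ∈ F ∙ x) :
    Geo.IsMaximalIn (EG Φ) (stab A ⊓ EG Φ) :=
  stab_nd_of hn hA (by omega) (by omega) hi fun _ h _ hg _ hp => h.two h2 h4 h4' (fun _ => hq) hg hp

end Cfsg.Agent.Root.Mx
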