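import Cfsg.Agent.Low.SubO1

/-! Subfield subgroups in dimension at least seven, II: orthogonal groups (`isMaximalIn_subO`). -/

set_option autoImplicit false

namespace Cfsg.Agent.Root.Mx

open Cfsg.Agent.Geom Cfsg.Agent.AutCl Module

section SL2
open scoped MatrixGroups
variable {F : Type*} [Field F] {V : Type*} [AddCommGroup V] [Module F V]

theorem exists_weyl [Finite F] (h2 : (2 : F) = 0) {X : Subgroup (V ≃ₗ[F] V)} {N L : Module.End F V}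
    (h : Sl2P N L) {μ : F} (hμ : μ ≠ 0) (hN : HasL X N) (hL : HasL X (μ • L)) :
    ∃ y ∈ X, ∃ c : F, c ^ 2 = μ ∧ ∀ v, y (N v) = c • L (N v) := by
  have hu : Classical.uSL 1 ∈ h.H X := h.mem_H.2 (by rwa [sl2φ_u, one_smul])
  have hl : Classical.lSL μ ∈ h.H X := h.mem_H.2 (by rwa [sl2φ_l])
  rcases dihedral_trick hu hl (by rw [← Classical.uSL_add, one_add_one_eq_two, h2, Classical.uSL_zero])
    (by rw [← Classical.lSL_add, ← two_mul, h2, zero_mul, Classical.lSL_zero]) with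
    ⟨m, hm, e⟩ | ⟨z, -, hz1, hz2, c1, c2, -⟩
  · have e0 : m * Classical.uSL 1 = Classical.lSL μ * m := mul_inv_eq_iff_eq_mul.1 e
    have e' : m.1 * (Classical.uSL 1 : SL(2, F)).1 = (Classical.lSL μ).1 * m.1 := congrArg Subtype.val e0
    have d := m.2
    rw [Matrix.det_fin_two] at d
    have a1 := congrFun (congrFun e' 0) 1
    have a2 := congrFun (congrFun e' 1) 1
    simp [Classical.uSL, Classical.lSL, Matrix.mul_apply, Fin.sum_univ_two] at a1 a2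
    obtain ⟨y, hy, ey⟩ := (h.mem_H.1 hm).exists_apply
    refine ⟨y, hy, m.1 1 0, ?_, fun v => ?_⟩
    · rw [a1] at d
      linear_combination (m.1 1 0) * a2 - μ * d - μ * h2
    · have b1 : N (N v) = 0 := LinearMap.congr_fun h.nn v
      have b2 : N (L (N v)) = N v := LinearMap.congr_fun h.nln v
      simp [ey, sl2φ, a1, b1, b2]
  · exfalso
    have e1 := congrArg Subtype.val c1.eq
    have e2 := congrArg Subtype.val c2.eq
    have e3 := congrArg Subtype.val hz2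
    rw [Matrix.SpecialLinearGroup.coe_mul, Matrix.SpecialLinearGroup.coe_mul] at e1 e2
    rw [Matrix.SpecialLinearGroup.coe_mul] at e3
    have a1 := congrFun (congrFun e1 0) 0
    have a2 := congrFun (congrFun e2 0) 0
    have a3 := congrFun (congrFun e3 0) 0
    have a4 := congrFun (congrFun e3 1) 1
    simp [Classical.uSL, Classical.lSL, Matrix.mul_apply, Fin.sum_univ_two, hμ] at a1 a2 a3 a4
    have k : ∀ x : F, x * x = 1 → x = 1 := fun x hx =>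
      sub_eq_zero.1 (pow_eq_zero_iff two_ne_zero |>.1 (by linear_combination hx + (1 - x) * h2))
    refine hz1 (Subtype.ext ?_)
    ext i j
    fin_cases i <;> fin_cases j
    · exact k _ (by simpa [a1] using a3)
    · exact a2
    · exact a1
    · exact k _ (by simpa [a1] using a4)

end SL2

section Main
variable {F₀ F : Type*} [Field F₀] [Field F] [Algebra F₀ F] {σ₀ : F₀ →+* F₀} {σ : F →+* F}
  {V₀ V : Type*} [AddCommGroup V₀] [Module F₀ V₀] [AddCommGroup V] [Module F V]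
  {Φ₀ : Formed σ₀ V₀} {Φ : Formed σ V} {j : V₀ →ₛₗ[algebraMap F₀ F] V} {X : Subgroup (V ≃ₗ[F] V)}

local notation "f" => algebraMap F₀ F

/-- The form is symmetric bilinear. -/
structure IsO (Φ : Formed σ V) : Prop where
  σ : ∀ a, σ a = a
  ε : Φ.ε = 1

theorem IsO.symm (h : IsO Φ) (x y : V) : Φ.B x y = Φ.B y x := by rw [Φ.symm, h.ε, h.σ, one_mul]

/-- The nilpotent part of a Siegel transformation. -/
def sg (Φ : Formed σ V) (x b : V) : Module.End F V := rk1 x (Φ.B b) - rk1 b (Φ.B x)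

theorem sg_apply (x b v : V) : sg Φ x b v = Φ.B b v • x - Φ.B x v • b := rfl

theorem IsO.hasL (h : IsO Φ) {x b : V} (he : HasE Φ X x b 0) : HasL X (sg Φ x b) := by
  exact (hasL_siegel he).congr fun v => by simp [sg_apply, h.ε]

theorem IsO.sl2 (h : IsO Φ) {x b u z : V} (h1 : HasE Φ X x b 0) (h2 : HasE Φ X u z 0)
    (ha : Φ.B (sg Φ x b u) z ≠ 0) : Sl2P (sg Φ u z) ((Φ.B (sg Φ x b u) z)⁻¹ • sg Φ x b) := by
  have b1 := h1.sp.2
  have b2 := h1.sing.2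
  have b3 := h1.pa
  have b4 := Φ.B_eq_zero_symm h1.pa
  have c1 := h2.sp.2
  have c2 := h2.sing.2
  have c3 := h2.pa
  have c4 := Φ.B_eq_zero_symm h2.pa
  have e : Φ.B (sg Φ x b u) z = Φ.B b u * Φ.B x z - Φ.B x u * Φ.B b z := by
    simp [sg_apply, Φ.B_smul_left, h.σ]
  rw [e] at ha ⊢
  constructor <;> ext v <;>
    simp only [Module.End.mul_apply, LinearMap.smul_apply, sg_apply, map_sub, map_smul, smul_eq_mul, b1, b2, b3,
      b4, c1, c2, c3, c4, h.symm u x, h.symm u b, h.symm z x, h.symm z b, LinearMap.zero_apply] <;>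
    match_scalars <;> field_simp <;> ring

namespace RtN
variable [FiniteDimensional F V]

theorem small_map (h : RtN Φ₀ Φ j) (hX : Ov Φ j X) (hS : Small Φ₀ Φ j X) {s : V ≃ₗ[F] V} (hs : s ∈ X)
    {u u' y : V₀} {c : F} (hu0 : u ≠ 0) (hu : Φ₀.Sing u) (e : s (j u) = c • j u') (hy : Φ₀.B u y = 0) :
    ∃ r, ∃ μ : F, σ c • s (j y) = j r + μ • j u' := by
  have h0 : c • j u' ≠ 0 := e ▸ (map_ne_zero_iff s s.injective).2 (h.ne hu0)
  obtain ⟨d, he⟩ := h.hasE hX hu hy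
  have := he.conj hs (hX.isom hs)
  rw [e] at this
  have hu0' : u' ≠ 0 := by rintro rfl; simp at h0
  exact h.rat_add hu0' (hS _ _ _ hu0' (this.of_smul (left_ne_zero_of_smul h0)))

theorem norm_mem (h : RtN Φ₀ Φ j) (h3 : 3 ≤ finrank F₀ V₀) (hX : Ov Φ j X) (hS : Small Φ₀ Φ j X)
    {s : V ≃ₗ[F] V} (hs : s ∈ X) {u u' : V₀} {c : F} (hu0 : u ≠ 0) (hu : Φ₀.Sing u)
    (e : s (j u) = c • j u') : c * σ c ∈ (f).fieldRange := by
  haveI := h.fin
  obtain ⟨y, hy, y', hy', e1⟩ := exists_B_one h.hn₀ (W := ⊤ ⊓ pf Φ₀ ![u]) (by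
    have := finrank_pf (Φ := Φ₀) ![u] ⊤; rw [finrank_top] at *; omega)
  have hy : Φ₀.B u y = 0 := mem_pf.1 hy.2 0
  have hy' : Φ₀.B u y' = 0 := mem_pf.1 hy'.2 0
  obtain ⟨r, μ, k⟩ := h.small_map hX hS hs hu0 hu e hy
  obtain ⟨r', μ', k'⟩ := h.small_map hX hS hs hu0 hu e hy'
  have hc : c ≠ 0 := left_ne_zero_of_smul (e ▸ (map_ne_zero_iff s s.injective).2 (h.ne hu0))
  have hi := (hX.isom hs).1
  have z : ∀ y, Φ₀.B u y = 0 → Φ.B (j u') (s (j y)) = 0 := fun y hy => by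
    have := hi (j u) (j y)
    rw [e, Φ.B_smul_left, h.B_zero hy] at this
    simpa [hc] using this
  have z0 : Φ.B (j u') (j u') = 0 := by simpa [e, hc] using z u hu.2
  refine ⟨Φ₀.B r r', ?_⟩
  rw [← h.hB, eq_sub_of_add_eq k.symm, eq_sub_of_add_eq k'.symm]
  simp [Φ.B_smul_left, z y' hy', z0, Φ.B_eq_zero_symm (z y hy), hi, h.B_one e1, Φ.σσ, mul_comm]

variable [Finite F]

theorem ratio (h : RtN Φ₀ Φ j) (ho : IsO Φ) (h3 : 3 ≤ finrank F₀ V₀) (hX : Ov Φ j X) (hS : Small Φ₀ Φ j X)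
    {x b : V} (he : HasE Φ X x b 0) {u z w : V₀} (hu : Φ₀.Sing u) (hz : Φ₀.Sing z) (hw : Φ₀.Sing w)
    (e1 : Φ₀.B u z = 0) (e2 : Φ₀.B u w = 0) (e3 : Φ₀.B z w = 0) (ha : Φ.B (sg Φ x b (j u)) (j z) ≠ 0) :
    Φ.B (sg Φ x b (j u)) (j w) / Φ.B (sg Φ x b (j u)) (j z) ∈ (f).fieldRange := by
  haveI := h.fin
  have hu0 : u ≠ 0 := by rintro rfl; simp at ha
  have sk : ∀ p q, Φ.B (sg Φ x b p) q = -Φ.B p (sg Φ x b q) := fun p q => by
    simp [sg_apply, Φ.B_smul_left, ho.σ, ho.symm p]; ring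
  have s0 : Φ.B (j u) (sg Φ x b (j u)) = 0 := by
    rw [sg_apply, map_sub, map_smul, map_smul, ho.symm (j u) x, ho.symm (j u) b]; simp [mul_comm]
  have dual : ∀ z, Φ.B (sg Φ x b (j u)) (j z) ≠ 0 → ∃ t, Φ₀.B z t = 1 ∧ Φ₀.B u t = 0 := fun z ha =>
    exists_dual1 h.hn₀ fun hm => by
      obtain ⟨k, rfl⟩ := Submodule.mem_span_singleton.1 hm
      rw [map_smulₛₗ, Φ.B_smul_right, ho.symm, s0, mul_zero] at ha
      exact ha rfl
  have su := h.sing.2 hu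
  obtain ⟨t, t1, t2⟩ := dual z ha
  have h1 := h.hasE0 hX hu hz e1
  by_cases h2 : (2 : F) = 0
  · by_cases ha' : Φ.B (sg Φ x b (j u)) (j w) = 0
    · rw [ha', zero_div]; exact zero_mem _
    obtain ⟨t', t3, t4⟩ := dual w ha'
    have h1' := h.hasE0 hX hu hw e2
    obtain ⟨y, hy, c, hc, k⟩ := exists_weyl h2 (ho.sl2 he h1 ha) ha (ho.hasL h1)
      (by rw [smul_inv_smul₀ ha]; exact ho.hasL he)
    obtain ⟨y', hy', c', hc', k'⟩ := exists_weyl h2 (ho.sl2 he h1' ha') ha' (ho.hasL h1')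
      (by rw [smul_inv_smul₀ ha']; exact ho.hasL he)
    have k1 := k (j t)
    have k2 := k' (j t')
    rw [sg_apply _ _ (j t), h.B_one t1, h.B_zero t2, one_smul, zero_smul, sub_zero] at k1
    rw [sg_apply _ _ (j t'), h.B_one t3, h.B_zero t4, one_smul, zero_smul, sub_zero] at k2
    have hc0 : c ≠ 0 := by rintro rfl; exact ha (by rw [← hc]; simp)
    have hc0' : c' ≠ 0 := by rintro rfl; exact ha' (by rw [← hc']; simp)
    have := h.norm_mem h3 hX hS (mul_mem (inv_mem hy') hy) hu0 hu (u' := u) (c := c' / c) (by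
      rw [LinearEquiv.mul_apply, LinearEquiv.coe_inv, LinearEquiv.symm_apply_eq, map_smul, k1, k2, ← hc, ← hc']
      simp only [LinearMap.smul_apply, smul_smul]
      congr 1; field_simp)
    convert this using 1
    rw [← hc, ← hc', ho.σ]; field_simp
  obtain ⟨s, hs, k⟩ := (hasL_neg h2 (ho.sl2 he h1 ha) ha (ho.hasL h1)
    (by rw [smul_inv_smul₀ ha]; exact ho.hasL he)).exists_apply
  obtain ⟨r, μ, k1⟩ := h.small_map hX hS hs hu0 hu (u' := u) (c := -1) (by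
    rw [k]
    simp only [LinearMap.smul_apply, LinearMap.add_apply, Module.End.mul_apply, map_smul,
      sg_apply (j u) (j z), s0, su.2, h.B_zero (Φ₀.B_eq_zero_symm e1), ho.symm (j z) (sg Φ x b (j u)),
      zero_smul, sub_zero, map_zero, smul_zero]
    match_scalars; rw [mul_one, mul_one, smul_eq_mul, inv_mul_cancel₀ ha]; ring) e2
  have k2 := congrArg (fun v => Φ.B v (j t)) k1
  simp only [k, LinearMap.smul_apply, LinearMap.add_apply, Module.End.mul_apply, map_smul,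
    sg_apply (j u) (j z), h.B_zero e2, h.B_zero e3, Φ.B_smul_left, Φ.B_add_left, Φ.B_sub_left, ho.σ,
    h.B_one t1, h.B_zero t2, zero_smul, sub_zero, map_zero, add_zero, smul_eq_mul] at k2
  convert div_mem (add_mem (h.B_mem r t) (h.B_mem w t)) (ofNat_mem (f).fieldRange 2) using 1
  rw [sk (j u) (j w)]
  field_simp
  field_simp at k2
  linear_combination k2

omit [Finite F] in
theorem line_of_mem (h : RtN Φ₀ Φ j) (ho : IsO Φ) (hS : Small Φ₀ Φ j X) {x b : V} (he : HasE Φ X x b 0)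
    {p : V₀} (hp0 : p ≠ 0) (hp : j p ∈ (F ∙ x) ⊔ F ∙ b) :
    ∃ r, (F ∙ x) ⊔ (F ∙ b) = (F ∙ j p) ⊔ F ∙ j r := by
  have key : ∀ x b, HasE Φ X x b 0 → ∀ α β : F, α ≠ 0 → j p = α • x + β • b →
      ∃ r, (F ∙ x) ⊔ (F ∙ b) = (F ∙ j p) ⊔ F ∙ j r := fun x b he α β hα e => by
    have h1 := (((he.swap.add_smul (-(β / α))).congr (b := (-α⁻¹) • j p) (d' := 0) (by
      rw [e, ho.ε]; match_scalars <;> field_simp) (by rw [ho.σ, ho.ε]; ring)).swap.of_smul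
        (c := -α⁻¹) (p := j p) (by simpa))
    obtain ⟨r, μ, k⟩ := h.rat_add hp0 (hS _ _ _ hp0 h1)
    rw [ho.σ, ho.ε] at k
    have e1 : b = α • (j r + μ • j p) := by rw [← k]; match_scalars; field_simp
    have m1 := Submodule.mem_sup_left (T := F ∙ j r) (Submodule.mem_span_singleton_self (R := F) (j p))
    have m2 := mem_sup_self (F ∙ j p) (j r)
    have m3 := Submodule.mem_sup_left (T := F ∙ b) (Submodule.mem_span_singleton_self (R := F) x)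
    have m4 := mem_sup_self (F ∙ x) b
    have m5 : b ∈ (F ∙ j p) ⊔ F ∙ j r := e1 ▸ Submodule.smul_mem _ _ (add_mem m2 (Submodule.smul_mem _ _ m1))
    have m6 : j p ∈ (F ∙ x) ⊔ F ∙ b := e ▸ add_mem (Submodule.smul_mem _ _ m3) (Submodule.smul_mem _ _ m4)
    refine ⟨r, le_antisymm ?_ ?_⟩ <;> simp only [sup_le_iff, Submodule.span_singleton_le_iff_mem]
    · refine ⟨(Submodule.smul_mem_iff _ hα).1 ?_, m5⟩
      rw [eq_sub_of_add_eq e.symm]; exact sub_mem m1 (Submodule.smul_mem _ _ m5)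
    · refine ⟨m6, ?_⟩
      rw [eq_sub_of_add_eq k.symm]
      exact sub_mem (Submodule.smul_mem _ _ (neg_mem (Submodule.smul_mem _ _ m4))) (Submodule.smul_mem _ _ m6)
  obtain ⟨_, h1, _, h2, e⟩ := Submodule.mem_sup.1 hp
  obtain ⟨α, rfl⟩ := Submodule.mem_span_singleton.1 h1
  obtain ⟨β, rfl⟩ := Submodule.mem_span_singleton.1 h2
  by_cases hα : α = 0
  · have hβ : β ≠ 0 := by rintro rfl; exact h.ne hp0 (by simp [← e, hα])
    obtain ⟨r, hr⟩ := key b (-(Φ.ε • x)) he.swap β 0 hβ (by simp [← e, hα])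
    exact ⟨r, by rw [← hr, ho.ε, one_smul, ← neg_one_smul F x,
      Submodule.span_singleton_smul_eq (by simp), sup_comm]⟩
  · exact key x b he α β hα e.symm

omit [Finite F] in
theorem line_of_perp (h : RtN Φ₀ Φ j) (ho : IsO Φ) (hX : Ov Φ j X) (hS : Small Φ₀ Φ j X) {x b : V}
    (he : HasE Φ X x b 0) (hx0 : x ≠ 0) (hb : b ∉ F ∙ x) {p : V₀} (hp0 : p ≠ 0) (hp : Φ₀.Sing p) (h1 : Φ.B x (j p) = 0)
    (h2 : Φ.B b (j p) = 0) : ∃ r r', (F ∙ x) ⊔ (F ∙ b) = (F ∙ j r) ⊔ F ∙ j r' := by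
  haveI := h.fin
  by_cases hm : j p ∈ (F ∙ x) ⊔ F ∙ b
  · exact ⟨p, h.line_of_mem ho hS he hp0 hm⟩
  have mm : ∀ v, sg Φ x b v ∈ (F ∙ x) ⊔ F ∙ b := fun v => sub_mem (Submodule.smul_mem _ _
    (Submodule.mem_sup_left (Submodule.mem_span_singleton_self x))) (Submodule.smul_mem _ _ (mem_sup_self _ _))
  have K : ∀ p, p ≠ 0 → Φ₀.Sing p → Φ.B x (j p) = 0 → Φ.B b (j p) = 0 → ∀ t, Φ₀.B p t = 0 →
      ∀ t', Φ₀.B p t' = 0 → Φ.B (sg Φ x b (j t)) (j t') ∈ (f).fieldRange := fun p hp0 hp h1 h2 t ht => by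
    obtain ⟨s, hs, e⟩ := (ho.hasL he).exists_apply
    obtain ⟨d, hd⟩ := h.hasE hX hp ht
    obtain ⟨d', hd'⟩ : s (j t) - j t ∈ AE Φ X hd.sp := sub_mem (map_mem_AE hs (hX.isom hs) (by
      simp [e, sg_apply, h1, h2]) ⟨_, hd⟩) ⟨_, hd⟩
    exact hS p _ _ hp0 (hd'.congr (by rw [e, add_sub_cancel_left]) rfl)
  obtain ⟨t, ht, e⟩ : ∃ t, Φ₀.B p t = 0 ∧ Φ.B x (j t) ≠ 0 := by
    by_contra! hc
    obtain ⟨c, hc⟩ := Submodule.mem_span_singleton.1 (h.mem_span hp0 hc)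
    have hc0 : c ≠ 0 := by rintro rfl; exact hx0 (by simp [← hc])
    exact hm (Submodule.mem_sup_left ((Submodule.smul_mem_iff _ hc0).1 (by
      rw [hc]; exact Submodule.mem_span_singleton_self x)))
  obtain ⟨r, μ, k⟩ := h.rat_add hp0 (K p hp0 hp h1 h2 t ht)
  have y0 : sg Φ x b (j t) ≠ 0 := fun h0 => hb (Submodule.mem_span_singleton.2
    ⟨Φ.B b (j t) / Φ.B x (j t), by
      rw [div_eq_inv_mul, mul_smul, inv_smul_eq_iff₀ e]; exact sub_eq_zero.1 h0⟩)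
  have n : r ∉ F₀ ∙ p := fun hr => by
    obtain ⟨c, rfl⟩ := Submodule.mem_span_singleton.1 hr
    rw [map_smulₛₗ, ← add_smul] at k
    exact hm ((Submodule.smul_mem_iff _ (left_ne_zero_of_smul (k ▸ y0))).1 (k ▸ mm _))
  have k' := eq_sub_of_add_eq k.symm
  have c1 := he.sp.2
  have c2 := he.sing.2
  have c3 := he.pa
  have c4 := Φ.B_eq_zero_symm he.pa
  have sr : Φ₀.Sing r := h.sing.1 (by
    rw [k', sg_apply, sub_eq_add_neg, sub_eq_add_neg, ← neg_smul, ← neg_smul]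
    exact sing_add_of_perp (sing_add_of_perp (he.sp.smul _) (he.sing.smul _) (by simp [Φ.B_smul_left, c3]))
      ((h.sing.2 hp).smul _) (by simp [Φ.B_smul_left, h1, h2]))
  obtain ⟨t', t1, t2⟩ := exists_dual1 h.hn₀ (notMem_symm n hp0)
  obtain ⟨κ, hκ⟩ := K r (by rintro rfl; simp at n) sr (by simp [k', sg_apply, c1, c3, h1])
    (by simp [k', sg_apply, c2, c4, h2]) t ((f).injective (by
      rw [← h.hB, k']; simp [sg_apply, Φ.B_smul_left, ho.σ, h.B_zero ht, mul_comm])) t' t2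
  rw [k, Φ.B_add_left, Φ.B_smul_left, h.B_zero t2, h.B_one t1, ho.σ, zero_add, mul_one] at hκ
  have e1 : sg Φ x b (j t) = j (r + κ • p) := by rw [k, map_add, map_smulₛₗ, hκ]
  exact ⟨_, h.line_of_mem ho hS he (p := r + κ • p) (fun h0 => y0 (by rw [e1, h0, map_zero])) (e1 ▸ mm _)⟩

theorem line_rat [Finite F₀] (h : RtN Φ₀ Φ j) (ho : IsO Φ) (h7 : 7 ≤ finrank F₀ V₀) (hX : Ov Φ j X)
    (hS : Small Φ₀ Φ j X) {x b : V} (he : HasE Φ X x b 0) (hx0 : x ≠ 0) (hb : b ∉ F ∙ x) :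
    ∃ r r', (F ∙ x) ⊔ (F ∙ b) = (F ∙ j r) ⊔ F ∙ j r' := by
  haveI := h.fin
  have c1 := he.sp.2
  have c3 := he.pa
  have c4 := Φ.B_eq_zero_symm he.pa
  obtain ⟨u, hu, e⟩ : ∃ u, Φ₀.Sing u ∧ Φ.B x (j u) ≠ 0 := by
    obtain ⟨e, -, he0, he, -⟩ := h.exists_pl h7
    obtain ⟨r, hr⟩ := h.hn₀.exists_isPair he0 he
    by_contra! hc
    exact hx0 (h.eq_zero (sing_induction hr hc fun x y hx hy => by simp [hx, hy]))
  have hu0 : u ≠ 0 := by rintro rfl; simp at e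
  obtain ⟨z, e1, hz, n1, ha⟩ : ∃ z, Φ₀.B u z = 0 ∧ Φ₀.Sing z ∧ z ∉ F₀ ∙ u ∧
      Φ.B (sg Φ x b (j u)) (j z) ≠ 0 := by
    by_contra! hc
    obtain ⟨c, hc⟩ := Submodule.mem_span_singleton.1 (h.mem_span hu0 (perp_ind h.hn₀ (by omega) hu0 hu
      ((Φ.B (sg Φ x b (j u))).toAddMonoidHom.comp j.toAddMonoidHom).ker hc))
    have := congrArg (Φ.B x) hc
    simp only [sg_apply, map_sub, map_smul, c1, c3, smul_eq_mul, mul_zero, sub_zero, mul_eq_zero, e,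
      or_false] at this
    rw [this, zero_smul, sg_apply] at hc
    exact hb (Submodule.mem_span_singleton.2 ⟨Φ.B b (j u) / Φ.B x (j u), by
      rw [div_eq_inv_mul, mul_smul, inv_smul_eq_iff₀ e]; exact sub_eq_zero.1 hc.symm⟩)
  obtain ⟨w, -, n2, hw, e2⟩ := exists_sing_pf Φ₀ ![u, z] (U := ⊤) (R := (F₀ ∙ u) ⊔ F₀ ∙ z) (by
    have := finrank_sup_one (F₀ ∙ u) z; have := finrank_span_one (F := F₀) u
    rw [finrank_top]; omega)
  have e3 : Φ₀.B u w = 0 := e2 0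
  have e4 : Φ₀.B z w = 0 := e2 1
  have ω : ∀ p q, Φ.B (sg Φ x b p) q = Φ.B b p * Φ.B x q - Φ.B x p * Φ.B b q := fun p q => by
    simp [sg_apply, Φ.B_smul_left, ho.σ]
  have ha' : Φ.B (sg Φ x b (j z)) (j u) ≠ 0 := by rw [ω] at ha ⊢; exact fun e => ha (by linear_combination -e)
  obtain ⟨l, hl⟩ := h.ratio ho (by omega) hX hS he hu hz hw e1 e3 e4 ha
  obtain ⟨m, hm⟩ := h.ratio ho (by omega) hX hS he hz hu hw (Φ₀.B_eq_zero_symm e1) e4 e3 ha'
  rw [eq_div_iff ha] at hl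
  rw [eq_div_iff ha'] at hm
  simp only [ω] at hl hm ha
  refine h.line_of_perp ho hX hS he hx0 hb (p := (m • u + l • z) + (-1 : F₀) • w) (fun h0 => n2 ?_)
    (sing_add_of_perp (sing_add_of_perp (hu.smul _) (hz.smul _) (by simp [Φ₀.B_smul_left, e1])) (hw.smul _)
      (by simp [Φ₀.B_smul_left, e3, e4])) (mul_left_cancel₀ ha ?_) (mul_left_cancel₀ ha ?_)
  · rw [neg_one_smul, add_neg_eq_zero] at h0
    exact h0 ▸ add_mem (Submodule.mem_sup_left (Submodule.smul_mem _ _ (Submodule.mem_span_singleton_self _)))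
      (Submodule.smul_mem _ _ (mem_sup_self _ _))
  · simp only [map_add, map_smulₛₗ, RingHom.id_apply, smul_eq_mul, map_neg, map_one]
    linear_combination Φ.B x (j z) * hl - Φ.B x (j u) * hm
  · simp only [map_add, map_smulₛₗ, RingHom.id_apply, smul_eq_mul, map_neg, map_one]
    linear_combination Φ.B b (j z) * hl - Φ.B b (j u) * hm

omit [Finite F] [FiniteDimensional F V] in
theorem mem_of_sing [Finite F₀] [Finite V] (h : RtN Φ₀ Φ j) (h7 : 7 ≤ finrank F₀ V₀) {g : V ≃ₗ[F] V}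
    (hg : ∀ e, e ≠ 0 → Φ₀.Sing e → ∃ (c : F) (r : V₀), g (j e) = c • j r) : g ∈ ratG F (Set.range j) := by
  haveI := h.fin
  have step : ∀ u v r (c : F), u ≠ 0 → Φ₀.Sing u → Φ₀.Sing v → Φ₀.B u v = 0 → v ∉ F₀ ∙ u →
      g (j u) = c • j r → ∃ r', g (j v) = c • j r' := fun u v r c hu su sv e hv e0 => by
    have h1 : c • j r ≠ 0 := e0 ▸ (map_ne_zero_iff g g.injective).2 (h.ne hu)
    have hc : c ≠ 0 := left_ne_zero_of_smul h1
    have hr : r ≠ 0 := by rintro rfl; simp at h1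
    obtain ⟨c₁, r₁, e1⟩ := hg v (by rintro rfl; simp at hv) sv
    obtain ⟨c₂, r₂, e2⟩ := hg (v + u) (fun e => hv (by
      rw [eq_neg_of_add_eq_zero_left e]; exact neg_mem (Submodule.mem_span_singleton_self _)))
      (sing_add_of_perp sv su (Φ₀.B_eq_zero_symm e))
    have n : r₁ ∉ F₀ ∙ r := fun hm => h.notMem hv (by
      obtain ⟨k, rfl⟩ := Submodule.mem_span_singleton.1 hm
      exact Submodule.mem_span_singleton.2 ⟨c₁ * f k * c⁻¹, g.injective (by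
        rw [map_smul, e0, e1, map_smulₛₗ, smul_smul, smul_smul, inv_mul_cancel_right₀ hc])⟩)
    obtain ⟨t, t1, t2⟩ := exists_dual1 h.hn₀ (notMem_symm n hr)
    rw [map_add, map_add, e0] at e2
    have e3 := congrArg (fun x => Φ.B x (j t)) e2
    simp only [e1, Φ.B_add_left, Φ.B_smul_left, h.B_one t1, h.B_zero t2, mul_zero, zero_add, mul_one,
      h.hB] at e3
    have e4 : c = c₂ * f (σ₀ (Φ₀.B r₂ t)) := by rw [← h.hσ, ← Φ.σσ c, e3, map_mul, Φ.σσ]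
    have e5 : σ₀ (Φ₀.B r₂ t) ≠ 0 := fun e => hc (by rw [e4, e, map_zero, mul_zero])
    refine ⟨(σ₀ (Φ₀.B r₂ t))⁻¹ • r₂ - r, ?_⟩
    rw [eq_sub_of_add_eq e2, map_sub, map_smulₛₗ, smul_sub, smul_smul, map_inv₀]
    congr 2
    rw [e4, mul_inv_cancel_right₀ (by simpa using e5)]
  obtain ⟨u, -, hu0, hu, -⟩ := h.exists_pl h7
  obtain ⟨c, u', e⟩ := hg u hu0 hu
  have hc : c ≠ 0 := left_ne_zero_of_smul (e ▸ (map_ne_zero_iff g g.injective).2 (h.ne hu0))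
  obtain ⟨r, hr⟩ := h.hn₀.exists_isPair hu0 hu
  refine mem_ratG.2 ⟨c⁻¹, inv_ne_zero hc, ?_⟩
  rintro _ ⟨v, rfl⟩
  refine sing_induction hr (P := fun v => c⁻¹ • g (j v) ∈ Set.range j) (fun z hz => ?_) ?_ v
  · rcases eq_or_ne z 0 with rfl | hz0
    · exact ⟨0, by simp⟩
    obtain ⟨w, hw0, hw, e1, e2, n1, -, -, n2⟩ := h.exists_nbr h7 hu0 hz0
    obtain ⟨w', hw'⟩ := step _ _ _ _ hu0 hu hw e1 n1 e
    obtain ⟨z', hz'⟩ := step _ _ _ _ hw0 hw hz (Φ₀.B_eq_zero_symm e2) n2 hw'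
    exact ⟨z', by rw [hz', inv_smul_smul₀ hc]⟩
  · rintro a b ⟨a', ha⟩ ⟨b', hb⟩
    exact ⟨a' + b', by simp [ha, hb]⟩

theorem le_ratG [Finite F₀] [Finite V] (h : RtN Φ₀ Φ j) (ho : IsO Φ) (h7 : 7 ≤ finrank F₀ V₀)
    (hX : Ov Φ j X) (hS : Small Φ₀ Φ j X) : X ≤ ratG F (Set.range j) := fun g hg => by
  haveI := h.fin
  refine h.mem_of_sing h7 fun e he0 he => ?_
  obtain ⟨z, -, hz, e1, -, n1, -⟩ := h.exists_nbr h7 he0 he0
  obtain ⟨w, -, n2, hw, e2⟩ := exists_sing_pf Φ₀ ![e, z] (U := ⊤) (R := (F₀ ∙ e) ⊔ F₀ ∙ z) (by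
    have := finrank_sup_one (F₀ ∙ e) z; have := finrank_span_one (F := F₀) e
    rw [finrank_top]; omega)
  have x0 : g (j e) ≠ 0 := (map_ne_zero_iff g g.injective).2 (h.ne he0)
  have L : ∀ z, Φ₀.Sing z → Φ₀.B e z = 0 → z ∉ F₀ ∙ e →
      ∃ r r', (F ∙ g (j e)) ⊔ (F ∙ g (j z)) = (F ∙ j r) ⊔ F ∙ j r' := fun z hz e1 n =>
    h.line_rat ho h7 hX hS ((h.hasE0 hX he hz e1).conj hg (hX.isom hg)) x0 fun hm => h.notMem n (by
      obtain ⟨c, hc⟩ := Submodule.mem_span_singleton.1 hm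
      exact Submodule.mem_span_singleton.2 ⟨c, g.injective (by rw [map_smul, hc])⟩)
  obtain ⟨r₁, r₂, k⟩ := L z hz e1 n1
  obtain ⟨r₃, r₄, k'⟩ := L w hw (e2 0) fun hm => n2 (Submodule.mem_sup_left hm)
  have m : g (j e) ∈ (F ∙ j r₁) ⊔ F ∙ j r₂ := k ▸ Submodule.mem_sup_left (Submodule.mem_span_singleton_self _)
  have key : ∀ r₃ r₄, g (j e) ∈ (F ∙ j r₃) ⊔ (F ∙ j r₄) → r₄ ∉ (F₀ ∙ r₁) ⊔ F₀ ∙ r₂ →
      ∃ (c : F) (r : V₀), g (j e) = c • j r := fun r₃ r₄ hm n => by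
    obtain ⟨t, ht, t1⟩ := h.hn₀.exists_perp_eq_one' n
    simp only [Φ₀.perp_sup, Submodule.mem_inf, Φ₀.mem_perp_span_singleton] at ht
    have t2 : Φ.B (g (j e)) (j t) = 0 := (show j t ∈ Φ.perp ((F ∙ j r₁) ⊔ F ∙ j r₂) by
      simp [Φ.perp_sup, Φ.mem_perp_span_singleton, h.B_zero ht.1, h.B_zero ht.2]) _ m
    obtain ⟨_, h1, _, h2, e⟩ := Submodule.mem_sup.1 hm
    obtain ⟨α, rfl⟩ := Submodule.mem_span_singleton.1 h1
    obtain ⟨β, rfl⟩ := Submodule.mem_span_singleton.1 h2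
    rw [← e, Φ.B_add_left, Φ.B_smul_left, Φ.B_smul_left, h.B_one t1, h.hB, ho.σ, ho.σ] at t2
    refine ⟨α, r₃ - Φ₀.B r₃ t • r₄, ?_⟩
    rw [← e, map_sub, map_smulₛₗ, show β = -(α * f (Φ₀.B r₃ t)) by linear_combination t2]
    module
  have m' : g (j e) ∈ (F ∙ j r₃) ⊔ F ∙ j r₄ := k' ▸ Submodule.mem_sup_left (Submodule.mem_span_singleton_self _)
  by_cases a4 : r₄ ∈ (F₀ ∙ r₁) ⊔ F₀ ∙ r₂
  swap; · exact key r₃ r₄ m' a4
  by_cases a3 : r₃ ∈ (F₀ ∙ r₁) ⊔ F₀ ∙ r₂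
  swap; · exact key r₄ r₃ (sup_comm (F ∙ j r₃) _ ▸ m') a3
  exfalso
  have up : ∀ r ∈ (F₀ ∙ r₁) ⊔ F₀ ∙ r₂, j r ∈ (F ∙ j r₁) ⊔ F ∙ j r₂ := fun r hr => by
    obtain ⟨_, h1, _, h2, rfl⟩ := Submodule.mem_sup.1 hr
    obtain ⟨α, rfl⟩ := Submodule.mem_span_singleton.1 h1
    obtain ⟨β, rfl⟩ := Submodule.mem_span_singleton.1 h2
    rw [map_add, map_smulₛₗ, map_smulₛₗ]
    exact add_mem (Submodule.mem_sup_left (Submodule.smul_mem _ _ (Submodule.mem_span_singleton_self _)))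
      (Submodule.smul_mem _ _ (mem_sup_self _ _))
  have m2 : g (j w) ∈ (F ∙ g (j e)) ⊔ F ∙ g (j z) := by
    rw [k]
    refine (show (F ∙ j r₃) ⊔ (F ∙ j r₄) ≤ _ from ?_) (k' ▸ mem_sup_self _ _)
    simp only [sup_le_iff, Submodule.span_singleton_le_iff_mem]
    exact ⟨up _ a3, up _ a4⟩
  obtain ⟨t, ht, t1⟩ := h.hn₀.exists_perp_eq_one' n2
  simp only [Φ₀.perp_sup, Submodule.mem_inf, Φ₀.mem_perp_span_singleton] at ht
  have := (show g (j t) ∈ Φ.perp ((F ∙ g (j e)) ⊔ F ∙ g (j z)) by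
    simp [Φ.perp_sup, Φ.mem_perp_span_singleton, (hX.isom hg).1, h.B_zero ht.1, h.B_zero ht.2]) _ m2
  rw [(hX.isom hg).1, h.B_one t1] at this
  exact one_ne_zero this

end RtN
end Main

variable {F : Type*} [Field F] {σ : F →+* F} {ι : Type} [Fintype ι] [DecidableEq ι]
  {F₀ : Subfield F} {P : GL ι F}

theorem isMaximalIn_subO [Fintype F] {Φ : Formed σ (ι → F)} (hn : Φ.Nondeg) (ho : IsO Φ) (hτ : Φ.τ = 1)
    (h7 : 7 ≤ Fintype.card ι) {r : ℕ} (hr : r.Prime) (hc : Fintype.card F = Nat.card F₀ ^ r)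
    (hQ : ∀ x, Φ.Q (jP F₀ P x) ∈ F₀) :
    Geo.IsMaximalIn (EG Φ) (ratG F (Set.range (jP F₀ P)) ⊓ EG Φ) := by
  rw [← Nat.card_eq_fintype_card] at hc
  obtain ⟨σ₀, Φ₀, h⟩ := exists_pullN (jP F₀ P) (σ_mem_subfield F₀ σ) (fun x y => by
    have := sub_mem (sub_mem (hQ (x + y)) (hQ x)) (hQ y)
    rwa [map_add, Φ.Q_add, hτ, one_mul, add_assoc, add_sub_cancel_left, add_sub_cancel_left] at this)
    (hτ ▸ one_mem _) (fun x => by
      obtain ⟨d, h1, h2⟩ := Φ.trace (jP F₀ P x)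
      exact ⟨d, by rw [hτ, one_mul] at h1; exact h1 ▸ hQ x, h1, h2⟩) hn jP_inj jP_span
  exact h.isMaximalIn (by simpa) (Or.inl (hτ ▸ one_ne_zero)) (exists_notMem_of_card hr hc)
    (subring_of_prime hr hc) fun X hX hS => h.le_ratG ho (by simpa) hX hS

theorem sub_o [Fintype F] {Q : (ι → F) → F} (hQ : Geo.IsNondegenerateQuadraticForm Q)
    (h7 : 7 ≤ Fintype.card ι) (F₀ : Subfield F) (r : ℕ) (P : GL ι F) (ζ : F) (hr : r.Prime)
    (hcard : Fintype.card F = Nat.card F₀ ^ r) (hζ : ζ ≠ 0)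
    (hP : Geo.IsQuadFormRationalStructure (fun v : ι → F => ζ * Q v) F₀ P) :
    Geo.IsMaximalIn (Geo.omegaGL Q) (Geo.subfieldSubgroup F₀ P ⊓ Geo.omegaGL Q) := by
  obtain ⟨Q, rfl, h1⟩ := exists_quad hQ
  have hE := EG_scale (Φ := Formed.ofQuad Q) (η := 1) (h1 := mul_one 1) (h2 := rfl) (h3 := (one_mul _).symm)
    (h4 := mul_one _) hζ
  exact isMaximalIn_inf (glEquiv _ F) (hE ▸ isMaximalIn_subO (scale_nondeg hζ h1) ⟨fun _ => rfl, mul_one _⟩ rfl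
    h7 hr hcard fun x => hP _ fun i => (x i).2) (fun g => mem_omegaGL h1 (by omega))
    fun g => mem_subfieldSubgroup_iff

end Cfsg.Agent.Root.Mx
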