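import Cfsg.Agent.Low.C1
import Cfsg.Agent.Low.Nd
import Cfsg.Agent.Low.SubO2
import Cfsg.Agent.Root.Ext4
import Cfsg.Agent.Classical.SpSimple

/-! Matrix-level statements for orthogonal groups in low dimension: `ts_o`, `nd_o`, `nd_o4`,
`point_o`, `ext_o`. -/

set_option autoImplicit false

namespace Cfsg.Agent.Root.Mx

open Cfsg.Agent.Geom Cfsg.Agent.AutCl Module

variable {F : Type*} [Field F] [Fintype F] {ι : Type} [Fintype ι] [DecidableEq ι] {Q : (ι → F) → F}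

theorem ts_o (hQ : Geo.IsNondegenerateQuadraticForm Q) (h5 : 5 ≤ Fintype.card ι) {W : Submodule F (ι → F)}
    (hW0 : W ≠ ⊥) (hW : Geo.IsTotallySingularQuad Q W)
    (H : 2 * (finrank F W + 1) = Fintype.card ι → ¬ Geo.IsPlusTypeOn Q ⊤) :
    Geo.IsMaximalIn (Geo.omegaGL Q) (Geo.subspaceStabilizer W ⊓ Geo.omegaGL Q) := by
  obtain ⟨Q, rfl, h1⟩ := exists_quad hQ
  exact isMaximalIn_inf (glEquiv _ F) (stab_ts_quadL h1 (by simp; omega) hW0 hW
    fun e U hU e' => H (by simpa using e) ⟨U, le_top, hU, by rw [e', finrank_top]⟩)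
    (fun g => mem_omegaGL h1 h5) fun g => Iff.rfl

theorem nd_o (hQ : Geo.IsNondegenerateQuadraticForm Q) {W : Submodule F (ι → F)}
    (hW0 : W ≠ ⊥) (hW1 : W ≠ ⊤) (hW : Geo.IsNondegenerateOn (QuadraticMap.polar Q) W)
    (hd : Fintype.card ι < 2 * finrank F W ∧ 5 ≤ finrank F W ∧ finrank F W + 2 ≠ Fintype.card ι ∨
      2 * finrank F W < Fintype.card ι ∧ finrank F W + 5 ≤ Fintype.card ι)
    (hp : finrank F W = 2 → Geo.IsPlusTypeOn Q W → 4 ≤ Fintype.card F) :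
    Geo.IsMaximalIn (Geo.omegaGL Q) (Geo.subspaceStabilizer W ⊓ Geo.omegaGL Q) := by
  obtain ⟨Q, rfl, h1⟩ := exists_quad hQ
  have h2 := nondeg_of_on (Φ := Formed.ofQuad Q) hW fun _ _ => Iff.rfl
  have h3 := h1.finrank_add_finrank_perp W
  have h6 := Submodule.finrank_le W
  rw [Module.finrank_fintype_fun_eq_card] at h3 h6
  have adj : ∀ U, ((Formed.ofQuad Q).restrict U).Nondeg → 2 ≤ finrank F U → Adj (Formed.ofQuad Q) U :=
    fun U hU h => adj_quad h1 (by simp; omega) hU h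
  refine isMaximalIn_inf (glEquiv _ F) (H' := stab W) ?_ (fun g => mem_omegaGL h1 (by omega)) fun g => Iff.rfl
  rcases hd with hd | hd
  · exact isMaximalIn_stab_nd h1 h2 hd.2.1 hW1 (plane_quad h1 (h1.restrict_perp h2) fun e => by omega) adj
      (not_map_perp h1 (by simp; omega))
  · change Geo.IsMaximalIn _ (stab W ⊓ _)
    rw [← stab_perp_inf h1]
    refine isMaximalIn_stab_nd h1 (h1.restrict_perp h2) (by omega)
      (fun e => hW0 (by rw [← h1.perp_perp W, e, h1.perp_top])) ?_ adj (not_map_perp h1 (by simp; omega))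
    rw [h1.perp_perp]
    refine plane_quad h1 h2 fun e ⟨x, hx, hx0, hx1⟩ => Classical.exists_ne_zero_sq_ne_one ?_
    rw [Nat.card_eq_fintype_card]
    exact hp e ⟨F ∙ x, (Submodule.span_singleton_le_iff_mem _ _).2 hx, fun y hy => by
      obtain ⟨c, rfl⟩ := Submodule.mem_span_singleton.1 hy
      rw [quad_smul, hx1, mul_zero], by rw [finrank_span_singleton hx0, e]⟩

theorem point_o (hQ : Geo.IsNondegenerateQuadraticForm Q) (h7 : 7 ≤ Fintype.card ι) {v : ι → F} (hv : Q v ≠ 0) :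
    Geo.IsMaximalIn (Geo.omegaGL Q) (Geo.subspaceStabilizer (Submodule.span F {v}) ⊓ Geo.omegaGL Q) := by
  obtain ⟨Q, rfl, h1⟩ := exists_quad hQ
  exact isMaximalIn_inf (glEquiv _ F) (isMaximalIn_stab_point h1 (notSp2_quad Q) (by simpa)
    fun h => hv h.1) (fun g => mem_omegaGL h1 (by omega)) fun g => Iff.rfl

theorem ext_o (hQ : Geo.IsNondegenerateQuadraticForm Q) (hodd : Odd (Fintype.card F)) {r : ℕ} (hr : r.Prime)
    (hnr : 3 * r < Fintype.card ι) (K : Subalgebra F (Matrix ι ι F)) (hK : Geo.IsFieldSubalgebra r K)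
    (hsa : Geo.IsSelfAdjointFor (QuadraticMap.polar Q) K) :
    Geo.IsMaximalIn (Geo.omegaGL Q) (Geo.subalgebraNormalizer K ⊓ Geo.omegaGL Q) := by
  haveI : Nonempty ι := Fintype.card_pos_iff.1 (by omega)
  obtain ⟨Q, rfl, h1⟩ := exists_quad hQ
  refine with_field hK fun K' _ _ _ _ h2 h3 h4 h5 => ?_
  have hd := Module.finrank_mul_finrank F K' (ι → F)
  rw [h2, Module.finrank_fintype_fun_eq_card] at hd
  have := hr.two_le
  refine isMaximalIn_inf (glEquiv _ F) (isMaximalIn_extO h1 (h2 ▸ hr) (two_ne_zero_of_odd_card hodd) ?_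
    fun k u v => ?_) (fun g => mem_omegaGL h1 (by omega)) h5
  · by_contra! hc
    nlinarith
  · obtain ⟨a, ha, e⟩ := h4 k
    simpa only [e] using hsa a ha u v

theorem nd_o43 (hQ : Geo.IsNondegenerateQuadraticForm Q) (hodd : Odd (Fintype.card F)) (h7 : Fintype.card ι = 7)
    {W : Submodule F (ι → F)} (h4 : finrank F W = 4) (hW : Geo.IsNondegenerateOn (QuadraticMap.polar Q) W) :
    Geo.IsMaximalIn (Geo.omegaGL Q) (Geo.subspaceStabilizer W ⊓ Geo.omegaGL Q) := by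
  obtain ⟨Q, rfl, h1⟩ := exists_quad hQ
  have h2 := nondeg_of_on (Φ := Formed.ofQuad Q) hW fun _ _ => Iff.rfl
  have h3 := h1.finrank_add_finrank_perp W
  rw [Module.finrank_fintype_fun_eq_card] at h3
  exact isMaximalIn_inf (glEquiv _ F) (stab_nd_odd h1 h2 (two_ne_zero_of_odd_card hodd) (by omega) (by omega)
    (not_map_perp h1 (by simp; omega))) (fun g => mem_omegaGL h1 (by omega)) fun g => Iff.rfl

theorem nd_o44 (hQ : Geo.IsNondegenerateQuadraticForm Q) (hminus : ¬ Geo.IsPlusTypeOn Q ⊤)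
    (h8 : Fintype.card ι = 8) {W : Submodule F (ι → F)} (h4 : finrank F W = 4)
    (hW : Geo.IsNondegenerateOn (QuadraticMap.polar Q) W) :
    Geo.IsMaximalIn (Geo.omegaGL Q) (Geo.subspaceStabilizer W ⊓ Geo.omegaGL Q) := by
  obtain ⟨Q, rfl, h1⟩ := exists_quad hQ
  have h2 := nondeg_of_on (Φ := Formed.ofQuad Q) hW fun _ _ => Iff.rfl
  have h3 := h1.finrank_add_finrank_perp W
  rw [Module.finrank_fintype_fun_eq_card] at h3
  refine isMaximalIn_inf (glEquiv _ F) (H' := stab W) ?_ (fun g => mem_omegaGL h1 (by omega)) fun g => Iff.rfl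
  change Geo.IsMaximalIn _ (stab W ⊓ _)
  have hi : ∀ W : Submodule F (ι → F), ((Formed.ofQuad Q).restrict W).Nondeg → finrank F W = 4 →
      ∀ g ∈ (Formed.ofQuad Q).isom, ¬ ∀ x ∈ W, g x ∈ (Formed.ofQuad Q).perp W := fun W h2 h4 g hg hc => by
    obtain ⟨U, e1, e2⟩ := exists_ts_of_map_perp h2 (by rw [h4]; decide) hg hc
    exact hminus ⟨U, le_top, e1, by simp [e2, h4, h8]⟩
  by_cases h22 : (2 : F) = 0
  swap; · exact stab_nd_odd h1 h2 h22 (by omega) (by omega) (hi W h2 h4)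
  have ln : ∀ W : Submodule F (ι → F), (¬ ∀ x ∈ W, ∀ y ∈ W, x ≠ 0 → Q x = 0 → Q y = 0 →
      (Formed.ofQuad Q).B x y = 0 → y ∈ F ∙ x) → ∃ U ≤ W, (∀ x ∈ U, Q x = 0) ∧ 2 ≤ finrank F U := by
    intro W h
    push Not at h
    obtain ⟨x, hx, y, hy, hx0, e1, e2, e3, n⟩ := h
    have := finrank_lt_sup n
    rw [finrank_span_singleton hx0] at this
    refine ⟨(F ∙ x) ⊔ F ∙ y, sup_le ((Submodule.span_singleton_le_iff_mem _ _).2 hx)
      ((Submodule.span_singleton_le_iff_mem _ _).2 hy), fun v hv => ?_, this⟩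
    obtain ⟨_, h1, _, h2, rfl⟩ := Submodule.mem_sup.1 hv
    obtain ⟨a, rfl⟩ := Submodule.mem_span_singleton.1 h1
    obtain ⟨b, rfl⟩ := Submodule.mem_span_singleton.1 h2
    exact (sing_add_of_perp ((Formed.sing_ofQuad.2 e1).smul a) ((Formed.sing_ofQuad.2 e2).smul b)
      (by rw [Formed.B_smul_left, map_smul, e3]; simp)).1
  by_cases a1 : ∀ x ∈ W, ∀ y ∈ W, x ≠ 0 → Q x = 0 → Q y = 0 → (Formed.ofQuad Q).B x y = 0 → y ∈ F ∙ x
  · exact stab_nd_two h1 h2 h22 (by omega) (by omega) (hi W h2 h4) a1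
  rw [← stab_perp_inf h1]
  refine stab_nd_two h1 (h1.restrict_perp h2) h22 (by omega) (by rw [h1.perp_perp]; omega)
    (hi _ (h1.restrict_perp h2) (by omega)) (by_contra fun a2 => ?_)
  obtain ⟨U, u1, u2, u3⟩ := ln _ a1
  obtain ⟨U', u1', u2', u3'⟩ := ln _ a2
  have ts : ∀ v ∈ U ⊔ U', Q v = 0 := fun v hv => by
    obtain ⟨x, hx, y, hy, rfl⟩ := Submodule.mem_sup.1 hv
    rw [quad_add, u2 x hx, u2' y hy, show QuadraticMap.polar Q x y = 0 from u1' hy x (u1 hx)]; simp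
  have r1 := Submodule.finrank_sup_add_finrank_inf_eq U U'
  rw [show U ⊓ U' = ⊥ from (((Formed.ofQuad Q).restrict_nondeg_iff.1 h2).mono u1 u1').eq_bot,
    finrank_bot] at r1
  have r2 := h1.two_mul_finrank_le (Formed.totSing_ofQuad.2 ts).le_perp
  rw [Module.finrank_fintype_fun_eq_card] at r2
  exact hminus ⟨U ⊔ U', le_top, ts, by simp; omega⟩

end Cfsg.Agent.Root.Mx
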