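import Cfsg.Agent.Low.Rt
import Cfsg.Agent.Root.Max5

/-! Maximality of subfield subgroups of symplectic groups in dimension at least four
(`isMaximalIn_subSp`, `sub_sp`). -/

set_option autoImplicit false

namespace Cfsg.Agent.Root.Mx

open Cfsg.Agent.Geom Cfsg.Agent.AutCl Module

section Core
variable {F : Type*} [Field F] {σ : F →+* F} {V : Type*} [AddCommGroup V] [Module F V]
  {Φ : Formed σ V} {X : Subgroup (V ≃ₗ[F] V)}

/-- The formed space is symplectic. -/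
structure IsSp (Φ : Formed σ V) : Prop where
  σ : ∀ a, σ a = a
  τ : Φ.τ = 0
  ε : Φ.ε = -1

namespace IsSp

theorem alt (h : IsSp Φ) (x : V) : Φ.B x x = 0 := by
  obtain ⟨d, -, e⟩ := Φ.trace x
  rw [← e, h.ε, h.σ]; ring

theorem sing (h : IsSp Φ) (x : V) : Φ.Sing x := by
  obtain ⟨d, e, -⟩ := Φ.trace x
  exact ⟨by rw [← e, h.τ, zero_mul], h.alt x⟩

theorem skew (h : IsSp Φ) (x y : V) : Φ.B y x = -Φ.B x y := by rw [Φ.symm, h.ε, h.σ]; ring

theorem exists_tv [FiniteDimensional F V] (h : IsSp Φ) (hn : Φ.Nondeg) (x : V) (d : F) :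
    ∃ g, IsE Φ x 0 d g :=
  exists_isE hn (h.sing x) (by simp) (by rw [h.τ, (h.sing 0).1, zero_mul]) (by simp [h.ε, h.σ])

theorem tv_shift (h : IsSp Φ) {x r : V} {t c : F} (h1 : HasE Φ X x 0 t)
    (h2 : HasE Φ X (x + c • r) 0 t) (e : Φ.B r x = 0) : HasE Φ X r ((-(t * c)) • x) (t * c ^ 2) := by
  obtain ⟨g1, m1, i1⟩ := h1
  obtain ⟨g2, m2, i2⟩ := h2
  have e' := Φ.B_eq_zero_symm e
  refine ⟨g2 * g1⁻¹, mul_mem m2 (inv_mem m1), h.sing r, by simp [e],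
    by rw [h.τ, (h.sing _).1, zero_mul], by rw [h.alt, h.ε, h.σ]; ring, fun v => ?_⟩
  rw [LinearEquiv.mul_apply, i1.inv.app, i2.app]
  simp only [neg_zero, map_zero, LinearMap.zero_apply, smul_zero, sub_zero, map_add, map_smul,
    LinearMap.add_apply, e, e', h.alt, smul_eq_mul, mul_zero, add_zero, Φ.B_smul_left, h.σ, h.ε]
  module

theorem tv_conj {x : V} {t : F} (h1 : HasE Φ X x 0 t) {s : V ≃ₗ[F] V} (hs : s ∈ X) (hX : X ≤ Φ.isom) :
    HasE Φ X (s x) 0 t := (h1.conj hs (hX hs)).congr (map_zero _) rfl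

theorem tv_smul (h : IsSp Φ) {x : V} {c : F} (hc : c ≠ 0) (h1 : ∀ t, HasE Φ X (c • x) 0 t) (t : F) :
    HasE Φ X x 0 t :=
  ((h1 (t / (c * c))).of_smul hc).congr (smul_zero _) (by rw [h.σ]; field_simp)

/-- Spreading full transvection groups to non-perpendicular centres. -/
theorem spread (h : IsSp Φ) (hX : X ≤ Φ.isom) {r z : V} (h1 : ∀ t, HasE Φ X r 0 t)
    (h2 : HasE Φ X z 0 1) (e : Φ.B r z ≠ 0) (t : F) : HasE Φ X z 0 t := by
  obtain ⟨s, hs, i1⟩ := h2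
  obtain ⟨s', hs', i2⟩ := h1 (Φ.B r z * Φ.B r z)⁻¹
  refine h.tv_smul e (fun t => ?_) t
  convert tv_conj (tv_conj (h1 t) hs hX) hs' hX using 1
  rw [i1.app, i2.app]
  simp only [map_zero, LinearMap.zero_apply, smul_zero, sub_zero, map_add, map_smul, h.alt, smul_eq_mul,
    h.skew r z]
  match_scalars <;> field_simp <;> ring

theorem mem_AE_tv (hX : X ≤ Φ.isom) {r x a : V} {t : F} (hr : Φ.Sing r) (h1 : HasE Φ X x 0 t)
    (e : Φ.B x r = 0) (ha : a ∈ AE Φ X hr) : (t * Φ.B x a) • x ∈ AE Φ X hr := by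
  obtain ⟨s, hs, i1⟩ := h1
  have := sub_mem ha (map_mem_AE hs (hX hs) (by rw [i1.app, e]; simp) ha)
  rw [i1.app] at this
  simpa using this

/-- The key configuration gives a full transvection group. -/
theorem core [Finite F] [FiniteDimensional F V] (h : IsSp Φ) (hn : Φ.Nondeg) (hX : X ≤ Φ.isom)
    {K : Subfield F} (hmax : ∀ R : Subring F, (∀ c ∈ K, c ∈ R) → R = ⊤ ∨ ∀ c ∈ R, c ∈ K)
    {w p p' : V} {l : F} (hw : HasE Φ X w 0 1) (hp : ∀ k ∈ K, HasE Φ X p 0 k) (hp' : HasE Φ X p' 0 1)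
    (hpp : HasE Φ X p p' 0) (ha : Φ.B w p ≠ 0) (hl : Φ.B w p' = l * Φ.B w p) (hl2 : l ^ 2 ∉ K) (t : F) :
    HasE Φ X (p' - l • p) 0 t := by
  set r := p' - l • p with hr
  set a := Φ.B w p with hadef
  have hl0 : l ≠ 0 := by rintro rfl; simp at hl2
  have e1 : Φ.B w r = 0 := by simp [hr, hl, ← hadef]
  have e2 : Φ.B p r = 0 := by simp [hr, hpp.pa, h.alt]
  have e3 : Φ.B p' r = 0 := by simp [hr, Φ.B_eq_zero_symm hpp.pa, h.alt]
  have e4 : Φ.B p w = -a := h.skew _ _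
  have e5 : Φ.B p' w = -(l * a) := by rw [h.skew, hl]
  have ep : p' = r + l • p := by simp [hr]
  have sr := h.sing r
  have hp1 := hp 1 (one_mem _)
  obtain ⟨c, hc, h1⟩ : ∃ c : F, c ≠ 0 ∧ c • p ∈ AE Φ X sr := by
    by_cases h2 : (2 : F) = 0
    · have := ((hpp.add_smul (-l)).congr (b := r) (d' := 0) (by simp [hr, sub_eq_add_neg])
        (by rw [h.σ, h.ε]; linear_combination (-l) * h2)).swap
      exact ⟨1, one_ne_zero, _, this.congr (by simp [h.ε]) rfl⟩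
    have hL : ∀ x, HasE Φ X x 0 1 → HasL X (rk1 x (-Φ.B x)) := fun x ⟨s, hs, e⟩ =>
      HasL.of_apply hs fun v => by rw [e.app]; simp
    have hS : Sl2P (rk1 p (-Φ.B p)) ((-(a * a))⁻¹ • rk1 w (-Φ.B w)) := by
      constructor <;> ext v <;> simp [h.alt, e4, ← hadef, smul_smul] <;> congr 1 <;> field_simp
    obtain ⟨z, hz, ez⟩ := (hasL_neg h2 hS (μ := -(a * a)) (by simpa) (hL p hp1)
      (by rw [smul_inv_smul₀ (by simpa)]; exact hL w hw)).exists_apply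
    have z1 : z p' = (-1 : F) • (l • p - r) := by
      rw [ez, ep]
      simp only [LinearMap.smul_apply, LinearMap.add_apply, Module.End.mul_apply, map_add, map_smul,
        LinearMap.smulRight_apply, LinearMap.neg_apply, e1, e2, h.alt, e4, ← hadef, smul_eq_mul]
      match_scalars <;> field_simp <;> ring
    have z2 := ((z1 ▸ tv_conj hp' hz hX).of_smul (by simp)).congr (b := 0) (d' := 1) (by simp) (by simp)
    have z3 := h.tv_shift (c := 2) (r := r) z2 (by convert hp' using 1; rw [ep]; module)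
      (by simp [h.alt, Φ.B_eq_zero_symm e2])
    refine ⟨2 * l, mul_ne_zero h2 hl0, ?_⟩
    convert sub_mem (smul_mem_AE (X := X) sr 2) (⟨_, z3⟩ : _ ∈ AE Φ X sr) using 1
    module
  have k1 : ∀ c : F, c • p ∈ AE Φ X sr → (c * a) • w ∈ AE Φ X sr := fun c hc => by
    simpa [← hadef] using mem_AE_tv hX sr hw e1 hc
  let R : Subring F :=
    { carrier := {e | ∀ c : F, c • p ∈ AE Φ X sr → (e * c) • p ∈ AE Φ X sr}
      one_mem' := fun c hc => by simpa using hc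
      zero_mem' := fun c hc => by simp
      add_mem' := fun ha hb c hc => by rw [add_mul, add_smul]; exact add_mem (ha c hc) (hb c hc)
      neg_mem' := fun ha c hc => by rw [neg_mul, neg_smul]; exact neg_mem (ha c hc)
      mul_mem' := fun ha hb c hc => by rw [mul_assoc]; exact ha _ (hb c hc) }
  have r1 : ∀ k ∈ K, k * (a * a) ∈ R := fun k hk c hc => by
    convert neg_mem (mem_AE_tv hX sr (hp k hk) e2 (k1 c hc)) using 1
    rw [Φ.B_smul_right, e4]; module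
  have r2 : l ^ 2 * (a * a) ∈ R := fun c hc => by
    convert sub_mem (neg_mem (mem_AE_tv hX sr hp' e3 (k1 c hc))) (smul_mem_AE (X := X) sr (c * a * (l * a)))
      using 1
    rw [Φ.B_smul_right, e5, hr]; module
  have r3 : ∀ x, x * (a * a) ∈ R → x ∈ R := fun x hx => by
    simpa [mul_assoc, ha] using mul_mem hx (inv_mem_subring (r1 1 (one_mem _)))
  have hR : R = ⊤ := (hmax R fun k hk => r3 k (r1 k hk)).resolve_right fun hh => hl2 (hh _ (r3 _ r2))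
  have k2 : ∀ e : F, e • p ∈ AE Φ X sr := fun e => by
    simpa [hc] using (hR.ge (Subring.mem_top (e / c))) c h1
  have k3 : ∀ e : F, e • w ∈ AE Φ X sr := fun e => by simpa [ha] using k1 (e / a) (k2 _)
  by_cases h2 : (2 : F) = 0
  swap
  · obtain ⟨g, hg⟩ := h.exists_tv hn r t
    exact ⟨g, fullT_of_comm sr (notSp2_of_two h2) (fun t => ⟨_, k3 1, _, k2 (t / a), by
      simp [← hadef, ha]⟩) t g hg, hg⟩
  have mv : ∀ x, HasE Φ X x 0 1 → Φ.B w x ≠ 0 → Φ.B x r = 0 → ∀ c : F, HasE Φ X r ((-c) • x) (c ^ 2) :=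
    fun x hx e e' c => by
      obtain ⟨_, s, hs, i⟩ := k3 (c / Φ.B w x)
      have := tv_conj hx hs hX
      rw [i.apply_perp (Φ.B_eq_zero_symm e'), Φ.B_smul_left, h.σ, div_mul_cancel₀ _ e] at this
      simpa using h.tv_shift hx this (Φ.B_eq_zero_symm e')
  haveI : CharP F 2 := CharTwo.of_one_ne_zero_of_two_eq_zero one_ne_zero h2
  obtain ⟨s, rfl⟩ := FiniteField.isSquare_of_char_two (ringChar.eq F 2) t
  have hl1 : l + 1 ≠ 0 := fun e => hl2 (by
    rw [show l ^ 2 = 1 by linear_combination (l - 1) * e]; exact one_mem _)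
  obtain ⟨c, rfl⟩ : ∃ c, s = (l + 1) * c := ⟨s / (l + 1), by field_simp⟩
  refine (((mv p hp1 ha e2 (l * c)).mul (mv p' hp' (by rw [hl]; exact mul_ne_zero hl0 ha) e3 c)).add_smul
    c).congr ?_ ?_
  · rw [ep]
    match_scalars
    · linear_combination (-l * c) * h2
    · ring
  · rw [Φ.B_smul_left, Φ.B_smul_right, hpp.pa, h.σ c, h.ε]
    linear_combination (c - l * c ^ 2) * h2

end IsSp
end Core

section Main
variable {F₀ F : Type*} [Field F₀] [Field F] [Algebra F₀ F] {σ₀ : F₀ →+* F₀} {σ : F →+* F}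
  {V₀ V : Type*} [AddCommGroup V₀] [Module F₀ V₀] [AddCommGroup V] [Module F V]
  {Φ₀ : Formed σ₀ V₀} {Φ : Formed σ V} {j : V₀ →ₛₗ[algebraMap F₀ F] V} {X : Subgroup (V ≃ₗ[F] V)}

local notation "f" => algebraMap F₀ F

theorem mem_of_sq_two [Finite F] (h2 : (2 : F) = 0) {l : F} (h : l ^ 2 ∈ (f).fieldRange) :
    l ∈ (f).fieldRange := by
  obtain ⟨k, hk⟩ := h
  haveI : Finite F₀ := Finite.of_injective _ (f).injective
  have h20 : (2 : F₀) = 0 := (f).injective (by rw [map_ofNat, h2, map_zero])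
  haveI : CharP F₀ 2 := CharTwo.of_one_ne_zero_of_two_eq_zero one_ne_zero h20
  obtain ⟨κ, rfl⟩ := FiniteField.isSquare_of_char_two (ringChar.eq F₀ 2) k
  refine ⟨κ, sub_eq_zero.1 (pow_eq_zero_iff two_ne_zero |>.1 ?_)⟩
  rw [map_mul] at hk
  linear_combination hk + (l ^ 2 - f κ * l) * h2

theorem sq_notMem [Finite F] {l : F} (h : l ∉ (f).fieldRange) :
    l ^ 2 ∉ (f).fieldRange ∨ (l + 1) ^ 2 ∉ (f).fieldRange := by
  by_contra! hc
  by_cases h2 : (2 : F) = 0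
  · exact h (mem_of_sq_two h2 hc.1)
  · have := div_mem (sub_mem (sub_mem hc.2 hc.1) (one_mem _)) (ofNat_mem (f).fieldRange 2)
    exact h (by convert this using 1; field_simp; ring)

namespace RtN

theorem isSp (h : RtN Φ₀ Φ j) (hs : IsSp Φ) : IsSp Φ₀ :=
  ⟨fun a => (f).injective (by rw [← h.hσ, hs.σ]), (f).injective (by rw [← h.hτ, hs.τ, map_zero]),
    (f).injective (by rw [← h.hε, hs.ε, map_neg, map_one])⟩

theorem exists_conf (h : RtN Φ₀ Φ j) (hs : IsSp Φ) (h4 : 3 ≤ finrank F₀ V₀) {w : V}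
    (hw : ∀ (c : F) r, w ≠ c • j r) : ∃ p p', Φ₀.B p p' = 0 ∧ Φ.B w (j p) ≠ 0 ∧
      Φ.B w (j p') / Φ.B w (j p) ∉ (f).fieldRange := by
  haveI := h.fin
  have s0 := h.isSp hs
  by_contra! hc
  obtain ⟨p, ha⟩ : ∃ p, Φ.B w (j p) ≠ 0 := by
    by_contra! hh; exact hw 0 0 (by simpa using h.eq_zero hh)
  have hp0 : p ≠ 0 := by rintro rfl; simp at ha
  obtain ⟨r, μ, e⟩ := h.rat_add hp0 (v := (Φ.B w (j p))⁻¹ • w) fun y hy => by
    rw [Φ.B_smul_left, hs.σ, ← div_eq_inv_mul]; exact hc p y hy ha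
  set a := Φ.B w (j p) with hadef
  have e' : w = a • (j r + μ • j p) := by rw [← e, smul_inv_smul₀ ha]
  have b1 : Φ₀.B r p = 1 := (f).injective (by
    have := congrArg (fun x => Φ.B x (j p)) e
    simp only [Φ.B_smul_left, hs.σ, ← hadef, inv_mul_cancel₀ ha, Φ.B_add_left, hs.alt] at this
    simpa [← h.hB] using this.symm)
  have hpr : Φ₀.IsPair r p := ⟨s0.sing _, s0.sing _, b1⟩
  have hd := hpr.finrank_pairPerp h.hn₀
  obtain ⟨u, hu, hu0⟩ := exists_notMem_of_lt (U := Φ₀.pairPerp r p) (R := ⊥) (by rw [finrank_bot]; omega)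
  obtain ⟨u', hu', b2⟩ := exists_pair_mem h.hn₀ (hpr.nondeg_pairPerp h.hn₀) hu hu0 (s0.sing u)
  rw [Φ₀.mem_pairPerp] at hu hu'
  have c1 : Φ.B w (j (p + u)) = a := by
    rw [map_add, map_add, ← hadef, e']
    simp [Φ.B_smul_left, h.B_zero hu.1, h.B_zero hu.2]
  have c2 : Φ.B w (j (r + u')) = -μ * a := by
    rw [e']
    simp [Φ.B_smul_left, h.B_zero hu'.1, h.B_zero hu'.2, hs.σ, hs.alt, hs.skew (j r) (j p), h.B_one b1,
      mul_comm]
  obtain ⟨k, hk⟩ := neg_mem (hc (p + u) (r + u') (by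
    simp [s0.skew r p, b1, hu'.2, Φ₀.B_eq_zero_symm hu.1, b2.ef]) (by rwa [c1]))
  rw [c1, c2, mul_div_cancel_right₀ _ ha, neg_neg] at hk
  exact hw a (r + k • p) (by rw [e', map_add, map_smulₛₗ, hk])

variable [FiniteDimensional F V]

theorem tv (h : RtN Φ₀ Φ j) (hs : IsSp Φ) (hX : Ov Φ j X) (u : V₀) (k : F₀) : HasE Φ X (j u) 0 (f k) := by
  obtain ⟨g, hg⟩ := hs.exists_tv h.hn (j u) (f k)
  exact ⟨g, hX.rat u 0 k g (by simpa using hg), hg⟩

theorem le_of_tt (h : RtN Φ₀ Φ j) (hs : IsSp Φ) (hX : Ov Φ j X) {r : V} (hr : r ≠ 0)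
    (ht : ∀ t, HasE Φ X r 0 t) : EG Φ ≤ X := by
  haveI := h.fin
  have s0 := h.isSp hs
  have t1 : ∀ u, HasE Φ X (j u) 0 1 := fun u => by simpa using h.tv hs hX u 1
  obtain ⟨z, hz⟩ : ∃ z, Φ.B r (j z) ≠ 0 := by by_contra! hh; exact hr (h.eq_zero hh)
  have hz0 : z ≠ 0 := by rintro rfl; simp at hz
  have all : ∀ u, u ≠ 0 → ∀ t, HasE Φ X (j u) 0 t := fun u hu => by
    obtain ⟨y, h1, h2⟩ : ∃ y, Φ₀.B z y ≠ 0 ∧ Φ₀.B u y ≠ 0 := by
      obtain ⟨y, hy⟩ := h.hn₀.exists_eq_one hz0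
      obtain ⟨y', hy'⟩ := h.hn₀.exists_eq_one hu
      by_cases a : Φ₀.B u y = 0
      · by_cases b : Φ₀.B z y' = 0
        · exact ⟨y + y', by simp [hy, b], by simp [hy', a]⟩
        · exact ⟨y', b, by simp [hy']⟩
      · exact ⟨y, by simp [hy], a⟩
    exact hs.spread hX.isom (hs.spread hX.isom (hs.spread hX.isom ht (t1 z) hz) (t1 y) (h.B_ne h1)) (t1 u)
      (h.B_ne fun e => h2 (Φ₀.B_eq_zero_symm e))
  have all' : ∀ u t, HasE Φ X (j u) 0 t := fun u t => by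
    rcases eq_or_ne u 0 with rfl | hu
    · obtain ⟨g, hg⟩ := hs.exists_tv h.hn (j 0) t
      exact ⟨g, by rw [show g = 1 from LinearEquiv.ext fun v => by simp [hg.app]]; exact one_mem _, hg⟩
    · exact all u hu t
  have full : ∀ u, u ≠ 0 → Full Φ X (j u) := fun u hu =>
    full_of_AE _ (h.mem_AE hu (s0.sing u) fun c w e => ⟨_, (HasE.of_tv (map_add j u w ▸ all' (u + w) (-c))
      (all' u _) (all' w _) (h.B_zero e)).congr (by simp [hs.ε]) rfl⟩) fun d g hg => (all' u d).mem hg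
  obtain ⟨y, hy⟩ := h.hn₀.exists_isPair hz0 (s0.sing z)
  exact EG_le_of_full h.hn (full z hz0) (full y hy.right_ne_zero) (by rw [h.B_one hy.ef]; exact one_ne_zero)

theorem isMaximalIn_sp [Finite F] [Finite V] (h : RtN Φ₀ Φ j) (hs : IsSp Φ) (h4 : 3 ≤ finrank F₀ V₀)
    (hne : ∃ c, c ∉ (f).fieldRange)
    (hmax : ∀ R : Subring F, (∀ c, f c ∈ R) → R = ⊤ ∨ ∀ c ∈ R, c ∈ (f).fieldRange) :
    Geo.IsMaximalIn (EG Φ) (ratG F (Set.range j) ⊓ EG Φ) := by
  haveI := h.fin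
  have s0 := h.isSp hs
  refine max_crit inf_le_right ?_ fun X h1 h2 g hg hg' => ?_
  · obtain ⟨c, hc⟩ := hne
    obtain ⟨u, -, h0⟩ := exists_notMem_of_lt (U := (⊤ : Submodule F₀ V₀)) (R := ⊥)
      (by rw [finrank_bot, finrank_top]; omega)
    obtain ⟨g, hg⟩ := hs.exists_tv h.hn (j u) c
    refine ⟨g, IsE_mem_EG hg, fun hm => hc ?_⟩
    obtain ⟨l, hl, hm⟩ := mem_ratG.1 hm.1
    obtain ⟨t, t1⟩ := h.hn₀.exists_eq_one h0
    obtain ⟨u', hu'⟩ := hm _ ⟨u, rfl⟩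
    obtain ⟨l, rfl⟩ := h.smul_rat h0 (by rw [hu', hg.apply_p])
    obtain ⟨t', ht'⟩ := hm _ ⟨t, rfl⟩
    refine h.smul_rat h0 (u' := t - l⁻¹ • t') ?_
    rw [map_sub, map_smulₛₗ, ht', map_inv₀, inv_smul_smul₀ hl, hg.app, h.B_one t1]
    simp
  have hX := h.ov h1 h2
  obtain ⟨e, he⟩ : ∃ e, ∀ (c : F) r, g (j e) ≠ c • j r := by
    by_contra! hc; exact hg' ⟨h.mem_of_all hc, h2 hg⟩
  obtain ⟨p, p', b, ha, hl⟩ := h.exists_conf hs h4 he
  have hw := IsSp.tv_conj (h.tv hs hX e 1) hg hX.isom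
  rw [map_one] at hw
  set w := g (j e)
  have key : ∀ p', Φ₀.B p p' = 0 → (Φ.B w (j p') / Φ.B w (j p)) ^ 2 ∉ (f).fieldRange → EG Φ ≤ X :=
    fun p' b hl2 => h.le_of_tt hs hX (fun e0 => hl2 (pow_mem (h.smul_rat (by rintro rfl; simp at ha)
      (sub_eq_zero.1 e0).symm) 2)) (hs.core h.hn hX.isom (K := (f).fieldRange)
      (fun R hR => hmax R fun c => hR _ ⟨c, rfl⟩) hw (by rintro _ ⟨k, rfl⟩; exact h.tv hs hX p k)
      (by simpa using h.tv hs hX p' 1) (h.hasE0 hX (s0.sing _) (s0.sing _) b) ha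
      (div_mul_cancel₀ _ ha).symm hl2)
  rcases sq_notMem hl with hl2 | hl2
  · exact key p' b hl2
  · exact key (p' + p) (by simp [b, s0.alt]) (by rwa [map_add, map_add, add_div, div_self ha])

end RtN
end Main

variable {F : Type*} [Field F] {σ : F →+* F} {ι : Type} [Fintype ι] [DecidableEq ι]
  {F₀ : Subfield F} {P : GL ι F}

theorem exists_notMem_of_card [Finite F] {r : ℕ} (hr : r.Prime) (hc : Nat.card F = Nat.card F₀ ^ r) :
    ∃ c, c ∉ (algebraMap F₀ F).fieldRange := by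
  by_contra! hx
  exact Asch.ne_top_of_card_pow hr.two_le hc (top_le_iff.1 fun x _ => mem_fieldRange.1 (hx x))

theorem isMaximalIn_subSp [Fintype F] {Φ : Formed σ (ι → F)} (hn : Φ.Nondeg) (hs : IsSp Φ)
    (h3 : 3 ≤ Fintype.card ι) {r : ℕ} (hr : r.Prime) (hc : Fintype.card F = Nat.card F₀ ^ r)
    (hB : ∀ x y, Φ.B (jP F₀ P x) (jP F₀ P y) ∈ F₀) :
    Geo.IsMaximalIn (EG Φ) (ratG F (Set.range (jP F₀ P)) ⊓ EG Φ) := by
  rw [← Nat.card_eq_fintype_card] at hc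
  obtain ⟨σ₀, Φ₀, h⟩ := exists_pullN (jP F₀ P) (σ_mem_subfield F₀ σ) hB (hs.τ ▸ zero_mem _)
    (fun x => ⟨0, zero_mem _, by simp [(hs.sing _).1], by simp [hs.alt]⟩) hn jP_inj jP_span
  exact h.isMaximalIn_sp hs (by simpa) (exists_notMem_of_card hr hc) (subring_of_prime hr hc)

theorem sub_sp [Fintype F] {m : ℕ} (hm : 2 ≤ m) (F₀ : Subfield F) (r : ℕ) (P : GL (Fin m ⊕ Fin m) F) (ζ : F)
    (hr : r.Prime) (hcard : Fintype.card F = Nat.card F₀ ^ r) (hζ : ζ ≠ 0)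
    (hP : Geo.IsFormRationalStructure (sympForm m F) F₀ ζ P) :
    Geo.IsMaximalIn (spGL m F) (Geo.subfieldSubgroup F₀ P ⊓ spGL m F) := by
  have hE := EG_scale (Φ := sympFormed m F) (η := 1) (h1 := mul_one 1) (h2 := rfl) (h3 := (one_mul _).symm)
    (h4 := mul_one _) hζ
  refine isMaximalIn_inf (glEquiv _ F) (hE ▸ isMaximalIn_subSp (scale_nondeg hζ (sympFormed_nondeg m F))
    ⟨fun _ => rfl, rfl, by simp [scale, sympFormed, Formed.ofAlt]⟩ (by simp; omega) hr hcard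
    fun x y => ?_) (fun g => mem_spGL) fun g => mem_subfieldSubgroup_iff
  rw [scale_B, sympFormed_B]; exact hP _ _ (fun i => (x i).2) fun i => (y i).2

end Cfsg.Agent.Root.Mx
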