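import Cfsg.Agent.Low.C1
import Cfsg.Agent.Low.SubSp
import Cfsg.Agent.Root.Ext3

/-! Matrix-level statements for symplectic groups in low dimension: `ts_sp`, `odec_sp`, `ext_sp`. -/

set_option autoImplicit false

namespace Cfsg.Agent.Root.Mx

open Cfsg.Agent.Geom Cfsg.Agent.AutCl Module

variable {F : Type*} [Field F] [Fintype F] {m : ℕ}

theorem ts_sp (W : Submodule F (Fin m ⊕ Fin m → F)) (hW0 : W ≠ ⊥)
    (hW : Geo.IsTotallySingularFor (sympForm m F) W) :
    Geo.IsMaximalIn (spGL m F) (Geo.subspaceStabilizer W ⊓ spGL m F) :=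
  isMaximalIn_inf (glEquiv _ F) (stab_tsL' (sympFormed_nondeg m F) hW0
    ⟨fun x hx y hy => (sympFormed_B m F x y).trans (hW x hx y hy), fun _ _ => rfl⟩ one_ne_zero
    (by simp [sympFormed, Formed.ofAlt]) (by simp [sympFormed, Formed.ofAlt])) (fun g => mem_spGL)
    fun g => Iff.rfl

theorem odec_sp {t : ℕ} (k : ℕ) (D : Fin t → Submodule F (Fin m ⊕ Fin m → F))
    (hD : Geo.IsNondegenerateMDecomposition (sympForm m F) k D) (hex : ¬ (k = 2 ∧ Fintype.card F = 2)) :
    Geo.IsMaximalIn (spGL m F) (Geo.decompositionStabilizer D ⊓ spGL m F) :=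
  isMaximalIn_inf (glEquiv _ F)
    (ODec.isMaximalIn_alt (odec_of (sympFormed_nondeg m F) hD fun _ _ => by rw [sympFormed_B])
      (EG_symp m) (by rwa [Nat.card_eq_fintype_card])) (fun g => mem_spGL) fun g => Iff.rfl

theorem ext_sp (hm : 1 ≤ m) {r : ℕ} (hr : r.Prime) (hex : r = 2 → Fintype.card F = 2 → 6 ≤ m)
    (K : Subalgebra F (Matrix (Fin m ⊕ Fin m) (Fin m ⊕ Fin m) F)) (hK : Geo.IsFieldSubalgebra r K)
    (hsa : Geo.IsSelfAdjointFor (sympForm m F) K)
    (halt : ∀ k ∈ K, ∀ v : (Fin m ⊕ Fin m → F), sympForm m F (Matrix.mulVec k v) v = 0) :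
    Geo.IsMaximalIn (spGL m F) (Geo.subalgebraNormalizer K ⊓ spGL m F) := by
  haveI : Nonempty (Fin m) := ⟨⟨0, by omega⟩⟩
  refine with_field hK fun K' _ _ _ _ h2 h3 h4 h5 => ?_
  haveI : FiniteDimensional F K' := .of_finrank_pos (h2 ▸ hr.pos)
  haveI : Finite K' := Module.finite_of_finite F
  haveI := FiniteDimensional.right F K' (Fin m ⊕ Fin m → F)
  have hd := Module.finrank_mul_finrank F K' (Fin m ⊕ Fin m → F)
  refine isMaximalIn_inf (glEquiv _ F) (isMaximalIn_extSp (sympFormed_nondeg m F) (EG_symp m) (h2 ▸ hr)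
    (fun k u v => ?_) (fun k v => ?_) fun e hq => ?_) (fun g => mem_spGL) h5
  · obtain ⟨a, ha, e⟩ := h4 k
    simpa only [sympB_apply, e] using hsa a ha u v
  · obtain ⟨a, ha, e⟩ := h4 k
    simpa only [sympB_apply, e] using halt a ha v
  · have := hex (h2 ▸ e) (by
      classical
      refine le_antisymm ?_ Fintype.one_lt_card
      rw [← Finset.card_univ, show (Finset.univ : Finset F) = {0, 1} from
        Finset.ext fun c => by simpa using or_iff_not_imp_left.2 (hq c)]
      exact Finset.card_le_two)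
    simp [e] at hd; omega

end Cfsg.Agent.Root.Mx
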