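import Cfsg.Agent.Root.Ext1
import Cfsg.Agent.Low.OR
import Cfsg.Agent.Low.SpR

/-! Unitary groups `GU_m(q)`, `m ≥ 5`, in symplectic and orthogonal groups of dimension `2m`:
`HS.isMaximalIn5`, and the matrix-level statements `gu_sp`, `gu_o`. -/

set_option autoImplicit false

namespace Cfsg.Agent.Root.Mx

open Cfsg.Agent.Geom Cfsg.Agent.AutCl Module Matrix

section Herm
variable {F : Type*} [Field F] {σ : F →+* F} {V : Type*} [AddCommGroup V] [Module F V]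
  [Finite F] [FiniteDimensional F V]

theorem exists_sing_top2 (hσ : σ ≠ RingHom.id F) (Φ : Formed σ V) (h2 : 2 ≤ finrank F V) :
    ∃ x, x ≠ 0 ∧ Φ.Sing x := by
  obtain ⟨x, -, hx⟩ := exists_notMem_of_lt (U := (⊤ : Submodule F V)) (R := ⊥) (by simp; omega)
  obtain ⟨y, ⟨-, hxy⟩, hy⟩ := exists_notMem_of_lt (U := ⊤ ⊓ pf Φ ![x]) (R := ⊥) (by
    have := finrank_pf (Φ := Φ) ![x] ⊤
    simp only [finrank_top, finrank_bot] at this ⊢; omega)
  rw [Submodule.mem_bot] at hx hy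
  have hxy : Φ.B x y = 0 := mem_pf.1 hxy 0
  by_cases hxx : Φ.B x x = 0
  · exact ⟨x, hx, Φ.Q_eq_zero hσ _, hxx⟩
  obtain ⟨t, ht⟩ := exists_norm_eq hσ Φ.σσ (a := -Φ.B y y / Φ.B x x) (by
    rw [map_div₀, map_neg, div_eq_div_iff (by simpa) hxx]
    linear_combination (-Φ.ε * Φ.B x x) * B_self_eq (Φ := Φ) y +
      (Φ.ε * Φ.B y y) * B_self_eq (Φ := Φ) x +
      (σ (Φ.B y y) * Φ.B x x - Φ.B y y * σ (Φ.B x x)) * Φ.εε)
  refine ⟨t • x + y, fun h => ?_, Φ.Q_eq_zero hσ _, ?_⟩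
  · have := congrArg (Φ.B x) h
    simp only [map_add, map_smul, hxy, smul_eq_mul, add_zero, map_zero, mul_eq_zero, hxx,
      or_false] at this
    rw [this] at h; exact hy (by simpa using h)
  · rw [Φ.B_add_left, Φ.B_smul_left]
    simp only [map_add, map_smul, hxy, Φ.B_eq_zero_symm hxy, smul_eq_mul]
    field_simp at ht
    linear_combination ht

theorem exists_sing_notMem2 (hσ : σ ≠ RingHom.id F) (Φ : Formed σ V) {U R : Submodule F V}
    (h : finrank F R + 2 ≤ finrank F U) : ∃ x ∈ U, x ∉ R ∧ Φ.Sing x := by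
  obtain ⟨C, hC⟩ := R.exists_isCompl
  have h1 := Submodule.finrank_add_eq_of_isCompl hC
  have h2 := finrank_inf_ge U C
  obtain ⟨x, hx0, hx⟩ := exists_sing_top2 hσ (Φ.restrict (U ⊓ C)) (by omega)
  exact ⟨x, x.2.1, fun hR => hx0 (Subtype.ext (Submodule.disjoint_def.1 hC.disjoint _ hR x.2.2)), hx⟩

end Herm

section HS
variable {F K : Type*} [Field F] [Field K] [Algebra F K] {V : Type*} [AddCommGroup V] [Module F V]
  [Module K V] [IsScalarTower F K V]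

namespace HS
variable {τ : K →+* K} {Φ : Formed (RingHom.id F) V} {Ψ : Formed τ V} {L : K →ₗ[F] F}
  {X : Subgroup (V ≃ₗ[F] V)} [Finite K] [FiniteDimensional K V]

theorem big5 (h : HS Φ Ψ L) (h7 : 5 ≤ finrank K V) (hi : X ≤ Φ.isom)
    (hE : ∀ p a d s, IsE Ψ p a d s → s.restrictScalars F ∈ X) {u c : V} {d : F} (hu0 : u ≠ 0) (hu : Ψ.Sing u)
    (huc : Ψ.B u c = 0) (hc : c ∉ K ∙ u) (he : HasE Φ X u c d) : ∀ a, Ψ.B u a = 0 → ∃ d, HasE Φ X u a d :=
  perp_le_of_inv h.hn' (by omega) hu0 hu (AE Φ X he.sp) (fun y z e s hy hz hs a ha =>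
    map_mem_AE (hE _ _ _ _ hs) (hi (hE _ _ _ _ hs)) (by
      change s u = u
      rw [hs.apply_perp (Ψ.B_eq_zero_symm hy), Ψ.B_eq_zero_symm hz]; simp) ha) ⟨d, he⟩ huc hc

theorem big_step5 (h : HS Φ Ψ L) (h7 : 5 ≤ finrank K V) (hi : X ≤ Φ.isom)
    (hE : ∀ p a d s, IsE Ψ p a d s → s.restrictScalars F ∈ X) {u p : V} (hp0 : p ≠ 0) (hp : Ψ.Sing p)
    (hup : Ψ.B u p = 0) (hn : u ∉ K ∙ p) (hu : ∀ a, Ψ.B u a = 0 → ∃ d, HasE Φ X u a d) :
    ∀ a, Ψ.B p a = 0 → ∃ d, HasE Φ X p a d := by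
  obtain ⟨w, hw, a, ha, e⟩ := exists_B_one h.hn' (W := ⊤ ⊓ pf Ψ ![u, p]) (by
    have := finrank_pf (Φ := Ψ) ![u, p] ⊤; rw [finrank_top] at *; omega)
  have hw := mem_pf.1 hw.2
  have ha := mem_pf.1 ha.2
  have a1 : Ψ.B p a = 0 := ha 1
  obtain ⟨d, hd⟩ := hu a (ha 0)
  obtain ⟨d', s, hs⟩ := exists_isE' h.hn' hp (hw 1)
  have := (hd.comm (hE _ _ _ _ hs) (hi (hE _ _ _ _ hs)) (x := p) (by
    change s u = u
    rw [hs.apply_perp (Ψ.B_eq_zero_symm hup), Ψ.B_eq_zero_symm (show Ψ.B u w = 0 from hw 0)]; simp)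
    (by change s a = _; rw [hs.apply_perp a1, e, one_smul]) (h.zero' a1)).swap
  refine h.big5 h7 hi hE hp0 hp ?_ (fun hc => hn ?_) this
  · rw [← algebraMap_smul K, map_neg, Ψ.B_smul_right, Ψ.B_eq_zero_symm hup]; simp
  · rw [← algebraMap_smul K, neg_mem_iff] at hc
    exact (Submodule.smul_mem_iff _ (by simpa using Φ.ε_ne_zero)).1 hc

omit [Module F V] [IsScalarTower F K V] in
theorem exists_nbr5 (Ψ : Formed τ V) (h7 : 5 ≤ finrank K V) {u p : V} (hu0 : u ≠ 0) (hp0 : p ≠ 0)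
    (hu : Ψ.Sing u) (hp : Ψ.Sing p) :
    ∃ z, z ≠ 0 ∧ Ψ.Sing z ∧ Ψ.B u z = 0 ∧ Ψ.B p z = 0 ∧ z ∉ K ∙ u ∧ z ∉ K ∙ p ∧ u ∉ K ∙ z ∧ p ∉ K ∙ z := by
  suffices ∃ z, Ψ.Sing z ∧ Ψ.B u z = 0 ∧ Ψ.B p z = 0 ∧ z ∉ K ∙ u ∧ z ∉ K ∙ p by
    obtain ⟨z, h1, h2, h3, h4, h5⟩ := this
    exact ⟨z, by rintro rfl; simp at h4, h1, h2, h3, h4, h5, notMem_symm h4 hu0, notMem_symm h5 hp0⟩
  by_cases h1 : p ∈ K ∙ u
  · obtain ⟨c, rfl⟩ := Submodule.mem_span_singleton.1 h1
    obtain ⟨z, -, hz, hs, h1⟩ := exists_sing_pf Ψ ![u] (U := ⊤) (R := K ∙ u) (by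
      have := finrank_span_one (F := K) u
      rw [finrank_top]; omega)
    have h2 : Ψ.B u z = 0 := h1 0
    exact ⟨z, hs, h2, by simp [h2], hz, fun e => hz ((Submodule.span_singleton_le_iff_mem _ _).2
      (Submodule.smul_mem _ _ (Submodule.mem_span_singleton_self _)) e)⟩
  by_cases h2 : Ψ.B u p = 0
  · refine ⟨u + p, sing_add_of_perp hu hp h2, by simp [hu.2, h2], by simp [hp.2, Ψ.B_eq_zero_symm h2],
      fun e => h1 ?_, fun e => notMem_symm h1 hu0 ?_⟩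
    · simpa using sub_mem e (Submodule.mem_span_singleton_self u)
    · simpa using sub_mem e (Submodule.mem_span_singleton_self p)
  obtain ⟨z, -, hz, hs, h3⟩ := exists_sing_pf Ψ ![u, p] (U := ⊤) (R := ⊥) (by
    rw [finrank_top, finrank_bot]; omega)
  have h4 : Ψ.B u z = 0 := h3 0
  have h5 : Ψ.B p z = 0 := h3 1
  refine ⟨z, hs, h4, h5, fun e => ?_, fun e => ?_⟩
  · obtain ⟨c, rfl⟩ := Submodule.mem_span_singleton.1 e
    rw [Ψ.B_smul_right, mul_eq_zero] at h5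
    exact h5.elim (fun e => hz (by simp [e])) fun e => h2 (Ψ.B_eq_zero_symm e)
  · obtain ⟨c, rfl⟩ := Submodule.mem_span_singleton.1 e
    rw [Ψ.B_smul_right, mul_eq_zero] at h4
    exact h4.elim (fun e => hz (by simp [e])) h2

theorem le_of_big5 [FiniteDimensional F V] [Finite F] (h : HS Φ Ψ L) (h7 : 5 ≤ finrank K V) (hi : X ≤ Φ.isom)
    (h2 : NotSp2 Φ) (hE : ∀ p a d s, IsE Ψ p a d s → s.restrictScalars F ∈ X) {u : V} (hu0 : u ≠ 0)
    (hu' : Ψ.Sing u) (hu : ∀ a, Ψ.B u a = 0 → ∃ d, HasE Φ X u a d) : EG Φ ≤ X := by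
  have all : ∀ p, p ≠ 0 → Ψ.Sing p → ∀ a, Ψ.B p a = 0 → ∃ d, HasE Φ X p a d := fun p hp0 hp => by
    obtain ⟨z, z0, hz, e1, e2, -, n1, n2, -⟩ := exists_nbr5 Ψ h7 hu0 hp0 hu' hp
    exact h.big_step5 h7 hi hE hp0 hp (Ψ.B_eq_zero_symm e2) n1 (h.big_step5 h7 hi hE z0 hz e1 n2 hu)
  obtain ⟨k₁, hk₁⟩ := h.one
  have full : ∀ p, p ≠ 0 → Ψ.Sing p → Full Φ X p := fun p hp0 hp => by
    obtain ⟨_, h0⟩ := all p hp0 hp 0 (by simp)
    refine full_of_AE' h.hn (by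
      have := Module.finrank_mul_finrank F K V; rw [h.deg] at this; omega) h2 hp0 h0.sp fun v hv => ?_
    by_cases hκ : Ψ.B p v = 0
    · exact all p hp0 hp v hκ
    obtain ⟨r, hr⟩ := h.hn'.exists_isPair hp0 hp
    set x := Ψ.B p v • r
    have hx : Ψ.B p x = Ψ.B p v := by simp [x, hr.ef]
    obtain ⟨y, hy, c, hc, e⟩ := exists_B_one h.hn' (W := ⊤ ⊓ pf Ψ ![p, x]) (by
      have := finrank_pf (Φ := Ψ) ![p, x] ⊤; rw [finrank_top] at *; omega)
    have hy := mem_pf.1 hy.2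
    have hc := mem_pf.1 hc.2
    obtain ⟨_, s, hsX, hs⟩ := all x (smul_ne_zero hκ hr.right_ne_zero) (hr.sf.smul _) y (hy 1)
    have c0 : Ψ.B p (k₁ • c) = 0 := by simp [show Ψ.B p c = 0 from hc 0]
    have := sub_mem (map_mem_AE (hp := h0.sp) hsX hs.mem_isom (by
      rw [hs.apply_perp (Φ.B_eq_zero_symm (by rw [h.hB, hx, ← h.hB, hv])),
        Φ.B_eq_zero_symm (h.zero' (show Ψ.B p y = 0 from hy 0))]; simp) (all p hp0 hp _ c0)) (all p hp0 hp _ c0)
    rw [hs.apply_perp (h.zero' (by simp [show Ψ.B x c = 0 from hc 1])), h.hB] at this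
    simpa [e, hk₁] using add_mem this (show v - x ∈ AE Φ X h0.sp from all p hp0 hp _ (by simp [hx]))
  obtain ⟨p, hp0, hp⟩ := exists_sing_top Ψ (by omega)
  obtain ⟨r, hr⟩ := h.hn'.exists_isPair hp0 hp
  exact EG_le_of_full h.hn (full p hp0 hp) (full (k₁ • r) (smul_ne_zero (by rintro rfl; simp at hk₁)
    hr.right_ne_zero) (hr.sf.smul _)) (by simp [h.hB, hr.ef, hk₁])

theorem mem_of_lines5 [Finite V] (h : HS Φ Ψ L) (h7 : 5 ≤ finrank K V) {J : K} (hJ : ∀ c, algebraMap F K c ≠ J)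
    {g : V ≃ₗ[F] V} (hg : ∀ x, x ≠ 0 → Ψ.Sing x → g (J • x) ∈ K ∙ g x) : g ∈ normG (scal F K V) := by
  have step : ∀ a b (μ ν : K), a ≠ 0 → Ψ.Sing a → Ψ.Sing b → Ψ.B a b = 0 → b ∉ K ∙ a →
      g (J • a) = μ • g a → g (J • b) = ν • g b → μ = ν := fun a b μ ν a0 ha hb e n h1 h2 => by
    obtain ⟨ρ, h3⟩ := Submodule.mem_span_singleton.1 (hg (a + b) (fun e => n (by
      rw [eq_neg_of_add_eq_zero_right e]; exact neg_mem (Submodule.mem_span_singleton_self a)))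
      (sing_add_of_perp ha hb e))
    rw [smul_add J, map_add, map_add, h1, h2, smul_add] at h3
    refine (fun this => this.1.symm.trans this.2) (eq_of_indep (F := K) (by simpa using a0)
      (fun ⟨k, hk⟩ => n ?_) h3)
    obtain ⟨α, β, rfl⟩ := exists_coord h.deg (J := μ) (fun c hc => hJ c (smul_left_injective K a0
      (g.injective (by simp [h1, ← hc])))) k
    refine Submodule.mem_span_singleton.2 ⟨algebraMap F K α + algebraMap F K β * J, g.injective ?_⟩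
    simp [hk, add_smul, mul_smul, h1]
  obtain ⟨p, hp0, hp⟩ := exists_sing_top Ψ (by omega)
  obtain ⟨r, hr⟩ := h.hn'.exists_isPair hp0 hp
  obtain ⟨ν, hν⟩ := Submodule.mem_span_singleton.1 (hg p hp0 hp)
  have : ∀ x, g (J • x) = ν • g x := sing_induction hr (fun x hx => by
    rcases eq_or_ne x 0 with rfl | h0
    · simp
    obtain ⟨z, z0, hz, e1, e2, n1, n2, -⟩ := exists_nbr5 Ψ h7 hp0 h0 hp hx
    obtain ⟨μ, hμ⟩ := Submodule.mem_span_singleton.1 (hg x h0 hx)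
    obtain ⟨ρ, hρ⟩ := Submodule.mem_span_singleton.1 (hg z z0 hz)
    rw [step _ _ _ _ hp0 hp hz e1 n1 hν.symm hρ.symm, ← step _ _ _ _ h0 hx hz e2 n2 hμ.symm hρ.symm, hμ])
    fun x y hx hy => by simp [hx, hy]
  refine mem_normG_scal.2 fun k => ?_
  obtain ⟨α, β, rfl⟩ := exists_coord h.deg hJ k
  exact ⟨algebraMap F K α + algebraMap F K β * ν, fun v => by simp [add_smul, mul_smul, this]⟩

theorem isMaximalIn5 [FiniteDimensional F V] [Finite F] [Finite V] (h : HS Φ Ψ L) (h7 : 5 ≤ finrank K V)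
    (hτ : τ ≠ RingHom.id K) (h2 : NotSp2 Φ) (hs : ∀ x, Ψ.Sing x → Φ.Sing x)
    (hE : ∀ p a d s, IsE Ψ p a d s → s.restrictScalars F ∈ EG Φ) {J : K} (hJ : ∀ c, algebraMap F K c ≠ J)
    {c₁ c₃ c₄ : F} (hc : (c₃ ≠ 0 ∧ c₁ = 0 ∧ c₄ = 0) ∨ c₄ ≠ 0) (h4 : Φ.τ * c₄ = 0) (h4' : Φ.ε * c₄ + c₄ = 0)
    (hr : ∀ x, Ψ.Sing x → ∃ r ∈ EG Φ, (∀ v, r (J • v) = J • r v) ∧ ∀ v, r v =
      v + (c₁ * Φ.B x v - Φ.ε * c₃ * Φ.B (J • x) v) • x + (c₃ * Φ.B x v + c₄ * Φ.B (J • x) v) • J • x) :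
    Geo.IsMaximalIn (EG Φ) (normG (scal F K V) ⊓ EG Φ) := by
  obtain ⟨k₁, hk₁⟩ := h.one
  refine max_crit inf_le_right ?_ fun X h1 hXE g hg hg' => ?_
  · obtain ⟨u, hu0, hu⟩ := exists_sing_top Ψ (by omega)
    obtain ⟨c, -, hc, e1, -, n, -⟩ := exists_nbr5 Ψ h7 hu0 hu0 hu hu
    obtain ⟨e, he⟩ := exists_isE0 h.hn (hs _ hu) (hs _ hc) (h.zero' e1)
    refine ⟨e, IsE_mem_EG he, fun hm => ?_⟩
    obtain ⟨k, hk⟩ := mem_normG_scal.1 hm.1 J
    obtain ⟨t, t1, t2⟩ := exists_dual1 h.hn' n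
    have a1 := hk u
    rw [he.apply_p, he.apply_perp (h.zero' (by simp [hu.2])), h.zero' (by simp [Ψ.B_eq_zero_symm e1]),
      zero_smul, add_zero] at a1
    obtain rfl := smul_left_injective K hu0 a1
    have a2 := hk (k₁ • t)
    rw [he.apply_perp (h.zero' (by simp [t2])), he.apply_perp (h.zero' (by simp [t2])), smul_add,
      add_right_inj, h.hB c (k₁ • t), ← algebraMap_smul K] at a2
    exact hJ _ (smul_left_injective K hu0 (by simpa [t1, hk₁] using a2))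
  have hi : X ≤ Φ.isom := hXE.trans EG_le_isom
  have hE' : ∀ p a d s, IsE Ψ p a d s → s.restrictScalars F ∈ X := fun p a d s hs =>
    h1 ⟨mem_normG_scal.2 fun k => ⟨k, fun v => map_smul s k v⟩, hE _ _ _ _ hs⟩
  obtain ⟨x, hx0, hx, hn⟩ : ∃ x, x ≠ 0 ∧ Ψ.Sing x ∧ g (J • x) ∉ K ∙ g x := by
    by_contra! hc
    exact hg' ⟨h.mem_of_lines5 h7 hJ hc, hXE hg⟩
  obtain ⟨r, hrE, hrJ, hr⟩ := hr x hx
  have hrX : r ∈ X := h1 ⟨mem_normG_scal.2 fun k => ⟨k, fun v => by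
    obtain ⟨α, β, rfl⟩ := exists_coord h.deg hJ k
    simp [add_smul, mul_smul, hrJ]⟩, hrE⟩
  have gi := (hi hg).1
  set a := g x with ha
  set b := g (J • x) with hb
  have r1 : ∀ v, (g * r * g⁻¹) v =
      v + (c₁ * Φ.B a v - Φ.ε * c₃ * Φ.B b v) • a + (c₃ * Φ.B a v + c₄ * Φ.B b v) • b := fun v => by
    obtain ⟨v, rfl⟩ := g.surjective v
    simp [hr, ha, hb, gi]
  have baa : Φ.B a a = 0 := by rw [gi]; exact h.zero' hx.2
  have bab : Φ.B a b = 0 := by rw [gi]; simpa using h.zero hx.2 1 J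
  have bba := Φ.B_eq_zero_symm bab
  have bbb : Φ.B b b = 0 := by rw [gi]; exact h.zero hx.2 J J
  have qa : Φ.Sing a := ⟨by rw [(hi hg).2]; exact (hs _ hx).1, baa⟩
  have qb : Φ.Sing b := ⟨by rw [(hi hg).2]; exact (hs _ (hx.smul J)).1, bbb⟩
  have qc := sing_add_of_perp (qa.smul c₃) (qb.smul c₄) (by simp [bab])
  have rX := X.mul_mem (X.mul_mem hg hrX) (X.inv_mem hg)
  have a0 : a ≠ 0 := by simpa [ha] using hx0
  have key : ∀ u, Ψ.Sing u → Ψ.B u a = 0 → Ψ.B u b = 0 → b ∉ (K ∙ a) ⊔ K ∙ u →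
      HasE Φ X u (c₃ • a + c₄ • b) (-c₄) := fun u hu ea eb n => by
    obtain ⟨w, hw, e'⟩ := h.hn'.exists_perp_eq_one n
    simp only [Ψ.perp_sup, Submodule.mem_inf, Ψ.mem_perp_span_singleton] at hw
    obtain ⟨d, s, hs'⟩ := exists_isE' h.hn' hu hw.2
    have hsX := hE' _ _ _ _ hs'
    set s' := s.restrictScalars F
    have si := (hi hsX).1
    have sa : s' a = a := by
      change s a = a; rw [hs'.apply_perp ea, Ψ.B_eq_zero_symm hw.1]; simp
    have sb : s' b = b + u := by change s b = _; rw [hs'.apply_perp eb, e', one_smul]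
    have r2 : ∀ v, (s' * (g * r * g⁻¹) * s'⁻¹) v = v + (c₁ * Φ.B a v - Φ.ε * c₃ * Φ.B (b + u) v) • a +
        (c₃ * Φ.B a v + c₄ * Φ.B (b + u) v) • (b + u) := fun v => by
      obtain ⟨v, rfl⟩ := s'.surjective v
      rw [LinearEquiv.mul_apply, LinearEquiv.mul_apply, LinearEquiv.coe_inv, LinearEquiv.symm_apply_apply, r1,
        ← sb, ← si a, ← si b, sa]
      simp [sa]
    have bua := h.zero' ea
    have bub := h.zero' eb
    obtain ⟨e, he⟩ := exists_isE h.hn (a := c₃ • a + c₄ • b) (d := -c₄) (hs _ hu) (by simp [bua, bub])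
      (by rw [qc.1, mul_neg, h4, neg_zero]) (by rw [qc.2, RingHom.id_apply]; linear_combination -h4')
    have : e = s' * (g * r * g⁻¹) * s'⁻¹ * (g * r * g⁻¹)⁻¹ := by
      refine eq_mul_inv_of_mul_eq (LinearEquiv.ext fun v => ?_)
      rw [LinearEquiv.mul_apply, r2, r1, he.app]
      simp only [map_add, map_smul, LinearMap.add_apply, LinearMap.smul_apply, baa, bab, bba, bbb, bua, bub,
        smul_eq_mul, RingHom.id_apply]
      match_scalars
      · ring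
      · ring
      · linear_combination -Φ.B u v * h4'
      · ring
    exact ⟨e, this ▸ X.mul_mem (X.mul_mem (X.mul_mem hsX rX) (X.inv_mem hsX)) (X.inv_mem rX), he⟩
  have ind : ∀ x y : K, x • a + y • b ∈ K ∙ a → y = 0 := fun x y e => by_contra fun hy => hn
    ((Submodule.smul_mem_iff _ hy).1 (by
      simpa using sub_mem e (Submodule.smul_mem _ x (Submodule.mem_span_singleton_self a))))
  by_cases hW : (K ∙ a) ⊔ (K ∙ b) ≤ pf Ψ ![a, b]
  · have h5 := mem_pf.1 (hW (Submodule.mem_sup_left (Submodule.mem_span_singleton_self a)))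
    have h6 := mem_pf.1 (hW (mem_sup_self _ b))
    have sa : Ψ.Sing a := ⟨Ψ.Q_eq_zero hτ _, h5 0⟩
    have eb : Ψ.B a b = 0 := h6 0
    rcases hc with ⟨h8, rfl, rfl⟩ | h8
    · refine h.le_of_big5 h7 hi h2 hE' a0 sa (h.big5 h7 hi hE' a0 sa (c := -(Φ.ε * c₃) • b) (d := 0) ?_
        (fun hm => ?_) ⟨_, rX, qa, by simp [bab], by rw [mul_zero, (qb.smul _).1], by
          rw [(qb.smul _).2]; simp, fun v => ?_⟩)
      · rw [← algebraMap_smul K]; simp [-algebraMap_smul, eb]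
      · rw [← algebraMap_smul K] at hm
        have := ind 0 _ (by rwa [zero_smul, zero_add])
        simp [h8, Φ.ε_ne_zero] at this
      · rw [r1]
        simp only [map_smul, map_neg, LinearMap.smul_apply, neg_smul, LinearMap.neg_apply, smul_eq_mul,
          RingHom.id_apply]
        match_scalars
        · ring
        · ring
        · linear_combination -c₃ * Φ.B a v * Φ.εε
    · refine h.le_of_big5 h7 hi h2 hE' a0 sa (h.big5 h7 hi hE' a0 sa ?_ (fun hm => ?_)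
        (key a sa sa.2 eb (by simpa using hn)))
      · rw [← algebraMap_smul K, ← algebraMap_smul K c₄]; simp [-algebraMap_smul, sa.2, eb]
      · rw [← algebraMap_smul K c₃, ← algebraMap_smul K c₄] at hm
        simpa [h8] using ind _ _ hm
  obtain ⟨u, e, n, hu⟩ := exists_sing_notMem2 hτ Ψ (U := pf Ψ ![a, b]) (R := pf Ψ ![a, b] ⊓ ((K ∙ a) ⊔ K ∙ b)) (by
    have := finrank_sup_one (K ∙ a) b; have := finrank_span_one (F := K) a
    have := finrank_pf (Φ := Ψ) ![a, b] ⊤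
    have := Submodule.finrank_lt_finrank_of_lt (lt_of_le_of_ne inf_le_right fun e => hW (inf_eq_right.1 e))
    rw [finrank_top, top_inf_eq] at *; omega)
  replace n : u ∉ (K ∙ a) ⊔ K ∙ b := fun hc => n ⟨e, hc⟩
  have ea : Ψ.B u a = 0 := Ψ.B_eq_zero_symm (mem_pf.1 e 0)
  have eb : Ψ.B u b = 0 := Ψ.B_eq_zero_symm (mem_pf.1 e 1)
  have hu0 : u ≠ 0 := by rintro rfl; simp at n
  refine h.le_of_big5 h7 hi h2 hE' hu0 hu (h.big5 h7 hi hE' hu0 hu ?_ (fun hm => ?_)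
    (key u hu ea eb fun hc => n (exch hc hn)))
  · rw [← algebraMap_smul K, ← algebraMap_smul K c₄]; simp [-algebraMap_smul, ea, eb]
  · obtain ⟨k, hk⟩ := Submodule.mem_span_singleton.1 hm
    rw [← algebraMap_smul K c₃, ← algebraMap_smul K c₄] at hk
    rcases eq_or_ne k 0 with rfl | hk0
    · have := eq_of_indep (F := K) (a := a) (b := b) a0
        (fun ⟨k, hk⟩ => hn (Submodule.mem_span_singleton.2 ⟨k, hk.symm⟩)) (x := 0) (y := 0)
        (by rw [← hk]; simp)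
      simp only [eq_comm (a := (0 : K)), map_eq_zero] at this
      exact hc.elim (·.1 this.1) (· this.2)
    · exact n ((Submodule.smul_mem_iff _ hk0).1 (hk ▸ add_mem (Submodule.mem_sup_left (Submodule.smul_mem _ _
        (Submodule.mem_span_singleton_self _))) (Submodule.smul_mem _ _ (mem_sup_self _ _))))

theorem isMaximalIn_alt5 [FiniteDimensional F V] [Finite F] [Finite V] (h : HS Φ Ψ L) (h7 : 5 ≤ finrank K V)
    (h2 : (2 : F) ≠ 0) (hQ : ∀ x, Φ.Q x = 0) (hτ : Φ.τ = 0) (hε : Φ.ε = -1) (hEG : EG Φ = Φ.isom)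
    (hf : ∀ c, τ (algebraMap F K c) = algebraMap F K c) (h1 : τ ≠ RingHom.id K) :
    Geo.IsMaximalIn (EG Φ) (normG (scal F K V) ⊓ EG Φ) := by
  obtain ⟨k, hk⟩ : ∃ k, τ k ≠ k := by_contra fun hx => h1 (RingHom.ext (by simpa using hx))
  have h3 : τ (k - τ k) = -(k - τ k) := by rw [map_sub, Ψ.σσ, neg_sub]
  have h4 : k - τ k ≠ 0 := sub_ne_zero.2 hk.symm
  generalize k - τ k = θ at h3 h4
  have h5 : τ θ ≠ θ := fun e => h4 (by
    have : (2 : K) ≠ 0 := by rw [← map_ofNat (algebraMap F K)]; simpa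
    exact mul_left_cancel₀ this (by linear_combination h3 - e))
  obtain ⟨δ, hδ⟩ := fixed h.deg hf h5 (k := θ * θ) (by rw [map_mul, h3]; ring)
  have hs : ∀ x, Ψ.Sing x → Φ.Sing x := fun x hx => ⟨hQ x, h.zero' hx.2⟩
  refine h.isMaximalIn5 h7 h1 (notSp2_of_two h2) hs (fun p a d s hs => hEG ▸ ⟨fun x y => by
    rw [h.hB, h.hB]; exact congrArg L (hs.mem_isom.1 x y), fun x => by rw [hQ, hQ]⟩)
    (J := θ) (fun c e => h5 (by rw [← e, hf])) (c₁ := -δ) (c₃ := 0) (c₄ := 1) (Or.inr one_ne_zero)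
    (by rw [hτ, zero_mul]) (by rw [hε]; ring) fun x hx => ?_
  obtain ⟨r, hr⟩ := exists_isE h.hn (a := 0) (d := δ) (hs _ hx) (by simp) (by simp [hτ]) (by simp [hε])
  obtain ⟨r', hr'⟩ := exists_isE h.hn (a := 0) (d := -1) (hs _ (hx.smul θ)) (by simp) (by simp [hτ])
    (by simp [hε])
  have e : ∀ v, (r * r') v = v + (-δ * Φ.B x v) • x + Φ.B (θ • x) v • θ • x := fun v => by
    have : Φ.B x (θ • x) = 0 := by simpa using h.zero hx.2 1 θ
    rw [LinearEquiv.mul_apply, hr.app, hr'.app]; simp [this]; abel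
  refine ⟨r * r', mul_mem (IsE_mem_EG hr) (IsE_mem_EG hr'), fun v => ?_, fun v => by simp [e]⟩
  have hθ : θ • θ • x = δ • x := by rw [smul_smul, ← hδ, algebraMap_smul]
  rw [e, e, h.adj, h.adj, h3, neg_smul, neg_smul, hθ, smul_add, smul_add, smul_comm θ _ x, smul_comm θ _ (θ • x), hθ]
  simp only [map_neg, map_smul, LinearMap.neg_apply, LinearMap.smul_apply, smul_eq_mul]
  module

theorem isMaximalIn_quad5 [FiniteDimensional F V] [Finite F] [Finite V] {Q : QuadraticForm F V}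
    (h : HS (Formed.ofQuad Q) Ψ L) (h7 : 5 ≤ finrank K V) (hε : Ψ.ε = 1)
    (hsc : ∀ k : K, ∃ c : F, ∀ v, Q (k • v) = c * Q v)
    (hf : ∀ c, τ (algebraMap F K c) = algebraMap F K c) (h1 : τ ≠ RingHom.id K) :
    Geo.IsMaximalIn (EG (Formed.ofQuad Q)) (normG (scal F K V) ⊓ EG (Formed.ofQuad Q)) := by
  obtain ⟨J, hJ⟩ : ∃ k, τ k ≠ k := by_contra fun hx => h1 (RingHom.ext (by simpa using hx))
  obtain ⟨t, ht⟩ := fixed h.deg hf hJ (k := J + τ J) (by rw [map_add, Ψ.σσ, add_comm])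
  obtain ⟨n, hn⟩ := fixed h.deg hf hJ (k := J * τ J) (by rw [map_mul, Ψ.σσ, mul_comm])
  have hd := Module.finrank_mul_finrank F K V
  rw [h.deg] at hd
  obtain ⟨k₀, c, hQ⟩ : ∃ (k₀ : K) (c : F), ∀ x, Q x = c * L (k₀ * Ψ.B x x) := by
    have key : ∀ k : K, ∃ c : F, ∀ x, L (k * Ψ.B x x) = c * Q x := fun k => by
      obtain ⟨a, ha⟩ := hsc (1 + k)
      obtain ⟨b, hb⟩ := hsc k
      refine ⟨a - 1 - b, fun x => ?_⟩
      have := h.hB x (k • x)
      rw [Ψ.B_smul_right] at this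
      rw [← this, sub_mul, sub_mul, ← ha, ← hb, one_mul, add_smul, one_smul]; rfl
    obtain ⟨y, hy⟩ : ∃ y, Ψ.B y y ≠ 0 := by
      by_contra! hc
      obtain ⟨p, hp0, hp⟩ := exists_sing_top Ψ (by omega)
      obtain ⟨r, hr⟩ := h.hn'.exists_isPair hp0 hp
      have a1 := hc (p + r)
      have a2 := hc (p + J • r)
      simp only [map_add, LinearMap.add_apply, hc, hr.ef, hr.fe, hε, Ψ.B_smul_left, Ψ.B_smul_right] at a1 a2
      exact hJ (by linear_combination a2 - J * a1)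
    obtain ⟨k₁, hk₁⟩ := h.one
    obtain ⟨c, hc⟩ := key (k₁ / Ψ.B y y)
    have : c ≠ 0 := fun e => by simpa [e, hy, hk₁] using hc y
    exact ⟨_, c⁻¹, fun x => by rw [hc, inv_mul_cancel_left₀ this]⟩
  have hs : ∀ x, Ψ.Sing x → (Formed.ofQuad Q).Sing x := fun x hx => ⟨by simp [hQ, hx.2], h.zero' hx.2⟩
  refine h.isMaximalIn5 h7 h1 (notSp2_quad Q) hs (fun p a d s hs => ?_)
    (J := J) (fun c e => hJ (by rw [← e, hf])) (c₁ := 0) (c₃ := -1) (c₄ := 0) (Or.inl (by simp))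
    (mul_zero _) (by simp) fun x hx => ?_
  · let g : OG Q := ⟨s.restrictScalars F, Formed.mem_isom_ofQuad.2 fun x => by
      rw [hQ, hQ x]; exact congrArg (fun y => c * L (k₀ * y)) (hs.mem_isom.1 x x)⟩
    have hx : NotExc Q := notExc_of_finrank (by omega)
    refine (mem_EG_quad h.hn (by omega) (g := g)).2 ((mem_commutator_iff h.hn hx g).2 ⟨dick_eq_one_iff.2 ?_, ?_⟩)
    · have := Module.finrank_mul_finrank F K (mov s)
      rw [h.deg] at this
      exact ⟨_, (show finrank F (mov g.1) = finrank F (mov s) from rfl).trans (this.symm.trans (two_mul _))⟩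
    · by_cases h2 : (2 : F) = 0
      · exact spin_of_two_eq_zero h2 g
      haveI : Fact (ringChar F).Prime := ⟨CharP.char_is_prime F _⟩
      haveI : CharP K (ringChar F) := charP_of_injective_algebraMap (algebraMap F K).injective _
      have h3 : g ^ ringChar F ^ 2 = 1 := Subtype.ext (LinearEquiv.ext fun v => by
        have := DFunLike.congr_fun (hs.pow_char (ringChar F)) v
        rw [LinearEquiv.pow_apply] at this
        exact (LinearEquiv.pow_apply _ _ _).trans this)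
      have h4 := congrArg (spinHom h.hn hx) h3
      rw [map_pow, map_one, spinHom_apply] at h4
      rcases Int.units_eq_one_or (spin g) with e | e
      · exact e
      · rw [e, Odd.neg_one_pow ((Nat.Prime.odd_of_ne_two Fact.out fun e => h2 (by
          simpa [e] using ringChar.Nat.cast_ringChar (R := F))).pow)] at h4
        exact absurd h4 (by decide)
  obtain ⟨r, hr⟩ := exists_isE0 h.hn (hs _ hx) (hs _ (hx.smul J)) (by simpa using h.zero hx.2 1 J)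
  have e : ∀ v, r v = v + (Formed.ofQuad Q).B (J • x) v • x - (Formed.ofQuad Q).B x v • J • x := fun v => by
    rw [hr.app]; simp [show (Formed.ofQuad Q).ε = 1 from rfl]
  refine ⟨r, IsE_mem_EG hr, fun v => ?_, fun v => by
    rw [e]; simp [show (Formed.ofQuad Q).ε = 1 from rfl, sub_eq_add_neg]⟩
  have a1 : τ J • J • x = n • x := by rw [smul_smul, mul_comm, ← hn, algebraMap_smul]
  have a2 : τ J • x = t • x - J • x := by rw [← algebraMap_smul K t, ht, add_smul]; abel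
  have a3 : J • J • x = t • J • x - n • x := by rw [← a1, ← algebraMap_smul K t, ht, add_smul]; abel
  rw [e, e, h.adj, h.adj, a1, a2, smul_sub, smul_add, smul_comm J _ x, smul_comm J _ (J • x), a3]
  simp only [map_sub, map_smul, LinearMap.sub_apply, LinearMap.smul_apply, smul_eq_mul]
  module

end HS
end HS

theorem gu_sp {F : Type*} [Field F] [Fintype F] {m : ℕ} (hm : 5 ≤ m) (hodd : Odd (Fintype.card F))
    (K : Subalgebra F (Matrix (Fin m ⊕ Fin m) (Fin m ⊕ Fin m) F)) (hK : Geo.IsFieldSubalgebra 2 K)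
    (hac : Geo.IsAdjointClosedFor (sympForm m F) K) (hnsa : ¬ Geo.IsSelfAdjointFor (sympForm m F) K) :
    Geo.IsMaximalIn (spGL m F) (Geo.subalgebraNormalizer K ⊓ spGL m F) := by
  haveI : Nonempty (Fin m) := ⟨⟨0, by omega⟩⟩
  refine with_field hK fun K' _ _ _ _ h2 h3 h4 h5 => ?_
  obtain ⟨τ, Ψ, L, h, t1, -, t2, -⟩ := exists_HS (sympFormed_nondeg m F) h2 (fun k => by
    obtain ⟨a, ha, e⟩ := h4 k
    obtain ⟨b, hb, e'⟩ := hac a ha
    obtain ⟨k', e''⟩ := (h3 b).1 hb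
    exact ⟨k', fun u v => by simp only [sympFormed_B, ← e, ← e'', e']⟩) fun hc => hnsa fun a ha u v => by
      obtain ⟨k, e⟩ := (h3 a).1 ha
      simpa [e] using hc k u v
  haveI : FiniteDimensional F K' := .of_finrank_pos (by omega)
  haveI : Finite K' := Module.finite_of_finite F
  haveI := FiniteDimensional.right F K' (Fin m ⊕ Fin m → F)
  have hd := Module.finrank_mul_finrank F K' (Fin m ⊕ Fin m → F)
  exact isMaximalIn_inf (glEquiv _ F) (h.isMaximalIn_alt5 (by simp [h2] at hd; omega)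
    (two_ne_zero_of_odd_card hodd) (fun _ => rfl) rfl rfl (EG_symp m) t2 t1) (fun g => mem_spGL) h5

theorem gu_o {F : Type*} [Field F] [Fintype F] {ι : Type} [Fintype ι] [DecidableEq ι] (hn : 9 ≤ Fintype.card ι)
    {Q : (ι → F) → F} (hQ : Geo.IsNondegenerateQuadraticForm Q) (K : Subalgebra F (Matrix ι ι F))
    (hK : Geo.IsFieldSubalgebra 2 K) (hac : Geo.IsAdjointClosedFor (QuadraticMap.polar Q) K)
    (hnsa : ¬ Geo.IsSelfAdjointFor (QuadraticMap.polar Q) K)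
    (hsc : ∀ k ∈ K, ∃ c : F, ∀ v : ι → F, Q (Matrix.mulVec k v) = c * Q v) :
    Geo.IsMaximalIn (Geo.omegaGL Q) (Geo.subalgebraNormalizer K ⊓ Geo.omegaGL Q) := by
  haveI : Nonempty ι := Fintype.card_pos_iff.1 (by omega)
  obtain ⟨Q, rfl, h1⟩ := exists_quad hQ
  refine with_field hK fun K' _ _ _ _ h2 h3 h4 h5 => ?_
  obtain ⟨τ, Ψ, L, h, t1, t3, t2, -⟩ := exists_HS h1 h2 (fun k => by
    obtain ⟨a, ha, e⟩ := h4 k
    obtain ⟨b, hb, e'⟩ := hac a ha
    obtain ⟨k', e''⟩ := (h3 b).1 hb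
    exact ⟨k', fun u v => by rw [← e, ← e'']; exact e' u v⟩) fun hc => hnsa fun a ha u v => by
      obtain ⟨k, e⟩ := (h3 a).1 ha
      rw [e, e]; exact hc k u v
  haveI : FiniteDimensional F K' := .of_finrank_pos (by omega)
  haveI : Finite K' := Module.finite_of_finite F
  haveI := FiniteDimensional.right F K' (ι → F)
  have hd := Module.finrank_mul_finrank F K' (ι → F)
  refine isMaximalIn_inf (glEquiv _ F) (h.isMaximalIn_quad5 (by simp [h2] at hd; omega) t3 (fun k => ?_) t2 t1)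
    (fun g => mem_omegaGL h1 (by omega)) h5
  obtain ⟨a, ha, e⟩ := h4 k
  simpa only [e] using hsc a ha

end Cfsg.Agent.Root.Mx
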