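import Cfsg.Agent.Low.Sp6e

/-! `O₄⁻ ⊗ O₃` in `Ω₁₂⁻`, I: the setting `O43`, the unipotent radical of the stabiliser of `w ⊗ U` (`O43.win`,
`O43.zl`, `O43.theta`). -/

set_option autoImplicit false

namespace Cfsg.Agent.Root.Mx

open Cfsg.Agent.Geom Cfsg.Agent.AutCl Module TensorProduct

variable {F : Type*} [Field F] {W U : Type*} [AddCommGroup W] [Module F W] [AddCommGroup U] [Module F U]
  {Φ₁ : Formed (RingHom.id F) W} {Φ₂ : Formed (RingHom.id F) U} {Φ : Formed (RingHom.id F) (W ⊗[F] U)}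
  {X : Subgroup (W ⊗[F] U ≃ₗ[F] W ⊗[F] U)}

theorem isom_of_B (h2 : (2 : F) ≠ 0) {g : W ≃ₗ[F] W} (s : ∀ x y, Φ₁.B (g x) (g y) = Φ₁.B x y) : g ∈ Φ₁.isom := by
  refine ⟨s, fun x => ?_⟩
  have t : ∀ x, 2 * Φ₁.Q x = Φ₁.τ * Φ₁.B x x := fun x => by
    have := Φ₁.Q_add x x
    rw [← two_smul F x, Φ₁.Q_smul] at this
    linear_combination this
  exact mul_left_cancel₀ h2 (by rw [t, t, s])

theorem IsRf.symm_apply {v : U} {r : U ≃ₗ[F] U} (hr : IsRf Φ₂ v r) (x : U) : r.symm x = r x :=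
  r.symm_apply_eq.2 (LinearEquiv.congr_fun hr.sq x).symm

theorem IsRf.rr {v : U} {r : U ≃ₗ[F] U} (hr : IsRf Φ₂ v r) (x : U) : r (r x) = x := LinearEquiv.congr_fun hr.sq x

theorem HD.exists_rf_ne [FiniteDimensional F U] (h : HD Φ₂) (h2 : (2 : F) ≠ 0) {v y : U} (v0 : Φ₂.B v v ≠ 0)
    (y0 : y - (Φ₂.B v y / Φ₂.B v v) • v ≠ 0) : ∃ f, Φ₂.B v f = 0 ∧ Φ₂.B f y ≠ 0 ∧ Φ₂.B f f ≠ 0 := by
  have n1 := h.nd.restrict_perp (Φ₂.nondeg_span_singleton v0)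
  obtain ⟨f, a, b, c⟩ := exists_aniso h2 h.ε n1 (R := LinearMap.ker (Φ₂.B y)) fun e =>
    y0 (Φ₂.restrict_nondeg_iff'.1 n1 _ (Φ₂.mem_perp_span_singleton.2 (by simp [v0])) fun z hz => by
      simp [show Φ₂.B y z = 0 from e hz, Φ₂.mem_perp_span_singleton.1 hz])
  exact ⟨f, Φ₂.mem_perp_span_singleton.1 a, by rwa [h.sym], c⟩

/-- A subspace invariant under the reflections fixing `v` and meeting `v^⊥` contains `v^⊥`. -/
theorem HD.perp_le [FiniteDimensional F U] (h : HD Φ₂) (h2 : (2 : F) ≠ 0) {θ : F} (t0 : θ ≠ 0) (t1 : θ * θ ≠ 1)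
    (S : Submodule F U) {v : U} (v0 : Φ₂.B v v ≠ 0) (hc : ∀ f r, IsRf Φ₂ f r → Φ₂.B v f = 0 → ∀ b ∈ S, r b ∈ S)
    {y : U} (hy : y ∈ S) (y0 : y ≠ 0) (y1 : Φ₂.B v y = 0) {z : U} (hz : Φ₂.B v z = 0) : z ∈ S := by
  have k0 : ∀ f y, y ∈ S → Φ₂.B f f ≠ 0 → Φ₂.B v f = 0 → Φ₂.B f y ≠ 0 → f ∈ S := fun f y hy a b c => by
    obtain ⟨r, hr⟩ := h.exists_rf a
    have := hc f r hr b y hy
    rwa [hr.app, add_mem_cancel_left hy, S.smul_mem_iff (by simp [h2, a, c])] at this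
  obtain ⟨y, b, c, a⟩ := h.exists_rf_ne h2 v0 (y := y) (by simpa [y1])
  replace hy := k0 _ _ hy a b c
  have k : ∀ z, Φ₂.B v z = 0 → Φ₂.B y z = 0 → z ∈ S := fun z c d => by
    have d' := Φ₂.B_eq_zero_symm d
    obtain ⟨t, t0, ht⟩ : ∃ t : F, t ≠ 0 ∧ Φ₂.B y y + t * t * Φ₂.B z z ≠ 0 := by
      by_cases e : Φ₂.B z z = 0
      · exact ⟨1, one_ne_zero, by simpa [e]⟩
      · exact exists_norm_ne t0 t1 e _
    have := k0 (y + t • z) y hy (by convert ht using 1; simp [d, d']; ring) (by simp [b, c]) (by simpa [d'])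
    rwa [add_mem_cancel_left hy, S.smul_mem_iff t0] at this
  simpa using add_mem (k (z - (Φ₂.B y z / Φ₂.B y y) • y) (by simp [b, hz]) (by simp [a]))
    (S.smul_mem (Φ₂.B y z / Φ₂.B y y) hy)

/-- A self-adjoint map is scalar when all non-singular vectors are eigenvectors. -/
theorem HD.exists_not_eig [FiniteDimensional F U] (h : HD Φ₂) (h2 : (2 : F) ≠ 0) {θ : F} (t0 : θ ≠ 0) (t1 : θ * θ ≠ 1)
    {ρ : End F U} (ad : ∀ x y, Φ₂.B (ρ x) y = Φ₂.B x (ρ y)) (hs : ∀ c : F, ρ ≠ c • 1) :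
    ∃ v, Φ₂.B v v ≠ 0 ∧ ρ v - (Φ₂.B v (ρ v) / Φ₂.B v v) • v ≠ 0 := by
  obtain ⟨e, -, -, e0⟩ := exists_aniso h2 h.ε (nondeg_top h.nd) (R := ⊥) fun e => hs 0 (LinearMap.ext fun x => by
    simp [show x = 0 from e trivial])
  by_contra! hc
  have he := sub_eq_zero.1 (hc e e0)
  generalize Φ₂.B e (ρ e) / Φ₂.B e e = l at he
  refine hs l (LinearMap.ext fun x => ?_)
  have k : ∀ x, Φ₂.B e x = 0 → ρ x = l • x := fun x x1 => by
    obtain ⟨t, t0', ht⟩ := exists_norm_ne t0 t1 e0 (Φ₂.B x x)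
    have a := hc (x + t • e) (by convert ht using 1; simp [x1, Φ₂.B_eq_zero_symm x1]; ring)
    generalize Φ₂.B (x + t • e) (ρ (x + t • e)) / Φ₂.B (x + t • e) (x + t • e) = k at a
    have b := congrArg (Φ₂.B e) a
    simp [← ad, he, x1] at b
    obtain rfl : l = k := mul_left_cancel₀ (mul_ne_zero t0' e0) (by linear_combination b)
    simp only [map_add, map_smul, he] at a
    linear_combination (norm := module) a
  have := k (x - (Φ₂.B e x / Φ₂.B e e) • e) (by simp [e0])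
  simp only [map_sub, map_smul, he] at this
  simp only [LinearMap.smul_apply, End.one_apply]
  linear_combination (norm := module) this

/-- The exterior product of two vectors as a skew map. -/
def wd (Φ₂ : Formed (RingHom.id F) U) (a : U) : U →ₗ[F] End F U where
  toFun b := rk1 a (Φ₂.B b) - rk1 b (Φ₂.B a)
  map_add' b c := by ext; simp; module
  map_smul' c b := by ext; simp; module

@[simp] theorem wd_apply (a b x : U) : wd Φ₂ a b x = Φ₂.B b x • a - Φ₂.B a x • b := rfl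

theorem HD.wd_mem [FiniteDimensional F U] (h : HD Φ₂) (h2 : (2 : F) ≠ 0) (h3 : finrank F U = 3) {θ : F} (t0 : θ ≠ 0)
    (t1 : θ * θ ≠ 1) (R : Submodule F (End F U))
    (hc : ∀ f r, IsRf Φ₂ f r → ∀ ρ ∈ R, r.toLinearMap ∘ₗ ρ ∘ₗ r.toLinearMap ∈ R) {ρ : End F U} (hρ : ρ ∈ R)
    (ad : ∀ x y, Φ₂.B (ρ x) y = -Φ₂.B x (ρ y)) (r0 : ρ ≠ 0) (x y : U) : wd Φ₂ x y ∈ R := by
  have cj : ∀ f r, IsRf Φ₂ f r → ∀ a b, wd Φ₂ a b ∈ R → wd Φ₂ (r a) (r b) ∈ R := fun f r hr a b m => by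
    convert hc f r hr _ m using 1
    ext x
    obtain ⟨x, rfl⟩ := r.surjective x
    simp [hr.iso.1, hr.rr]
  have cm : ∀ a b, wd Φ₂ a b ∈ R → wd Φ₂ b a ∈ R := fun a b m => by
    convert neg_mem m using 1; ext; simp
  have s : ∀ v y, Φ₂.B v v ≠ 0 → y ≠ 0 → Φ₂.B v y = 0 → wd Φ₂ v y ∈ R → ∀ z, wd Φ₂ v z ∈ R := fun v y a b c m z => by
    have := h.perp_le h2 t0 t1 (R.comap (wd Φ₂ v)) a (fun f r hr e b hb => by
      simpa only [hr.perp (Φ₂.B_eq_zero_symm e), Submodule.mem_comap] using cj f r hr v b hb) m b c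
      (z := z - (Φ₂.B v z / Φ₂.B v v) • v) (by simp [a])
    rwa [Submodule.mem_comap, map_sub, map_smul, show wd Φ₂ v v = 0 by ext; simp, smul_zero, sub_zero] at this
  obtain ⟨v, -, v1, v0⟩ := exists_aniso h2 h.ε (nondeg_top h.nd) (R := LinearMap.ker ρ) fun e =>
    r0 (LinearMap.ext fun x => e trivial)
  have e1 : Φ₂.B v (ρ v) = 0 := mul_left_cancel₀ h2 (by linear_combination ad v v - h.sym (ρ v) v)
  obtain ⟨r, hr⟩ := h.exists_rf v0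
  have m := s v (ρ v) v0 v1 e1 (by
    convert R.smul_mem (-Φ₂.B v v / 2) (sub_mem hρ (hc v r hr ρ hρ)) using 1
    ext x
    simp [hr.app, ad v x, e1]
    match_scalars <;> field_simp <;> ring)
  obtain ⟨f, a, -, b⟩ := h.exists_rf_ne h2 v0 (y := ρ v) (by simpa [e1])
  have v1 : v ≠ 0 := by rintro rfl; simp at v0
  have m' := s f v b v1 (Φ₂.B_eq_zero_symm a) (cm _ _ (m f))
  obtain ⟨z, z0, z1, z2⟩ := exists_ker2 h3.ge (Φ₂.B v) (Φ₂.B f)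
  have fv : f ∉ F ∙ v := fun e => by
    obtain ⟨c, rfl⟩ := Submodule.mem_span_singleton.1 e
    simp [v0] at a
    simp [a] at b
  have dec : ∀ x, ∃ c : F, x = (Φ₂.B v x / Φ₂.B v v) • v + (Φ₂.B f x / Φ₂.B f f) • f + c • z := fun x => by
    obtain ⟨c, e⟩ := Submodule.mem_span_singleton.1 (mem_span_three h.nd h3 z0 v1 fv z1 z2
      (y := x - (Φ₂.B v x / Φ₂.B v v) • v - (Φ₂.B f x / Φ₂.B f f) • f) (by simp [v0, a])
      (by simp [b, Φ₂.B_eq_zero_symm a]))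
    exact ⟨c, by rw [e]; abel⟩
  have k : ∀ y, (wd Φ₂ y v ∈ R) → (wd Φ₂ y f ∈ R) → (wd Φ₂ y z ∈ R) → ∀ x, wd Φ₂ y x ∈ R := fun y a b c x => by
    obtain ⟨d, e⟩ := dec x
    rw [e, map_add, map_add, map_smul, map_smul, map_smul]
    exact add_mem (add_mem (R.smul_mem _ a) (R.smul_mem _ b)) (R.smul_mem _ c)
  exact k x (cm _ _ (m x)) (cm _ _ (m' x)) (cm _ _ (k z (cm _ _ (m z)) (cm _ _ (m' z))
    (by convert zero_mem R; ext; simp) x)) y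

/-- The setting `Ω₄⁻ ⊗ SO₃ ≤ X ≤ Ω₁₂⁻`. -/
structure O43 (Φ₁ : Formed (RingHom.id F) W) (Φ₂ : Formed (RingHom.id F) U) (Φ : Formed (RingHom.id F) (W ⊗[F] U))
    (X : Subgroup (W ⊗[F] U ≃ₗ[F] W ⊗[F] U)) : Prop where
  B : ∀ w u w' u', Φ.B (w ⊗ₜ u) (w' ⊗ₜ u') = Φ₁.B w w' * Φ₂.B u u'
  ε : Φ.ε = 1
  h₁ : HD Φ₁
  h₂ : HD Φ₂
  dW : finrank F W = 4
  dU : finrank F U = 3
  two : (2 : F) ≠ 0
  three : Nat.card F ≠ 3
  min : ∀ w y, Φ₁.B w w = 0 → w ≠ 0 → Φ₁.B w y = 0 → y ∉ F ∙ w → Φ₁.B y y ≠ 0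
  ueg : UEG Φ
  ceg : CEG Φ
  neg : ∀ v r, IsRf Φ₂ v r → TensorProduct.congr 1 (LinearEquiv.neg F * r) ∈ EG Φ
  le : tstab F W U ⊓ EG Φ ≤ X
  le' : X ≤ EG Φ

theorem zr_conj {w : W} {ρ : End F U} (H : ZR Φ₁ X w ρ) {a : W ≃ₗ[F] W} (ha : a ∈ Φ₁.isom) {b : U ≃ₗ[F] U}
    (m : TensorProduct.congr a b ∈ X) : ZR Φ₁ X (a w) (b.toLinearMap ∘ₗ ρ ∘ₗ b.symm.toLinearMap) := by
  obtain ⟨g, hg, e⟩ := H
  refine ⟨_, mul_mem (mul_mem m hg) (inv_mem m), fun x => ?_⟩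
  obtain ⟨x, rfl⟩ := (TensorProduct.congr a b).surjective x
  have : cL (Φ₁.B (a w)) (TensorProduct.congr a b x) = b (cL (Φ₁.B w) x) := by
    induction x with
    | zero => simp
    | tmul w u => simp [ha.1]
    | add x y a b => simp only [map_add, a, b]
  simp [-TensorProduct.congr_symm_tmul, e, this]

namespace O43

variable [FiniteDimensional F W] [FiniteDimensional F U] [Finite F] (h : O43 Φ₁ Φ₂ Φ X)
include h

omit [FiniteDimensional F W] [FiniteDimensional F U] [Finite F] in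
theorem iso : X ≤ Φ.isom := h.le'.trans EG_le_isom

omit [FiniteDimensional F W] [FiniteDimensional F U] [Finite F] in
theorem Bl (w : W) (u : U) (x : W ⊗[F] U) : Φ.B (w ⊗ₜ u) x = Φ₂.B u (cL (Φ₁.B w) x) := by
  induction x with
  | zero => simp
  | tmul w u => simp [h.B]
  | add x y a b => simp only [map_add, a, b]

omit [FiniteDimensional F W] [FiniteDimensional F U] [Finite F] in
theorem sym (x y : W ⊗[F] U) : Φ.B x y = Φ.B y x := by rw [Φ.symm, h.ε]; simp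

omit [FiniteDimensional F W] [FiniteDimensional F U] [Finite F] in
theorem Br (w : W) (u : U) (x : W ⊗[F] U) : Φ.B x (w ⊗ₜ u) = Φ₂.B u (cL (Φ₁.B w) x) := by rw [h.sym, h.Bl]

omit [Finite F] in
theorem nondeg : Φ.Nondeg := fun x e => eq_of_cL fun φ => by
  obtain ⟨w, rfl⟩ := h.h₁.nd.exists_eq_B φ
  exact h.h₂.nd.ext fun u => by simpa [h.Br, h.h₂.sym u] using e (w ⊗ₜ u)

omit [FiniteDimensional F W] [FiniteDimensional F U] [Finite F] in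
theorem theta0 : ∃ θ : F, θ ≠ 0 ∧ θ * θ ≠ 1 := by
  simpa [sq] using Root.exists_sq_ne_one (three_lt_card h.two h.three)

omit [FiniteDimensional F W] [Finite F] in
theorem nontriv : Nontrivial U := Module.nontrivial_of_finrank_pos (R := F) (by rw [h.dU]; omega)

omit [FiniteDimensional F W] [FiniteDimensional F U] [Finite F] in
theorem l {p a : W} {d : F} {g : W ≃ₗ[F] W} (hg : IsE Φ₁ p a d g) : lT U g ∈ X :=
  h.le ⟨lT_mem _, h.ueg _ (congr_mem_isom h.B (.inl h.two) hg.mem_isom (one_mem _)) 2 (by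
    rw [congr_pow, hg.pow_char (ringChar F)]; exact (congrArg _ (one_pow _)).trans TensorProduct.congr_refl_refl)
    (.inl h.two)⟩

omit [FiniteDimensional F W] [FiniteDimensional F U] [Finite F] in
theorem r {v : U} {r : U ≃ₗ[F] U} (hr : IsRf Φ₂ v r) : TensorProduct.congr 1 (LinearEquiv.neg F * r) ∈ X :=
  h.le ⟨⟨1, _, fun _ _ => rfl⟩, h.neg v r hr⟩

omit [FiniteDimensional F U] [Finite F] in
theorem pair {w : W} (hw : Φ₁.B w w = 0) (w0 : w ≠ 0) : ∃ r, Φ₁.B r r = 0 ∧ Φ₁.B w r = 1 :=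
  (h.h₁.nd.exists_isPair w0 ⟨h.h₁.Q w, hw⟩).imp fun _ e => ⟨e.sf.2, e.ef⟩

theorem swap {w r : W} (hw : Φ₁.B w w = 0) (hr : Φ₁.B r r = 0) (e : Φ₁.B w r = 1) {c : F} (c0 : c ≠ 0) :
    ∃ g ∈ Φ₁.isom, lT U g ∈ X ∧ g w = -c • r ∧ g r = -c⁻¹ • w := by
  have hp : Φ₁.IsPair w r := ⟨⟨h.h₁.Q w, hw⟩, ⟨h.h₁.Q r, hr⟩, e⟩
  have := hp.finrank_pairPerp h.h₁.nd
  have e' := (h.h₁.sym r w).trans e
  have n : Φ₁.B (w + c • r) (w + c • r) = 2 * c := by simp [hw, hr, e, e']; ring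
  obtain ⟨a, ha, e1⟩ := Φ₁.exists_B_self_eq h.two h.h₁.ε (hp.nondeg_pairPerp h.h₁.nd) (by have := h.dW; omega) (2 * c)
  obtain ⟨a1, a2⟩ := Φ₁.mem_pairPerp.1 ha
  obtain ⟨s, hs⟩ := h.h₁.exists_rf (v := w + c • r) (n ▸ mul_ne_zero h.two c0)
  obtain ⟨s', hs'⟩ := h.h₁.exists_rf (v := a) (e1 ▸ mul_ne_zero h.two c0)
  have := h.two
  refine ⟨s * s', mul_mem hs.iso hs'.iso, lT_mul (U := U) s s' ▸ h.le (rf_mul_mem h.B h.two h.ceg h.h₁ hs hs' (n.trans e1.symm)),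
    ?_, ?_⟩
  · rw [LinearEquiv.mul_apply, hs'.perp (Φ₁.B_eq_zero_symm a1), hs.app, n]
    simp [hw, e']; match_scalars <;> field_simp <;> ring
  · rw [LinearEquiv.mul_apply, hs'.perp (Φ₁.B_eq_zero_symm a2), hs.app, n]
    simp [hr, e]; match_scalars <;> field_simp <;> ring

theorem trans {w w' : W} (hw : Φ₁.B w w = 0) (w0 : w ≠ 0) (hw' : Φ₁.B w' w' = 0) (w1 : w' ≠ 0) :
    ∃ g ∈ Φ₁.isom, lT U g ∈ X ∧ g w = w' := by
  have k : ∀ w w', Φ₁.B w w = 0 → Φ₁.B w' w' = 0 → Φ₁.B w w' ≠ 0 → ∃ g ∈ Φ₁.isom, lT U g ∈ X ∧ g w = w' :=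
    fun w w' a b c => by
    obtain ⟨g, a1, a2, a3, -⟩ := h.swap (r := (Φ₁.B w w')⁻¹ • w') a (by simp [b]) (by simp [c]) (neg_ne_zero.2 c)
    exact ⟨g, a1, a2, by simp [a3, c]⟩
  by_cases e : Φ₁.B w w' = 0
  swap
  · exact k w w' hw hw' e
  obtain ⟨c, rfl⟩ := Submodule.mem_span_singleton.1 (by_contra fun n => h.min w w' hw w0 e n hw')
  obtain ⟨r, hr, e⟩ := h.pair hw w0
  obtain ⟨g, a1, a2, a3⟩ := k w r hw hr (by simp [e])
  obtain ⟨g', b1, b2, b3⟩ := k r (c • w) hr hw' (by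
    simpa [h.h₁.sym r w, e] using left_ne_zero_of_smul w1)
  exact ⟨g' * g, mul_mem b1 a1, lT_mul (U := U) g' g ▸ mul_mem b2 a2, by simp [a3, b3]⟩

/-- The space of the `ρ` with `ZR w ρ`. -/
def zr {w : W} (hw : Φ₁.B w w = 0) (w0 : w ≠ 0) : Submodule F (End F U) where
  carrier := {ρ | ZR Φ₁ X w ρ}
  zero_mem' := ⟨1, one_mem _, by simp⟩
  add_mem' := fun ⟨g, a, b⟩ ⟨g', a', b'⟩ => ⟨_, mul_mem a a', fun x => by
    simp [b, b', hw, tmul_add]; abel⟩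
  smul_mem' := fun c ρ H => by
    have k : ∀ c : F, ZR Φ₁ X w ((c * c) • ρ) := fun c => by
      rcases eq_or_ne c 0 with rfl | c0
      · exact ⟨1, one_mem _, by simp⟩
      obtain ⟨a, ha, m, e⟩ := h.trans hw w0 (w' := c • w) (by simp [hw]) (smul_ne_zero c0 w0)
      obtain ⟨g, hg, e'⟩ := zr_conj H ha m
      exact ⟨g, hg, fun x => by simp [e', e, smul_tmul, smul_smul]⟩
    obtain ⟨g, a, b⟩ := k ((c + 1) / 2)
    obtain ⟨g', a', b'⟩ := k ((c - 1) / 2)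
    refine ⟨_, mul_mem (inv_mem a') a, fun x => inv_mul_apply.2 ?_⟩
    have := h.two
    rw [b, b']
    simp only [map_add, map_smul, map_zero, smul_zero, cL_tmul, hw, zero_smul, add_zero, LinearMap.smul_apply,
      tmul_smul]
    match_scalars <;> field_simp; ring

omit [Finite F] in
theorem sing {x : W ⊗[F] U} (e : Φ.B x x = 0) : Φ.Sing x := sing_of_B h.ε h.two e

omit [FiniteDimensional F U] [Finite F] in
theorem mem_pt {w : W} (hw : Φ₁.B w w = 0) (w0 : w ≠ 0) {v : W ⊗[F] U}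
    (hv : ∀ x, Φ₁.B w x = 0 → cL (Φ₁.B x) v = 0) : ∃ u, v = w ⊗ₜ u := by
  obtain ⟨r, hr⟩ := h.h₁.nd.exists_eq_one w0
  refine ⟨cL (Φ₁.B r) v, eq_of_cL fun φ => ?_⟩
  obtain ⟨x, rfl⟩ := h.h₁.nd.exists_eq_B φ
  have := hv (x - Φ₁.B w x • r) (by simp [hr])
  simp [sub_eq_zero] at this
  simp [this, h.h₁.sym x w]

/-- A non-trivial element `1 + (w B(w, ·)) ⊗ ζ` produces the whole Eichler group. -/
theorem win {w : W} (hw : Φ₁.B w w = 0) (w0 : w ≠ 0) {ρ : End F U} (H : ZR Φ₁ X w ρ) (r0 : ρ ≠ 0) : EG Φ ≤ X := by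
  obtain ⟨θ, t0, t1⟩ := h.theta0
  obtain ⟨r, hr, e⟩ := h.pair hw w0
  have e' := (h.h₁.sym r w).trans e
  have ad : ∀ x y, Φ₂.B (ρ x) y = -Φ₂.B x (ρ y) := fun x y => by
    obtain ⟨g, hg, e1⟩ := H
    have := (h.iso hg).1 (r ⊗ₜ x) (r ⊗ₜ y)
    simp [e1, h.B, hr, e, e', hw] at this
    linear_combination this
  have s1 : ∀ z, Φ₁.B z z = 0 → z ≠ 0 → ∀ x y, HasE Φ X (z ⊗ₜ x) (z ⊗ₜ y) 0 := fun z hz z0 x y => by
    obtain ⟨a, ha, m, rfl⟩ := h.trans hw w0 hz z0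
    refine HasE.conj (p := w ⊗ₜ x) (a := w ⊗ₜ y) ?_ m (h.iso m)
    obtain ⟨g, hg, e⟩ := h.h₂.wd_mem h.two h.dU t0 t1 (h.zr hw w0) (fun f s hs ρ hρ => by
      obtain ⟨g, hg, e⟩ := zr_conj hρ (one_mem _) (h.r hs)
      exact ⟨g, hg, fun x => by
        rw [e]; simp [show ∀ y, (LinearEquiv.neg F * s).symm y = -s y from fun y =>
          (LinearEquiv.symm_apply_eq _).2 (by simp [hs.rr])]⟩) H ad r0 x y
    exact ⟨g, hg, h.sing (by simp [h.B, hw]), by simp [h.B, hw], by simp [(h.sing (x := w ⊗ₜ y) (by simp [h.B, hw])).1],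
      by simp [h.B, hw], fun v => by simp [e, h.Bl, h.ε, tmul_sub]; abel⟩
  have s2 : ∀ w r, Φ₁.B w w = 0 → Φ₁.B r r = 0 → Φ₁.B w r = 1 → ∀ x₀, x₀ ≠ 0 → Full Φ X (w ⊗ₜ x₀) :=
    fun w r hw hr e x₀ x0 => by
    have e' := (h.h₁.sym r w).trans e
    have w0 : w ≠ 0 := by rintro rfl; simp at e
    have r0 : r ≠ 0 := by rintro rfl; simp at e
    have hp : ∀ x, Φ.Sing (w ⊗ₜ[F] x) := fun x => h.sing (by simp [h.B, hw])
    have sp : ∀ s x₀ : U, x₀ ≠ 0 → ∃ y s', Φ₂.B s y = 0 ∧ Φ₂.B x₀ s' = 0 ∧ Φ₂.B s' y = 1 := fun s x₀ x0 => by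
      obtain ⟨y, y1, y2⟩ := exists_perp_notMem (Ψ := Φ₂) (u := s) (S := F ∙ x₀) (by
        rw [finrank_span_singleton x0, h.dU])
      obtain ⟨s', -, a, b⟩ := sep h.h₂.nd (nondeg_top h.h₂.nd) le_top trivial y2
      exact ⟨y, s', y1, Φ₂.mem_perp_span_singleton.1 a, (h.h₂.sym _ _).trans b⟩
    have a0 : ∀ x₀ v, (∃ d, HasE Φ X (w ⊗ₜ x₀) v d) → v ∈ AE Φ X (hp x₀) := fun _ _ e => e
    have a1 : ∀ x₀ s, x₀ ≠ 0 → Φ₂.B x₀ s = 0 → r ⊗ₜ s ∈ AE Φ X (hp x₀) := fun x₀ s x0 hs => by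
      obtain ⟨y, s', b1, b2, b3⟩ := sp s x₀ x0
      exact ⟨0, ((s1 r hr r0 s s').move (s1 w hw w0 x₀ y) (by simp [h.B, Φ₂.B_eq_zero_symm hs])
        (by simp [h.B, Φ₂.B_eq_zero_symm b2]) (by simp [h.B, b1])).congr (by simp [h.B, e', b3]) rfl⟩
    have a2 : ∀ x₀ s b, x₀ ≠ 0 → Φ₂.B x₀ s = 0 → Φ₁.B w b = 0 → b ⊗ₜ s ∈ AE Φ X (hp x₀) := fun x₀ s b x0 hs hb => by
      obtain ⟨d, g, hg⟩ := exists_isE' h.h₁.nd ⟨h.h₁.Q w, hw⟩ hb
      have := map_mem_AE (hp := hp x₀) (h.l hg) (h.iso (h.l hg)) (by simp [hg.apply_p]) (a1 x₀ s x0 hs)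
      simp only [TensorProduct.congr_tmul, hg.app, e, h.h₁.ε, LinearEquiv.refl_apply, sub_tmul, add_tmul, mul_one,
        one_smul, smul_tmul] at this
      simpa using sub_mem (add_mem (a1 x₀ s x0 hs) (a0 x₀ _ ⟨0, s1 w hw w0 x₀ ((Φ₁.B b r - d) • s)⟩)) this
    have a3 : ∀ s b, Φ₁.B w b = 0 → b ⊗ₜ s ∈ AE Φ X (hp x₀) := fun s b hb => by
      obtain ⟨y, s', b1, b2, b3⟩ := sp s x₀ x0
      obtain ⟨d, g, hg, e1⟩ := a2 y s b (by rintro rfl; simp at b3) (Φ₂.B_eq_zero_symm b1) hb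
      have := map_mem_AE (hp := hp x₀) hg (h.iso hg) (by simp [e1.app, h.B, hw, Φ₁.B_eq_zero_symm hb]) (a1 x₀ s' x0 b2)
      simp only [e1.app, h.B, e, h.ε, h.h₂.sym y s', b3, mul_one, one_smul, ← tmul_smul] at this
      simpa using sub_mem (add_mem (a1 x₀ s' x0 b2) (a0 x₀ _ ⟨0, s1 w hw w0 x₀ ((Φ₁.B b r * Φ₂.B s s' - d) • y)⟩)) this
    refine full_of_AE' h.nondeg (by simp [h.dW, h.dU]) (notSp2_of_two h.two)
      (fun e => x0 (tmul_inj w0 (e.trans (tmul_zero _ _).symm))) (hp x₀) fun v hv => ?_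
    rw [← sub_add_cancel v (r ⊗ₜ cL (Φ₁.B w) v)]
    exact add_mem (tperp_ind ⟨⟨h.h₁.Q w, hw⟩, ⟨h.h₁.Q r, hr⟩, e⟩ _ (fun a u => a3 u a) v)
      (a1 x₀ _ x0 (h.Bl _ _ _ ▸ hv))
  have := h.nontriv
  obtain ⟨x, x0⟩ := exists_ne (0 : U)
  obtain ⟨y, hy⟩ := h.h₂.nd.exists_eq_one x0
  exact EG_le_of_full h.nondeg (s2 w r hw hr e x x0) (s2 r w hr hw e' y (by rintro rfl; simp at hy))
    (by simp [h.B, e, hy])

end O43

end Cfsg.Agent.Root.Mx
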