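import Cfsg.Agent.Low.O12a

/-! `O₄⁻ ⊗ O₃` in `Ω₁₂⁻`, II: the unipotent radical (`O43.zl`, `O43.theta`) and the parabolic lemma `O43.par`. -/

set_option autoImplicit false

namespace Cfsg.Agent.Root.Mx

open Cfsg.Agent.Geom Cfsg.Agent.AutCl Module TensorProduct

variable {F : Type*} [Field F] {W U : Type*} [AddCommGroup W] [Module F W] [AddCommGroup U] [Module F U]
  {Φ₁ : Formed (RingHom.id F) W} {Φ₂ : Formed (RingHom.id F) U} {Φ : Formed (RingHom.id F) (W ⊗[F] U)}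
  {X : Subgroup (W ⊗[F] U ≃ₗ[F] W ⊗[F] U)}

theorem HE.congr_pt {w : W} (hw : Φ₁.B w w = 0) {θ θ' : U →ₗ[F] W ⊗[F] U} (H : HE Φ₁ X w θ)
    (e : ∀ u, ∃ u', θ u - θ' u = w ⊗ₜ u') : HE Φ₁ X w θ' := by
  obtain ⟨a, g, hg, e1⟩ := H
  refine ⟨fun u => ?_, g, hg, fun x => ?_⟩
  · obtain ⟨u', e⟩ := e u
    simpa [a, hw] using congrArg (cL (Φ₁.B w)) e
  · obtain ⟨u, e1⟩ := e1 x
    obtain ⟨u', e⟩ := e (cL (Φ₁.B w) x)
    exact ⟨u - u', by rw [e1, tmul_sub, ← e]; abel⟩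

theorem cL_lTensor (φ : Dual F W) (γ : End F U) (x : W ⊗[F] U) : cL φ (γ.lTensor W x) = γ (cL φ x) := by
  induction x with
  | zero => simp
  | tmul w u => simp
  | add x y a b => simp only [map_add, a, b]

theorem rid_lTensor (φ : Dual F W) (μ : Dual F U) (v : W ⊗[F] U) :
    φ (TensorProduct.rid F W (μ.lTensor W v)) = μ (cL φ v) := by
  induction v with
  | zero => simp
  | tmul w u => simp [mul_comm]
  | add x y a b => simp only [map_add, a, b]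

theorem rf_id (h : HD Φ₂) {ρ : End F U} (ad : ∀ x y, Φ₂.B (ρ x) y = Φ₂.B x (ρ y)) {v f : U} {r s : U ≃ₗ[F] U}
    (hr : IsRf Φ₂ v r) (hs : IsRf Φ₂ f s) (vf : Φ₂.B v f = 0) (u : U) :
    ρ u - r (ρ (r u)) - s (ρ (s u) - r (ρ (r (s u)))) =
      (4 / (Φ₂.B v v * Φ₂.B f f) * Φ₂.B f (ρ v)) • sy Φ₂ v f u := by
  have v0 := hr.ne
  have f0 := hs.ne
  have fv := Φ₂.B_eq_zero_symm vf
  have e : ∀ u, ρ u - r (ρ (r u)) = (2 / Φ₂.B v v) • (Φ₂.B v u • ρ v + Φ₂.B (ρ v) u • v -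
      (2 * Φ₂.B v u * Φ₂.B v (ρ v) / Φ₂.B v v) • v) := fun u => by
    simp only [hr.app, map_add, map_smul, smul_eq_mul, ← ad v u]
    match_scalars <;> field_simp <;> ring
  rw [e, e]
  simp only [hs.app, map_add, map_sub, map_smul, smul_eq_mul, vf, fv, sy, LinearMap.add_apply,
    LinearMap.smulRight_apply, h.sym (ρ v) f]
  match_scalars <;> field_simp <;> ring

namespace O43

variable [FiniteDimensional F W] [FiniteDimensional F U] [Finite F] (h : O43 Φ₁ Φ₂ Φ X)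
include h

omit [FiniteDimensional F W] [Finite F] in
theorem cL_fix {s : W ⊗[F] U ≃ₗ[F] W ⊗[F] U} (hs : s ∈ Φ.isom) {w : W} (e : ∀ u, s (w ⊗ₜ u) = w ⊗ₜ u) (x : W ⊗[F] U) :
    cL (Φ₁.B w) (s x) = cL (Φ₁.B w) x :=
  h.h₂.nd.ext_right fun u => by rw [← h.Bl, ← h.Bl, ← hs.1 _ x, e]

omit [Finite F] in
theorem spec {w : W} (hw : Φ₁.B w w = 0) (w0 : w ≠ 0) {θ : U →ₗ[F] W ⊗[F] U} (a : ∀ u, cL (Φ₁.B w) (θ u) = 0)
    {g : W ⊗[F] U ≃ₗ[F] W ⊗[F] U} (hg : g ∈ X) (e : ∀ x, ∃ u, g x = x - θ (cL (Φ₁.B w) x) + w ⊗ₜ u)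
    {x : W ⊗[F] U} (hx : cL (Φ₁.B w) x = 0) : ∃ y, g x = x + w ⊗ₜ y ∧ ∀ u, Φ₂.B u y = Φ.B x (θ u) := by
  obtain ⟨r, hr⟩ := h.h₁.nd.exists_eq_one w0
  obtain ⟨y', e1⟩ := e x
  refine ⟨y', by simp [e1, hx], fun u => ?_⟩
  obtain ⟨z, e2⟩ := e (r ⊗ₜ u)
  have := (h.iso hg).1 x (r ⊗ₜ u)
  simp [e1, e2, hx, hr, h.Bl, h.Br w, a, hw] at this
  rw [h.h₂.sym]; linear_combination this

omit [FiniteDimensional F U] [Finite F] in
theorem rf_one {w v : W} (hw : Φ₁.B w w = 0) (e : Φ₁.B w v = 0) : HE Φ₁ X w (TensorProduct.mk F W U v) := by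
  obtain ⟨d, g, hg⟩ := exists_isE' h.h₁.nd ⟨h.h₁.Q w, hw⟩ e
  exact ⟨fun u => by simp [e], _, h.l hg, fun x => ⟨_, by
    rw [lT_isE hg, h.h₁.ε, one_smul, add_sub_right_comm]; rfl⟩⟩

variable (hS : ¬ EG Φ ≤ X)
include hS

theorem zl {w : W} (hw : Φ₁.B w w = 0) (w0 : w ≠ 0) {k : W ⊗[F] U ≃ₗ[F] W ⊗[F] U} (hk : k ∈ X)
    (e : ∀ x, ∃ u, k x = x + w ⊗ₜ u) : k = 1 := by
  obtain ⟨r, hr, e1⟩ := h.pair hw w0
  let ρ : End F U := cL (Φ₁.B r) ∘ₗ (k.toLinearMap - 1) ∘ₗ TensorProduct.mk F W U r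
  have a : ∀ x, k x = x + w ⊗ₜ ρ (cL (Φ₁.B w) x) := fun x => by
    obtain ⟨y, e2, e3⟩ := h.spec hw w0 (θ := 0) (by simp) hk (by simpa using e) (x := x - r ⊗ₜ cL (Φ₁.B w) x)
      (by simp [e1])
    obtain rfl : y = 0 := h.h₂.nd.ext_right fun u => by simp [e3]
    obtain ⟨z, e4⟩ := e (r ⊗ₜ cL (Φ₁.B w) x)
    simp only [map_sub, e4, tmul_zero, add_zero] at e2
    simp [ρ, e4, h.h₁.sym r w, e1]
    linear_combination (norm := abel) e2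
  by_contra n
  exact hS (h.win hw w0 ⟨k, hk, a⟩ fun r0 => n (LinearEquiv.ext fun x => by simp [a, r0]))

theorem comm {w : W} (hw : Φ₁.B w w = 0) (w0 : w ≠ 0) {θ θ' : U →ₗ[F] W ⊗[F] U} (H : HE Φ₁ X w θ) (H' : HE Φ₁ X w θ')
    (x y : U) : Φ.B (θ x) (θ' y) = Φ.B (θ' x) (θ y) := by
  obtain ⟨a, g, hg, e⟩ := H
  obtain ⟨a', g', hg', e'⟩ := H'
  obtain ⟨r, hr, e1⟩ := h.pair hw w0
  have f : ∀ {θ : U →ₗ[F] W ⊗[F] U}, (∀ u, cL (Φ₁.B w) (θ u) = 0) → ∀ g ∈ X,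
      (∀ x, ∃ u, g x = x - θ (cL (Φ₁.B w) x) + w ⊗ₜ u) → ∀ u, g (w ⊗ₜ u) = w ⊗ₜ u := fun a g hg e u => by
    obtain ⟨y, e2, e3⟩ := h.spec hw w0 a hg e (x := w ⊗ₜ u) (by simp [hw])
    obtain rfl : y = 0 := h.h₂.nd.ext_right fun u => by simp [e3, h.Bl, a]
    simpa using e2
  have f1 := f a g hg e
  have f2 := f a' g' hg' e'
  have c : (g * g')⁻¹ * (g' * g) = 1 := h.zl hS hw w0 (mul_mem (inv_mem (mul_mem hg hg')) (mul_mem hg' hg)) fun x => by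
    obtain ⟨u₁, b1⟩ := e x
    obtain ⟨u₂, b2⟩ := e' x
    obtain ⟨u₃, b3, -⟩ := h.spec hw w0 a hg e (a' (cL (Φ₁.B w) x))
    obtain ⟨u₄, b4, -⟩ := h.spec hw w0 a' hg' e' (a (cL (Φ₁.B w) x))
    exact ⟨u₃ - u₄, inv_mul_apply.2 (by
      simp only [LinearEquiv.mul_apply, b1, b2, b3, b4, map_add, map_sub, f1, f2, tmul_sub]; abel)⟩
  obtain ⟨u₁, b1⟩ := e (r ⊗ₜ y)
  obtain ⟨u₂, b2⟩ := e' (r ⊗ₜ y)
  obtain ⟨u₃, b3, c3⟩ := h.spec hw w0 a hg e (a' y)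
  obtain ⟨u₄, b4, c4⟩ := h.spec hw w0 a' hg' e' (a y)
  have := LinearEquiv.congr_fun (inv_mul_eq_one.1 c) (r ⊗ₜ y)
  simp only [LinearEquiv.mul_apply, b1, b2, cL_tmul, e1, one_smul, b3, b4, map_add, map_sub, f1, f2] at this
  obtain rfl : u₃ = u₄ := tmul_inj (F := F) w0 (by linear_combination (norm := abel) -this)
  rw [h.sym, ← c3, c4, h.sym]

theorem adj {w b : W} (hw : Φ₁.B w w = 0) (w0 : w ≠ 0) {θ : U →ₗ[F] W ⊗[F] U} (H : HE Φ₁ X w θ) (hb : Φ₁.B w b = 0)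
    (x y : U) : Φ₂.B (cL (Φ₁.B b) (θ x)) y = Φ₂.B x (cL (Φ₁.B b) (θ y)) := by
  have := h.comm hS hw w0 H (h.rf_one hw hb) x y
  rwa [mk_apply, mk_apply, h.Bl, h.Br, h.h₂.sym] at this

omit hS [FiniteDimensional F W] [FiniteDimensional F U] [Finite F] in
theorem conj_rf {w : W} {θ : U →ₗ[F] W ⊗[F] U} (H : HE Φ₁ X w θ) {v : U} {r : U ≃ₗ[F] U} (hr : IsRf Φ₂ v r) :
    HE Φ₁ X w (r.toLinearMap.lTensor W ∘ₗ θ ∘ₗ r.toLinearMap) := by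
  have s : ∀ x, TensorProduct.congr (1 : W ≃ₗ[F] W) (LinearEquiv.neg F * r) x = -r.toLinearMap.lTensor W x := fun x => by
    induction x with
    | zero => simp
    | tmul w u => simp [tmul_neg]
    | add x y a b => simp only [map_add, a, b, neg_add]
  exact (H.conj (h.r hr) (fun u => ⟨_, rfl⟩) (γ := -r.toLinearMap) (neg_injective.comp r.injective) fun x => by
    simp [s, cL_lTensor, hr.rr]).congr fun u => (s _).trans (by simp)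

theorem theta {w : W} (hw : Φ₁.B w w = 0) (w0 : w ≠ 0) {θ : U →ₗ[F] W ⊗[F] U} (H : HE Φ₁ X w θ) :
    ∃ b, Φ₁.B w b = 0 ∧ ∀ u, ∃ u', θ u = b ⊗ₜ u + w ⊗ₜ u' := by
  have := h.nontriv
  obtain ⟨t, t0, t1⟩ := h.theta0
  have h2 := h.two
  have key : ∀ x, Φ₁.B w x = 0 → ∃ k : F, cL (Φ₁.B x) ∘ₗ θ = k • 1 := fun b₀ hb => by
    by_contra! hc
    obtain ⟨v, v0, v1⟩ := h.h₂.exists_not_eig h2 t0 t1 (h.adj hS hw w0 H hb) hc
    obtain ⟨f, vf, f1, f0⟩ := h.h₂.exists_rf_ne h2 v0 v1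
    have fv := Φ₂.B_eq_zero_symm vf
    obtain ⟨r, hr⟩ := h.h₂.exists_rf v0
    obtain ⟨s, hs⟩ := h.h₂.exists_rf f0
    have ws : Φ₁.Sing w := ⟨h.h₁.Q w, hw⟩
    have H1 := H.sub ws (h.conj_rf H hr)
    let b := (4 / (Φ₂.B v v * Φ₂.B f f)) • TensorProduct.rid F W ((Φ₂.B f).lTensor W (θ v))
    have b1 : ∀ x, Φ₁.B x b = 4 / (Φ₂.B v v * Φ₂.B f f) * Φ₂.B f (cL (Φ₁.B x) (θ v)) := fun x => by
      simp [b, rid_lTensor]
    have b2 : Φ₁.B w b = 0 := by simp [b1, H.1]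
    have b0 : Φ₁.B b b ≠ 0 := h.min w b hw w0 b2 (notMem_of_fun (φ := Φ₁.B b₀) (by
      rw [b1]
      refine mul_ne_zero (div_ne_zero (by rw [show (4 : F) = 2 * 2 by norm_num]; exact mul_ne_zero h2 h2)
        (mul_ne_zero v0 f0)) ?_
      simpa [fv] using f1) (Φ₁.B_eq_zero_symm hb))
    have H2 : HE Φ₁ X w (TensorProduct.mk F W U b ∘ₗ sy Φ₂ v f) := (H1.sub ws (h.conj_rf H1 hs)).congr_pt hw fun u =>
      h.mem_pt hw w0 fun x hx => by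
        have := rf_id h.h₂ (ρ := cL (Φ₁.B x) ∘ₗ θ) (h.adj hS hw w0 H hx) hr hs vf u
        simpa [cL_lTensor, b1, sub_eq_zero] using this
    obtain ⟨z, z0, z1, z2⟩ := exists_ker2 h.dU.ge (Φ₂.B v) (Φ₂.B f)
    have zv := Φ₂.B_eq_zero_symm z1
    have zf := Φ₂.B_eq_zero_symm z2
    have zz : Φ₂.B z z ≠ 0 := fun e => z0 (h.h₂.nd z fun y => by
      obtain ⟨c, e1⟩ := Submodule.mem_span_singleton.1 (mem_span_three h.h₂.nd h.dU z0 (by rintro rfl; simp at v0)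
        (notMem_of_fun (φ := Φ₂.B f) f0 fv) z1 z2 (y := y - (Φ₂.B v y / Φ₂.B v v) • v - (Φ₂.B f y / Φ₂.B f f) • f)
        (by simp [v0, vf]) (by simp [f0, fv]))
      simpa [e, zv, zf, eq_comm] using congrArg (Φ₂.B z) e1)
    obtain ⟨k, k0, k1⟩ := exists_norm_ne t0 t1 zz (Φ₂.B f f)
    have n : Φ₂.B (f + k • z) (f + k • z) = Φ₂.B f f + k * k * Φ₂.B z z := by simp [z2, zf]; ring
    obtain ⟨q, hq⟩ := h.h₂.exists_rf (v := f + k • z) (n ▸ k1)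
    have := h.comm hS hw w0 H2 (h.conj_rf H2 hq) f z
    simp only [LinearMap.comp_apply, mk_apply, LinearMap.lTensor_tmul, h.B, LinearEquiv.coe_coe, mul_eq_mul_left_iff,
      b0, or_false] at this
    simp [sy, hq.app, n, vf, fv, z1, z2, zv, zf, v0, f0, k0, zz, h2] at this
    exact k1 (by linear_combination this)
  obtain ⟨u₀, u0⟩ := exists_ne (0 : U)
  obtain ⟨μ, m1⟩ := exists_fun0 (F := F) u0
  refine ⟨TensorProduct.rid F W (μ.lTensor W (θ u₀)), by simp [rid_lTensor, H.1], fun u => ?_⟩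
  refine (h.mem_pt hw w0 fun x hx => ?_).imp fun _ => sub_eq_iff_eq_add'.1
  obtain ⟨k, hk⟩ := key x hx
  have := LinearMap.congr_fun hk
  simp only [LinearMap.comp_apply] at this
  simp [rid_lTensor, this, m1]

theorem he_eq {w : W} (hw : Φ₁.B w w = 0) (w0 : w ≠ 0) {k : W ⊗[F] U ≃ₗ[F] W ⊗[F] U} (hk : k ∈ X)
    (h1 : ∀ u, k (w ⊗ₜ u) = w ⊗ₜ u) (h2 : ∀ v, cL (Φ₁.B w) v = 0 → ∃ u, k v = v + w ⊗ₜ u) : k ∈ tstab F W U := by
  obtain ⟨r, hr⟩ := h.h₁.nd.exists_eq_one w0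
  let θ := (1 - k.toLinearMap) ∘ₗ TensorProduct.mk F W U r
  have a1 : ∀ u, cL (Φ₁.B w) (θ u) = 0 := fun u => by simp [θ, h.cL_fix (h.iso hk) h1]
  have a2 : ∀ x, ∃ u, k x = x - θ (cL (Φ₁.B w) x) + w ⊗ₜ u := fun x =>
    (h2 (x - r ⊗ₜ cL (Φ₁.B w) x) (by simp [hr])).imp fun u e => by
      simp only [θ, map_sub] at e ⊢
      simp; linear_combination (norm := abel) e
  obtain ⟨b, b1, e⟩ := h.theta hS hw w0 ⟨a1, k, hk, a2⟩
  obtain ⟨d, g, hg⟩ := exists_isE' h.h₁.nd ⟨h.h₁.Q w, hw⟩ b1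
  rw [← inv_mul_eq_one.1 (h.zl hS hw w0 (mul_mem (inv_mem (h.l hg)) hk) fun x => ?_)]
  · exact lT_mem g
  obtain ⟨u, e1⟩ := a2 x
  obtain ⟨u', e2⟩ := e (cL (Φ₁.B w) x)
  refine ⟨u - u' - (cL (Φ₁.B b) x - d • cL (Φ₁.B w) x), inv_mul_apply.2 ?_⟩
  rw [map_add, TensorProduct.congr_tmul, hg.apply_p, lT_isE hg, e1, e2, h.h₁.ε, one_smul]
  simp only [LinearEquiv.refl_apply, tmul_sub]; abel

theorem par' {w : W} (hw : Φ₁.B w w = 0) (w0 : w ≠ 0) {c : W ⊗[F] U ≃ₗ[F] W ⊗[F] U} (hc : c ∈ X)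
    (H : ∀ u, ∃ u', c (w ⊗ₜ u) = w ⊗ₜ u') : c ∈ tstab F W U := by
  have := h.nontriv
  obtain ⟨β, hβ⟩ := exists_beta w0 H
  have iso := (h.iso hc).1
  obtain ⟨γ₀, hγ⟩ := exists_isAdj h.h₂.nd β.toLinearMap
  obtain ⟨γ, g0, g1⟩ : ∃ γ : U ≃ₗ[F] U, (∀ x y, Φ₂.B (γ x) y = Φ₂.B x (β y)) ∧
      ∀ x, cL (Φ₁.B w) x = γ (cL (Φ₁.B w) (c x)) :=
    ⟨.ofInjectiveEndo γ₀ ((injective_iff_map_eq_zero _).2 fun z e => h.h₂.nd _ fun y => by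
      simpa [e] using (hγ z (β.symm y)).symm), hγ, fun x => h.h₂.nd.ext_right fun u => by
      rw [← h.Bl, ← iso, hβ, h.Bl]; exact hγ.symm _ _⟩
  obtain ⟨r, hr, e⟩ := h.pair hw w0
  have e' := (h.h₁.sym r w).trans e
  obtain ⟨u₀, -, -, u0⟩ := exists_aniso h.two h.h₂.ε (nondeg_top h.h₂.nd) (R := ⊥) fun e => by
    obtain ⟨x, x0⟩ := exists_ne (0 : U); exact x0 (e trivial)
  let π : End F W := 1 - rk1 w (Φ₁.B r) - rk1 r (Φ₁.B w)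
  let M : End F W := (Φ₂.B u₀ u₀)⁻¹ • π ∘ₗ (TensorProduct.rid F W).toLinearMap ∘ₗ (Φ₂.B u₀).lTensor W ∘ₗ
    c.toLinearMap ∘ₗ (TensorProduct.mk F W U).flip (γ u₀) ∘ₗ π
  have p1 : ∀ x, Φ₁.B w (π x) = 0 := fun x => by simp [π, hw, e]
  have p2 : ∀ x, Φ₁.B r (π x) = 0 := fun x => by simp [π, hr, e']
  have M1 : ∀ x, Φ₁.B w (M x) = 0 := fun x => by simp [M, p1]
  have M2 : ∀ x, Φ₁.B r (M x) = 0 := fun x => by simp [M, p2]
  have A2 : ∀ a u, ∃ u', c (π a ⊗ₜ γ u) = M a ⊗ₜ u + w ⊗ₜ u' := fun a u => by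
    obtain ⟨b, b1, b2⟩ := h.theta hS hw w0 ((h.rf_one hw (p1 a)).conj hc H γ.injective g1)
    replace b2 : ∀ u, ∃ u', c (π a ⊗ₜ γ u) = b ⊗ₜ u + w ⊗ₜ u' := b2
    obtain ⟨u₁, e1⟩ := b2 u₀
    obtain ⟨u₂, e2⟩ := b2 u
    refine ⟨u₂ + Φ₁.B r b • u, ?_⟩
    have : M a = b - Φ₁.B r b • w := by
      simp only [M, LinearMap.smul_apply, LinearMap.comp_apply, LinearMap.flip_apply, mk_apply, LinearEquiv.coe_coe, e1]
      simp [π, b1, hw, e', u0]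
      match_scalars <;> field_simp <;> ring
    rw [e2, this, sub_tmul, tmul_add, smul_tmul]; abel
  have s : ∀ a b u v, Φ₁.B (M a) (M b) * Φ₂.B u v = Φ₁.B (π a) (π b) * Φ₂.B (γ u) (γ v) := fun a b u v => by
    obtain ⟨u', e1⟩ := A2 a u
    obtain ⟨v', e2⟩ := A2 b v
    simpa [e1, e2, h.B, M1, hw, Φ₁.B_eq_zero_symm (M1 a)] using iso (π a ⊗ₜ γ u) (π b ⊗ₜ γ v)
  obtain ⟨a₀, a1, a2⟩ := exists_perp_notMem (Ψ := Φ₁) (u := w) (S := F ∙ w) (by rw [finrank_span_singleton w0, h.dW]; omega)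
  have a0 : Φ₁.B (π a₀) (π a₀) ≠ 0 := by
    simpa [π, a1, hw, Φ₁.B_eq_zero_symm a1] using h.min w a₀ hw w0 a1 a2
  obtain ⟨l, s1⟩ : ∃ l, ∀ u v, Φ₂.B (γ u) (γ v) = l * Φ₂.B u v :=
    ⟨Φ₁.B (M a₀) (M a₀) / Φ₁.B (π a₀) (π a₀), fun u v => by field_simp; linear_combination -s a₀ a₀ u v⟩
  have s2 : ∀ a b, Φ₁.B (M a) (M b) = l * Φ₁.B (π a) (π b) := fun a b =>
    mul_right_cancel₀ u0 (by rw [s, s1]; ring)
  have l0 : l ≠ 0 := by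
    rintro rfl
    exact u0 (by simpa using (s1 (γ.symm u₀) (γ.symm u₀)))
  have s3 : ∀ u, β (γ u) = l • u := fun u => h.h₂.nd.ext_right fun x => by simp [← g0, s1]
  let a₁ : End F W := l • rk1 w (Φ₁.B r) + rk1 r (Φ₁.B w) + M
  have s4 : ∀ x y, Φ₁.B (a₁ x) (a₁ y) = l * Φ₁.B x y := fun x y => by
    simp [a₁, s2, hw, hr, e, e', M1, M2, Φ₁.B_eq_zero_symm (M1 x), Φ₁.B_eq_zero_symm (M2 x), π, h.h₁.sym x]
    ring
  let a := LinearEquiv.ofInjectiveEndo a₁ ((injective_iff_map_eq_zero _).2 fun x e => h.h₁.nd x fun y => by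
    simpa [e, l0] using s4 x y)
  let g := TensorProduct.congr a γ.symm
  have g2 : ∀ x u, g (x ⊗ₜ γ u) = a₁ x ⊗ₜ u := fun x u => by simp [g, a]
  have gi : g ∈ Φ.isom := isom_of_B h.two fun x y => by
    induction x with
    | zero => simp
    | add x x' p q => simp only [map_add, LinearMap.add_apply, p, q]
    | tmul x u =>
      induction y with
      | zero => simp
      | add y y' p q => simp only [map_add, p, q]
      | tmul y v =>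
        obtain ⟨u, rfl⟩ := γ.surjective u
        obtain ⟨v, rfl⟩ := γ.surjective v
        rw [g2, g2, h.B, h.B, s4, s1]; ring
  have πw : π w = 0 := by simp [π, hw, e']
  have gw : ∀ u, g (w ⊗ₜ u) = w ⊗ₜ β u := fun u => by
    obtain ⟨u, rfl⟩ := γ.surjective u
    simp [g2, a₁, M, πw, hw, e', s3, smul_tmul]
  have ki := mul_mem (inv_mem gi) (h.iso hc)
  have k1 : ∀ u, (g⁻¹ * c) (w ⊗ₜ u) = w ⊗ₜ u := fun u => inv_mul_apply.2 (by rw [hβ, gw])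
  have k2 : ∀ v, cL (Φ₁.B w) v = 0 → ∃ u, (g⁻¹ * c) v = v + w ⊗ₜ u := fun v hv => by
    obtain ⟨u, e⟩ := tperp_ind ⟨⟨h.h₁.Q w, hw⟩, ⟨h.h₁.Q r, hr⟩, e⟩
      (AddSubgroup.ofSub {v | ∃ u, c v = g v + w ⊗ₜ β u} ⟨0, 0, by simp⟩
        fun a ⟨u, ha⟩ b ⟨u', hb⟩ => ⟨u - u', by simp [ha, hb, tmul_sub]; abel⟩) (fun x u hx => by
      obtain ⟨u, rfl⟩ := γ.surjective u
      obtain ⟨u', e1⟩ := A2 x u
      refine ⟨β.symm u', ?_⟩
      rw [show x = π x + Φ₁.B r x • w by simp [π, hx], add_tmul, map_add, map_add, e1, smul_tmul, hβ, gw, g2]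
      simp [a₁, p1, p2, M, show π (π x) = π x by simp [π, hw, hr, e, e']]; abel) v
    exact ⟨u, inv_mul_apply.2 (by simpa [hv, gw] using e)⟩
  have : Fact (ringChar F).Prime := ⟨CharP.char_is_prime F _⟩
  have : Nontrivial (W ⊗[F] U) := Module.nontrivial_of_finrank_pos (R := F) (by simp [h.dW, h.dU])
  have : CharP (End F (W ⊗[F] U)) (ringChar F) := charP_of_injective_algebraMap (algebraMap F _).injective _
  have kE : g⁻¹ * c ∈ EG Φ := h.ueg _ ki 2 (LinearEquiv.toLinearMap_injective (by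
    generalize g⁻¹ * c = k at k1 k2 ki
    have n : (k.toLinearMap - 1) ^ 3 = 0 := LinearMap.ext fun x => by
      obtain ⟨u, e⟩ := k2 (k x - x) (by simp [h.cL_fix ki k1])
      simp only [pow_succ, pow_zero, one_mul, End.mul_apply, LinearMap.sub_apply, LinearEquiv.coe_coe, End.one_apply, e]
      simp [k1]
    have := pow_eq_zero_of_le (show 3 ≤ ringChar F ^ 2 by nlinarith [(CharP.char_is_prime F (ringChar F)).two_le]) n
    rw [sub_pow_char_pow_of_commute _ _ (Commute.one_right _), one_pow, sub_eq_zero] at this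
    exact (map_pow LinearEquiv.automorphismGroup.toLinearMapMonoidHom k _).trans this)) (.inl h.two)
  have gt : g ∈ tstab F W U := ⟨a, γ.symm, fun _ _ => rfl⟩
  have gX : g ∈ X := h.le ⟨gt, by simpa using mul_mem (h.le' hc) (inv_mem kE)⟩
  simpa using mul_mem gt (h.he_eq hS hw w0 (mul_mem (inv_mem gX) hc) k1 k2)

/-- An element mapping a singular point `w ⊗ U` into a point is a tensor product. -/
theorem par {w w' : W} (hw : Φ₁.B w w = 0) (w0 : w ≠ 0) {c : W ⊗[F] U ≃ₗ[F] W ⊗[F] U} (hc : c ∈ X)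
    (H : ∀ u, ∃ u', c (w ⊗ₜ u) = w' ⊗ₜ u') : c ∈ tstab F W U := by
  have := h.nontriv
  obtain ⟨β, hβ⟩ := exists_beta w0 H
  obtain ⟨u, u0⟩ := exists_ne (0 : U)
  obtain ⟨v, hv⟩ := h.h₂.nd.exists_eq_one u0
  have w1 : w' ≠ 0 := by
    rintro rfl
    exact u0 (tmul_inj (F := F) w0 (by simpa using hβ u))
  have hw' : Φ₁.B w' w' = 0 := by
    simpa [hβ, h.B, hv, hw] using (h.iso hc).1 (w ⊗ₜ β.symm u) (w ⊗ₜ β.symm v)
  obtain ⟨g, -, a, rfl⟩ := h.trans hw w0 hw' w1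
  simpa using mul_mem (lT_mem g) (h.par' hS hw w0 (mul_mem (inv_mem a) hc) fun u => ⟨β u, inv_mul_apply.2 (hβ u)⟩)

end O43

end Cfsg.Agent.Root.Mx
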