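import Cfsg.Agent.Low.O12b
import Cfsg.Agent.BG.S3Gen

/-! `O₄⁻ ⊗ O₃` in `Ω₁₂⁻`, III: the stabiliser of `W ⊗ e` lies in the tensor stabiliser (`O43.stM_eq`), and the
maximality `O43.le`, `max_o43`. -/

set_option autoImplicit false

namespace Cfsg.Agent.Root.Mx

open Cfsg.Agent.Geom Cfsg.Agent.AutCl Module TensorProduct

variable {F : Type*} [Field F] {W U : Type*} [AddCommGroup W] [Module F W] [AddCommGroup U] [Module F U]
  {Φ₁ : Formed (RingHom.id F) W} {Φ₂ : Formed (RingHom.id F) U} {Φ : Formed (RingHom.id F) (W ⊗[F] U)}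
  {X : Subgroup (W ⊗[F] U ≃ₗ[F] W ⊗[F] U)}

theorem congr_ext {g : W ⊗[F] U ≃ₗ[F] W ⊗[F] U} {a : W ≃ₗ[F] W} {b : U ≃ₗ[F] U} (e : ∀ w u, g (w ⊗ₜ u) = a w ⊗ₜ b u) :
    g = TensorProduct.congr a b := LinearEquiv.toLinearMap_injective (TensorProduct.ext' e)

theorem mem_pt' [FiniteDimensional F W] {f : U} (f0 : f ≠ 0) {v : W ⊗[F] U} (H : ∀ φ, cL φ v ∈ F ∙ f) :
    ∃ z, v = z ⊗ₜ f := by
  obtain ⟨μ, m⟩ := exists_fun0 (F := F) f0
  refine ⟨TensorProduct.rid F W (μ.lTensor W v), eq_of_cL fun φ => ?_⟩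
  obtain ⟨c, e⟩ := Submodule.mem_span_singleton.1 (H φ)
  rw [cL_tmul, rid_lTensor, ← e]; simp [m]

theorem stM_of_comm' [FiniteDimensional F W] {z d : W ⊗[F] U ≃ₗ[F] W ⊗[F] U} {γ : End F U}
    (hz : ∀ w u, z (w ⊗ₜ u) = w ⊗ₜ γ u) {ε : F} {f : U} (f0 : f ≠ 0) (h1 : γ f = ε • f) (h2 : ∀ u, γ u = ε • u → u ∈ F ∙ f)
    (c : Commute d z) : StM d f := fun x => mem_pt' f0 fun φ => h2 _ (by
  rw [← cL_right hz, ← LinearEquiv.mul_apply, ← c.eq, LinearEquiv.mul_apply, hz, h1, tmul_smul, map_smul, map_smul])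

/-- The dimension of an eigenspace. -/
noncomputable def nev (g : W ≃ₗ[F] W) (s : F) : ℕ := finrank F (End.eigenspace g.toLinearMap s)

theorem nev_conj (g c : W ≃ₗ[F] W) (s : F) : nev (c⁻¹ * g * c) s = nev g s := by
  rw [nev, nev, ← c.finrank_map_eq]
  refine congrArg (fun S : Submodule F W => finrank F S) (Submodule.ext fun x => ?_)
  obtain ⟨x, rfl⟩ := c.surjective x
  simp [c.symm_apply_eq]

theorem disj_ev (h2 : (2 : F) ≠ 0) (g : End F W) {s : F} (s0 : s ≠ 0) :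
    Disjoint (End.eigenspace g s) (End.eigenspace g (-s)) :=
  Submodule.disjoint_def.2 fun y a b => smul_right_injective W (mul_ne_zero h2 s0) (by
    rw [End.mem_eigenspace_iff] at a b
    simp only [smul_zero]
    linear_combination (norm := module) b - a)

theorem nev_add [FiniteDimensional F W] (h2 : (2 : F) ≠ 0) {g : W ≃ₗ[F] W} (gg : ∀ x, g (g x) = x) :
    nev g 1 + nev g (-1) = finrank F W := by
  refine Submodule.finrank_add_eq_of_isCompl ⟨disj_ev h2 _ one_ne_zero, codisjoint_iff.2 (eq_top_iff.2 fun x _ => ?_)⟩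
  refine (Submodule.smul_mem_iff _ h2).1 (Submodule.mem_sup.2 ⟨x + g x, ?_, x - g x, ?_, by module⟩) <;>
    simp [gg, add_comm]

theorem nev_congr [FiniteDimensional F W] [FiniteDimensional F U] (h2 : (2 : F) ≠ 0) (a : W ≃ₗ[F] W) (b : U ≃ₗ[F] U) (t : F) :
    nev a 1 * nev b t + nev a (-1) * nev b (-t) ≤ nev (TensorProduct.congr a b) t := by
  have k : ∀ (s t : F) (b : U ≃ₗ[F] U) (B : Submodule F U), B ≤ End.eigenspace b.toLinearMap t →
      LinearMap.range (mapIncl (End.eigenspace a.toLinearMap s) B) ≤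
      End.eigenspace (TensorProduct.congr a b).toLinearMap (s * t) := fun s t b B hB => by
    rw [range_mapIncl, Submodule.map₂_le]
    intro x hx y hy
    have := hB hy
    simp only [End.mem_eigenspace_iff, LinearEquiv.coe_coe] at hx this ⊢
    simp [hx, this, smul_tmul, smul_smul, mul_comm]
  have n : ∀ (A : Submodule F W) (B : Submodule F U), finrank F (LinearMap.range (mapIncl A B)) =
      finrank F A * finrank F B := fun A B => by
    rw [LinearMap.finrank_range_of_inj (TensorProduct.map_injective_of_flat_flat _ _ A.injective_subtype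
      B.injective_subtype), finrank_tensorProduct]
  have d := (disj_ev h2 (TensorProduct.congr a (1 : U ≃ₗ[F] U)).toLinearMap one_ne_zero).mono
    ((k 1 1 1 (End.eigenspace b.toLinearMap t) fun x _ => by simp).trans (by rw [mul_one]))
    ((k (-1) 1 1 (End.eigenspace b.toLinearMap (-t)) fun x _ => by simp).trans (by rw [mul_one]))
  have := Submodule.finrank_sup_add_finrank_inf_eq (LinearMap.range (mapIncl (End.eigenspace a.toLinearMap 1)
    (End.eigenspace b.toLinearMap t))) (LinearMap.range (mapIncl (End.eigenspace a.toLinearMap (-1))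
    (End.eigenspace b.toLinearMap (-t))))
  rw [d.eq_bot, finrank_bot, add_zero, n, n] at this
  exact this.ge.trans (Submodule.finrank_mono (sup_le ((k 1 t b _ le_rfl).trans (by rw [one_mul]))
    ((k (-1) (-t) b _ le_rfl).trans (by simp))))

theorem type_contra [FiniteDimensional F U] (h : HD Φ₂) (h2 : (2 : F) ≠ 0) (h3 : finrank F U = 3) {u v a : U}
    (hu : Φ₂.B u u = 0) (hv : Φ₂.B v v = 0) (uv : Φ₂.B u v = 1) (ua : Φ₂.B u a = 0) (va : Φ₂.B v a = 0) {l μ : F}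
    (hν : ¬ IsSquare (2 * l * Φ₂.B a a)) {ρ b : U ≃ₗ[F] U} (hρ : IsRf Φ₂ a ρ)
    (s : ∀ x y, μ * Φ₂.B (b x) (b y) = Φ₂.B x y) (e3 : ρ (b (u + l • v)) = -b (u + l • v)) : False := by
  have vu := (h.sym v u).trans uv
  have au := (h.sym a u).trans ua
  have av := (h.sym a v).trans va
  have aa := hρ.ne
  have u0 : u ≠ 0 := by rintro rfl; simp at uv
  obtain ⟨y, rfl⟩ := b.surjective u
  have y1 : Φ₂.B y y = 0 := by rw [← s, hu, mul_zero]
  have y2 : Φ₂.B y (b y + l • v) = 0 := by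
    have := hρ.iso.1 (b y) (b (b y + l • v))
    rw [hρ.perp au, e3, map_neg] at this
    rw [← s, show Φ₂.B (b y) (b (b y + l • v)) = 0 from mul_left_cancel₀ h2 (by linear_combination -this), mul_zero]
  obtain ⟨γ, e4⟩ := Submodule.mem_span_singleton.1 (mem_span_three h.nd h3 (u := a) (by rintro rfl; simp at aa) u0
    (b := v) (fun e => by
      obtain ⟨c, rfl⟩ := Submodule.mem_span_singleton.1 e
      simp [hu] at uv) ua va (y := y - Φ₂.B v y • b y - Φ₂.B (b y) y • v) (by simp [hu, uv]) (by simp [hv, vu]))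
  have y0 : y ≠ 0 := by simpa using u0
  generalize b y = u at *
  rw [map_add, map_smul, h.sym y, h.sym y] at y2
  have e5 : y = γ • a + Φ₂.B v y • u + Φ₂.B u y • v := by rw [e4]; abel
  generalize Φ₂.B v y = α at *
  generalize Φ₂.B u y = β at *
  subst e5
  simp [hu, hv, uv, vu, ua, va, au, av] at y1 y2
  refine (hν ?_).elim
  by_cases a0 : α = 0
  · obtain rfl : β = 0 := by simpa [a0] using y2
    simp [a0, aa] at y1
    simp [a0, y1] at y0
  refine ⟨γ * Φ₂.B a a / α, ?_⟩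
  field_simp
  linear_combination - y1 + 2 * α * y2

namespace O43

variable [FiniteDimensional F W] [FiniteDimensional F U] [Finite F] (h : O43 Φ₁ Φ₂ Φ X)
include h

omit [FiniteDimensional F U] in
theorem ex₁ : ∃ w b, w ≠ 0 ∧ Φ₁.B w w = 0 ∧ Φ₁.B w b = 0 ∧ b ∉ F ∙ w := by
  obtain ⟨w, -, r, -, hp⟩ := exists_pair h.h₁.nd (nondeg_top h.h₁.nd) (by simp [h.dW])
  obtain ⟨a₀, a1, a2⟩ := exists_perp_notMem (Ψ := Φ₁) (u := w) (S := F ∙ w) (by
    rw [finrank_span_singleton hp.left_ne_zero, h.dW]; omega)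
  exact ⟨w, a₀, hp.left_ne_zero, hp.se.2, a1, a2⟩

theorem stM_form {e : U} (e0 : Φ₂.B e e ≠ 0) {g : W ⊗[F] U ≃ₗ[F] W ⊗[F] U} (hg : g ∈ Φ.isom) (ht : g ∈ tstab F W U)
    (H : StM g e) : ∃ a ∈ Φ₁.isom, ∃ β ∈ Φ₂.isom, β e = e ∧ g = TensorProduct.congr a β := by
  obtain ⟨a, b, e1⟩ := ht
  obtain ⟨w, -, w0, hw, -⟩ := h.ex₁
  obtain ⟨r, -, hr⟩ := h.pair hw w0
  obtain ⟨z, e2⟩ := H w
  obtain ⟨l, hl⟩ := Submodule.mem_span_singleton.1 (mem_span_of_tmul (x := b e) (y := e) (u := a w) (u' := z)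
    (by simpa) (congrArg (TensorProduct.comm F W U) ((e1 w e).symm.trans e2)))
  have l0 : l ≠ 0 := by rintro rfl; simp [show e = 0 by simpa using hl.symm] at e0
  have e3 : ∀ w u, g (w ⊗ₜ u) = (LinearEquiv.smulOfNeZero F W l l0 * a) w ⊗ₜ
      (LinearEquiv.smulOfNeZero F U l⁻¹ (inv_ne_zero l0) * b) u := fun w u => by simp [e1, smul_tmul, smul_smul, l0]
  have e4 : (LinearEquiv.smulOfNeZero F U l⁻¹ (inv_ne_zero l0) * b) e = e := by simp [← hl, l0]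
  generalize LinearEquiv.smulOfNeZero F W l l0 * a = a at e3
  generalize LinearEquiv.smulOfNeZero F U l⁻¹ (inv_ne_zero l0) * b = b at e3 e4
  have ia : ∀ x y, Φ₁.B (a x) (a y) = Φ₁.B x y := fun x y => mul_right_cancel₀ e0 (by
    simpa only [e3, e4, h.B] using hg.1 (x ⊗ₜ e) (y ⊗ₜ e))
  exact ⟨a, h.h₁.mem_isom ia, b, h.h₂.mem_isom fun x y => by simpa [e3, h.B, ia, hr] using hg.1 (w ⊗ₜ x) (r ⊗ₜ y), e4,
    congr_ext e3⟩

theorem beta_one {e : U} (e0 : Φ₂.B e e ≠ 0) {a : W ≃ₗ[F] W} {β : U ≃ₗ[F] U} (hβ : β ∈ Φ₂.isom) (he : β e = e) {k : ℕ}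
    (p1 : TensorProduct.congr a β ^ ringChar F ^ k = 1) : β = 1 := by
  have : Fact (ringChar F).Prime := ⟨CharP.char_is_prime F _⟩
  obtain ⟨v, -, v0, -⟩ := h.ex₁
  rw [congr_pow] at p1
  have p2 : ∀ n : ℕ, (β ^ n) e = e := fun n => by
    induction n with
    | zero => rfl
    | succ n ih => rw [pow_succ, LinearEquiv.mul_apply, he, ih]
  have p3 : (a ^ ringChar F ^ k) v = v := tmul_inj' (F := F) (u := e) (by rintro rfl; simp at e0) (by
    simpa [p2] using LinearEquiv.congr_fun p1 (v ⊗ₜ e))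
  exact h.h₂.unip_eq_one h.two h.dU hβ e0 he (p := ringChar F) (k := k) (LinearEquiv.ext fun u =>
    tmul_inj (F := F) v0 (by simpa [p3] using LinearEquiv.congr_fun p1 (v ⊗ₜ u)))

omit h [FiniteDimensional F W] [FiniteDimensional F U] [Finite F] in
theorem lT_pow {p a : W} {d : F} {g : W ≃ₗ[F] W} (hg : IsE Φ₁ p a d g) : lT U g ^ ringChar F ^ 2 = 1 := by
  rw [congr_pow, hg.pow_char (ringChar F)]; exact (congrArg _ (one_pow _)).trans TensorProduct.congr_refl_refl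

variable (hS : ¬ EG Φ ≤ X)
include hS

theorem rc {w b : W} {d : F} {g a : W ≃ₗ[F] W} (hg : IsE Φ₁ w b d g) (w0 : w ≠ 0) (hb : b ∉ F ∙ w)
    {c : W ⊗[F] U ≃ₗ[F] W ⊗[F] U} (hc : c ∈ X) (e : c⁻¹ * lT U g * c = lT U a) : c ∈ tstab F W U := by
  have := h.nontriv
  have e1 : ∀ x, c (lT U a x) = lT U g (c x) := fun x => (c.symm_apply_eq.1 (LinearEquiv.congr_fun e x)).symm
  obtain ⟨x, -, -, e2⟩ := rec0 (c := c) h.h₁.nd w0 (neg_ne_zero.2 (h.min w b hg.sp.2 w0 hg.pa hb))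
    (α := fun x => a (a x - x) - (a x - x)) fun x u => by
      have : (a (a x - x) - (a x - x)) ⊗ₜ u = lT U a (lT U a (x ⊗ₜ u) - x ⊗ₜ u) - (lT U a (x ⊗ₜ u) - x ⊗ₜ[F] u) := by
        simp [sub_tmul]
      rw [this, map_sub, e1, map_sub, e1]
      generalize c (x ⊗ₜ u) = z
      rw [lT_isE hg z, add_sub_assoc, add_sub_cancel_left, lT_isE hg]
      simp [hg.sp.2, hg.pa, hg.ap, h.h₁.ε, tmul_sub, tmul_neg]
  exact inv_mem_iff.1 (h.par hS hg.sp.2 w0 (inv_mem hc) e2)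

theorem fix_le {e : U} (e0 : Φ₂.B e e ≠ 0) : actS X e ⊥ ≤ tstab F W U := by
  have := h.nontriv
  have : Finite (W ⊗[F] U) := Module.finite_of_finite F
  have : Finite (W ⊗[F] U ≃ₗ[F] W ⊗[F] U) := Finite.of_injective _ DFunLike.coe_injective
  have hp : Fact (ringChar F).Prime := ⟨CharP.char_is_prime F _⟩
  obtain ⟨w, b, w0, hw, wb, hb⟩ := h.ex₁
  have ws : Φ₁.Sing w := ⟨h.h₁.Q w, hw⟩
  let A := (QP Φ₁ w ws).map (MonoidHom.mk' (lT U) lT_mul)
  have nm : ∀ s ∈ A, ∀ n ∈ actS X e ⊥, s * n * s⁻¹ ∈ actS X e ⊥ := by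
    rintro _ ⟨s, ⟨a, d, hs⟩, rfl⟩ n hn
    exact mem_actS_bot.2 ⟨mul_mem (mul_mem (h.l hs) hn.1) (inv_mem (h.l hs)), fun z => by
      rw [← map_inv]; simp [(mem_actS_bot.1 hn).2]⟩
  have ce : ∀ s ∈ A, s ≠ 1 → ∀ y ∈ X, Commute y s → y ∈ tstab F W U := by
    rintro _ ⟨s, ⟨a, d, hs⟩, rfl⟩ s1 y hy c
    refine h.rc hS hs w0 (a := s) (fun m => s1 ?_) hy (by rw [mul_assoc]; exact inv_mul_eq_iff_eq_mul.2 c.eq.symm)
    obtain ⟨k, rfl⟩ := Submodule.mem_span_singleton.1 m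
    obtain rfl : d = 0 := mul_left_cancel₀ h.two (by simpa [hw, h.h₁.ε, two_mul] using hs.hB)
    rw [show s = 1 from LinearEquiv.ext fun x => by simp [hs.app, h.h₁.ε, smul_smul, mul_comm], map_one]
  refine BG.coprime_abelian_gen_cent1 (A := A) ⟨⟨?_⟩⟩ (fun hc => ?_) (fun s hs => Subgroup.mem_normalizer_fintype (nm s hs))
    ?_ fun s hs s1 y hy => ce s hs s1 y hy.1.1 (Subgroup.mem_centralizer_singleton_iff.1 hy.2)
  · rintro ⟨_, s, ⟨a, d, hs⟩, rfl⟩ ⟨_, s', ⟨a', d', hs'⟩, rfl⟩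
    refine Subtype.ext ((map_mul _ _ _).symm.trans ((congrArg _ ?_).trans (map_mul _ _ _)))
    exact (hs.mul hs').ext ((hs'.mul hs).congr (add_comm _ _) (by rw [h.h₁.sym a']; ring))
  · obtain ⟨⟨_, s, ⟨a, d, hs⟩, rfl⟩, hg⟩ := hc.exists_monoid_generator
    obtain ⟨x, x1, x2⟩ := exists_perp_notMem (Ψ := Φ₁) (u := w) (S := (F ∙ w) ⊔ F ∙ a) (by
      have := finrank_sup_one (F ∙ w) a; have := finrank_span_one (F := F) w; rw [h.dW]; omega)
    obtain ⟨d', t, ht⟩ := exists_isE' h.h₁.nd ws x1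
    obtain ⟨n, hn⟩ := hg ⟨_, t, ⟨_, _, ht⟩, rfl⟩
    obtain ⟨d'', hs'⟩ := hs.pow n
    obtain ⟨r, hr⟩ := h.h₁.nd.exists_eq_one w0
    obtain ⟨u, u0⟩ := exists_ne (0 : U)
    have : (s ^ n) r = t r := tmul_inj' u0 (LinearEquiv.congr_fun (((map_pow _ s n).trans (congrArg Subtype.val hn))) (r ⊗ₜ u))
    rw [ht.app, hs'.app, hr, h.h₁.ε] at this
    refine x2 (Submodule.mem_sup.2 ⟨_, Submodule.mem_span_singleton.2 ⟨Φ₁.B x r - d' - (Φ₁.B (n • a) r - d''), rfl⟩, _,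
      nsmul_mem (Submodule.mem_span_singleton_self a) n, ?_⟩)
    linear_combination (norm := module) -this
  obtain ⟨n, hn⟩ := IsPGroup.iff_card.1 (show IsPGroup (ringChar F) A from fun ⟨_, s, ⟨a, d, hs⟩, rfl⟩ =>
    ⟨2, Subtype.ext (lT_pow hs)⟩)
  refine hn ▸ ((Nat.Prime.coprime_iff_not_dvd hp.out).2 fun hd => ?_).symm.pow_right n
  obtain ⟨g, hg⟩ := exists_prime_orderOf_dvd_card' _ hd
  obtain ⟨d, s, hs⟩ := exists_isE' h.h₁.nd ws wb
  have sA : lT U s ∈ A := ⟨s, ⟨_, _, hs⟩, rfl⟩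
  obtain ⟨y, a, y1, ⟨k, c⟩, cm⟩ := exists_pelem_comm (p := ringChar F) (lT_pow hs) (nm _ sA) g.2
    (by rw [Subgroup.orderOf_coe, hg])
  obtain ⟨a', -, β, b1, b2, rfl⟩ := h.stM_form e0 (h.iso a.1) (h.rc hS hs w0 hb a.1 (a := s)
    (by rw [mul_assoc]; exact inv_mul_eq_iff_eq_mul.2 cm.eq.symm)) fun z => ⟨z, (mem_actS_bot.1 a).2 z⟩
  obtain rfl := h.beta_one e0 b1 b2 c
  refine y1 ((congr_ext (a := 1) (b := 1) fun w u => ?_).trans TensorProduct.congr_refl_refl)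
  exact congrArg (· ⊗ₜ[F] u) (tmul_inj' (F := F) (u := e) (by rintro rfl; simp at e0) ((mem_actS_bot.1 a).2 w))

theorem rc' {w b : W} {d : F} {s : W ≃ₗ[F] W} (hs : IsE Φ₁ w b d s) (w0 : w ≠ 0) (hb : b ∉ F ∙ w)
    {c : W ⊗[F] U ≃ₗ[F] W ⊗[F] U} (hc : c ∈ X) {e : U} (e0 : Φ₂.B e e ≠ 0) (ht : c⁻¹ * lT U s * c ∈ tstab F W U)
    (H : StM (c⁻¹ * lT U s * c) e) : c ∈ tstab F W U := by
  obtain ⟨a, -, β, b1, b2, e1⟩ := h.stM_form e0 (h.iso (mul_mem (mul_mem (inv_mem hc) (h.l hs)) hc)) ht H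
  obtain rfl := h.beta_one e0 b1 b2 (a := a) (k := 2) (by
    rw [← e1, show c⁻¹ * lT U s * c = MulAut.conj c⁻¹ (lT U s) by simp, ← map_pow, lT_pow hs, map_one])
  exact h.rc hS hs w0 hb hc e1

theorem stM_mem {e : U} (e0 : Φ₂.B e e ≠ 0) {g : W ⊗[F] U ≃ₗ[F] W ⊗[F] U} (hg : g ∈ X) (H : StM g e) :
    g ∈ tstab F W U := by
  let a₀ : End F W := (Φ₂.B e e)⁻¹ • (TensorProduct.rid F W).toLinearMap ∘ₗ (Φ₂.B e).lTensor W ∘ₗ g.toLinearMap ∘ₗ
    (TensorProduct.mk F W U).flip e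
  have a1 : ∀ z, g (z ⊗ₜ e) = a₀ z ⊗ₜ e := fun z => by
    obtain ⟨z', e⟩ := H z
    simp [a₀, e, e0]
  have a2 : ∀ x y, Φ₁.B (a₀ x) (a₀ y) = Φ₁.B x y := fun x y => mul_right_cancel₀ e0 (by
    simpa only [a1, h.B] using (h.iso hg).1 (x ⊗ₜ e) (y ⊗ₜ e))
  let a := LinearEquiv.ofInjectiveEndo a₀ ((injective_iff_map_eq_zero _).2 fun x e => h.h₁.nd x fun y => by
    rw [← a2, e]; simp)
  have ia : a ∈ Φ₁.isom := h.h₁.mem_isom a2
  replace a1 : ∀ z, g (z ⊗ₜ e) = a z ⊗ₜ e := a1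
  have a3 : ∀ z, g⁻¹ (a z ⊗ₜ e) = z ⊗ₜ e := fun z => g.symm_apply_eq.2 (a1 z).symm
  obtain ⟨w, b, w0, hw, wb, hb⟩ := h.ex₁
  obtain ⟨d, s, hs⟩ := exists_isE' h.h₁.nd ⟨h.h₁.Q w, hw⟩ wb
  have k : ∀ z, (g⁻¹⁻¹ * lT U s * g⁻¹) (a z ⊗ₜ e) = a (s z) ⊗ₜ e := fun z => by
    rw [LinearEquiv.mul_apply, a3]; exact a1 _
  refine inv_mem_iff.1 (h.rc' hS hs w0 hb (inv_mem hg) e0 ?_ fun z => ⟨_, a.apply_symm_apply z ▸ k _⟩)
  simpa using mul_mem (lT_mem (a * s * a⁻¹)) (h.fix_le hS e0 (mem_actS_bot.2 ⟨mul_mem (inv_mem (h.l (hs.conj ia)))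
    (mul_mem (mul_mem (inv_mem (inv_mem hg)) (h.l hs)) (inv_mem hg)), fun z => inv_mul_apply.2 (by
      obtain ⟨z, rfl⟩ := a.surjective z
      rw [k]; simp)⟩))

theorem mem_of_cent {f : U} {ρ : U ≃ₗ[F] U} (f0 : Φ₂.B f f ≠ 0) {c : W ⊗[F] U ≃ₗ[F] W ⊗[F] U} (hc : c ∈ X)
    (H : ∀ d, Commute d (c⁻¹ * TensorProduct.congr 1 ρ * c) → StM d f) : c ∈ tstab F W U := by
  obtain ⟨w, b, w0, hw, wb, hb⟩ := h.ex₁
  obtain ⟨d, s, hs⟩ := exists_isE' h.h₁.nd ⟨h.h₁.Q w, hw⟩ wb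
  have cm : Commute (lT U s) (TensorProduct.congr 1 ρ) :=
    LinearEquiv.toLinearMap_injective (TensorProduct.ext' fun w u => rfl)
  have := H (c⁻¹ * lT U s * c) (by simpa using cm.map (MulAut.conj c⁻¹))
  exact h.rc' hS hs w0 hb hc f0 (h.stM_mem hS f0 (mul_mem (mul_mem (inv_mem hc) (h.l hs)) hc) this) this

theorem recog {e : U} (e0 : Φ₂.B e e ≠ 0) {y k : W ⊗[F] U ≃ₗ[F] W ⊗[F] U} (hy : y ∈ X) (H : StM y e) {ρ : U ≃ₗ[F] U}
    (rr : ∀ u, ρ (ρ u) = u) (e1 : y = k⁻¹ * TensorProduct.congr 1 ρ * k) : ∃ γ : End F U, ∀ w u, y (w ⊗ₜ u) = w ⊗ₜ γ u := by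
  obtain ⟨a, ia, β, b1, b2, e2⟩ := h.stM_form e0 (h.iso hy) (h.stM_mem hS e0 hy H) H
  have nv : ∀ (a : W ≃ₗ[F] W) (b : U ≃ₗ[F] U), (∀ x, a (a x) = x) → (∀ x, b (b x) = x) →
      nev (TensorProduct.congr a b) 1 = nev a 1 * nev b 1 + nev a (-1) * nev b (-1) := fun a b aa bb => by
    have t1 := nev_congr h.two a b 1
    have t2 := nev_congr h.two a b (-1)
    have t3 := nev_add h.two (g := TensorProduct.congr a b) fun x => by
      induction x with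
      | zero => simp
      | tmul w u => simp [aa, bb]
      | add x y p q => simp only [map_add, p, q]
    rw [finrank_tensorProduct, ← nev_add h.two aa, ← nev_add h.two bb] at t3
    rw [neg_neg] at t2
    nlinarith
  have yy : ∀ x, y (y x) = x := fun x => by
    obtain ⟨x, rfl⟩ := k.symm.surjective x
    induction x with
    | zero => simp
    | tmul w u => simp [e1, rr]
    | add x y p q => simp only [map_add, p, q]
  obtain ⟨w, -, w0, -⟩ := h.ex₁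
  have aa : ∀ x, a (a x) = x := fun x => tmul_inj' (F := F) (u := e) (by rintro rfl; simp at e0) (by
    simpa [e2, b2] using yy (x ⊗ₜ e))
  have bb : ∀ x, β (β x) = x := fun x => tmul_inj (F := F) w0 (by simpa [e2, aa] using yy (w ⊗ₜ x))
  have t1 := nv a β aa bb
  have t2 := nev_add h.two aa
  have t3 := nev_add h.two bb
  have t4 := nev_add h.two (g := (1 : W ≃ₗ[F] W)) fun _ => rfl
  have t5 : nev (1 : W ≃ₗ[F] W) 1 = 4 := by
    rw [nev, show End.eigenspace (1 : W ≃ₗ[F] W).toLinearMap 1 = ⊤ from eq_top_iff.2 fun x _ => by simp, finrank_top, h.dW]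
  rw [← e2, e1, nev_conj, nv 1 ρ (fun _ => rfl) rr, t5, show nev (1 : W ≃ₗ[F] W) (-1) = 0 by have := h.dW; omega] at t1
  rw [h.dW] at t2
  rw [h.dU] at t3
  obtain ⟨s, hs⟩ : ∃ s, nev a s = 4 := by
    by_contra! hc
    have c1 := hc 1
    have c2 := hc (-1)
    obtain e | e | e | e : nev β 1 = 0 ∨ nev β 1 = 1 ∨ nev β 1 = 2 ∨ nev β 1 = 3 := by omega
    all_goals
      rw [e, show nev β (-1) = 3 - nev β 1 by omega, e] at t1
      omega
  have := Submodule.eq_top_of_finrank_eq (hs.trans h.dW.symm)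
  exact ⟨s • β.toLinearMap, fun w u => by
    simp [e2, show a w = s • w from End.mem_eigenspace_iff.1 (this.ge trivial), smul_tmul]⟩

omit hS in
theorem inv_good {z : W ⊗[F] U ≃ₗ[F] W ⊗[F] U} (hz : z ∈ Φ.isom) {γ : End F U} (g1 : ∀ w u, z (w ⊗ₜ u) = w ⊗ₜ γ u)
    (zz : z * z = 1) (z1 : z ≠ 1) {x : W ⊗[F] U} (x0 : x ≠ 0) (hx : z x = x) :
    ∃ f, Φ₂.B f f ≠ 0 ∧ ∀ d, Commute d z → StM d f := by
  obtain ⟨w, -, w0, hw, -⟩ := h.ex₁
  obtain ⟨r, -, hr⟩ := h.pair hw w0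
  have g2 : ∀ u, γ (γ u) = u := fun u => tmul_inj (F := F) w0 (by
    rw [← g1, ← g1]; exact LinearEquiv.congr_fun zz (w ⊗ₜ u))
  have g3 : ∀ u v, Φ₂.B (γ u) (γ v) = Φ₂.B u v := fun u v => by
    simpa only [g1, h.B, hr, one_mul] using hz.1 (w ⊗ₜ u) (r ⊗ₜ v)
  have g4 : ∀ (ε : F) f, ε * ε = 1 → f ≠ 0 → γ f = ε • f → finrank F (End.eigenspace γ ε) ≤ 1 →
      ∃ f, Φ₂.B f f ≠ 0 ∧ ∀ d, Commute d z → StM d f := fun ε f e1 f0 hf hd => by
    have s : ∀ u, γ u = ε • u → u ∈ F ∙ f := fun u hu => by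
      rw [Submodule.eq_of_le_of_finrank_le (S₁ := F ∙ f) (S₂ := End.eigenspace γ ε) (by simp [hf])
        (by rwa [finrank_span_singleton f0])]
      simp [hu]
    refine ⟨f, fun n => f0 (h.h₂.nd f fun u => mul_left_cancel₀ h.two ?_), fun d => stM_of_comm' g1 f0 hf s⟩
    obtain ⟨c, hc⟩ := Submodule.mem_span_singleton.1 (s (u + ε • γ u) (by
      simp only [map_add, map_smul, g2, smul_add, smul_smul, e1, one_smul]; abel))
    have t1 := congrArg (Φ₂.B f) hc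
    have t2 := g3 f u
    simp [n, hf] at t1 t2
    linear_combination -t1 - t2
  obtain ⟨φ, hφ⟩ : ∃ φ, cL φ x ≠ 0 := by
    by_contra! hc; exact x0 (eq_of_cL fun φ => by simp [hc])
  obtain ⟨u, hu⟩ : ∃ u, u - γ u ≠ 0 := by
    by_contra! hc
    exact z1 (LinearEquiv.toLinearMap_injective (TensorProduct.ext' fun w u =>
      (g1 w u).trans (by rw [← sub_eq_zero.1 (hc u)]; rfl)))
  have := Submodule.finrank_add_finrank_le_of_disjoint (disj_ev h.two γ one_ne_zero)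
  rw [h.dU] at this
  by_cases hd : finrank F (End.eigenspace γ 1) ≤ 1
  · exact g4 1 _ (by simp) hφ (by rw [← cL_right g1, hx, one_smul]) hd
  · exact g4 (-1) _ (by simp) hu (by simp [g2]) (by omega)

omit hS [FiniteDimensional F U] [Finite F] in
theorem stM_rf {e : U} {ρ : U ≃ₗ[F] U} (hρ : IsRf Φ₂ e ρ) {d : W ⊗[F] U ≃ₗ[F] W ⊗[F] U}
    (c : Commute d (TensorProduct.congr 1 (LinearEquiv.neg F * ρ))) : StM d e :=
  stM_of_comm' (γ := (LinearEquiv.neg F * ρ).toLinearMap) (ε := 1) (fun _ _ => rfl) (hρ.r1 h.two).1 (by simp [hρ.self])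
    (fun u hu => by
      refine (Submodule.smul_mem_iff _ h.two).1 (Submodule.mem_span_singleton.2 ⟨-(-2 / Φ₂.B e e * Φ₂.B e u), ?_⟩)
      have := hρ.app u
      simp only [LinearEquiv.coe_coe, LinearEquiv.mul_apply, LinearEquiv.neg_apply] at hu
      linear_combination (norm := module) this + hu) c

theorem le_tstab : X ≤ tstab F W U := fun c hc => by
  have : Finite (W ⊗[F] U) := Module.finite_of_finite F
  have : Finite (W ⊗[F] U ≃ₗ[F] W ⊗[F] U) := Finite.of_injective _ DFunLike.coe_injective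
  obtain ⟨u, -, v, -, hp⟩ := exists_pair h.h₂.nd (nondeg_top h.h₂.nd) (by simp [h.dU])
  obtain ⟨a, a0, ua, va⟩ := exists_ker2 h.dU.ge (Φ₂.B u) (Φ₂.B v)
  have hu := hp.se.2
  have hv := hp.sf.2
  have uv := hp.ef
  have vu := (h.h₂.sym v u).trans uv
  have aa : Φ₂.B a a ≠ 0 := not_iso_three h.h₂.nd h.dU.le hp.se hp.left_ne_zero ua fun e => by
    obtain ⟨c, rfl⟩ := Submodule.mem_span_singleton.1 e
    simp [vu] at va
    simp [va] at a0
  obtain ⟨w, -, w0, hw, -⟩ := h.ex₁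
  obtain ⟨r, -, hr⟩ := h.pair hw w0
  obtain ⟨ν, hν⟩ := FiniteField.exists_nonsquare (ringChar_ne_two h.two)
  obtain ⟨l, rfl⟩ : ∃ l, ν = 2 * l * Φ₂.B a a := ⟨ν / (2 * Φ₂.B a a), by have := h.two; field_simp⟩
  have l0 : l ≠ 0 := by rintro rfl; simp at hν
  have e0 : Φ₂.B (u + l • v) (u + l • v) ≠ 0 := by simpa [hu, hv, uv, vu, ← two_mul, l0] using h.two
  obtain ⟨ρ, hρ⟩ := h.h₂.exists_rf aa
  obtain ⟨ρ', hρ'⟩ := h.h₂.exists_rf e0
  have rr : ∀ {e} {ρ : U ≃ₗ[F] U}, IsRf Φ₂ e ρ → ∀ u, (LinearEquiv.neg F * ρ : U ≃ₗ[F] U) ((LinearEquiv.neg F * ρ : U ≃ₗ[F] U) u) = u :=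
    fun h u => by simp [h.rr]
  have sq : ∀ {e ρ}, IsRf Φ₂ e ρ → TensorProduct.congr (1 : W ≃ₗ[F] W) (LinearEquiv.neg F * ρ) *
      TensorProduct.congr 1 (LinearEquiv.neg F * ρ) = 1 := fun h =>
    LinearEquiv.toLinearMap_injective (TensorProduct.ext' fun w u => congrArg (w ⊗ₜ[F] ·) (rr h u))
  have ng : ∀ {e ρ}, IsRf Φ₂ e ρ → ∀ x, TensorProduct.rid F W ((Φ₂.B e).lTensor W x) = 0 →
      TensorProduct.congr (1 : W ≃ₗ[F] W) (LinearEquiv.neg F * ρ) x = -x := fun {e ρ} h x hx => eq_of_cL fun φ => by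
    rw [cL_right (γ := (LinearEquiv.neg F * ρ).toLinearMap) fun _ _ => rfl]
    simp [h.perp (x := cL φ x) (by rw [← rid_lTensor, hx, map_zero])]
  have m := h.r hρ
  have m' := h.r hρ'
  have q := sq hρ
  have q' := sq hρ'
  have st := fun d => h.stM_rf (d := d) hρ'
  have mc := fun f f0 c hc => h.mem_of_cent hS (f := f) (ρ := LinearEquiv.neg F * ρ) f0 (c := c) hc
  obtain ⟨t, ht⟩ : ∃ t, t = TensorProduct.congr (1 : W ≃ₗ[F] W) (LinearEquiv.neg F * ρ) := ⟨_, rfl⟩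
  obtain ⟨t', ht'⟩ : ∃ t, t = TensorProduct.congr (1 : W ≃ₗ[F] W) (LinearEquiv.neg F * ρ') := ⟨_, rfl⟩
  rw [← ht] at m q mc
  rw [← ht'] at m' q' st
  have md := mul_mem (mul_mem (inv_mem hc) m) hc
  have dd : c⁻¹ * t * c * (c⁻¹ * t * c) = 1 := by
    rw [show c⁻¹ * t * c * (c⁻¹ * t * c) = c⁻¹ * (t * t) * c by group, q]; simp
  rcases Nat.even_or_odd (orderOf (t' * (c⁻¹ * t * c))) with e | e
  · obtain ⟨z2, z3, z4⟩ := Invol.half_pow_spec q' dd e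
    obtain ⟨x, hx, x0⟩ := (Submodule.ne_bot_iff _).1 (LinearMap.ker_ne_bot_of_finrank_lt
      (f := ((TensorProduct.rid F W).toLinearMap ∘ₗ (Φ₂.B (u + l • v)).lTensor W).prod
        ((TensorProduct.rid F W).toLinearMap ∘ₗ (Φ₂.B a).lTensor W ∘ₗ c.toLinearMap)) (by simp [h.dW, h.dU]))
    have x1 : t' x = -x := ht' ▸ ng hρ' x (Prod.ext_iff.1 hx).1
    have x2 : (c⁻¹ * t * c) x = -x := by
      rw [mul_assoc]
      exact inv_mul_apply.2 ((ht ▸ ng hρ (c x) (Prod.ext_iff.1 hx).2).trans (map_neg _ _).symm)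
    have x3 : ∀ n : ℕ, ((t' * (c⁻¹ * t * c)) ^ n) x = x := fun n => by
      induction n with
      | zero => rfl
      | succ n ih => rw [pow_succ, LinearEquiv.mul_apply, LinearEquiv.mul_apply, x2, map_neg, x1, neg_neg, ih]
    obtain ⟨j, hj⟩ := dih q' dd (orderOf (t' * (c⁻¹ * t * c)) / 2)
    have mz := pow_mem (mul_mem m' md) (orderOf (t' * (c⁻¹ * t * c)) / 2)
    have x4 := x3 (orderOf (t' * (c⁻¹ * t * c)) / 2)
    generalize (t' * (c⁻¹ * t * c)) ^ (orderOf (t' * (c⁻¹ * t * c)) / 2) = z at *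
    obtain ⟨γ, hγ⟩ : ∃ γ : End F U, ∀ w u, (t' * z) (w ⊗ₜ u) = w ⊗ₜ γ u := by
      have s := st _ ((Commute.refl t').mul_left z3)
      rcases hj with hj | hj
      · exact h.recog hS e0 (mul_mem m' mz) s (rr hρ') (hj.trans (by rw [← ht']))
      · exact h.recog hS e0 (mul_mem m' mz) s (rr hρ) (k := c * (t' * (c⁻¹ * t * c)) ^ j)
          (hj.trans (by rw [← ht, mul_inv_rev c]; simp only [mul_assoc]))
    obtain ⟨f, f0, hf⟩ := h.inv_good (h.iso mz) (γ := (LinearEquiv.neg F * ρ').toLinearMap * γ) (fun w u => by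
      rw [show z = t' * (t' * z) by rw [← mul_assoc, q', one_mul], LinearEquiv.mul_apply, hγ, ht']; rfl)
      (Invol.mul_self_of z2) (Invol.ne_one_of z2) x0 x4
    obtain ⟨γ, hγ⟩ := h.recog hS f0 md (hf _ z4.symm) (rr hρ) (k := c) (by rw [← ht])
    obtain ⟨f, f0, hf⟩ := h.inv_good (h.iso md) hγ dd (fun e => x0 (smul_right_injective _ h.two (by
      rw [e] at x2
      replace x2 : x = -x := x2
      simp only [smul_zero]
      linear_combination (norm := module) x2))) (x := c⁻¹ (w ⊗ₜ a))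
      (by simpa using fun e => a0 (tmul_inj (F := F) w0 (e.trans (tmul_zero _ _).symm))) (by simp [ht, hρ.self])
    exact mc f f0 c hc hf
  obtain ⟨k, hk⟩ := Invol.exists_conj_of_odd q' dd e
  have mk := zpow_mem (mul_mem m' md) k
  generalize (t' * (c⁻¹ * t * c)) ^ k = y at hk mk
  have e1 : (c * y)⁻¹ * t * (c * y) = t' := by
    rw [show (c * y)⁻¹ * t * (c * y) = y⁻¹ * (c⁻¹ * t * c) * y by group, ← hk]; group
  obtain ⟨p, b, e2⟩ := mc _ e0 _ (mul_mem hc mk) fun d hd => st d (e1 ▸ hd)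
  have iso := (h.iso (mul_mem hc mk)).1
  generalize c * y = c' at e1 e2 iso
  refine (type_contra h.h₂ h.two h.dU hu hv uv ua va hν hρ (μ := Φ₁.B (p w) (p r)) (b := b) (fun x y => by
    simpa [e2, h.B, hr] using iso (w ⊗ₜ x) (r ⊗ₜ y)) (neg_eq_iff_eq_neg.1 (tmul_inj (F := F) (w := p w) (by simpa) ?_))).elim
  have := LinearEquiv.congr_fun (show t * c' = c' * t' by rw [← e1]; group) (w ⊗ₜ (u + l • v))
  rwa [LinearEquiv.mul_apply, LinearEquiv.mul_apply, ht', TensorProduct.congr_tmul, LinearEquiv.mul_apply, hρ'.self,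
    LinearEquiv.neg_apply, neg_neg, e2, e2, ht] at this

end O43

theorem max_o43 [FiniteDimensional F W] [FiniteDimensional F U] [Finite F]
    (h : O43 Φ₁ Φ₂ Φ (tstab F W U ⊓ EG Φ)) : Geo.IsMaximalIn (EG Φ) (tstab F W U ⊓ EG Φ) := by
  refine max_crit inf_le_right ?_ fun X a1 a2 g hg hg' => by_contra fun hS => hg' ⟨O43.le_tstab (X := X)
    { h with le := a1, le' := a2 } hS hg, a2 hg⟩
  obtain ⟨u, -, y, -, hu⟩ := exists_pair h.h₂.nd (nondeg_top h.h₂.nd) (by simp [h.dU])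
  obtain ⟨w, -, w0, hw, -⟩ := h.ex₁
  obtain ⟨r, -, hr⟩ := h.pair hw w0
  obtain ⟨g, hg⟩ := exists_isE0 h.nondeg (p := w ⊗ₜ u) (a := w ⊗ₜ y) (h.sing (by simp [h.B, hw]))
    (h.sing (by simp [h.B, hw])) (by simp [h.B, hw])
  refine ⟨g, IsE_mem_EG hg, fun ⟨⟨a, b, e1⟩, _⟩ => ?_⟩
  obtain ⟨a, rfl, -⟩ := scalar_of_mv e1 (Y := (F ∙ w ⊗ₜ u) ⊔ F ∙ w ⊗ₜ y) (fun x => by
      rw [hg.app, add_sub_assoc, add_sub_cancel_left]
      exact sub_mem (Submodule.mem_sup_left (Submodule.smul_mem _ _ (Submodule.mem_span_singleton_self _)))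
        (Submodule.smul_mem _ _ (mem_sup_self _ _))) (k := 0) ![] ![] (by simp) (by simp) (by
      have := finrank_sup_one (F ∙ w ⊗ₜ[F] u) (w ⊗ₜ y); have := finrank_span_one (F := F) (w ⊗ₜ[F] u)
      have := h.dW; omega)
  have e1 : a r = r - w := tmul_inj' (F := F) hu.right_ne_zero (by
    simpa [h.B, hr, hu.ef, hu.sf.2, h.ε, sub_tmul] using hg.app (r ⊗ₜ y))
  have e2 : a r = r + w := tmul_inj' (F := F) hu.left_ne_zero (by
    simpa [h.B, hr, (h.h₂.sym y u).trans hu.ef, hu.se.2, h.ε, add_tmul] using hg.app (r ⊗ₜ u))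
  exact w0 (smul_right_injective _ h.two (by simp only [smul_zero]; linear_combination (norm := module) e1 - e2))

theorem tensor_o3_o4m {ι : Type} [Fintype ι] [DecidableEq ι] [Fintype F] (h2 : (2 : F) ≠ 0) (h3 : Fintype.card F ≠ 3)
    {Q : QuadraticForm F (ι → F)} (hQ : (Formed.ofQuad Q).Nondeg)
    {e : ι ≃ Fin 3 × Fin 4} {P : GL ι F} {f₁ : (Fin 3 → F) → (Fin 3 → F) → F} {f₂ : (Fin 4 → F) → (Fin 4 → F) → F}
    (hf₁ : Geo.IsSymmetricForm f₁) (hf₂ : Geo.IsSymmetricForm f₂) (hmin : ¬ Geo.IsPlusTypeOn (fun v => f₂ v v) ⊤)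
    (hT : Geo.IsTensorFormStructure id (QuadraticMap.polar Q) f₁ f₂ e P) :
    Geo.IsMaximalIn (Geo.omegaGL Q) (Geo.tensorProductSubgroup 3 4 e P ⊓ Geo.omegaGL Q) := by
  obtain ⟨c, hc, e1⟩ := tensor_eq (σ := RingHom.id F) hT (formOfGram_bilin hf₁.bilinear) (formOfGram_bilin hf₂.bilinear)
  obtain ⟨Φ₁, a1, a2⟩ := exists_symm' h2 hf₂ hc
  obtain ⟨Φ₂, b1, b2⟩ := exists_symm' h2 hf₁ one_ne_zero
  have hn : 5 ≤ Fintype.card ι := by rw [Fintype.card_congr e]; simp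
  refine isMaximalIn_tensorF (fun g => mem_omegaGL hQ hn) ?_
  have hB : ∀ w u w' u', ((Formed.ofQuad Q).comap ((kE F _ _).trans (Asch.tv e P)).toLinearMap).B (w ⊗ₜ u) (w' ⊗ₜ u') =
      Φ₁.B w w' * Φ₂.B u u' := fun w u w' u' => by rw [a2, b2, one_mul]; exact e1 w u w' u'
  refine max_o43 ⟨hB, rfl, a1, b1, by simp, by simp, h2, by simpa, fun u y hu u0 e hy e' => ?_,
    (ueg_quad hQ (by simpa)).comap _, (ceg_quad hQ (by simpa)).comap _, fun v r hr => ?_, le_rfl, inf_le_right⟩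
  · refine hmin ⟨(F ∙ u) ⊔ F ∙ y, le_top, fun x hx => ?_, ?_⟩
    · obtain ⟨_, ha, _, hb, rfl⟩ := Submodule.mem_sup.1 hx
      obtain ⟨s, rfl⟩ := Submodule.mem_span_singleton.1 ha
      obtain ⟨t, rfl⟩ := Submodule.mem_span_singleton.1 hb
      refine mul_left_cancel₀ hc (((a2 _ _).symm.trans ?_).trans (mul_zero _).symm)
      simp [hu, e, e', Φ₁.B_eq_zero_symm e]
    have := Submodule.finrank_lt_finrank_of_lt (show F ∙ u < (F ∙ u) ⊔ F ∙ y from lt_of_le_of_ne le_sup_left fun e =>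
      hy (e ▸ mem_sup_self _ _))
    have := finrank_sup_one (F ∙ u) y
    rw [finrank_span_singleton u0] at *
    simp; omega
  have n1 := b1.nd.restrict_perp (Φ₂.nondeg_span_singleton hr.ne)
  have n2 := b1.nd.finrank_add_finrank_perp (F ∙ v)
  rw [finrank_span_singleton (hr.r1 h2).1, finrank_fin_fun] at n2
  obtain ⟨u, u1, u2⟩ := n1.exists_orth_family h2 b1.ε (n := 2) (by omega)
  obtain ⟨w, w1, w2⟩ := a1.nd.exists_orth_family h2 a1.ε (n := 4) (by simp)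
  have u3 : ∀ i, Φ₂.B v (u i) = 0 := fun i => Φ₂.mem_perp_span_singleton.1 (u i).2
  refine (oeg_quad hQ (by simpa) h2).comap _ _ (congr_mem_isom hB (.inl h2) (one_mem _) (mul_mem neg_mem_isom hr.iso)) _ _
    (fun i => w i.1 ⊗ₜ (u i.2).1) (fun i j e => ?_) (fun i => by simpa [hB] using ⟨w2 i.1, u2 i.2⟩)
    (fun i => by simp [hr.perp (u3 i.2), tmul_neg]) (fun z => ?_) (by decide) ?_
  · rw [hB]
    by_cases e3 : i.1 = j.1
    · exact mul_eq_zero_of_right _ (u1 _ _ fun e4 => e (Prod.ext e3 e4))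
    · exact mul_eq_zero_of_left (w1 _ _ e3) _
  · induction z with
    | zero => simp
    | add x y a b => rw [map_add, add_sub_add_comm]; exact add_mem a b
    | tmul x y =>
      have := ((Formed.basisOfOrth w1 w2 (by simp)).tensorProduct (Formed.basisOfOrth u1 u2 (by simp; omega))).mem_span
        (x ⊗ₜ ⟨y + r y, Φ₂.mem_perp_span_singleton.2 (by have := hr.ne; simp [hr.app]; field_simp; ring)⟩)
      have := Submodule.mem_map_of_mem (f := (Φ₂.perp (F ∙ v)).subtype.lTensor _) this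
      rw [Submodule.map_span, ← Set.range_comp] at this
      refine Submodule.span_mono ?_ (by simpa [tmul_add, tmul_neg] using this)
      rintro _ ⟨i, rfl⟩
      exact ⟨i, by simp [Basis.tensorProduct_apply']⟩
  simp only [hB, Fintype.prod_prod_type, Finset.prod_mul_distrib, Finset.prod_const, Finset.card_univ, Fintype.card_fin,
    Finset.prod_pow]
  exact .mul (IsSquare.sq _) (Even.isSquare_pow (by decide) _)

end Cfsg.Agent.Root.Mx
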