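import Cfsg.Agent.Root.SL2
import Cfsg.Agent.Root.RootSet

/-! Linear families of root subgroups. `RFam k ρ 𝒩`: `ρ` embeds a group in a `k`-algebra, `𝒩` is a
conjugation invariant set of square zero elements `N` with `1 + c N` in the image, and any two members
satisfy `N M N = μ N`, `M N M = μ M`, with `N M - M N ∈ 𝒩 ∪ {0}` when `μ = 0`. Then the groups
`rsg N = {1 + c N}` form a set of abstract `k`-root subgroups (`RFam.kroot`), and in characteristic two the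
elements `1 + N` are root involutions (`RFam.inv_pair`). -/

namespace Cfsg.Agent.Root
open Cfsg Cfsg.Agent.Classical
open scoped MatrixGroups

variable {k R G : Type*} [Field k] [Ring R] [Algebra k R] [Group G] {ρ : G →* R} {𝒩 : Set R}
  {N M : R}

theorem one_add_mul_sq (h : N * N = 0) (a b : k) : (1 + a • N) * (1 + b • N) = 1 + (a + b) • N := by
  simp only [mul_add, add_mul, one_mul, mul_one, smul_mul_smul_comm, h, smul_zero, add_smul]; abel

theorem map_inv_of_sq (h : N * N = 0) {g : G} {a : k} (e : ρ g = 1 + a • N) :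
    ρ g⁻¹ = 1 + (-a) • N := by
  have : ρ g * (1 + (-a) • N) = 1 := by rw [e, one_add_mul_sq h]; simp
  calc ρ g⁻¹ = ρ g⁻¹ * (ρ g * (1 + (-a) • N)) := by rw [this, mul_one]
    _ = _ := by rw [← mul_assoc, ← map_mul]; simp

variable (k ρ) in
/-- The group `{1 + c N}` (for `N² = 0`). -/
def rsg (N : R) : Subgroup G := Subgroup.closure {g | ∃ c : k, ρ g = 1 + c • N}

theorem mem_rsg (h : N * N = 0) {g : G} : g ∈ rsg k ρ N ↔ ∃ c : k, ρ g = 1 + c • N := by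
  refine ⟨fun hg => ?_, fun hg => Subgroup.subset_closure hg⟩
  induction hg using Subgroup.closure_induction with
  | mem g hg => exact hg
  | one => exact ⟨0, by simp⟩
  | mul x y _ _ hx hy =>
    obtain ⟨a, ha⟩ := hx; obtain ⟨b, hb⟩ := hy
    exact ⟨a + b, by rw [map_mul, ha, hb, one_add_mul_sq h]⟩
  | inv x _ hx => obtain ⟨a, ha⟩ := hx; exact ⟨-a, map_inv_of_sq h ha⟩

theorem rsg_smul (N : R) {a : k} (ha : a ≠ 0) : rsg k ρ (a • N) = rsg k ρ N := by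
  unfold rsg
  congr 1
  ext g
  refine ⟨fun ⟨c, hc⟩ => ⟨c * a, by rw [hc, smul_smul]⟩, fun ⟨c, hc⟩ => ⟨c * a⁻¹, ?_⟩⟩
  rw [hc, smul_smul, mul_assoc, inv_mul_cancel₀ ha, mul_one]

theorem rsg_subgroupOf (h : N * N = 0) (H : Subgroup G) :
    (rsg k ρ N).subgroupOf H = rsg k (ρ.comp H.subtype) N := by
  ext g
  rw [Subgroup.mem_subgroupOf, mem_rsg h, mem_rsg h]; rfl

theorem comm_formula (hN : N * N = 0) (hM : M * M = 0) (h1 : N * M * N = 0) (h2 : M * N * M = 0)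
    (a b : k) : (1 + a • N) * (1 + b • M) * (1 + (-a) • N) * (1 + (-b) • M) =
      1 + (a * b) • (N * M - M * N) := by
  have e1 : N * (M * N) = 0 := by rw [← mul_assoc, h1]
  have e2 : M * (N * M) = 0 := by rw [← mul_assoc, h2]
  have e3 : N * (N * M) = 0 := by rw [← mul_assoc, hN, zero_mul]
  simp only [mul_add, add_mul, one_mul, mul_one, smul_mul_assoc, mul_smul_comm, mul_assoc, hN, hM, e1,
    e2, e3, smul_zero, mul_zero, add_zero]
  module

variable (k ρ 𝒩) in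
/-- A linear family of root elements. -/
structure RFam : Prop where
  inj : Function.Injective ρ
  sq : ∀ N ∈ 𝒩, N * N = 0
  ne : ∀ N ∈ 𝒩, N ≠ 0
  has : ∀ N ∈ 𝒩, ∀ c : k, ∃ g, ρ g = 1 + c • N
  conj : ∀ N ∈ 𝒩, ∀ g, ρ g * N * ρ g⁻¹ ∈ 𝒩
  pair : ∀ N ∈ 𝒩, ∀ M ∈ 𝒩, ∃ μ : k, N * M * N = μ • N ∧ M * N * M = μ • M ∧
    (μ = 0 → N * M = M * N ∨ N * M - M * N ∈ 𝒩)

namespace RFam
variable (h : RFam k ρ 𝒩)
include h

theorem ne_one (hN : N ∈ 𝒩) {g : G} {c : k} (e : ρ g = 1 + c • N) : g ≠ 1 ↔ c ≠ 0 := by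
  constructor
  · rintro h1 rfl
    exact h1 (h.inj (by simpa using e))
  · rintro hc rfl
    have : c • N = 0 := by simpa using e.symm
    exact h.ne N hN (by rw [← one_smul k N, ← inv_mul_cancel₀ hc, mul_smul, this, smul_zero])

theorem sub (H : Subgroup G) (hH : ∀ N ∈ 𝒩, rsg k ρ N ≤ H) : RFam k (ρ.comp H.subtype) 𝒩 where
  inj := h.inj.comp H.subtype_injective
  sq := h.sq
  ne := h.ne
  has N hN c := by
    obtain ⟨g, hg⟩ := h.has N hN c
    exact ⟨⟨g, hH N hN ((mem_rsg (h.sq N hN)).2 ⟨c, hg⟩)⟩, hg⟩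
  conj N hN g := h.conj N hN g
  pair := h.pair

theorem comm (hN : N ∈ 𝒩) (hM : M ∈ 𝒩) (e : N * M = M * N) : Comm (rsg k ρ N) (rsg k ρ M) := by
  intro a ha b hb
  obtain ⟨s, hs⟩ := (mem_rsg (h.sq N hN)).1 ha
  obtain ⟨t, ht⟩ := (mem_rsg (h.sq M hM)).1 hb
  apply h.inj
  simp only [map_mul, hs, ht, mul_add, add_mul, one_mul, mul_one, smul_mul_smul_comm, e, mul_comm s t]
  abel

theorem conjBy_rsg (hN : N ∈ 𝒩) (g : G) :
    conjBy (rsg k ρ N) g = rsg k ρ (ρ g * N * ρ g⁻¹) := by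
  ext x
  rw [mem_conjBy, mem_rsg (h.sq N hN), mem_rsg (h.sq _ (h.conj N hN g))]
  have e1 : ρ g * ρ g⁻¹ = 1 := by rw [← map_mul]; simp
  refine exists_congr fun c => ⟨fun e => ?_, fun e => ?_⟩
  · rw [show x = g * (g⁻¹ * x * g) * g⁻¹ by group, map_mul, map_mul, e]
    simp only [mul_add, add_mul, mul_one, e1, mul_smul_comm, smul_mul_assoc]
  · have e2 : ρ g⁻¹ * ρ g = 1 := by rw [← map_mul]; simp
    rw [map_mul, map_mul, e]
    simp only [mul_add, add_mul, mul_one, e2, mul_smul_comm, smul_mul_assoc, ← mul_assoc, one_mul]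
    rw [mul_assoc, e2, mul_one]

theorem slPair (hN : N ∈ 𝒩) (hM : M ∈ 𝒩) {μ : k} (μ0 : μ ≠ 0) (h1 : N * M * N = μ • N)
    (h2 : M * N * M = μ • M) : SlPair (algebraMap k R : k →ₙ+* R) N (μ⁻¹ • M) where
  ee := h.sq N hN
  ff := by simp [h.sq M hM]
  efe := by simp [h1, smul_smul, μ0]
  fef := by simp [h2, smul_smul, μ0]
  ce c := Algebra.commutes c N
  cf c := Algebra.commutes c _
  oe := (congrArg (· * N) (map_one (algebraMap k R))).trans (one_mul _)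
  of := (congrArg (· * _) (map_one (algebraMap k R))).trans (one_mul _)

theorem psl2 (hN : N ∈ 𝒩) (hM : M ∈ 𝒩) {μ : k} (μ0 : μ ≠ 0) (h1 : N * M * N = μ • N)
    (h2 : M * N * M = μ • M) : IsPSL2PairOver k (rsg k ρ N) (rsg k ρ M) := by
  have e : ∀ (c : k) (x : R), (algebraMap k R : k →ₙ+* R) c * x = c • x := fun c x =>
    (Algebra.smul_def c x).symm
  refine psl2_of_slPair (h.slPair hN hM μ0 h1 h2) (h.ne N hN) ρ h.inj ?_ ?_ ?_ ?_ <;> simp only [e]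
  · exact h.has N hN
  · exact fun c => by rw [smul_smul]; exact h.has M hM _
  · exact fun g => mem_rsg (h.sq N hN)
  · exact fun g => by rw [← rsg_smul M (inv_ne_zero μ0)]; exact mem_rsg (by simp [h.sq M hM])

theorem map_comm (hN : N ∈ 𝒩) (hM : M ∈ 𝒩) (h1 : N * M * N = 0) (h2 : M * N * M = 0) {x y : G}
    {a b : k} (hx : ρ x = 1 + a • N) (hy : ρ y = 1 + b • M) :
    ρ (x * y * x⁻¹ * y⁻¹) = 1 + (a * b) • (N * M - M * N) := by
  rw [map_mul, map_mul, map_mul, map_inv_of_sq (h.sq N hN) hx, map_inv_of_sq (h.sq M hM) hy, hx, hy,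
    comm_formula (h.sq N hN) (h.sq M hM) h1 h2]

theorem cc (hN : N ∈ 𝒩) (hM : M ∈ 𝒩) (h1 : N * M * N = 0) (h2 : M * N * M = 0)
    (hL : N * M - M * N ∈ 𝒩) : CC (rsg k ρ N) (rsg k ρ M) (rsg k ρ (N * M - M * N)) := by
  have sL : ∀ a ∈ rsg k ρ N, a ≠ 1 → ∀ c ∈ rsg k ρ (N * M - M * N), ∃ b ∈ rsg k ρ M,
      c = a * b * a⁻¹ * b⁻¹ := by
    intro x hx x1 z hz
    obtain ⟨a, ha⟩ := (mem_rsg (h.sq N hN)).1 hx
    obtain ⟨c, hc⟩ := (mem_rsg (h.sq _ hL)).1 hz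
    obtain ⟨y, hy⟩ := h.has M hM (a⁻¹ * c)
    refine ⟨y, (mem_rsg (h.sq M hM)).2 ⟨_, hy⟩, h.inj ?_⟩
    rw [h.map_comm hN hM h1 h2 ha hy, hc, mul_inv_cancel_left₀ ((h.ne_one hN ha).1 x1)]
  refine ⟨le_antisymm (Subgroup.commutator_le.2 fun x hx y hy => ?_) fun z hz => ?_,
    h.comm hL hN ?_, h.comm hL hM ?_, sL, fun y hy y1 z hz => ?_⟩
  · obtain ⟨a, ha⟩ := (mem_rsg (h.sq N hN)).1 hx
    obtain ⟨b, hb⟩ := (mem_rsg (h.sq M hM)).1 hy
    exact (mem_rsg (h.sq _ hL)).2 ⟨_, h.map_comm hN hM h1 h2 ha hb⟩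
  · obtain ⟨x, hx⟩ := h.has N hN 1
    have hx' := (mem_rsg (h.sq N hN)).2 ⟨_, hx⟩
    obtain ⟨y, hy, rfl⟩ := sL x hx' ((h.ne_one hN hx).2 one_ne_zero) z hz
    exact Subgroup.commutator_mem_commutator hx' hy
  · rw [sub_mul, mul_sub, h1, mul_assoc M, h.sq N hN, ← mul_assoc, ← mul_assoc, h1, h.sq N hN]; simp
  · rw [sub_mul, mul_sub, h2, mul_assoc N, h.sq M hM, ← mul_assoc, ← mul_assoc, h2, h.sq M hM]; simp
  · obtain ⟨b, hb⟩ := (mem_rsg (h.sq M hM)).1 hy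
    obtain ⟨c, hc⟩ := (mem_rsg (h.sq _ hL)).1 hz
    obtain ⟨x, hx⟩ := h.has N hN (c * b⁻¹)
    refine ⟨x, (mem_rsg (h.sq N hN)).2 ⟨_, hx⟩, h.inj ?_⟩
    rw [h.map_comm hN hM h1 h2 hx hb, hc, inv_mul_cancel_right₀ ((h.ne_one hM hb).1 y1)]

theorem rcc (hN : N ∈ 𝒩) (hM : M ∈ 𝒩) (h1 : N * M * N = 0) (h2 : M * N * M = 0)
    (hL : N * M - M * N ∈ 𝒩) : RootCommutatorCase (rsg k ρ '' 𝒩) (rsg k ρ N) (rsg k ρ M) := by
  have := h.cc hN hM h1 h2 hL
  rw [rootCommutatorCase_iff, this.eq]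
  exact ⟨⟨_, hL, rfl⟩, this⟩

theorem ne_bot (hN : N ∈ 𝒩) : rsg k ρ N ≠ ⊥ := by
  obtain ⟨x, hx⟩ := h.has N hN 1
  intro e
  exact (h.ne_one hN hx).2 one_ne_zero (Subgroup.mem_bot.1 (e ▸ (mem_rsg (h.sq N hN)).2 ⟨_, hx⟩))

theorem tri (hN : N ∈ 𝒩) (hM : M ∈ 𝒩) : Comm (rsg k ρ N) (rsg k ρ M) ∨
    IsPSL2PairOver k (rsg k ρ N) (rsg k ρ M) ∨
    RootCommutatorCase (rsg k ρ '' 𝒩) (rsg k ρ N) (rsg k ρ M) := by
  obtain ⟨μ, h1, h2, h3⟩ := h.pair N hN M hM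
  by_cases μ0 : μ = 0
  · subst μ0
    rcases h3 rfl with e | e
    · exact .inl (h.comm hN hM e)
    · exact .inr (.inr (h.rcc hN hM (by simpa using h1) (by simpa using h2) e))
  · exact .inr (.inl (h.psl2 hN hM μ0 h1 h2))

theorem kroot (hg : (⨆ A ∈ rsg k ρ '' 𝒩, A) = ⊤) : IsKRootSubgroupSet k (rsg k ρ '' 𝒩) := by
  refine ⟨⟨?_, ?_, hg, ?_, ?_⟩, ?_⟩
  · rintro _ ⟨N, hN, rfl⟩; exact comm_self_iff.1 (h.comm hN hN rfl)
  · rintro _ ⟨N, hN, rfl⟩; exact h.ne_bot hN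
  · rintro _ ⟨N, hN, rfl⟩ g; exact ⟨_, h.conj N hN g, (h.conjBy_rsg hN g).symm⟩
  · rintro _ ⟨N, hN, rfl⟩ _ ⟨M, hM, rfl⟩
    exact (h.tri hN hM).imp comm_iff.2 (Or.imp_left psl2_pair)
  · rintro _ ⟨N, hN, rfl⟩ _ ⟨M, hM, rfl⟩ hr
    rcases h.tri hN hM with e | e | e
    · exact absurd e (R1.not_comm hr)
    · exact e
    · exact absurd hr ((rootCommutatorCase_iff.1 e).2.not_rankOne (h.comm hM hM rfl))

theorem degenerate (hd : ∀ N ∈ 𝒩, ∀ M ∈ 𝒩, N * M * N = 0 → N * M = M * N) :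
    IsDegenerateRootSet (rsg k ρ '' 𝒩) := by
  rintro _ ⟨N, hN, rfl⟩ _ ⟨M, hM, rfl⟩ hc
  obtain ⟨⟨L, hL, e⟩, hc⟩ := rootCommutatorCase_iff.1 hc
  obtain ⟨μ, h1, h2, -⟩ := h.pair N hN M hM
  by_cases μ0 : μ = 0
  · rw [comm_iff.2 (h.comm hN hM (hd N hN M hM (by simpa [μ0] using h1)))] at e
    exact h.ne_bot hL e
  · exact hc.not_rankOne (h.comm hM hM rfl) (psl2_pair (h.psl2 hN hM μ0 h1 h2))

theorem fadj (hN : N ∈ 𝒩) (hM : M ∈ 𝒩) (e : N * M * N ≠ 0) :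
    FAdj (rsg k ρ '' 𝒩) (rsg k ρ N) (rsg k ρ M) := by
  obtain ⟨μ, h1, h2, -⟩ := h.pair N hN M hM
  exact ⟨⟨N, hN, rfl⟩, ⟨M, hM, rfl⟩, psl2_pair (h.psl2 hN hM (by rintro rfl; simp [h1] at e) h1 h2)⟩

/-- Root involutions. -/
theorem inv_pair [Finite k] [CharP k 2] (hN : N ∈ 𝒩) (hM : M ∈ 𝒩) {x y : G} (hx : ρ x = 1 + N)
    (hy : ρ y = 1 + M) : x * y = y * x ∨
      (Odd (orderOf (x * y)) ∧ (Nat.card k = 2 → orderOf (x * y) = 3)) ∨
      (orderOf (x * y) = 4 ∧ ∃ L ∈ 𝒩, ρ ((x * y) ^ 2) = 1 + L) := by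
  have h2 : (2 : k) = 0 := CharP.ofNat_eq_zero k 2
  have hx' : ρ x = 1 + (1 : k) • N := by simpa using hx
  have hy' : ρ y = 1 + (1 : k) • M := by simpa using hy
  have inv : ∀ L ∈ 𝒩, ∀ z, ρ z = 1 + (1 : k) • L → z * z = 1 := fun L hL z hz => h.inj (by
    rw [map_mul, hz, one_add_mul_sq (h.sq L hL), one_add_one_eq_two, h2]; simp)
  obtain ⟨μ, h1, h3, h4⟩ := h.pair N hN M hM
  by_cases μ0 : μ = 0
  · subst μ0
    rcases h4 rfl with e | e
    · exact .inl (h.comm hN hM e x ((mem_rsg (h.sq N hN)).2 ⟨_, hx'⟩) y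
        ((mem_rsg (h.sq M hM)).2 ⟨_, hy'⟩))
    have hc := h.map_comm hN hM (by simpa using h1) (by simpa using h3) hx' hy'
    rw [inv_eq_of_mul_eq_one_right (inv N hN x hx'), inv_eq_of_mul_eq_one_right (inv M hM y hy'),
      mul_assoc (x * y), ← _root_.sq, one_mul] at hc
    refine .inr (.inr ⟨?_, _, e, by simpa using hc⟩)
    have : Fact (Nat.Prime 2) := ⟨Nat.prime_two⟩
    refine orderOf_eq_prime_pow (p := 2) (n := 1) ((h.ne_one e hc).2 one_ne_zero) ?_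
    rw [show 2 ^ (1 + 1) = 2 + 2 by norm_num, pow_add, inv _ e _ hc]
  refine .inr (.inl ?_)
  have e : ∀ (c : k) (x : R), (algebraMap k R : k →ₙ+* R) c * x = c • x := fun c x =>
    (Algebra.smul_def c x).symm
  obtain ⟨φ, hφ, hφ'⟩ := exists_sl2_hom (h.slPair hN hM μ0 h1 h3) (h.ne N hN) ρ h.inj
    (fun c => e c N ▸ h.has N hN c) (fun c => by rw [e, smul_smul]; exact h.has M hM _)
  have ex : x = φ (uSL 1) := h.inj (by rw [hφ', sl2Hom_uSL, e, hx'])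
  have ey : y = φ (lSL μ) := h.inj (by rw [hφ', sl2Hom_lSL, e, hy', smul_smul, mul_inv_cancel₀ μ0])
  rw [ex, ey, ← map_mul, orderOf_injective φ hφ]
  set g : SL(2, k) := uSL 1 * lSL μ with hg
  have g1 : g.1 = !![1 + μ, 1; μ, 1] := by
    rw [hg]; ext i j; fin_cases i <;> fin_cases j <;> simp [Matrix.mul_apply, Fin.sum_univ_two]
  have g2 : g.1 * g.1 = μ • g.1 + 1 := by
    rw [g1]; ext i j; fin_cases i <;> fin_cases j <;> simp [Matrix.mul_apply, Fin.sum_univ_two] <;>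
      first | ring1 | linear_combination μ * h2 | linear_combination (1 : k) * h2
  have gp : ∀ n : ℕ, ∃ a b : k, (g ^ n).1 = a • g.1 + b • 1 := by
    intro n
    induction n with
    | zero => exact ⟨0, 1, by simp⟩
    | succ n ih =>
      obtain ⟨a, b, ih⟩ := ih
      refine ⟨a * μ + b, a, ?_⟩
      rw [pow_succ, Matrix.SpecialLinearGroup.coe_mul, ih, add_mul, smul_mul_assoc, g2, smul_mul_assoc,
        one_mul]
      module
  constructor
  · by_contra ho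
    obtain ⟨m, hm⟩ := Nat.not_odd_iff_even.1 ho
    have hpos := orderOf_pos g
    obtain ⟨a, b, hab⟩ := gp m
    have h5 : (g ^ m).1 * (g ^ m).1 = 1 := by
      rw [← Matrix.SpecialLinearGroup.coe_mul, ← pow_add, ← hm, pow_orderOf_eq_one]; rfl
    rw [hab, g1] at h5
    have c1 := congrFun (congrFun h5 0) 1
    have c2 := congrFun (congrFun h5 1) 1
    simp [Matrix.mul_apply, Fin.sum_univ_two] at c1 c2
    have a0 : a = 0 := by
      have : a * a * μ = 0 := by linear_combination c1 - (a * a + a * b) * h2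
      simpa [μ0] using this
    have b1 : b = 1 := by
      have : (b - 1) ^ 2 = 0 := by rw [a0] at c2; linear_combination c2 + (1 - b) * h2
      exact sub_eq_zero.1 (pow_eq_zero_iff two_ne_zero |>.1 this)
    have : g ^ m = 1 := Subtype.ext (by rw [hab, a0, b1]; simp)
    have := Nat.le_of_dvd (by omega) (orderOf_dvd_of_pow_eq_one this)
    omega
  · intro hc
    have μ1 : μ = 1 := by
      have := Fintype.ofFinite k
      have := FiniteField.pow_card_sub_one_eq_one μ μ0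
      rwa [← Nat.card_eq_fintype_card, hc, show 2 - 1 = 1 from rfl, pow_one] at this
    have : Fact (Nat.Prime 3) := ⟨Nat.prime_three⟩
    refine orderOf_eq_prime (Subtype.ext ?_) fun e1 => ?_
    · rw [pow_succ, pow_two, Matrix.SpecialLinearGroup.coe_mul, Matrix.SpecialLinearGroup.coe_mul, g2,
        add_mul, smul_mul_assoc, g2, μ1, one_smul, one_smul, one_mul, add_right_comm, ← two_smul k, h2]
      simp
    · have := congrFun (congrFun (e1 ▸ g1) 0) 1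
      simp at this

end RFam

/-- A non-empty connected family is a conjugacy class. -/
theorem conjClass_of_connected {S : Set (Subgroup G)} (h0 : S.Nonempty)
    (h : IsConnectedFamily (FAdj S) S) : IsConjClassOfSubgroups S := by
  refine ⟨h0, fun A hA B hB => ?_⟩
  have := h A hA B hB
  clear hB
  induction this with
  | refl => exact ⟨1, by simp⟩
  | tail _ hbc ih =>
    obtain ⟨g, rfl⟩ := ih
    obtain ⟨x, -, hx⟩ := R1.exists_conj_eq hbc.2.2
    exact ⟨x * g, by rw [← hx, conjBy_conjBy]⟩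

theorem iSup_subgroupOf_top (S : Set (Subgroup G)) :
    (⨆ A ∈ (fun A : Subgroup G => A.subgroupOf (⨆ B ∈ S, B)) '' S, A) = ⊤ := by
  apply Subgroup.map_injective (⨆ B ∈ S, B).subtype_injective
  rw [← MonoidHom.range_eq_map, Subgroup.range_subtype, iSup_image]
  simp only [Subgroup.map_iSup, Subgroup.subgroupOf_map_subtype]
  exact iSup_congr fun A => iSup_congr fun hA => inf_eq_left.2 (le_biSup (f := fun B => B) hA)

theorem RFam.image_sub (h : RFam k ρ 𝒩) (H : Subgroup G) :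
    (fun A : Subgroup G => A.subgroupOf H) '' (rsg k ρ '' 𝒩) = rsg k (ρ.comp H.subtype) '' 𝒩 := by
  rw [Set.image_image]
  exact Set.image_congr fun N hN => rsg_subgroupOf (h.sq N hN) H

end Cfsg.Agent.Root
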