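import Cfsg.Agent.Low.RF
import Cfsg.Agent.AutCl.PSLTv
import Cfsg.Agent.Classical.SLClass
import Cfsg.Agent.Classical.SLGen

/-! The transvection subgroups of `SL_n(k)` as a linear family of root subgroups (`slFam`, `rfam_sl`):
generation, connectivity of the graph of rank one pairs (`n ≥ 3`). -/

namespace Cfsg.Agent.Root
open Cfsg Matrix

variable {k : Type*} [Field k] {ι : Type*} [Fintype ι] [DecidableEq ι]

theorem vv_mul (u v w x : ι → k) : vecMulVec u v * vecMulVec w x = (v ⬝ᵥ w) • vecMulVec u x := by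
  rw [vecMulVec_mul_vecMulVec, vecMulVec_smul]

theorem exists_dot_one {x : ι → k} (h : x ≠ 0) : ∃ z, x ⬝ᵥ z = 1 := by
  obtain ⟨i, hi⟩ := Function.ne_iff.1 h
  exact ⟨Pi.single i (x i)⁻¹, by simpa using mul_inv_cancel₀ hi⟩

theorem exists_dot_both {x y : ι → k} (h : x ≠ 0) (h' : y ≠ 0) : ∃ z, x ⬝ᵥ z ≠ 0 ∧ y ⬝ᵥ z ≠ 0 := by
  obtain ⟨a, ha⟩ := exists_dot_one h
  obtain ⟨b, hb⟩ := exists_dot_one h'
  by_cases h1 : y ⬝ᵥ a = 0
  · by_cases h2 : x ⬝ᵥ b = 0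
    · exact ⟨a + b, by simp [ha, h2], by simp [hb, h1]⟩
    · exact ⟨b, h2, by simp [hb]⟩
  · exact ⟨a, by simp [ha], h1⟩

theorem exists_dot_zero (h3 : 3 ≤ Fintype.card ι) (x y : ι → k) :
    ∃ z, z ≠ 0 ∧ z ⬝ᵥ x = 0 ∧ z ⬝ᵥ y = 0 := by
  let f : (ι → k) →ₗ[k] (Fin 2 → k) := Matrix.toLin' (Matrix.of ![x, y])
  obtain ⟨z, hz, z0⟩ := Submodule.exists_mem_ne_zero_of_ne_bot
    (LinearMap.ker_ne_bot_of_finrank_lt (f := f) (by simp; omega))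
  have := LinearMap.mem_ker.1 hz
  exact ⟨z, z0, by rw [dotProduct_comm]; exact congrFun this 0,
    by rw [dotProduct_comm]; exact congrFun this 1⟩

variable (k ι) in
/-- The rank one square zero matrices. -/
def slFam : Set (Matrix ι ι k) :=
  {N | ∃ x φ : ι → k, x ≠ 0 ∧ φ ≠ 0 ∧ φ ⬝ᵥ x = 0 ∧ N = vecMulVec x φ}

local notation "ρ₀" => (SpecialLinearGroup.coeMonoidHom : SpecialLinearGroup ι k →* Matrix ι ι k)

theorem rfam_sl : RFam k ρ₀ (slFam k ι) where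
  inj := SpecialLinearGroup.coeMonoidHom_injective
  sq := by rintro _ ⟨x, φ, -, -, e, rfl⟩; rw [vv_mul, e, zero_smul]
  ne := by rintro _ ⟨x, φ, h1, h2, -, rfl⟩; exact vecMulVec_ne_zero h1 h2
  has := by
    rintro _ ⟨x, φ, -, -, e, rfl⟩ c
    exact ⟨AutCl.tv (c • x) φ (by simp [e]), by simp [smul_vecMulVec]⟩
  conj := by
    rintro _ ⟨x, φ, h1, h2, e, rfl⟩ g
    refine ⟨g.1 *ᵥ x, φ ᵥ* g⁻¹.1, AutCl.SL_mulVec_ne_zero g h1, fun h => h2 ?_, ?_, ?_⟩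
    · rw [← vecMul_one φ, show (1 : Matrix ι ι k) = g⁻¹.1 * g.1 from congrArg Subtype.val
        (inv_mul_cancel g).symm, ← vecMul_vecMul, h, zero_vecMul]
    · rw [← dotProduct_mulVec, AutCl.SL_inv_mulVec, e]
    · rw [mul_assoc, vecMulVec_mul, mul_vecMulVec]; rfl
  pair := by
    rintro _ ⟨x, φ, h1, h2, e, rfl⟩ _ ⟨y, ψ, h3, h4, e', rfl⟩
    refine ⟨(φ ⬝ᵥ y) * (ψ ⬝ᵥ x), by simp [vv_mul, smul_smul], by simp [vv_mul, smul_smul, mul_comm],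
      fun h => ?_⟩
    simp only [vv_mul]
    by_cases a : φ ⬝ᵥ y = 0
    · by_cases b : ψ ⬝ᵥ x = 0
      · simp [a, b]
      · exact .inr ⟨(-(ψ ⬝ᵥ x)) • y, φ, by simp [b, h3], h2, by simp [a], by simp [a, smul_vecMulVec]⟩
    · have b : ψ ⬝ᵥ x = 0 := (mul_eq_zero.1 h).resolve_left a
      exact .inr ⟨(φ ⬝ᵥ y) • x, ψ, by simp [a, h1], h4, by simp [b], by simp [b, smul_vecMulVec]⟩

theorem single_mem_slFam {i j : ι} (h : i ≠ j) {c : k} (hc : c ≠ 0) : single i j c ∈ slFam k ι :=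
  ⟨Pi.single i c, Pi.single j 1, by simp [hc], by simp, by simp [h.symm], by
    ext a b; simp [vecMulVec_apply, single_apply, Pi.single_apply, ite_and, eq_comm]
    split_ifs <;> rfl⟩

theorem gen_sl : (⨆ A ∈ rsg k ρ₀ '' slFam k ι, A) = ⊤ := by
  refine Classical.eq_top_of_transvection_mem _ fun i j h c => ?_
  have hN := single_mem_slFam h (one_ne_zero (α := k))
  refine (le_biSup (f := fun B => B) (Set.mem_image_of_mem (rsg k ρ₀) hN) : rsg k ρ₀ _ ≤ _) ?_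
  exact (mem_rsg (rfam_sl.sq _ hN)).2 ⟨c, by simp [SpecialLinearGroup.transvection_coe]⟩

theorem sl_adj {x φ z χ : ι → k} (e : φ ⬝ᵥ x = 0) (e' : χ ⬝ᵥ z = 0) (a : φ ⬝ᵥ z ≠ 0) (b : χ ⬝ᵥ x ≠ 0) :
    FAdj (rsg k ρ₀ '' slFam k ι) (rsg k ρ₀ (vecMulVec x φ)) (rsg k ρ₀ (vecMulVec z χ)) := by
  have h1 : x ≠ 0 := by rintro rfl; simp at b
  have h2 : φ ≠ 0 := by rintro rfl; simp at a
  exact rfam_sl.fadj ⟨x, φ, h1, h2, e, rfl⟩ ⟨z, χ, by rintro rfl; simp at a, by rintro rfl; simp at b,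
    e', rfl⟩ (by simp [vv_mul, a, b, h1, h2])

theorem connected_sl (h3 : 3 ≤ Fintype.card ι) :
    IsConnectedFamily (FAdj (rsg k ρ₀ '' slFam k ι)) (rsg k ρ₀ '' slFam k ι) := by
  rintro _ ⟨_, ⟨x, φ, h1, h2, e, rfl⟩, rfl⟩ _ ⟨_, ⟨y, ψ, h4, h5, e', rfl⟩, rfl⟩
  have s1 : ∀ x φ ψ : ι → k, x ≠ 0 → φ ≠ 0 → ψ ≠ 0 → φ ⬝ᵥ x = 0 → ψ ⬝ᵥ x = 0 →
      Relation.ReflTransGen (FAdj (rsg k ρ₀ '' slFam k ι)) (rsg k ρ₀ (vecMulVec x φ))
        (rsg k ρ₀ (vecMulVec x ψ)) := by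
    intro x φ ψ h1 h2 h3 e e'
    obtain ⟨z, a, b⟩ := exists_dot_both h2 h3
    obtain ⟨χ, c⟩ := exists_dot_one h1
    rw [dotProduct_comm] at c
    have d : (χ - ((χ ⬝ᵥ z) / (φ ⬝ᵥ z)) • φ) ⬝ᵥ z = 0 := by simp [a]
    have d' : (χ - ((χ ⬝ᵥ z) / (φ ⬝ᵥ z)) • φ) ⬝ᵥ x ≠ 0 := by simp [c, e]
    exact .tail (.single (sl_adj e d a d')) (sl_adj d e' d' b)
  obtain ⟨ω, ω0, a, b⟩ := exists_dot_zero h3 x y
  refine ((s1 x φ ω h1 h2 ω0 e a).trans ?_).trans (s1 y ω ψ h4 ω0 h5 b e')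
  obtain ⟨χ, c, d⟩ := exists_dot_both h1 h4
  rw [dotProduct_comm] at c d
  obtain ⟨z, f⟩ := exists_dot_one ω0
  have g : χ ⬝ᵥ (z - ((χ ⬝ᵥ z) / (χ ⬝ᵥ x)) • x) = 0 := by simp [c]
  have g' : ω ⬝ᵥ (z - ((χ ⬝ᵥ z) / (χ ⬝ᵥ x)) • x) ≠ 0 := by simp [f, a]
  exact .tail (.single (sl_adj a g g' c)) (sl_adj g b d g')

theorem sl_eq (h3 : 3 ≤ Fintype.card ι) {i j : ι} (h : i ≠ j) :
    {A : Subgroup (SpecialLinearGroup ι k) | ∃ g, A = conjBy (Subgroup.closure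
      {t : SpecialLinearGroup ι k | ∃ c : k, (t : Matrix ι ι k) = transvection i j c}) g} =
      rsg k ρ₀ '' slFam k ι := by
  have hN := single_mem_slFam h (one_ne_zero (α := k))
  have e : Subgroup.closure {t : SpecialLinearGroup ι k | ∃ c : k, (t : Matrix ι ι k) =
      transvection i j c} = rsg k ρ₀ (single i j 1) := by
    unfold rsg; simp [transvection]
  rw [e]
  ext A
  refine ⟨?_, fun hA => (conjClass_of_connected ⟨_, Set.mem_image_of_mem _ hN⟩ (connected_sl h3)).2 _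
    (Set.mem_image_of_mem _ hN) A hA⟩
  rintro ⟨g, rfl⟩
  exact ⟨_, rfam_sl.conj _ hN g, (rfam_sl.conjBy_rsg hN g).symm⟩

end Cfsg.Agent.Root
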