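import Cfsg.Agent.Root.Sub4

/-! Rational structures `RtN Φ₀ Φ j` without dimension bound (basic lemmas, `RtN.mem_of_all`,
`exists_pullN`) and the subgroup `sl2H` of `SL₂` attached to an `SL₂`-pair (`hasL_neg`). -/

set_option autoImplicit false

namespace Cfsg.Agent.Root.Mx

open Cfsg.Agent.Geom Cfsg.Agent.AutCl Module

section SL2
open scoped MatrixGroups
variable {F : Type*} [Field F] {V : Type*} [AddCommGroup V] [Module F V]

/-- The relations of an `SL₂`-pair. -/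
structure Sl2P (N L : Module.End F V) : Prop where
  nn : N * N = 0
  ll : L * L = 0
  nln : N * (L * N) = N
  lnl : L * (N * L) = L

/-- The representation of `SL₂` (minus the identity) attached to `N`, `L`. -/
def sl2φ (N L : Module.End F V) (m : SL(2, F)) : Module.End F V :=
  (m.1 0 0 - 1) • (N * L) + m.1 0 1 • N + m.1 1 0 • L + (m.1 1 1 - 1) • (L * N)

theorem Sl2P.φ_mul {N L : Module.End F V} (h : Sl2P N L) (a b : SL(2, F)) :
    sl2φ N L (a * b) = sl2φ N L a + sl2φ N L b + sl2φ N L a * sl2φ N L b := by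
  have e1' : ∀ x, N * (L * (N * x)) = N * x := fun x => by rw [← mul_assoc L, ← mul_assoc, h.nln]
  have e2' : ∀ x, L * (N * (L * x)) = L * x := fun x => by rw [← mul_assoc N, ← mul_assoc, h.lnl]
  have hNN' : ∀ x, N * (N * x) = 0 := fun x => by rw [← mul_assoc, h.nn, zero_mul]
  have hLL' : ∀ x, L * (L * x) = 0 := fun x => by rw [← mul_assoc, h.ll, zero_mul]
  simp only [sl2φ, Matrix.SpecialLinearGroup.coe_mul, Matrix.mul_apply, Fin.sum_univ_two, mul_add, add_mul,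
    smul_mul_assoc, mul_smul_comm, mul_assoc, h.nln, h.lnl, e1', e2', h.nn, h.ll, hNN', hLL', mul_zero,
    smul_zero]
  module

/-- The elements of `SL₂` realised in `X`. -/
def Sl2P.H [Finite F] {N L : Module.End F V} (h : Sl2P N L) (X : Subgroup (V ≃ₗ[F] V)) :
    Subgroup SL(2, F) :=
  let H : Submonoid SL(2, F) :=
    { carrier := {m | HasL X (sl2φ N L m)}
      one_mem' := HasL.zero.congr (by simp [sl2φ])
      mul_mem' := fun ha hb => by rw [Set.mem_ofPred_eq, h.φ_mul]; exact HasL.mul ha hb }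
  { H with
    inv_mem' := fun {m} hm => by
      have := H.pow_mem hm (orderOf m - 1)
      rwa [← inv_eq_of_mul_eq_one_right (a := m) (b := m ^ (orderOf m - 1)) (by
        rw [← pow_succ', Nat.sub_add_cancel (orderOf_pos m), pow_orderOf_eq_one])] at this }

theorem Sl2P.mem_H [Finite F] {N L : Module.End F V} (h : Sl2P N L) {X : Subgroup (V ≃ₗ[F] V)}
    {m : SL(2, F)} : m ∈ h.H X ↔ HasL X (sl2φ N L m) := Iff.rfl

theorem sl2φ_u (N L : Module.End F V) (c : F) : sl2φ N L (Classical.uSL c) = c • N := by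
  simp [sl2φ, Classical.uSL]

theorem sl2φ_l (N L : Module.End F V) (c : F) : sl2φ N L (Classical.lSL c) = c • L := by
  simp [sl2φ, Classical.lSL]

theorem neg_one_mem [Finite F] (h2 : (2 : F) ≠ 0) {H : Subgroup SL(2, F)} {μ : F} (hμ : μ ≠ 0)
    (hu : Classical.uSL 1 ∈ H) (hl : Classical.lSL μ ∈ H) : -1 ∈ H := by
  have key : Classical.lSL 1 ∈ H → -1 ∈ H := fun h1 => by
    have e0 : (Classical.lSL 1 : SL(2, F))⁻¹ = Classical.lSL (-1) := inv_eq_of_mul_eq_one_right (by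
      refine Subtype.ext ?_
      rw [Matrix.SpecialLinearGroup.coe_mul]
      simp [Classical.lSL, Matrix.one_fin_two])
    have := H.pow_mem (H.mul_mem (H.mul_mem hu (e0 ▸ H.inv_mem h1)) hu) 2
    convert this using 1
    have e : (Classical.uSL 1 * Classical.lSL (-1) * Classical.uSL 1 : SL(2, F)).1 = !![0, 1; -1, 0] := by
      rw [Matrix.SpecialLinearGroup.coe_mul, Matrix.SpecialLinearGroup.coe_mul]
      simp [Classical.uSL, Classical.lSL]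
    refine Subtype.ext ?_
    rw [sq, Matrix.SpecialLinearGroup.coe_mul, e, Matrix.SpecialLinearGroup.coe_neg]
    simp [Matrix.one_fin_two]
  by_cases h1 : μ ^ 2 = -1
  swap; · exact key (dickson_fin_sub h2 hμ h1 hu hl).1
  by_cases h3 : (3 : F) = 0
  · have := H.pow_mem (H.mul_mem hu hl) 5
    convert this using 1
    have e : (Classical.uSL 1 * Classical.lSL μ : SL(2, F)).1 = !![1 + μ, 1; μ, 1] := by
      rw [Matrix.SpecialLinearGroup.coe_mul]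
      simp [Classical.uSL, Classical.lSL]
    refine Subtype.ext ?_
    rw [Matrix.SpecialLinearGroup.coe_pow, e, Matrix.SpecialLinearGroup.coe_neg]
    ext i j
    fin_cases i <;> fin_cases j <;> simp [pow_succ] <;> grind
  refine key (dickson_fin_sub h2 (μ := 2 * μ) (mul_ne_zero h2 hμ) (fun e => h3 ?_) hu ?_).1
  · linear_combination 4 * h1 - e
  · convert H.mul_mem hl hl using 1
    refine Subtype.ext ?_
    rw [Matrix.SpecialLinearGroup.coe_mul]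
    simp [Classical.lSL, two_mul]

theorem hasL_neg [Finite F] (h2 : (2 : F) ≠ 0) {X : Subgroup (V ≃ₗ[F] V)} {N L : Module.End F V}
    (h : Sl2P N L) {μ : F} (hμ : μ ≠ 0) (hN : HasL X N) (hL : HasL X (μ • L)) :
    HasL X ((-2 : F) • (N * L + L * N)) :=
  (h.mem_H.1 (neg_one_mem h2 hμ (h.mem_H.2 (by rwa [sl2φ_u, one_smul])) (h.mem_H.2 (by rwa [sl2φ_l])))).congr
    fun v => by simp [sl2φ]; module

theorem inv_mem_subring [Finite F] {R : Subring F} {x : F} (hx : x ∈ R) : x⁻¹ ∈ R := by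
  rcases eq_or_ne x 0 with rfl | h0
  · simp
  haveI := Fintype.ofFinite F
  have h1 := FiniteField.pow_card_sub_one_eq_one x h0
  have h2 : 1 < Fintype.card F := Fintype.one_lt_card
  rw [show Fintype.card F - 1 = (Fintype.card F - 2) + 1 by omega, pow_succ] at h1
  rw [← eq_inv_of_mul_eq_one_left h1]
  exact pow_mem hx _

end SL2

section Main
variable {F₀ F : Type*} [Field F₀] [Field F] [Algebra F₀ F] {σ₀ : F₀ →+* F₀} {σ : F →+* F}
  {V₀ V : Type*} [AddCommGroup V₀] [Module F₀ V₀] [AddCommGroup V] [Module F V]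

/-- `j` embeds the formed space `Φ₀` over `F₀` as a rational structure of `Φ`. -/
structure RtN (Φ₀ : Formed σ₀ V₀) (Φ : Formed σ V) (j : V₀ →ₛₗ[algebraMap F₀ F] V) : Prop where
  hn : Φ.Nondeg
  hn₀ : Φ₀.Nondeg
  hB : ∀ x y, Φ.B (j x) (j y) = algebraMap F₀ F (Φ₀.B x y)
  hQ : ∀ x, Φ.Q (j x) = algebraMap F₀ F (Φ₀.Q x)
  hσ : ∀ c, σ (algebraMap F₀ F c) = algebraMap F₀ F (σ₀ c)
  hε : Φ.ε = algebraMap F₀ F Φ₀.ε
  hτ : Φ.τ = algebraMap F₀ F Φ₀.τ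
  span : Submodule.span F (Set.range j) = ⊤
  fin : FiniteDimensional F₀ V₀

variable {Φ₀ : Formed σ₀ V₀} {Φ : Formed σ V} {j : V₀ →ₛₗ[algebraMap F₀ F] V}
  {X : Subgroup (V ≃ₗ[F] V)}

local notation "f" => algebraMap F₀ F

namespace RtN

theorem B_zero (h : RtN Φ₀ Φ j) {x y : V₀} (e : Φ₀.B x y = 0) : Φ.B (j x) (j y) = 0 := by
  rw [h.hB, e, map_zero]

theorem B_one (h : RtN Φ₀ Φ j) {x y : V₀} (e : Φ₀.B x y = 1) : Φ.B (j x) (j y) = 1 := by
  rw [h.hB, e, map_one]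

theorem B_ne (h : RtN Φ₀ Φ j) {x y : V₀} (e : Φ₀.B x y ≠ 0) : Φ.B (j x) (j y) ≠ 0 := by
  rw [h.hB]; simpa

theorem B_mem (h : RtN Φ₀ Φ j) (x y : V₀) : Φ.B (j x) (j y) ∈ (f).fieldRange := ⟨_, (h.hB x y).symm⟩

theorem sing (h : RtN Φ₀ Φ j) {x : V₀} : Φ.Sing (j x) ↔ Φ₀.Sing x := by
  simp only [Formed.Sing, h.hQ, h.hB, map_eq_zero]

theorem inj (h : RtN Φ₀ Φ j) : Function.Injective j :=
  (injective_iff_map_eq_zero j).2 fun x hx => h.hn₀ x fun y => by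
    simpa [hx] using (h.hB x y).symm

theorem ne (h : RtN Φ₀ Φ j) {x : V₀} (hx : x ≠ 0) : j x ≠ 0 := by rwa [Ne, map_eq_zero_iff j h.inj]

theorem eq_zero (h : RtN Φ₀ Φ j) {v : V} (hv : ∀ w, Φ.B v (j w) = 0) : v = 0 := h.hn v fun y => by
  have : Submodule.span F (Set.range j) ≤ LinearMap.ker (Φ.B v) :=
    Submodule.span_le.2 (by rintro _ ⟨w, rfl⟩; exact hv w)
  exact this (h.span ▸ Submodule.mem_top)

theorem σ_mem (h : RtN Φ₀ Φ j) {c : F} (hc : σ c ∈ (f).fieldRange) : c ∈ (f).fieldRange := by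
  obtain ⟨a, ha⟩ := hc
  exact ⟨σ₀ a, by rw [← h.hσ, ha, Φ.σσ]⟩

theorem ε_mem (h : RtN Φ₀ Φ j) : Φ.ε ∈ (f).fieldRange := ⟨_, h.hε.symm⟩

theorem rat_of_B (h : RtN Φ₀ Φ j) {v : V} (hv : ∀ w, Φ.B v (j w) ∈ (f).fieldRange) : ∃ r, v = j r := by
  haveI := h.fin
  choose φ hφ using hv
  obtain ⟨r, hr⟩ := h.hn₀.exists_eq_B
    { toFun := φ
      map_add' := fun x y => (f).injective (by simp [hφ])
      map_smul' := fun c x => (f).injective (by simp [hφ, map_smulₛₗ]) }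
  refine ⟨r, sub_eq_zero.1 (h.eq_zero fun w => ?_)⟩
  rw [Φ.B_sub_left, h.hB, hr, ← hφ]; simp

theorem rat_add (h : RtN Φ₀ Φ j) {u : V₀} (hu : u ≠ 0) {v : V}
    (hv : ∀ w, Φ₀.B u w = 0 → Φ.B v (j w) ∈ (f).fieldRange) : ∃ r, ∃ μ : F, v = j r + μ • j u := by
  obtain ⟨u', hu'⟩ := h.hn₀.exists_eq_one hu
  obtain ⟨r, hr⟩ := h.rat_of_B (v := v - σ (Φ.B v (j u')) • j u) fun w => by
    convert hv (w - Φ₀.B u w • u') (by simp [hu']) using 1
    rw [Φ.B_sub_left, Φ.B_smul_left, Φ.σσ, h.hB]; simp [map_smulₛₗ, mul_comm]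
  exact ⟨r, _, sub_eq_iff_eq_add.1 hr⟩

theorem mem_span (h : RtN Φ₀ Φ j) {u : V₀} (hu : u ≠ 0) {v : V}
    (hv : ∀ w, Φ₀.B u w = 0 → Φ.B v (j w) = 0) : v ∈ F ∙ j u := by
  obtain ⟨u', hu'⟩ := h.hn₀.exists_eq_one hu
  refine Submodule.mem_span_singleton.2 ⟨σ (Φ.B v (j u')), (sub_eq_zero.1 (h.eq_zero fun w => ?_)).symm⟩
  convert hv (w - Φ₀.B u w • u') (by simp [hu']) using 1
  rw [Φ.B_sub_left, Φ.B_smul_left, Φ.σσ, h.hB]; simp [map_smulₛₗ, mul_comm]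

theorem notMem (h : RtN Φ₀ Φ j) {u w : V₀} (hw : w ∉ F₀ ∙ u) : j w ∉ F ∙ j u := fun hc => by
  haveI := h.fin
  obtain ⟨t, h1, h2⟩ := exists_dual1 h.hn₀ hw
  obtain ⟨c, hc⟩ := Submodule.mem_span_singleton.1 hc
  have := h.B_one h1
  rw [← hc, Φ.B_smul_left, h.B_zero h2, mul_zero] at this
  exact zero_ne_one this

theorem smul_rat (h : RtN Φ₀ Φ j) {u u' : V₀} {c : F} (hu : u ≠ 0) (e : c • j u = j u') :
    c ∈ (f).fieldRange := by
  obtain ⟨t, ht⟩ := h.hn₀.exists_eq_one hu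
  refine h.σ_mem ⟨Φ₀.B u' t, ?_⟩
  rw [← h.hB, ← e, Φ.B_smul_left, h.B_one ht, mul_one]

/-- A map sending rational points to rational points preserves the rational structure. -/
theorem mem_of_all [Finite V] (h : RtN Φ₀ Φ j) {g : V ≃ₗ[F] V}
    (hg : ∀ e, ∃ (c : F) (r : V₀), g (j e) = c • j r) : g ∈ ratG F (Set.range j) := by
  haveI := h.fin
  by_cases h0 : ∀ e : V₀, e = 0
  · exact mem_ratG.2 ⟨1, one_ne_zero, by rintro _ ⟨v, rfl⟩; exact ⟨0, by simp [h0 v]⟩⟩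
  push Not at h0
  obtain ⟨u, hu⟩ := h0
  obtain ⟨c, r, e0⟩ := hg u
  have h1 : c • j r ≠ 0 := e0 ▸ (map_ne_zero_iff g g.injective).2 (h.ne hu)
  have hc : c ≠ 0 := left_ne_zero_of_smul h1
  have hr : r ≠ 0 := by rintro rfl; simp at h1
  refine mem_ratG.2 ⟨c⁻¹, inv_ne_zero hc, ?_⟩
  rintro _ ⟨v, rfl⟩
  by_cases hv : v ∈ F₀ ∙ u
  · obtain ⟨k, rfl⟩ := Submodule.mem_span_singleton.1 hv
    exact ⟨k • r, by simp [map_smulₛₗ, e0, smul_smul, mul_comm, mul_left_comm, hc]⟩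
  obtain ⟨c₁, r₁, e1⟩ := hg v
  obtain ⟨c₂, r₂, e2⟩ := hg (v + u)
  have n : r₁ ∉ F₀ ∙ r := fun hm => h.notMem hv (by
    obtain ⟨k, rfl⟩ := Submodule.mem_span_singleton.1 hm
    exact Submodule.mem_span_singleton.2 ⟨c₁ * f k * c⁻¹, g.injective (by
      rw [map_smul, e0, e1, map_smulₛₗ, smul_smul, smul_smul, inv_mul_cancel_right₀ hc])⟩)
  obtain ⟨t, t1, t2⟩ := exists_dual1 h.hn₀ (notMem_symm n hr)
  rw [map_add, map_add, e0, e1] at e2
  have e3 := congrArg (fun x => Φ.B x (j t)) e2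
  simp only [Φ.B_add_left, Φ.B_smul_left, h.B_one t1, h.B_zero t2, mul_zero, zero_add, mul_one, h.hB] at e3
  have e4 : c = c₂ * f (σ₀ (Φ₀.B r₂ t)) := by rw [← h.hσ, ← Φ.σσ c, e3, map_mul, Φ.σσ]
  have e5 : σ₀ (Φ₀.B r₂ t) ≠ 0 := fun e => hc (by rw [e4, e, map_zero, mul_zero])
  refine ⟨(σ₀ (Φ₀.B r₂ t))⁻¹ • r₂ - r, ?_⟩
  rw [e1, eq_sub_of_add_eq e2, map_sub, map_smulₛₗ, smul_sub, inv_smul_smul₀ hc, smul_smul, map_inv₀]
  have : c₂ ≠ 0 := fun e => hc (by rw [e4, e, zero_mul])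
  congr 2
  rw [e4]; field_simp

variable [FiniteDimensional F V]

theorem lift (h : RtN Φ₀ Φ j) {p a : V₀} {d : F₀} (hp : Φ₀.Sing p) (hpa : Φ₀.B p a = 0)
    (hQ : Φ₀.τ * d = Φ₀.Q a) (hB : Φ₀.ε * d + σ₀ d = Φ₀.B a a) : ∃ g, IsE Φ (j p) (j a) (f d) g :=
  exists_isE h.hn (h.sing.2 hp) (h.B_zero hpa) (by rw [h.hτ, h.hQ, ← hQ, map_mul])
    (by rw [h.hε, h.hB, h.hσ, ← hB, map_add, map_mul])

omit [FiniteDimensional F V] in
theorem app (h : RtN Φ₀ Φ j) {p a : V₀} {d : F₀} {g : V ≃ₗ[F] V} (hg : IsE Φ (j p) (j a) (f d) g) (x : V₀) :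
    g (j x) = j (x + (Φ₀.B a x - d * Φ₀.B p x) • p - (Φ₀.ε * Φ₀.B p x) • a) := by
  rw [hg.app]; simp [map_smulₛₗ, h.hB, h.hε]

theorem hasE (h : RtN Φ₀ Φ j) (hX : Ov Φ j X) {p a : V₀} (hp : Φ₀.Sing p) (hpa : Φ₀.B p a = 0) :
    ∃ d, HasE Φ X (j p) (j a) (f d) := by
  obtain ⟨d, h1, h2⟩ := Φ₀.trace a
  obtain ⟨g, hg⟩ := h.lift hp hpa h1 h2
  exact ⟨d, g, hX.rat _ _ _ _ hg, hg⟩

theorem hasE0 (h : RtN Φ₀ Φ j) (hX : Ov Φ j X) {p a : V₀} (hp : Φ₀.Sing p) (ha : Φ₀.Sing a)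
    (hpa : Φ₀.B p a = 0) : HasE Φ X (j p) (j a) 0 := by
  obtain ⟨g, hg⟩ := h.lift (d := 0) hp hpa (by simp [ha.1]) (by simp [ha.2])
  exact ⟨g, hX.rat _ _ _ _ hg, by simpa using hg⟩

omit [FiniteDimensional F V] in
theorem mem_AE (h : RtN Φ₀ Φ j) {u : V₀} (hu0 : u ≠ 0) (hu : Φ₀.Sing u)
    (ht : ∀ (c : F) w, Φ₀.B u w = 0 → c • j w ∈ AE Φ X (h.sing.2 hu)) (v : V) (hv : Φ.B (j u) v = 0) :
    v ∈ AE Φ X (h.sing.2 hu) := by
  obtain ⟨u', hu'⟩ := h.hn₀.exists_eq_one hu0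
  have : ∀ v : V, ∀ c : F, c • (v - Φ.B (j u) v • j u') ∈ AE Φ X (h.sing.2 hu) := fun v => by
    induction (h.span ▸ Submodule.mem_top : v ∈ Submodule.span F (Set.range j)) using
      Submodule.span_induction with
    | mem x hx =>
      obtain ⟨w, rfl⟩ := hx
      intro c
      have := ht c (w - Φ₀.B u w • u') (by simp [hu'])
      rwa [map_sub, map_smulₛₗ, ← h.hB] at this
    | zero => simp
    | add x y _ _ hx hy =>
      intro c
      convert add_mem (hx c) (hy c) using 1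
      rw [map_add]; module
    | smul e x _ hx =>
      intro c
      convert hx (c * e) using 1
      rw [map_smul, smul_eq_mul]; module
  simpa [hv] using this v 1

omit [FiniteDimensional F V] in
theorem ov [Finite V] (h : RtN Φ₀ Φ j) (h1 : ratG F (Set.range j) ⊓ EG Φ ≤ X) (h2 : X ≤ EG Φ) : Ov Φ j X :=
  ⟨fun p a d g hg => h1 ⟨mem_ratG.2 ⟨1, one_ne_zero, by
    rintro _ ⟨v, rfl⟩; exact ⟨_, by rw [one_smul, h.app hg]⟩⟩, IsE_mem_EG hg⟩, h2.trans EG_le_isom⟩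

end RtN
end Main

variable {F : Type*} [Field F] {σ : F →+* F} {V : Type*} [AddCommGroup V] [Module F V]

theorem exists_pullN {Φ : Formed σ V} {F₀ : Subfield F} {V₀ : Type*} [AddCommGroup V₀] [Module F₀ V₀]
    [FiniteDimensional F₀ V₀]
    (j : V₀ →ₛₗ[algebraMap F₀ F] V) (hσ : ∀ x ∈ F₀, σ x ∈ F₀) (hB : ∀ x y, Φ.B (j x) (j y) ∈ F₀)
    (hτ : Φ.τ ∈ F₀) (htr : ∀ x, ∃ d ∈ F₀, Φ.τ * d = Φ.Q (j x) ∧ Φ.ε * d + σ d = Φ.B (j x) (j x))
    (hn : Φ.Nondeg) (hj : Function.Injective j) (hs : Submodule.span F (Set.range j) = ⊤) :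
    ∃ (σ₀ : F₀ →+* F₀) (Φ₀ : Formed σ₀ V₀), RtN Φ₀ Φ j := by
  have hε : Φ.ε ∈ F₀ := by
    rcases mul_self_eq_one_iff.1 Φ.εε with h | h <;> rw [h]
    exacts [one_mem _, neg_mem (one_mem _)]
  have hQ : ∀ x, Φ.Q (j x) ∈ F₀ := fun x => by
    obtain ⟨d, hd, e, -⟩ := htr x
    exact e ▸ mul_mem hτ hd
  let σ₀ : F₀ →+* F₀ := (σ.comp F₀.subtype).codRestrict F₀ fun x => hσ _ x.2
  have hj' : ∀ (c : F₀) x, j (c • x) = (c : F) • j x := fun c x => map_smulₛₗ j c x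
  let Φ₀ : Formed σ₀ V₀ :=
    { B := LinearMap.mk₂'ₛₗ σ₀ (RingHom.id F₀) (fun x y => ⟨_, hB x y⟩)
        (fun x y z => Subtype.ext (by simp)) (fun c x y => Subtype.ext (by simp [hj', σ₀]))
        (fun x y z => Subtype.ext (by simp)) (fun c x y => Subtype.ext (by simp [hj']))
      Q := fun x => ⟨_, hQ x⟩
      ε := ⟨_, hε⟩
      τ := ⟨_, hτ⟩
      σσ := fun a => Subtype.ext (Φ.σσ a)
      εε := Subtype.ext Φ.εε
      σε := Subtype.ext Φ.σε
      symm := fun x y => Subtype.ext (Φ.symm _ _)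
      Q_add := fun x y => Subtype.ext (by simpa using Φ.Q_add (j x) (j y))
      Q_smul := fun c x => Subtype.ext (by simpa [hj'] using Φ.Q_smul c (j x))
      τσ := fun a => Subtype.ext (Φ.τσ a)
      τε := Subtype.ext Φ.τε
      trace := fun x => by
        obtain ⟨d, hd, e1, e2⟩ := htr x
        exact ⟨⟨d, hd⟩, Subtype.ext e1, Subtype.ext e2⟩ }
  refine ⟨σ₀, Φ₀, hn, fun x hx => hj ((hn _ fun y => ?_).trans (map_zero j).symm), fun _ _ => rfl,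
    fun _ => rfl, fun _ => rfl, rfl, rfl, hs, inferInstance⟩
  have : Submodule.span F (Set.range j) ≤ LinearMap.ker (Φ.B (j x)) :=
    Submodule.span_le.2 (by rintro _ ⟨w, rfl⟩; exact congrArg Subtype.val (hx w))
  exact this (hs ▸ Submodule.mem_top)

end Cfsg.Agent.Root.Mx
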