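import Cfsg.Agent.Root.Sub5

/-! Subfield subgroups of `SL_n`, `n ≥ 4`: maximality `isMaximalIn_subSL4` (variant of `Root/Sub5`). -/

set_option autoImplicit false

namespace Cfsg.Agent.Root.Mx

open Cfsg.Agent.Geom Cfsg.Agent.AutCl Module Matrix

variable {F₀ F : Type*} [Field F₀] [Field F] [Algebra F₀ F]
  {V₀ V : Type*} [AddCommGroup V₀] [Module F₀ V₀] [AddCommGroup V] [Module F V]

local notation "f" => algebraMap F₀ F

/-- A rational structure and an overgroup `X` of the rational transvections. -/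
structure RtL4 (j : V₀ →ₛₗ[algebraMap F₀ F] V) (X : Subgroup (V ≃ₗ[F] V)) : Prop where
  ext : ∀ φ, ∃ ψ, Ext j φ ψ
  span : Submodule.span F (Set.range j) = ⊤
  rat : ∀ v, (∀ φ ψ, Ext j φ ψ → ψ v ∈ (f).fieldRange) → ∃ r, v = j r
  dim : 4 ≤ finrank F₀ V₀
  tv : ∀ u φ ψ, Ext j φ ψ → φ u = 0 → HasL X (rk1 (j u) ψ)

variable {j : V₀ →ₛₗ[algebraMap F₀ F] V} {X : Subgroup (V ≃ₗ[F] V)}

namespace RtL4

theorem fin (h : RtL4 j X) : FiniteDimensional F₀ V₀ := .of_finrank_pos (by have := h.dim; omega)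

theorem dual_ext (h : RtL4 j X) {W : Type*} [AddCommGroup W] [Module F W] {a b : V →ₗ[F] W}
    (e : ∀ v, a (j v) = b (j v)) : a = b :=
  LinearMap.ext_on h.span (by rintro _ ⟨v, rfl⟩; exact e v)

theorem exists_ext (h : RtL4 j X) {S : Submodule F₀ V₀} {w : V₀} (hw : w ∉ S) :
    ∃ φ ψ, Ext j φ ψ ∧ φ w = 1 ∧ ∀ s ∈ S, φ s = 0 := by
  obtain ⟨φ, h1⟩ := exists_fun hw
  obtain ⟨ψ, h2⟩ := h.ext φ
  exact ⟨φ, ψ, h2, h1⟩

theorem exists_ext2 (h : RtL4 j X) (a b : V₀) : ∃ φ ψ, Ext j φ ψ ∧ φ ≠ 0 ∧ φ a = 0 ∧ φ b = 0 := by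
  haveI := h.fin
  obtain ⟨w, hw, -⟩ := exists_ker ![] (S := (F₀ ∙ a) ⊔ F₀ ∙ b) (by
    have := finrank_sup_one (F₀ ∙ a) b; have := finrank_span_one (F := F₀) a; have := h.dim; omega)
  obtain ⟨φ, ψ, h1, h2, h3⟩ := h.exists_ext hw
  exact ⟨φ, ψ, h1, by rintro rfl; simp at h2,
    h3 _ (Submodule.mem_sup_left (Submodule.mem_span_singleton_self _)), h3 _ (mem_sup_self _ _)⟩

theorem notMem (h : RtL4 j X) {u w : V₀} (hw : w ∉ F₀ ∙ u) : j w ∉ F ∙ j u := fun hc => by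
  obtain ⟨φ, ψ, h1, h2, h3⟩ := h.exists_ext hw
  obtain ⟨c, hc⟩ := Submodule.mem_span_singleton.1 hc
  have := h1.one h2
  rw [← hc, map_smul, h1.zero (h3 _ (Submodule.mem_span_singleton_self _)), smul_zero] at this
  exact zero_ne_one this

theorem smul_rat (h : RtL4 j X) {u u' : V₀} {c : F} (hu : u ≠ 0) (e : c • j u = j u') :
    c ∈ (f).fieldRange := by
  obtain ⟨φ, ψ, h1, h2, -⟩ := h.exists_ext (S := ⊥) hu
  exact ⟨φ u', by rw [← h1, ← e, map_smul, h1.one h2, smul_eq_mul, mul_one]⟩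

theorem inj (h : RtL4 j X) : Function.Injective j := (injective_iff_map_eq_zero j).2 fun x hx => by
  by_contra h0
  obtain ⟨φ, ψ, h1, h2, -⟩ := h.exists_ext (S := ⊥) h0
  simpa [hx] using h1.one h2

theorem mvψ (h : RtL4 j X) {x : V} {ψ ψ' : Dual F V} {φ' : Dual F₀ V₀} {w : V₀} (hx : HasL X (rk1 x ψ))
    (h0 : ψ x = 0) (e : Ext j φ' ψ') (h1 : φ' w = 0) (h2 : ψ' x = 0) : HasL X (rk1 (ψ (j w) • x) ψ') :=
  rk1_mul x _ ψ _ ▸ hx.comm (h.tv w _ _ e h1) (rk1_mul_zero h0) (rk1_mul_zero (e.zero h1)) (rk1_mul_zero h2)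

theorem mvu (h : RtL4 j X) {x : V} {ψ ψ' : Dual F V} {φ' : Dual F₀ V₀} {w : V₀} (hx : HasL X (rk1 x ψ))
    (h0 : ψ x = 0) (e : Ext j φ' ψ') (h1 : φ' w = 0) (h2 : ψ (j w) = 0) : HasL X (rk1 (ψ' x • j w) ψ) :=
  rk1_mul (j w) _ ψ' _ ▸ (h.tv w _ _ e h1).comm hx (rk1_mul_zero (e.zero h1)) (rk1_mul_zero h0)
    (rk1_mul_zero h2)

theorem mvA (h : RtL4 j X) {u : V₀} {φ φ' : Dual F₀ V₀} {ψ ψ' : Dual F V} {c : F} (e : Ext j φ ψ)
    (hφ : φ ≠ 0) (h0 : φ u = 0) (hc : HasL X (rk1 (c • j u) ψ)) (e' : Ext j φ' ψ')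
    (h0' : φ' u = 0) : HasL X (rk1 (c • j u) ψ') := by
  haveI := h.fin
  have := h.dim
  obtain ⟨w, hw⟩ := LinearMap.surjective_of_ne_zero hφ 1
  have r1 := finrank_span_one (F := F₀) u
  have r2 := finrank_sup_one (F₀ ∙ u) w
  obtain ⟨w', n, hw'⟩ := exists_ker ![φ'] (S := (F₀ ∙ u) ⊔ F₀ ∙ w) (by omega)
  obtain ⟨φ₂, ψ₂, e₂, a1, a2⟩ := h.exists_ext n
  have a3 := a2 u (Submodule.mem_sup_left (Submodule.mem_span_singleton_self _))
  have s1 := h.mvψ hc (by simp [e.zero h0]) e₂ (a2 w (mem_sup_self _ _)) (by simp [e₂.zero a3])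
  rw [e.one hw, one_smul] at s1
  simpa [e₂.one a1] using h.mvψ s1 (by simp [e₂.zero a3]) e' (hw' 0) (by simp [e'.zero h0'])

theorem all (h : RtL4 j X) {u u' : V₀} {φ φ' : Dual F₀ V₀} {ψ ψ' : Dual F V} {c : F} (e : Ext j φ ψ)
    (hu : u ≠ 0) (hφ : φ ≠ 0) (h0 : φ u = 0) (hc : HasL X (rk1 (c • j u) ψ)) (e' : Ext j φ' ψ')
    (h0' : φ' u' = 0) : HasL X (rk1 (c • j u') ψ') := by
  haveI := h.fin
  have := h.dim
  have r1 := finrank_span_one (F := F₀) u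
  have r2 := finrank_sup_one (F₀ ∙ u) u'
  obtain ⟨φ₂, ψ₂, e₂, a1, a3, a4⟩ := h.exists_ext2 u u'
  obtain ⟨u₂, n₂, b⟩ := exists_ker ![φ₂] (S := (F₀ ∙ u) ⊔ F₀ ∙ u') (by omega)
  have b : φ₂ u₂ = 0 := b 0
  obtain ⟨φ₃, ψ₃, e₃, c1, c2⟩ := h.exists_ext (notMem_symm (fun e => n₂ (Submodule.mem_sup_left e)) hu)
  obtain ⟨φ₄, ψ₄, e₄, d1, d2⟩ := h.exists_ext (S := F₀ ∙ u') fun e => n₂ (Submodule.mem_sup_right e)
  have s1 := h.mvA e hφ h0 hc e₂ a3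
  have s2 := h.mvu s1 (by simp [e₂.zero a3]) e₃ (c2 _ (Submodule.mem_span_singleton_self _)) (e₂.zero b)
  rw [map_smul, e₃.one c1, smul_eq_mul, mul_one] at s2
  have s3 := h.mvu s2 (by simp [e₂.zero b]) e₄ (d2 _ (Submodule.mem_span_singleton_self _)) (e₂.zero a4)
  rw [map_smul, e₄.one d1, smul_eq_mul, mul_one] at s3
  exact h.mvA e₂ a1 a4 s3 e' h0'

/-- The ring of parameters. -/
def parR (h : RtL4 j X) : Subring F where
  carrier := {c | ∀ u φ ψ, Ext j φ ψ → φ u = 0 → HasL X (rk1 (c • j u) ψ)}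
  one_mem' := fun u φ ψ e h0 => by simpa using h.tv u φ ψ e h0
  zero_mem' := fun u φ ψ e h0 => HasL.zero.congr (by simp)
  add_mem' := fun ha hb u φ ψ e h0 => ((ha u φ ψ e h0).add (hb u φ ψ e h0)
    (rk1_mul_zero (by simp [e.zero h0]))).congr fun v => by simp [add_smul]
  neg_mem' := fun ha u φ ψ e h0 => ((ha u φ ψ e h0).neg (rk1_mul_zero (by simp [e.zero h0]))).congr
    fun v => by simp
  mul_mem' := fun {a b} ha hb u φ ψ e h0 => by
    haveI := h.fin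
    obtain ⟨w, n, hw⟩ := exists_ker ![φ] (S := F₀ ∙ u) (by
      have := finrank_span_one (F := F₀) u; have := h.dim; omega)
    obtain ⟨φ', ψ', e', a1, a2⟩ := h.exists_ext n
    have a3 := a2 _ (Submodule.mem_span_singleton_self _)
    have hw : φ w = 0 := hw 0
    exact ((ha u _ _ e' a3).comm (hb w _ _ e hw) (rk1_mul_zero (by simp [e'.zero a3]))
      (rk1_mul_zero (by simp [e.zero hw])) (rk1_mul_zero (by simp [e.zero h0]))).congr fun v => by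
        simp [e'.one a1, smul_smul]; congr 1; ring

theorem top_or_small (h : RtL4 j X)
    (hmax : ∀ R : Subring F, (∀ c, f c ∈ R) → R = ⊤ ∨ ∀ c ∈ R, c ∈ (f).fieldRange) :
    (∀ (c : F) u φ ψ, Ext j φ ψ → φ u = 0 → HasL X (rk1 (c • j u) ψ)) ∨ SmallL j X :=
  (hmax h.parR fun c u φ ψ e h0 => by simpa [map_smulₛₗ] using h.tv (c • u) φ ψ e (by simp [h0])).imp
    (fun e c => e.ge (Subring.mem_top c))
    fun hs _ _ _ _ e hu hφ h0 hc => hs _ fun _ _ _ e' h0' => h.all e hu hφ h0 hc e' h0'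

theorem axis (h : RtL4 j X) (hS : SmallL j X) {x : V} {φ : Dual F₀ V₀} {ψ : Dual F V} (e : Ext j φ ψ)
    (hφ : φ ≠ 0) (h0 : ψ x = 0) (hx : HasL X (rk1 x ψ)) : ∃ r, x = j r := h.rat x fun φ' ψ' e' => by
  haveI := h.fin
  obtain ⟨w, n, hw⟩ := exists_ker ![φ, φ'] (S := ⊥) (by have := h.dim; rw [finrank_bot]; omega)
  exact hS w φ ψ _ e n hφ (hw 0) (h.mvu hx h0 e' (hw 1) (e.zero (hw 0)))

variable [Finite V]

theorem mem_of_point (h : RtL4 j X) (hS : SmallL j X) {y : V ≃ₗ[F] V} (hy : y ∈ X) {u u' : V₀} {c : F}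
    (hu : u ≠ 0) (e : y (j u) = c • j u') : y ∈ ratG F (Set.range j) := by
  have h0 : c • j u' ≠ 0 := e ▸ (map_ne_zero_iff y y.injective).2 ((map_ne_zero_iff j h.inj).2 hu)
  have hc : c ≠ 0 := left_ne_zero_of_smul h0
  refine mem_ratG.2 ⟨c⁻¹, inv_ne_zero hc, ?_⟩
  rintro _ ⟨w, rfl⟩
  obtain ⟨φ, ψ, e1, hφ, a1, a2⟩ := h.exists_ext2 u w
  have key : ∀ v, (c • ψ ∘ₗ (y.symm : V →ₗ[F] V)) (j v) ∈ (f).fieldRange := fun v => by
    obtain ⟨φ', ψ', e', hφ', b1, b2⟩ := h.exists_ext2 u' v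
    have := h.mvψ ((h.tv u φ ψ e1 a1).conj_rk1 hy) (by simp [e1.zero a1]) e' b2 (by simp [e, e'.zero b1])
    rw [e, smul_smul, mul_comm] at this
    exact hS u' φ' ψ' _ e' (by rintro rfl; simp at h0) hφ' b1 this
  choose φ' hφ' using key
  let φ'' : Dual F₀ V₀ :=
    { toFun := φ'
      map_add' := fun x y => (f).injective (by simp only [hφ', map_add])
      map_smul' := fun c x => (f).injective (by
        simp only [hφ', map_smulₛₗ, RingHom.id_apply, smul_eq_mul, map_mul]) }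
  obtain ⟨r, hr⟩ := h.axis hS (x := c⁻¹ • y (j w)) (φ := φ'') (fun v => (hφ' v).symm) (fun h1 => hφ (by
      have : c • ψ ∘ₗ (y.symm : V →ₗ[F] V) = 0 := h.dual_ext fun v => by
        rw [← hφ', show φ' v = φ'' v from rfl, h1]; simp
      ext v
      simpa [hc, e1 v] using DFunLike.congr_fun this (y (j v))))
    (by simp [e1.zero a2]) (((h.tv w φ ψ e1 a2).conj_rk1 hy).congr fun v => by
      simp [smul_smul, hc, mul_right_comm])
  exact ⟨r, hr.symm⟩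

theorem mem_of_zero (h : RtL4 j X) (hS : SmallL j X) {g : V ≃ₗ[F] V} (hg : g ∈ X) {e : V₀} (he : e ≠ 0)
    {φ : Dual F₀ V₀} {ψ : Dual F V} (e1 : Ext j φ ψ) (hφ : φ ≠ 0) (h0 : ψ (g (j e)) = 0) :
    g ∈ ratG F (Set.range j) := by
  obtain ⟨φ₀, ψ₀, e₀, hφ₀, a1, -⟩ := h.exists_ext2 e e
  have hx := (h.tv e _ _ e₀ a1).conj_rk1 hg
  set χ := ψ₀ ∘ₗ (g.symm : V →ₗ[F] V)
  have hχ : χ (g (j e)) = 0 := by simp [χ, e₀.zero a1]
  obtain ⟨c, hc, hx⟩ : ∃ c : F, c ≠ 0 ∧ HasL X (rk1 (c • g (j e)) ψ) := by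
    by_cases hw : ∃ w, φ w = 0 ∧ χ (j w) ≠ 0
    · obtain ⟨w, a, b⟩ := hw
      exact ⟨_, b, h.mvψ hx hχ e1 a h0⟩
    push Not at hw
    obtain ⟨w, hw'⟩ := LinearMap.surjective_of_ne_zero hφ 1
    have : χ = χ (j w) • ψ := h.dual_ext fun v => by
      simpa [map_smulₛₗ, e1 v, sub_eq_zero, mul_comm] using hw (v - φ v • w) (by simp [hw'])
    refine ⟨χ (j w), fun h1 => hφ₀ ?_, hx.congr fun v => ?_⟩
    · rw [h1, zero_smul] at this
      ext v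
      simpa [χ, e₀ v] using DFunLike.congr_fun this (g (j v))
    · conv_lhs => rw [this]
      simp [smul_smul, mul_comm]
  obtain ⟨r, hr⟩ := h.axis hS e1 hφ (by simp [h0]) hx
  exact h.mem_of_point hS hg he (u' := r) (by rw [← hr, inv_smul_smul₀ hc])

variable [Finite F] [Finite F₀]

theorem mem_of_deg (h : RtL4 j X) (hS : SmallL j X) (hd : finrank F₀ F ≤ 3) {g : V ≃ₗ[F] V} (hg : g ∈ X) :
    g ∈ ratG F (Set.range j) := by
  haveI := h.fin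
  obtain ⟨φ, ψ, e1, hφ, -⟩ := h.exists_ext2 0 0
  let L : V₀ →ₗ[F₀] F :=
    { toFun := fun v => ψ (g (j v))
      map_add' := by simp
      map_smul' := fun c v => by simp [map_smulₛₗ, Algebra.smul_def] }
  obtain ⟨e, he, he0⟩ := exists_notMem_of_lt (U := LinearMap.ker L) (R := ⊥) (by
    have := L.finrank_range_add_finrank_ker
    have := Submodule.finrank_le (LinearMap.range L)
    have := h.dim
    rw [finrank_bot]; omega)
  exact h.mem_of_zero hS hg he0 e1 hφ he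

theorem mem_of_odd (h : RtL4 j X) (hS : SmallL j X) (h2 : (2 : F) ≠ 0)
    (hsq : ∀ x : F, x ^ 2 ∈ (f).fieldRange → x ∈ (f).fieldRange) {g : V ≃ₗ[F] V} (hg : g ∈ X) :
    g ∈ ratG F (Set.range j) := by
  haveI := h.fin
  have := h.dim
  obtain ⟨e, he, -⟩ := exists_ker ![] (S := (⊥ : Submodule F₀ V₀)) (by rw [finrank_bot]; omega)
  obtain ⟨φ₀, ψ₀, e₀, hφ₀, a1, -⟩ := h.exists_ext2 e e
  have hx := (h.tv e _ _ e₀ a1).conj_rk1 hg
  set χ := ψ₀ ∘ₗ (g.symm : V →ₗ[F] V)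
  have hχ : χ (g (j e)) = 0 := by simp [χ, e₀.zero a1]
  obtain ⟨w, hw⟩ : ∃ w, χ (j w) ≠ 0 := by
    by_contra! hc
    refine hφ₀ (LinearMap.ext fun v => ?_)
    simpa [χ, e₀ v] using DFunLike.congr_fun (h.dual_ext (a := χ) (b := 0) hc) (g (j v))
  have key : ∀ φ ψ, Ext j φ ψ → φ ≠ 0 → φ w = 0 → ψ (g (j e)) * χ (j w) ∈ (f).fieldRange :=
    fun φ ψ e1 hφ h0 => Rt.mem_of_dickson hsq (hasL_dickson h2 (h.tv w φ ψ e1 h0) hx
      (rk1_mul_zero (e1.zero h0)) (rk1_mul_zero hχ) (by ext v; simp [smul_smul]; congr 1; ring)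
      (by ext v; simp [smul_smul]; congr 1; ring)) fun hP =>
        hS w φ ψ _ e1 (by rintro rfl; simp at hw) hφ h0 (hP.congr fun v => by simp [smul_smul, mul_comm])
  have r1 := finrank_span_one (F := F₀) w
  obtain ⟨w₁, n₁, -⟩ := exists_ker ![] (S := F₀ ∙ w) (by omega)
  obtain ⟨w₂, n₂, -⟩ := exists_ker ![] (S := (F₀ ∙ w) ⊔ F₀ ∙ w₁) (by
    have := finrank_sup_one (F₀ ∙ w) w₁; omega)
  obtain ⟨φ₁, ψ₁, e₁, b1, b2⟩ := h.exists_ext n₁
  obtain ⟨φ₂, ψ₂, e₂, c1, c2⟩ := h.exists_ext n₂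
  have hφ₂ : φ₂ ≠ 0 := by rintro rfl; simp at c1
  by_cases h0 : ψ₂ (g (j e)) = 0
  · exact h.mem_of_zero hS hg he e₂ hφ₂ h0
  obtain ⟨κ, hκ⟩ := div_mem (key _ _ e₁ (by rintro rfl; simp at b1) (b2 _ (Submodule.mem_span_singleton_self _)))
    (key _ _ e₂ hφ₂ (c2 _ (Submodule.mem_sup_left (Submodule.mem_span_singleton_self _))))
  refine h.mem_of_zero hS hg he (φ := φ₁ - κ • φ₂) (ψ := ψ₁ - f κ • ψ₂) (fun v => by simp [e₁ v, e₂ v, Algebra.smul_def])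
    (fun e => ?_) (by simp only [LinearMap.sub_apply, LinearMap.smul_apply, hκ, smul_eq_mul]; field_simp; ring)
  simpa [b1, c2 _ (mem_sup_self _ _)] using DFunLike.congr_fun e w₁

omit [Finite F] [Finite F₀] in
theorem exists_lin (h : RtL4 j X) (hsq : ∀ x : F, x ^ 2 ∈ (f).fieldRange → x ∈ (f).fieldRange)
    {z : V ≃ₗ[F] V} (hz : z ∈ ratG F (Set.range j)) (hz2 : z * z = 1) :
    ∃ z₀ : V₀ →ₗ[F₀] V₀, ∀ v, z (j v) = j (z₀ v) := by
  haveI := h.fin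
  obtain ⟨c, hc, hz⟩ := mem_ratG.1 hz
  obtain ⟨e, he0, -⟩ := exists_ker ![] (S := (⊥ : Submodule F₀ V₀)) (by have := h.dim; rw [finrank_bot]; omega)
  obtain ⟨e', he'⟩ := hz _ (hz _ ⟨e, rfl⟩)
  obtain ⟨c, rfl⟩ := hsq c (h.smul_rat he0 (u' := e') (by
    rw [he', map_smul, smul_smul, ← LinearEquiv.mul_apply, hz2, sq]; rfl))
  have : ∀ v, ∃ v', z (j v) = j v' := fun v => by
    obtain ⟨v', hv⟩ := hz _ ⟨v, rfl⟩
    exact ⟨c⁻¹ • v', by rw [map_smulₛₗ, hv, map_inv₀, inv_smul_smul₀ hc]⟩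
  choose φ hφ using this
  exact ⟨{ toFun := φ
           map_add' := fun x y => h.inj (by simp [← hφ])
           map_smul' := fun c x => h.inj (by simp [← hφ, map_smulₛₗ]) }, hφ⟩

omit [Finite F] [Finite F₀] in
theorem mem_of_two (h : RtL4 j X) (hS : SmallL j X) (h2 : (2 : F) = 0)
    (hsq : ∀ x : F, x ^ 2 ∈ (f).fieldRange → x ∈ (f).fieldRange) {g : V ≃ₗ[F] V} (hg : g ∈ X) :
    g ∈ ratG F (Set.range j) := by
  haveI := h.fin
  haveI : Finite (V ≃ₗ[F] V) := Finite.of_injective _ DFunLike.coe_injective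
  have := h.dim
  obtain ⟨e₁, n1, -⟩ := exists_ker ![] (S := (⊥ : Submodule F₀ V₀)) (by rw [finrank_bot]; omega)
  have r1 := finrank_span_one (F := F₀) e₁
  obtain ⟨e₂, n2, -⟩ := exists_ker ![] (S := F₀ ∙ e₁) (by omega)
  have r2 := finrank_sup_one (F₀ ∙ e₁) e₂
  obtain ⟨t₁, n3, -⟩ := exists_ker ![] (S := (F₀ ∙ e₁) ⊔ F₀ ∙ e₂) (by omega)
  have r3 := finrank_sup_one ((F₀ ∙ e₁) ⊔ F₀ ∙ e₂) t₁
  obtain ⟨t₂, n4, -⟩ := exists_ker ![] (S := ((F₀ ∙ e₁) ⊔ F₀ ∙ e₂) ⊔ F₀ ∙ t₁) (by omega)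
  obtain ⟨φ₂, ψ₂, x2, b1, b2⟩ := h.exists_ext n4
  obtain ⟨φ₁, ψ₁, x1, a1, a2⟩ := h.exists_ext (S := ((F₀ ∙ e₁) ⊔ F₀ ∙ e₂) ⊔ F₀ ∙ t₂) fun hc => n4 (exch hc n3)
  have m1 : ∀ t, e₁ ∈ ((F₀ ∙ e₁) ⊔ F₀ ∙ e₂) ⊔ F₀ ∙ t := fun t =>
    Submodule.mem_sup_left (Submodule.mem_sup_left (Submodule.mem_span_singleton_self _))
  have m2 : ∀ t, e₂ ∈ ((F₀ ∙ e₁) ⊔ F₀ ∙ e₂) ⊔ F₀ ∙ t := fun t => Submodule.mem_sup_left (mem_sup_self _ _)
  obtain ⟨a, haX, ha⟩ := (h.tv e₁ _ _ x1 (a2 _ (m1 _))).exists_apply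
  obtain ⟨a', haX', ha'⟩ := (h.tv e₂ _ _ x2 (b2 _ (m2 _))).exists_apply
  have c11 := x1.zero (a2 _ (m1 _))
  have c12 := x1.zero (a2 _ (m2 _))
  have c21 := x2.zero (b2 _ (m1 _))
  have c22 := x2.zero (b2 _ (m2 _))
  have d11 := x1.one a1
  have d12 := x1.zero (a2 _ (mem_sup_self _ _))
  have d21 := x2.zero (b2 _ (mem_sup_self _ _))
  have d22 := x2.one b1
  have tw : ∀ v : V, v + v = 0 := fun v => by rw [← two_smul F, h2, zero_smul]
  have hb : ∀ v, (a * a') v = v + ψ₁ v • j e₁ + ψ₂ v • j e₂ := fun v => by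
    simp [ha, ha', c12]; abel
  have key : ∀ s z : V ≃ₗ[F] V, z ∈ X → Commute z s → (∀ v, ψ₁ (s v - v) = 0) →
      s (j t₁) - j t₁ = j e₁ → z ∈ ratG F (Set.range j) := fun s z hz hc k0 k1 => by
    have hc : ∀ v, z (s v) = s (z v) := fun v => DFunLike.congr_fun hc.eq v
    exact h.mem_of_zero hS hz n1 x1 (by rintro rfl; simp at a1) (by rw [← k0 (z (j t₁)), ← hc, ← map_sub z, k1])
  rcases dihedral_trick haX (X.mul_mem (X.mul_mem hg (X.mul_mem haX haX')) (X.inv_mem hg))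
    (LinearEquiv.ext fun v => by simp [ha, c11, add_assoc, tw])
    (by rw [conj_mul, show a * a' * (a * a') = 1 from LinearEquiv.ext fun v => by
          rw [LinearEquiv.mul_apply, hb, hb]
          simp only [map_add, map_smul, c11, c12, c21, c22, smul_zero, add_zero]
          rw [LinearEquiv.coe_one, id, ← sub_eq_zero, ← tw (ψ₁ v • j e₁ + ψ₂ v • j e₂)]
          abel]; simp) with ⟨y, -, hy⟩ | ⟨z, hzX, hz1, hz2, k1, k2, -⟩
  · exfalso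
    obtain ⟨k, hk⟩ : ∃ k, a * a' = k * a * k⁻¹ := ⟨g⁻¹ * y, by
      rw [mul_assoc g⁻¹, mul_assoc g⁻¹, _root_.mul_inv_rev, ← mul_assoc (y * a), hy]; group⟩
    have hS : ∀ v, (a * a') v - v ∈ F ∙ k (j e₁) := fun v => by
      rw [hk, LinearEquiv.mul_apply, LinearEquiv.mul_apply, ha]
      simpa using Submodule.smul_mem _ _ (Submodule.mem_span_singleton_self _)
    obtain ⟨c, hc⟩ := Submodule.mem_span_singleton.1 (hS (j t₁))
    obtain ⟨d, hd⟩ := Submodule.mem_span_singleton.1 (hS (j t₂))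
    simp only [hb, d11, d12, d21, d22, one_smul, zero_smul, add_zero, add_sub_cancel_left] at hc hd
    have hc0 : c ≠ 0 := by rintro rfl; exact n1 (h.inj (by rw [← hc, zero_smul, map_zero]))
    exact h.notMem n2 (Submodule.mem_span_singleton.2 ⟨d / c, by rw [← hc, ← hd, smul_smul, div_mul_cancel₀ _ hc0]⟩)
  have m1 := key a z hzX k1 (fun v => by simp [ha, c11]) (by simp [ha, d11])
  have m2 := key (a * a') (g⁻¹ * z * g) (X.mul_mem (X.mul_mem (X.inv_mem hg) hzX) hg)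
    (by simpa [mul_assoc] using (Commute.conj_iff g⁻¹).2 k2)
    (fun v => by rw [hb]; simp [c11, c12]) (by rw [hb]; simp [d11, d21])
  have hz2' : g⁻¹ * z * g * (g⁻¹ * z * g) = 1 := by simp [mul_assoc, ← mul_assoc z, hz2]
  obtain ⟨z₀, hz₀⟩ := h.exists_lin hsq m1 hz2
  obtain ⟨z₁, hz₁⟩ := h.exists_lin hsq m2 hz2'
  obtain ⟨v, hv⟩ : ∃ v, z₁ v - v ≠ 0 := by
    by_contra! hc
    have : g⁻¹ * z * g = 1 := LinearEquiv.toLinearMap_injective (h.dual_ext fun v => by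
      change (g⁻¹ * z * g) (j v) = j v
      rw [hz₁, sub_eq_zero.1 (hc v)])
    exact hz1 (by simpa [mul_assoc, inv_mul_eq_one] using this)
  obtain ⟨w, hw⟩ : ∃ w, w ∉ LinearMap.range (z₀ - 1) := by
    by_contra! hc
    refine hz1 (LinearEquiv.toLinearMap_injective (h.dual_ext fun v => ?_))
    obtain ⟨w, rfl⟩ := hc v
    change z (j (z₀ w - w)) = j (z₀ w - w)
    rw [map_sub, map_sub, ← hz₀, ← LinearEquiv.mul_apply, hz2, ← neg_sub, neg_eq_iff_add_eq_zero]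
    exact tw _
  obtain ⟨φ, ψ, x, p1, p2⟩ := h.exists_ext hw
  have : ψ ∘ₗ ((z : V →ₗ[F] V) - 1) = 0 := h.dual_ext fun v => by
    simpa [hz₀] using x.zero (p2 _ ⟨v, rfl⟩)
  refine h.mem_of_zero hS hg hv x (by rintro rfl; simp at p1) ?_
  simpa [← hz₁] using DFunLike.congr_fun this (g (j v))

end RtL4

section Mat
variable {F : Type*} [Field F] {ι : Type} [Fintype ι] [DecidableEq ι] {F₀ : Subfield F} {P : GL ι F}

theorem isMaximalIn_subSL4 [Fintype F] (h5 : 4 ≤ Fintype.card ι) {r : ℕ} (hr : r.Prime)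
    (hc : Fintype.card F = Nat.card F₀ ^ r) :
    Geo.IsMaximalIn (SLg F (ι → F)) (ratG F (Set.range (jP F₀ P)) ⊓ SLg F (ι → F)) := by
  rw [← Nat.card_eq_fintype_card] at hc
  have rt : ∀ X, ratG F (Set.range (jP F₀ P)) ⊓ SLg F (ι → F) ≤ X → RtL4 (jP F₀ P) X := fun X hX =>
    ⟨fun φ => ⟨∑ i, (φ (Pi.single i 1) : F) • coP P i, fun v => by
        conv_rhs => rw [pi_eq_sum_univ' v]
        simp [ext_coP _ v, mul_comm]; rfl⟩, jP_span,
      fun v hv => (mem_range_jP.2 fun i => mem_fieldRange.1 (hv _ _ (ext_coP i))).imp fun _ => Eq.symm,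
      by simpa, fun u φ ψ e h0 => hasL_tv (e.zero h0) (hX ⟨mem_ratG.2 ⟨1, one_ne_zero, by
        rintro _ ⟨v, rfl⟩
        exact ⟨v + φ v • u, by simp [map_smulₛₗ, LinearMap.transvection.apply, e v]⟩⟩, tv_mem_SLg _⟩)⟩
  have top : ∀ X, (∀ (c : F) u φ ψ, Ext (jP F₀ P) φ ψ → φ u = 0 → HasL X (rk1 (c • jP F₀ P u) ψ)) →
      SLg F (ι → F) ≤ X := fun X hX => by
    have : ∀ k, jP F₀ P (Pi.single k 1) ∈ centres X := fun k ψ h0 => by
      rw [← sum_coP (F₀ := F₀) (P := P) ψ]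
      refine (Finset.sum_induction _ (fun χ : Dual F (ι → F) => χ (jP F₀ P (Pi.single k 1)) = 0 ∧
        HasL X (rk1 (jP F₀ P (Pi.single k 1)) χ)) (fun a b ha hb => ⟨by simp [ha.1, hb.1],
          (ha.2.add hb.2 (rk1_mul_zero ha.1)).congr fun v => by simp [add_smul]⟩)
        ⟨rfl, HasL.zero.congr (by simp)⟩ fun i _ => ?_).2
      rcases eq_or_ne i k with rfl | hi
      · exact ⟨by simp [h0], HasL.zero.congr (by simp [h0])⟩
      · exact ⟨by simp [ext_coP i _, hi], (hX (ψ (jP F₀ P (Pi.single i 1))) (Pi.single k 1) _ _ (ext_coP i)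
          (by simp [hi])).congr fun v => by simp [smul_smul, mul_comm]⟩
    refine SLg_le fun p => (jP_span (F₀ := F₀) (P := P)).ge.trans (Submodule.span_le.2 ?_) Submodule.mem_top
    rintro _ ⟨v, rfl⟩
    rw [pi_eq_sum_univ' v, map_sum]
    exact Submodule.sum_mem _ fun i _ => by rw [map_smulₛₗ]; exact Submodule.smul_mem _ _ (this i)
  refine max_crit inf_le_right ?_ fun X h1 h2 g hg hg' => top X (((rt X h1).top_or_small
    (subring_of_prime hr hc)).resolve_right fun hS => hg' ⟨?_, h2 hg⟩)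
  · have h := rt _ le_rfl
    obtain ⟨c, hc⟩ : ∃ c, c ∉ (algebraMap F₀ F).fieldRange := by
      by_contra! hx
      exact Asch.ne_top_of_card_pow hr.two_le hc (top_le_iff.1 fun x _ => mem_fieldRange.1 (hx x))
    obtain ⟨i, k, hik⟩ := Fintype.one_lt_card_iff.1 (show 1 < Fintype.card ι by omega)
    have h0 : coP P k (c • jP F₀ P (Pi.single i 1)) = 0 := by simp [ext_coP k _, hik.symm]
    refine ⟨_, tv_mem_SLg h0, fun hm => hc ?_⟩
    obtain ⟨l, hl, hm⟩ := mem_ratG.1 hm.1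
    have hi : (Pi.single i 1 : ι → F₀) ≠ 0 := by simp
    obtain ⟨u', hu'⟩ := hm _ ⟨Pi.single i 1, rfl⟩
    obtain ⟨l, rfl⟩ := h.smul_rat hi (c := l) (u' := u') (by
      simp [hu', LinearMap.transvection.apply, ext_coP k _, hik.symm])
    obtain ⟨t', ht'⟩ := hm _ ⟨Pi.single k 1, rfl⟩
    refine h.smul_rat hi (u' := l⁻¹ • t' - Pi.single k 1) ?_
    rw [map_sub, map_smulₛₗ, ht', map_inv₀, inv_smul_smul₀ hl]
    simp [LinearMap.transvection.apply, ext_coP k _]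
  rcases hr.eq_two_or_odd' with rfl | ho
  · exact (rt X h1).mem_of_deg hS (by rw [finrank_of_card hc]; omega) hg
  have hsq : ∀ x : F, x ^ 2 ∈ (algebraMap F₀ F).fieldRange → x ∈ (algebraMap F₀ F).fieldRange := fun x hx =>
    mem_fieldRange.2 (mem_of_quad ho hc (zero_mem _) (neg_mem (mem_fieldRange.1 hx)) (by ring))
  by_cases h2 : (2 : F) = 0
  · exact (rt X h1).mem_of_two hS h2 hsq hg
  · exact (rt X h1).mem_of_odd hS h2 hsq hg

end Mat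

end Cfsg.Agent.Root.Mx
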