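import Cfsg.Agent.Low.SubO2

/-! Subfield subgroups in dimension at least six (`R6`): the ring of parameters, the dichotomy `R6.le_or_small`, and the
criterion `R6.isMaximalIn` in terms of images of singular points. -/

set_option autoImplicit false

namespace Cfsg.Agent.Root.Mx

open Cfsg.Agent.Geom Cfsg.Agent.AutCl Module

variable {F₀ F : Type*} [Field F₀] [Field F] [Algebra F₀ F] {σ₀ : F₀ →+* F₀} {σ : F →+* F}
  {V₀ V : Type*} [AddCommGroup V₀] [Module F₀ V₀] [AddCommGroup V] [Module F V]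
  {Φ₀ : Formed σ₀ V₀} {Φ : Formed σ V} {j : V₀ →ₛₗ[algebraMap F₀ F] V} {X : Subgroup (V ≃ₗ[F] V)}

local notation "f" => algebraMap F₀ F

/-- A rational structure of dimension at least six. -/
structure R6 (Φ₀ : Formed σ₀ V₀) (Φ : Formed σ V) (j : V₀ →ₛₗ[algebraMap F₀ F] V) : Prop extends RtN Φ₀ Φ j where
  six : 6 ≤ finrank F₀ V₀

namespace R6
open RtN
variable [FiniteDimensional F V]

variable [Finite F₀]

theorem par_of (h : R6 Φ₀ Φ j) (hX : Ov Φ j X) {p w : V₀} {c d : F} (hp0 : p ≠ 0)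
    (hw : w ∉ F₀ ∙ p) (hpw : Φ₀.B p w = 0) (he : HasE Φ X (j p) (c • j w) d) : Par Φ₀ Φ j X p c := by
  haveI := h.fin
  have h6 := h.six
  refine perp_le_of_inv h.hn₀ (by omega) hp0 (h.sing.1 he.sp)
    ((AE Φ X he.sp).comap ((DistribSMul.toAddMonoidHom V c).comp j.toAddMonoidHom))
    (fun y z d g hy hz hg a ha => ?_) ⟨d, he⟩ hpw hw
  obtain ⟨s, hs⟩ := h.lift hg.sp hg.pa hg.hQ hg.hB
  have := map_mem_AE (hp := he.sp) (hX.rat _ _ _ _ hs) hs.mem_isom (by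
    rw [h.app hs, Φ₀.B_eq_zero_symm hy, Φ₀.B_eq_zero_symm hz]; simp) ha
  change c • j (g a) ∈ AE Φ X he.sp
  rwa [hg.app, ← h.app hs, ← map_smul s c (j a)]

theorem par_step (h : R6 Φ₀ Φ j) (hX : Ov Φ j X) {u p : V₀} {c c' : F} (hp0 : p ≠ 0)
    (hu : u ∉ F₀ ∙ p) (hpu : Φ₀.B p u = 0) (h1 : Par Φ₀ Φ j X u c) (h2 : Par Φ₀ Φ j X p c') :
    Par Φ₀ Φ j X p (σ c * c') := by
  haveI := h.fin
  have h6 := h.six
  obtain ⟨w, hw, a, ha, e⟩ := exists_B_one h.hn₀ (W := ⊤ ⊓ pf Φ₀ ![u, p]) (by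
    have := finrank_pf (Φ := Φ₀) ![u, p] ⊤; rw [finrank_top] at *; omega)
  have hw := mem_pf.1 hw.2
  have ha := mem_pf.1 ha.2
  obtain ⟨d, h1⟩ := h1 w (hw 0)
  obtain ⟨d', h2⟩ := h2 a (ha 1)
  refine h.par_of hX hp0 hu hpu (d := 0) ((h1.move h2 (h.B_zero (Φ₀.B_eq_zero_symm hpu)) ?_ ?_).congr ?_ rfl)
  · rw [Φ.B_smul_left, h.B_zero (Φ₀.B_eq_zero_symm (show Φ₀.B p w = 0 from hw 1)), mul_zero]
  · rw [Φ.B_smul_right, h.B_zero (show Φ₀.B u a = 0 from ha 0), mul_zero]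
  · rw [Φ.B_smul_left, Φ.B_smul_right, h.B_one e, mul_one]

theorem par_σ (h : R6 Φ₀ Φ j) (hX : Ov Φ j X) {u p : V₀} {c : F} (hp0 : p ≠ 0) (hp : Φ₀.Sing p)
    (hu : u ∉ F₀ ∙ p) (hpu : Φ₀.B p u = 0) (h1 : Par Φ₀ Φ j X u c) : Par Φ₀ Φ j X p (σ c) := by
  simpa using h.par_step hX hp0 hu hpu h1 (h.par_rat hX hp 1)

omit [FiniteDimensional F V] in
theorem exists_nbr (h : R6 Φ₀ Φ j) {u p : V₀} (hu0 : u ≠ 0) (hp0 : p ≠ 0) (hu : Φ₀.Sing u) (hp : Φ₀.Sing p) :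
    ∃ z, z ≠ 0 ∧ Φ₀.Sing z ∧ Φ₀.B u z = 0 ∧ Φ₀.B p z = 0 ∧ z ∉ F₀ ∙ u ∧ z ∉ F₀ ∙ p ∧ u ∉ F₀ ∙ z ∧ p ∉ F₀ ∙ z := by
  haveI := h.fin
  have h6 := h.six
  suffices ∃ z, Φ₀.Sing z ∧ Φ₀.B u z = 0 ∧ Φ₀.B p z = 0 ∧ z ∉ F₀ ∙ u ∧ z ∉ F₀ ∙ p from
    let ⟨z, a, b, c, d, e⟩ := this
    ⟨z, by rintro rfl; simp at d, a, b, c, d, e, notMem_symm d hu0, notMem_symm e hp0⟩
  by_cases e : Φ₀.B u p = 0
  swap
  · obtain ⟨z, -, hz, hs, h1⟩ := exists_sing_pf Φ₀ ![u, p] (U := ⊤) (R := ⊥) (by simp; omega)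
    refine ⟨z, hs, h1 0, h1 1, fun H => ?_, fun H => ?_⟩ <;> obtain ⟨k, rfl⟩ := Submodule.mem_span_singleton.1 H
    · have : k = 0 := by simpa [show Φ₀.B p u ≠ 0 from fun e' => e (Φ₀.B_eq_zero_symm e')] using h1 1
      simp [this] at hz
    · have : k = 0 := by simpa [e] using h1 0
      simp [this] at hz
  by_cases hm : p ∈ F₀ ∙ u
  · obtain ⟨z, -, hz, hs, h1⟩ := exists_sing_pf Φ₀ ![u] (U := ⊤) (R := F₀ ∙ u) (by
      have := finrank_span_one (F := F₀) u; simp; omega)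
    refine ⟨z, hs, h1 0, ?_, hz, fun H => hz ((Submodule.span_singleton_le_iff_mem _ _).2 hm H)⟩
    obtain ⟨k, rfl⟩ := Submodule.mem_span_singleton.1 hm
    simp [show Φ₀.B u z = 0 from h1 0]
  exact ⟨u + p, sing_add_of_perp hu hp e, by simp [e, hu.2], by simp [hp.2, Φ₀.B_eq_zero_symm e],
    fun H => hm ((Submodule.add_mem_iff_right _ (Submodule.mem_span_singleton_self u)).1 H),
    fun H => notMem_symm hm hu0 ((Submodule.add_mem_iff_left _ (Submodule.mem_span_singleton_self p)).1 H)⟩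

theorem par_all (h : R6 Φ₀ Φ j) (hX : Ov Φ j X) {u p : V₀} {c : F} (hu0 : u ≠ 0) (hp0 : p ≠ 0)
    (hp : Φ₀.Sing p) (h1 : Par Φ₀ Φ j X u c) : Par Φ₀ Φ j X p c := by
  obtain ⟨z, hz0, hz, e1, e2, -, n2, n3, -⟩ := h.exists_nbr hu0 hp0 (let ⟨_, e⟩ := h1 0 (by simp); h.sing.1 e.sp) hp
  simpa [Φ.σσ] using h.par_σ hX hp0 hp n2 e2 (h.par_σ hX hz0 hz n3 (Φ₀.B_eq_zero_symm e1) h1)

theorem exists_pl (h : R6 Φ₀ Φ j) : ∃ u w, u ≠ 0 ∧ Φ₀.Sing u ∧ Φ₀.Sing w ∧ w ∉ F₀ ∙ u ∧ Φ₀.B u w = 0 := by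
  haveI := h.fin
  have h6 := h.six
  obtain ⟨u, hu0, hu⟩ := exists_sing_top Φ₀ (by omega)
  obtain ⟨z, -, hz, e1, -, n1, -⟩ := h.exists_nbr hu0 hu0 hu hu
  exact ⟨u, z, hu0, hu, hz, n1, e1⟩

/-- The ring of parameters. -/
def parR (h : R6 Φ₀ Φ j) (hX : Ov Φ j X) : Subring F where
  carrier := {c | ∀ p, p ≠ 0 → Φ₀.Sing p → Par Φ₀ Φ j X p c}
  one_mem' := fun p _ hp => by simpa using h.par_rat hX hp 1
  zero_mem' := fun p _ hp => by simpa using h.par_rat hX hp 0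
  add_mem' := fun ha hb p h0 hp w hw => by
    obtain ⟨_, h1⟩ := ha p h0 hp w hw
    obtain ⟨_, h2⟩ := hb p h0 hp w hw
    exact ⟨_, (h1.mul h2).congr (add_smul _ _ _).symm rfl⟩
  neg_mem' := fun ha p h0 hp w hw => by
    obtain ⟨_, h1⟩ := ha p h0 hp w hw
    exact ⟨_, h1.inv.congr (neg_smul _ _).symm rfl⟩
  mul_mem' := fun ha hb p h0 hp => by
    obtain ⟨z, hz0, hz, e1, -, n1, -, n3, -⟩ := h.exists_nbr h0 h0 hp hp
    simpa [Φ.σσ] using h.par_step hX h0 n1 e1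
      (h.par_σ hX hz0 hz n3 (Φ₀.B_eq_zero_symm e1) (ha p h0 hp)) (hb p h0 hp)

theorem mem_parR (h : R6 Φ₀ Φ j) (hX : Ov Φ j X) {u : V₀} {c : F} (hu0 : u ≠ 0)
    (h1 : Par Φ₀ Φ j X u c) : c ∈ h.parR hX := fun _ h0 hp => h.par_all hX hu0 h0 hp h1

theorem σ_mem_parR (h : R6 Φ₀ Φ j) (hX : Ov Φ j X) {c : F} (hc : c ∈ h.parR hX) : σ c ∈ h.parR hX := by
  obtain ⟨u, w, h0, hu, hw, n, e⟩ := h.exists_pl
  exact h.mem_parR hX h0 (h.par_σ hX h0 hu n e (hc w (by rintro rfl; simp at n) hw))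

theorem B_par (h : R6 Φ₀ Φ j) (hX : Ov Φ j X) {u v : V₀} {a : V} {d : F}
    (hu0 : u ≠ 0) (ha : HasE Φ X (j u) a d) (hv : Φ₀.B u v = 0) : Φ.B a (j v) ∈ h.parR hX := by
  haveI := h.fin
  have h6 := h.six
  have hf : ∀ c, f c ∈ h.parR hX := fun c _ _ hp => h.par_rat hX hp c
  refine perp_ind h.hn₀ (by omega) hu0 (h.sing.1 ha.sp) ((h.parR hX).toAddSubgroup.comap
    ((Φ.B a).toAddMonoidHom.comp j.toAddMonoidHom)) (fun x e hx n => ?_) v hv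
  change Φ.B a (j x) ∈ h.parR hX
  obtain ⟨y, hy, y', hy', e1⟩ := exists_B_one h.hn₀ (W := ⊤ ⊓ pf Φ₀ ![u, x]) (by
    have := finrank_pf (Φ := Φ₀) ![u, x] ⊤; rw [finrank_top] at *; omega)
  have hy := mem_pf.1 hy.2
  have hy' := mem_pf.1 hy'.2
  obtain ⟨d1, s, hs, i1⟩ := h.hasE hX hx (hy 1)
  obtain ⟨d2, s', hs', i2⟩ := h.hasE hX hx (hy' 1)
  have fx : ∀ {y d s}, IsE Φ (j x) (j y) d s → Φ₀.B u y = 0 → s (j u) = j u := fun i e' => by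
    rw [i.app, h.B_zero (Φ₀.B_eq_zero_symm e), h.B_zero (Φ₀.B_eq_zero_symm e')]; simp
  have m : ∀ s ∈ X, s (j u) = j u → s a ∈ AE Φ X ha.sp := fun s hs e =>
    map_mem_AE hs (hX.isom hs) e ⟨d, ha⟩
  obtain ⟨d', h1⟩ : s a + s' a - a - (s * s') a ∈ AE Φ X ha.sp := sub_mem (sub_mem (add_mem
    (m s hs (fx i1 (hy 0))) (m s' hs' (fx i2 (hy' 0)))) ⟨d, ha⟩) (m _ (mul_mem hs hs') (by
      rw [LinearEquiv.mul_apply, fx i2 (hy' 0), fx i1 (hy 0)]))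
  have h2 := h.σ_mem_parR hX (h.mem_parR hX hu0 (h.par_of hX hu0 n e
    (h1.congr (b := (Φ.ε * Φ.B (j x) a) • j x) (by
      rw [(i1.mul i2).app, i1.app, i2.app, h.B_one e1, Φ.B_add_left]; module) rfl)))
  rwa [Φ.symm, ← Φ.σε, ← map_mul]

variable [Finite F]

theorem full_of_top (h : R6 Φ₀ Φ j) (h2 : NotSp2 Φ) (hX : Ov Φ j X)
    (ht : h.parR hX = ⊤) {u : V₀} (hu0 : u ≠ 0) (hu : Φ₀.Sing u) : Full Φ X (j u) := by
  haveI := h.fin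
  have h6 := h.six
  have hA := h.mem_AE hu0 hu fun c w e => (ht.ge (Subring.mem_top c)) u hu0 hu w e
  obtain ⟨w, hw0, hw, e1, -, n1, -, n2, -⟩ := h.exists_nbr hu0 hu0 hu hu
  obtain ⟨w', b3, b4⟩ := exists_dual1 h.hn₀ n1
  refine full_of_AE _ hA (fullT_of_comm _ h2 fun t => ⟨_, hA _ (h.B_zero e1), _, hA (t • j w') ?_, ?_⟩)
  · rw [Φ.B_smul_right, h.B_zero b4, mul_zero]
  · rw [Φ.B_smul_right, h.B_one b3, mul_one]

/-- Either `X` contains everything or its Eichler maps at rational points are rational. -/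
theorem le_or_small (h : R6 Φ₀ Φ j) (h2 : NotSp2 Φ) (hX : Ov Φ j X)
    (hmax : ∀ R : Subring F, (∀ c, f c ∈ R) → R = ⊤ ∨ ∀ c ∈ R, c ∈ (f).fieldRange) :
    EG Φ ≤ X ∨ Small Φ₀ Φ j X := by
  rcases hmax (h.parR hX) (fun c _ _ hp => h.par_rat hX hp c) with ht | ht
  · haveI := h.fin
    have h6 := h.six
    obtain ⟨u, hu0, hu⟩ := exists_sing_top Φ₀ (by omega)
    obtain ⟨r, hr⟩ := h.hn₀.exists_isPair hu0 hu
    exact Or.inl (EG_le_of_full h.hn (h.full_of_top h2 hX ht hu0 hu)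
      (h.full_of_top h2 hX ht hr.right_ne_zero hr.sf) (by rw [h.B_one hr.ef]; exact one_ne_zero))
  · exact Or.inr fun u a d h0 ha v hv => ht _ (h.B_par hX h0 ha hv)

omit [Finite F] in
theorem mem_of_sing [Finite V] (h : R6 Φ₀ Φ j) {g : V ≃ₗ[F] V}
    (hg : ∀ e, e ≠ 0 → Φ₀.Sing e → ∃ (c : F) (r : V₀), g (j e) = c • j r) : g ∈ ratG F (Set.range j) := by
  haveI := h.fin
  have step : ∀ u v r (c : F), u ≠ 0 → Φ₀.Sing u → Φ₀.Sing v → Φ₀.B u v = 0 → v ∉ F₀ ∙ u →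
      g (j u) = c • j r → ∃ r', g (j v) = c • j r' := fun u v r c hu su sv e hv e0 => by
    have h1 : c • j r ≠ 0 := e0 ▸ (map_ne_zero_iff g g.injective).2 (h.ne hu)
    have hc : c ≠ 0 := left_ne_zero_of_smul h1
    have hr : r ≠ 0 := by rintro rfl; simp at h1
    obtain ⟨c₁, r₁, e1⟩ := hg v (by rintro rfl; simp at hv) sv
    obtain ⟨c₂, r₂, e2⟩ := hg (v + u) (fun e => hv (by
      rw [eq_neg_of_add_eq_zero_left e]; exact neg_mem (Submodule.mem_span_singleton_self _)))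
      (sing_add_of_perp sv su (Φ₀.B_eq_zero_symm e))
    have n : r₁ ∉ F₀ ∙ r := fun hm => h.notMem hv (by
      obtain ⟨k, rfl⟩ := Submodule.mem_span_singleton.1 hm
      exact Submodule.mem_span_singleton.2 ⟨c₁ * f k * c⁻¹, g.injective (by
        rw [map_smul, e0, e1, map_smulₛₗ, smul_smul, smul_smul, inv_mul_cancel_right₀ hc])⟩)
    obtain ⟨t, t1, t2⟩ := exists_dual1 h.hn₀ (notMem_symm n hr)
    rw [map_add, map_add, e0] at e2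
    have e3 := congrArg (fun x => Φ.B x (j t)) e2
    simp only [e1, Φ.B_add_left, Φ.B_smul_left, h.B_one t1, h.B_zero t2, mul_zero, zero_add, mul_one,
      h.hB] at e3
    have e4 : c = c₂ * f (σ₀ (Φ₀.B r₂ t)) := by rw [← h.hσ, ← Φ.σσ c, e3, map_mul, Φ.σσ]
    have e5 : σ₀ (Φ₀.B r₂ t) ≠ 0 := fun e => hc (by rw [e4, e, map_zero, mul_zero])
    refine ⟨(σ₀ (Φ₀.B r₂ t))⁻¹ • r₂ - r, ?_⟩
    rw [eq_sub_of_add_eq e2, map_sub, map_smulₛₗ, smul_sub, smul_smul, map_inv₀]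
    congr 2
    rw [e4, mul_inv_cancel_right₀ (by simpa using e5)]
  obtain ⟨u, -, hu0, hu, -⟩ := h.exists_pl
  obtain ⟨c, u', e⟩ := hg u hu0 hu
  have hc : c ≠ 0 := left_ne_zero_of_smul (e ▸ (map_ne_zero_iff g g.injective).2 (h.ne hu0))
  obtain ⟨r, hr⟩ := h.hn₀.exists_isPair hu0 hu
  refine mem_ratG.2 ⟨c⁻¹, inv_ne_zero hc, ?_⟩
  rintro _ ⟨v, rfl⟩
  refine sing_induction hr (P := fun v => c⁻¹ • g (j v) ∈ Set.range j) (fun z hz => ?_) ?_ v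
  · rcases eq_or_ne z 0 with rfl | hz0
    · exact ⟨0, by simp⟩
    obtain ⟨w, hw0, hw, e1, e2, n1, -, -, n2⟩ := h.exists_nbr hu0 hz0 hu hz
    obtain ⟨w', hw'⟩ := step _ _ _ _ hu0 hu hw e1 n1 e
    obtain ⟨z', hz'⟩ := step _ _ _ _ hw0 hw hz (Φ₀.B_eq_zero_symm e2) n2 hw'
    exact ⟨z', by rw [hz', inv_smul_smul₀ hc]⟩
  · rintro a b ⟨a', ha⟩ ⟨b', hb⟩
    exact ⟨a' + b', by simp [ha, hb]⟩

/-- Maximality of subfield subgroups. -/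
theorem isMaximalIn [Finite V] (h : R6 Φ₀ Φ j) (h2 : NotSp2 Φ)
    (hne : ∃ c, c ∉ (f).fieldRange)
    (hmax : ∀ R : Subring F, (∀ c, f c ∈ R) → R = ⊤ ∨ ∀ c ∈ R, c ∈ (f).fieldRange)
    (hc : ∀ X, Ov Φ j X → X ≤ EG Φ → Small Φ₀ Φ j X → ∀ g ∈ X, ∀ e, e ≠ 0 → Φ₀.Sing e →
      ∃ (c : F) (r : V₀), g (j e) = c • j r) :
    Geo.IsMaximalIn (EG Φ) (ratG F (Set.range j) ⊓ EG Φ) := by
  haveI := h.fin
  have h6 := h.six
  refine max_crit inf_le_right ?_ fun X h1 h3 g hg hg' => (h.le_or_small h2 (h.ov h1 h3) hmax).resolve_right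
    fun hS => hg' ⟨h.mem_of_sing (hc X (h.ov h1 h3) h3 hS g hg), h3 hg⟩
  obtain ⟨c, hc⟩ := hne
  obtain ⟨u, w, h0, hu, hw, n, e⟩ := h.exists_pl
  obtain ⟨g, hg⟩ := exists_isE0 h.hn (h.sing.2 hu) ((h.sing.2 hw).smul c) (by simp [h.B_zero e])
  refine ⟨g, IsE_mem_EG hg, fun hm => hc ?_⟩
  obtain ⟨l, hl, hm⟩ := mem_ratG.1 hm.1
  obtain ⟨t, t1, t2⟩ := exists_dual1 h.hn₀ n
  obtain ⟨u', hu'⟩ := hm _ ⟨u, rfl⟩
  obtain ⟨l, rfl⟩ := h.smul_rat h0 (by rw [hu', hg.apply_p])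
  obtain ⟨t', ht'⟩ := hm _ ⟨t, rfl⟩
  refine h.σ_mem (h.smul_rat h0 (u' := l⁻¹ • t' - t) ?_)
  rw [map_sub, map_smulₛₗ, ht', map_inv₀, inv_smul_smul₀ hl, hg.apply_perp (h.B_zero t2), Φ.B_smul_left,
    h.B_one t1]
  simp

end R6

end Cfsg.Agent.Root.Mx
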