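import Cfsg.Agent.Low.SU6a
import Cfsg.Agent.Root.SuR

/-! Subfield subgroups of unitary groups in dimension at least six (`isMaximalIn_sub6`). -/

set_option autoImplicit false

namespace Cfsg.Agent.Root.Mx

open Cfsg.Agent.Geom Cfsg.Agent.AutCl Module

theorem exists_conj_unip {G : Type*} [Group G] [Finite G] {ℓ : ℕ} [Fact ℓ.Prime] {S : Subgroup G} {a b : G} (ha : a ∈ S)
    (hb : b ∈ S) (ua : Unip ℓ a) (ub : Unip ℓ b) : ∃ k ∈ S, Unip ℓ (k * a * k⁻¹ * b) := by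
  obtain ⟨m, hm⟩ := ua
  obtain ⟨n, hn⟩ := ub
  obtain ⟨P, hP⟩ := (Invol.isPGroup_zpowers (x := (⟨a, ha⟩ : S)) (Subtype.ext hm)).exists_le_sylow
  obtain ⟨Q, hQ⟩ := (Invol.isPGroup_zpowers (x := (⟨b, hb⟩ : S)) (Subtype.ext hn)).exists_le_sylow
  obtain ⟨c, rfl⟩ := MulAction.exists_smul_eq S P Q
  have m : c * ⟨a, ha⟩ * c⁻¹ ∈ (c • P : Sylow ℓ S) := Subgroup.smul_mem_pointwise_smul _ (MulAut.conj c) _
    (hP (Subgroup.mem_zpowers _))
  obtain ⟨k, e⟩ := (c • P).2 ⟨_, mul_mem m (hQ (Subgroup.mem_zpowers _))⟩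
  exact ⟨c, c.2, k, congrArg (fun z => (z.1 : G)) e⟩

section Tv
variable {F : Type*} [Field F] {σ : F →+* F} {V : Type*} [AddCommGroup V] [Module F V] {Φ : Formed σ V}
  {X : Subgroup (V ≃ₗ[F] V)} [FiniteDimensional F V]

/-- Two opposite transvection centres are conjugate by an element fixing their common perpendicular. -/
theorem exists_conj_tv [Finite F] (hn : Φ.Nondeg) (hX : X ≤ Φ.isom) {p w : V} {s t : F} (s0 : s ≠ 0) (t0 : t ≠ 0)
    (hp : HasE Φ X p 0 s) (hw : HasE Φ X w 0 t) (e : Φ.B w p ≠ 0) :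
    ∃ h ∈ X, (∃ c : F, h p = c • w) ∧ ∀ y, Φ.B p y = 0 → Φ.B w y = 0 → h y = y := by
  have : Finite V := Module.finite_of_finite F
  have : Finite (V ≃ₗ[F] V) := Finite.of_injective _ DFunLike.coe_injective
  have : Fact (ringChar F).Prime := ⟨CharP.char_is_prime F _⟩
  obtain ⟨a, aX, ha⟩ := hp
  obtain ⟨b, bX, hb⟩ := hw
  have m1 : p ∈ (F ∙ p) ⊔ F ∙ w := Submodule.mem_sup_left (Submodule.mem_span_singleton_self p)
  have m2 := mem_sup_self (F ∙ p) w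
  obtain ⟨k, hk, u⟩ := exists_conj_unip (S := X ⊓ mvS ((F ∙ p) ⊔ F ∙ w))
    ⟨aX, fun x => by simpa [ha.app] using Submodule.smul_mem _ _ m1⟩
    ⟨bX, fun x => by simpa [hb.app] using Submodule.smul_mem _ _ m2⟩ (ha.unip (ringChar F)) (hb.unip _)
  have i := ha.conj (hX hk.1)
  have e1 : Φ.B w (k p) = 0 := by_contra fun e1 => by
    have e2 : Φ.B (k p) w ≠ 0 := fun e => e1 (Φ.B_eq_zero_symm e)
    have m3 : k p ∈ (F ∙ k p) ⊔ F ∙ w := Submodule.mem_sup_left (Submodule.mem_span_singleton_self _)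
    have m4 := mem_sup_self (F ∙ k p) w
    obtain ⟨y, hy, y0, e3⟩ := u.exists_fixed (U := (F ∙ k p) ⊔ F ∙ w) (fun v hv => by
      rw [LinearEquiv.mul_apply, i.app, hb.app]
      simp only [map_zero, smul_zero, sub_zero]
      exact add_mem (add_mem hv (Submodule.smul_mem _ _ m4)) (Submodule.smul_mem _ _ m3)) m4
      (by rintro rfl; simp at e)
    obtain ⟨_, h1, _, h2, rfl⟩ := Submodule.mem_sup.1 hy
    obtain ⟨α, rfl⟩ := Submodule.mem_span_singleton.1 h1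
    obtain ⟨β, rfl⟩ := Submodule.mem_span_singleton.1 h2
    rw [LinearEquiv.mul_apply, i.app, hb.app] at e3
    have e4 := congrArg (Φ.B (k p)) e3
    simp [i.sp.2, hb.sp.2, e1, e2, t0] at e4
    subst e4
    have e5 := congrArg (Φ.B w) e3
    simp [hb.sp.2, e1, e2, s0] at e5
    simp [e5] at y0
  refine ⟨k, hk.1, ?_, fun y a b => fix_of_mvS hn (hX hk.1) hk.2 fun z hz => (sup_le (by
    simpa using Φ.B_eq_zero_symm a) (by simpa using Φ.B_eq_zero_symm b) : _ ≤ LinearMap.ker (Φ.B y)) hz⟩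
  obtain ⟨_, h1, _, h2, e2⟩ := Submodule.mem_sup.1 (add_mem (hk.2 p) m1)
  obtain ⟨α, rfl⟩ := Submodule.mem_span_singleton.1 h1
  obtain ⟨β, rfl⟩ := Submodule.mem_span_singleton.1 h2
  rw [sub_add_cancel] at e2
  rw [← e2] at e1 ⊢
  exact ⟨β, by simp [show α = 0 by simpa [hb.sp.2, e] using e1]⟩

end Tv

section Main
variable {F₀ F : Type*} [Field F₀] [Field F] [Algebra F₀ F] {σ₀ : F₀ →+* F₀} {σ : F →+* F}
  {V₀ V : Type*} [AddCommGroup V₀] [Module F₀ V₀] [AddCommGroup V] [Module F V]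
  {Φ₀ : Formed σ₀ V₀} {Φ : Formed σ V} {j : V₀ →ₛₗ[algebraMap F₀ F] V} {X : Subgroup (V ≃ₗ[F] V)}

local notation "f" => algebraMap F₀ F

namespace R6
variable [Finite F₀] [FiniteDimensional F V] (h : R6 Φ₀ Φ j)
include h

theorem rat_of_ratio {w : V} (H : ∀ p, Φ₀.Sing p → Φ.B w (j p) ≠ 0 → ∀ y, Φ₀.B p y = 0 →
    Φ.B w (j y) / Φ.B w (j p) ∈ (f).fieldRange) : ∃ (c : F) (r : V₀), w = c • j r := by
  haveI := h.fin
  have h6 := h.six
  obtain ⟨u, -, u0, hu, -⟩ := h.exists_pl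
  obtain ⟨u', hr⟩ := h.hn₀.exists_isPair u0 hu
  by_cases hp : ∃ p, Φ₀.Sing p ∧ Φ.B w (j p) ≠ 0
  swap
  · push Not at hp
    exact ⟨0, 0, by simpa using h.eq_zero (sing_induction hr (P := fun p => Φ.B w (j p) = 0) hp fun a b c d => by
      simp [c, d])⟩
  obtain ⟨p, hp, a0⟩ := hp
  have p0 : p ≠ 0 := by rintro rfl; simp at a0
  have b0 := (map_ne_zero σ).2 a0
  obtain ⟨r, μ, e⟩ := h.rat_add p0 (v := (σ (Φ.B w (j p)))⁻¹ • w) fun y hy => by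
    simpa [Φ.σσ, div_eq_inv_mul] using H p hp a0 y hy
  have k : ∀ y, Φ.B w (j y) / Φ.B w (j p) = f (Φ₀.B r y) + σ μ * f (Φ₀.B p y) := fun y => by
    simpa [Φ.σσ, div_eq_inv_mul, h.hB] using congrArg (Φ.B · (j y)) e
  have r1 : Φ₀.B r p = 1 := (f).injective (by simpa [a0, hp.2] using (k p).symm)
  obtain ⟨z, -, z0, hz, e1⟩ := exists_sing_pf Φ₀ ![p, r] (U := ⊤) (R := ⊥) (by simp; omega)
  have z1 : Φ₀.B p z = 0 := e1 0
  have z2 : Φ₀.B r z = 0 := e1 1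
  have w1 : Φ.B w (j (p + z)) = Φ.B w (j p) := by
    have := k z; simp [z1, z2, a0] at this; simp [this]
  obtain ⟨y, y1, y2⟩ := exists_dual1 h.hn₀ (u := p + z) (w := p) fun hm => by
    obtain ⟨c, hc⟩ := Submodule.mem_span_singleton.1 hm
    have : c = 1 := by simpa [r1, z2] using congrArg (Φ₀.B r) hc
    exact z0 (by simpa [this] using hc)
  have := H _ (sing_add_of_perp hp hz z1) (w1 ▸ a0) y y2
  rw [w1, k, y1, map_one, mul_one] at this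
  obtain ⟨m, rfl⟩ := h.σ_mem ((add_mem_cancel_left (show f (Φ₀.B r y) ∈ (f).fieldRange from ⟨_, rfl⟩)).1 this)
  exact ⟨σ (Φ.B w (j p)), r + m • p, by rw [map_add, map_smulₛₗ, ← e, smul_inv_smul₀ b0]⟩

variable (hX : Ov Φ j X) (hS : Small Φ₀ Φ j X)
include hX hS

theorem tv_rat {u : V₀} (u0 : u ≠ 0) {d : F} (H : HasE Φ X (j u) 0 d) : d ∈ (f).fieldRange := by
  haveI := h.fin
  have hu := h.sing.1 H.sp
  obtain ⟨z, z0, hz, e1, -, -, -, n, -⟩ := h.exists_nbr u0 u0 hu hu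
  obtain ⟨a, a1, a2⟩ := exists_dual1 h.hn₀ n
  obtain ⟨_, k⟩ := IsSp.mem_AE_tv hX.isom (h.sing.2 hz) H (h.B_zero e1) (let ⟨_, e⟩ := h.hasE hX hz a2; mem_AE.2 ⟨_, e⟩)
  exact h.σ_mem (by simpa [h.B_one a1] using hS _ _ _ z0 k a a2)

omit [Finite F₀] in
theorem pair_mem {s s' : V ≃ₗ[F] V} (hs : s ∈ X) (hs' : s' ∈ X) {p p' e y y' : V₀} {c c' : F} (p0 : p ≠ 0) (p0' : p' ≠ 0)
    (hp : Φ₀.Sing p) (hp' : Φ₀.Sing p') (e1 : s (j p) = c • j e) (e2 : s' (j p') = c' • j e) (hy : Φ₀.B p y = 0)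
    (hy' : Φ₀.B p' y' = 0) : c * σ c' * Φ.B (s (j y)) (s' (j y')) ∈ (f).fieldRange := by
  obtain ⟨r, μ, k⟩ := h.small_map hX hS hs p0 hp e1 hy
  obtain ⟨r', μ', k'⟩ := h.small_map hX hS hs' p0' hp' e2 hy'
  have z : ∀ s ∈ X, ∀ p y (c : F), p ≠ 0 → s (j p) = c • j e → Φ₀.B p y = 0 → Φ.B (j e) (s (j y)) = 0 :=
    fun s hs p y c p0 e hy => by
      have := (hX.isom hs).1 (j p) (j y)
      rw [e, Φ.B_smul_left, h.B_zero hy] at this
      simpa [left_ne_zero_of_smul (e ▸ (map_ne_zero_iff s s.injective).2 (h.ne p0))] using this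
  have z0 : Φ.B (j e) (j e) = 0 := by
    simpa [e1, left_ne_zero_of_smul (e1 ▸ (map_ne_zero_iff s s.injective).2 (h.ne p0))] using z s hs p p c p0 e1 hp.2
  refine ⟨Φ₀.B r r', ?_⟩
  rw [← h.hB, eq_sub_of_add_eq k.symm, eq_sub_of_add_eq k'.symm]
  simp [z s' hs' _ _ _ p0' e2 hy', z0, Φ.B_eq_zero_symm (z s hs _ _ _ p0 e1 hy), Φ.σσ]
  ring

theorem odd [Finite F] {d : F₀} (d0 : d ≠ 0) (d1 : Φ₀.τ * d = 0) (d2 : Φ₀.ε * d + σ₀ d = 0)
    (hN : ∀ β : F, (∀ κ, (β + f κ) * σ (β + f κ) ∈ (f).fieldRange) → β ∈ (f).fieldRange) {g : V ≃ₗ[F] V} (hg : g ∈ X)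
    {e : V₀} (he : Φ₀.Sing e) : ∃ (c : F) (r : V₀), g (j e) = c • j r := by
  haveI := h.fin
  have h6 := h.six
  have tv : ∀ p, Φ₀.Sing p → HasE Φ X (j p) 0 (f d) := fun p hp => by
    obtain ⟨g, hg⟩ := h.lift (a := 0) hp (by simp) (by simpa using d1) (by simpa using d2)
    exact ⟨g, hX.rat _ _ _ _ hg, by simpa using hg⟩
  have hw := IsSp.tv_conj (tv e he) hg hX.isom
  have f0 : f d ≠ 0 := by simpa
  set w := g (j e) with hw'
  have cj : ∀ p, Φ₀.Sing p → Φ.B w (j p) ≠ 0 → ∃ s ∈ X, ∃ c : F, s (j p) = c • j e ∧ c * σ c ≠ 0 ∧ ∀ y, Φ₀.B p y = 0 →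
      ∃ ν : F, g (s (j y)) = j y - (Φ.B w (j y) / Φ.B w (j p)) • j p + ν • w := fun p hp a0 => by
    obtain ⟨s, hs, ⟨c, e1⟩, e2⟩ := exists_conj_tv h.hn hX.isom f0 f0 (tv p hp) hw a0
    refine ⟨g⁻¹ * s, mul_mem (inv_mem hg) hs, c, by simp [e1, hw'], nrm_ne (left_ne_zero_of_smul (e1 ▸
      (map_ne_zero_iff s s.injective).2 (by rintro e; simp [e] at a0))), fun y hy => ⟨Φ.B w (j y) / Φ.B w (j p) * c, ?_⟩⟩
    have := e2 (j y - (Φ.B w (j y) / Φ.B w (j p)) • j p) (by simp [h.B_zero hy, (h.sing.2 hp).2]) (by simp [a0])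
    rw [map_sub, map_smul, e1] at this
    simp [← this, smul_smul]
  have nr : ∀ p p', Φ₀.Sing p → Φ₀.Sing p' → Φ₀.B p p' = 0 → Φ.B w (j p) ≠ 0 → Φ.B w (j p') / Φ.B w (j p) *
      σ (Φ.B w (j p') / Φ.B w (j p)) ∈ (f).fieldRange := fun p p' hp hp' e1 a0 => by
    by_cases a1 : Φ.B w (j p') = 0
    · simp [a1]
    have p0 : p ≠ 0 := by rintro rfl; simp at a0
    have p1 : p' ≠ 0 := by rintro rfl; simp at a1
    by_cases hm : p ∈ F₀ ∙ p'
    · obtain ⟨k, rfl⟩ := Submodule.mem_span_singleton.1 hm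
      rw [show Φ.B w (j p') / Φ.B w (j (k • p')) = f k⁻¹ by simp [map_smulₛₗ, a1, div_mul_eq_div_div_swap], h.hσ]
      exact mul_mem ⟨_, rfl⟩ ⟨_, rfl⟩
    obtain ⟨y, y1, y2⟩ := exists_dual1 h.hn₀ hm
    obtain ⟨s, hs, c, b1, b2, b3⟩ := cj p hp a0
    obtain ⟨s', hs', c', c1, c2, c3⟩ := cj p' hp' a1
    obtain ⟨ν, b3⟩ := b3 p' e1
    obtain ⟨ν', c3⟩ := c3 y y2
    have m := h.pair_mem hX hS hs hs' p0 p1 hp hp' b1 c1 e1 y2
    have n1 := h.norm_mem (by omega) hX hS hs p0 hp b1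
    have n2 := h.norm_mem (by omega) hX hS hs' p1 hp' c1
    have q1 : Φ.B w (j p' - (Φ.B w (j p') / Φ.B w (j p)) • j p) = 0 := by simp [a0]
    have q2 : Φ.B w (j y - (Φ.B w (j y) / Φ.B w (j p')) • j p') = 0 := by simp [a1]
    rw [← (hX.isom hg).1, b3, c3] at m
    simp only [map_add, LinearMap.add_apply, Φ.B_smul_left, Φ.B_smul_right, q2, Φ.B_eq_zero_symm q1, hw.sp.2] at m
    simp only [map_sub, LinearMap.sub_apply, Φ.B_smul_left, Φ.B_smul_right, h.B_zero y2, h.B_one y1, h.B_zero e1,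
      (h.sing.2 hp').2] at m
    generalize Φ.B w (j p') / Φ.B w (j p) = l at m ⊢
    obtain ⟨k, hk⟩ := m
    have := div_mem (mul_mem (show f k ∈ (f).fieldRange from ⟨_, rfl⟩) (show f (σ₀ k) ∈ (f).fieldRange from ⟨_, rfl⟩))
      (mul_mem n1 n2)
    rw [← h.hσ, hk] at this
    convert this using 1
    rw [eq_div_iff (mul_ne_zero b2 c2)]
    simp [Φ.σσ]; ring
  have k : ∀ p x, Φ₀.Sing p → Φ.B w (j p) ≠ 0 → Φ₀.B p x = 0 → Φ₀.Sing x → ∀ κ, (Φ.B w (j x) / Φ.B w (j p) + f κ) *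
      σ (Φ.B w (j x) / Φ.B w (j p) + f κ) ∈ (f).fieldRange := fun p x hp a0 e1 hx κ => by
    simpa [map_smulₛₗ, add_div, a0] using nr p (x + κ • p) hp (sing_add_of_perp hx (hp.smul κ) (by
      simp [Φ₀.B_eq_zero_symm e1])) (by simp [e1, hp.2]) a0
  refine h.rat_of_ratio fun p hp a0 y hy => perp_ind h.hn₀ (by omega) (by rintro rfl; simp at a0) hp
    ((f).fieldRange.toAddSubgroup.comap ((AddMonoidHom.mulRight (Φ.B w (j p))⁻¹).comp
      ((Φ.B w).toAddMonoidHom.comp j.toAddMonoidHom))) (fun x e1 hx _ => by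
      change Φ.B w (j x) * (Φ.B w (j p))⁻¹ ∈ (f).fieldRange; rw [← div_eq_mul_inv]; exact hN (Φ.B w (j x) / Φ.B w (j p)) fun κ => k p x hp a0 e1 hx κ) y hy |> fun e => by
      rw [div_eq_mul_inv]; exact e

variable (hτ : Φ.τ = 0) (hf : ∀ x, x ∈ (algebraMap F₀ F).fieldRange ↔ σ x = x) {θ : F} (hθ : σ θ ≠ θ)
include hf hθ

omit [Finite F₀] [FiniteDimensional F V] hX hS in
theorem dec (v : V) : ∃ a b, v = j a + θ • j b := by
  have k : ∀ c : F, ∃ α β, c = f α + θ * f β := fun c => by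
    have n := sub_ne_zero.2 hθ
    have n' := sub_ne_zero.2 hθ.symm
    obtain ⟨β, hβ⟩ := (hf ((σ c - c) / (σ θ - θ))).2 (by simp [Φ.σσ]; field_simp; ring)
    obtain ⟨α, hα⟩ := (hf (c - θ * f β)).2 (by simp [hβ, Φ.σσ]; field_simp; ring)
    exact ⟨α, β, by rw [hα]; ring⟩
  refine Submodule.span_induction (p := fun v _ => ∃ a b, v = j a + θ • j b) ?_ ⟨0, 0, by simp⟩ ?_ ?_
    (h.span.ge Submodule.mem_top)
  · rintro _ ⟨a, rfl⟩; exact ⟨a, 0, by simp⟩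
  · rintro _ _ _ _ ⟨a, b, rfl⟩ ⟨a', b', rfl⟩; exact ⟨a + a', b + b', by simp only [map_add]; module⟩
  rintro c _ _ ⟨a, b, rfl⟩
  obtain ⟨α, β, e⟩ := k c
  obtain ⟨α', β', e'⟩ := k (c * θ)
  exact ⟨α • a + α' • b, β • a + β' • b, by
    simp only [map_add, map_smulₛₗ]; linear_combination (norm := module) e • j a + e' • j b⟩

omit [Finite F₀] [FiniteDimensional F V] hX hS h in
theorem sep0 {α β : F₀} (e : f α + σ θ * f β = 0) : α = 0 ∧ β = 0 := by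
  have := congrArg σ e
  simp only [map_add, map_mul, (hf _).1 ⟨α, rfl⟩, (hf _).1 ⟨β, rfl⟩, map_zero] at this
  have b : f β = 0 := (mul_eq_zero.1 (show (σ (σ θ) - σ θ) * f β = 0 by linear_combination this - e)).resolve_left
    (sub_ne_zero.2 (σ.injective.ne hθ))
  exact ⟨by simpa [b] using e, by simpa using b⟩

omit [Finite F₀] [FiniteDimensional F V] hX hS h hf hθ in
theorem rat_dep {a b : V₀} (H : a = 0 ∨ b ∈ F₀ ∙ a) : ∃ (c : F) (r : V₀), j a + θ • j b = c • j r := by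
  rcases H with rfl | H
  · exact ⟨θ, b, by simp⟩
  obtain ⟨k, rfl⟩ := Submodule.mem_span_singleton.1 H
  exact ⟨1 + θ * f k, a, by rw [map_smulₛₗ]; module⟩

include hτ

omit [Finite F₀] in
theorem two_sp (hε : Φ.ε = -1) {g : V ≃ₗ[F] V} (hg : g ∈ X) (e : V₀) : ∃ (c : F) (r : V₀), g (j e) = c • j r := by
  haveI := h.fin
  have fx : ∀ k, σ (f k) = f k := fun k => (hf _).1 ⟨k, rfl⟩
  have s : IsSp Φ₀ := ⟨fun a => (f).injective (by rw [← h.hσ, fx]), (f).injective (by rw [← h.hτ, hτ, map_zero]),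
    (f).injective (by rw [← h.hε, hε, map_neg, map_one])⟩
  have tv : ∀ p k, HasE Φ X (j p) 0 (f k) := fun p k => by
    obtain ⟨g, hg⟩ := h.lift (a := 0) (d := k) (s.sing p) (by simp) (by simp [s.τ]) (by simp [s.ε, s.σ])
    exact ⟨g, hX.rat _ _ _ _ hg, by simpa using hg⟩
  have hw := IsSp.tv_conj (tv e 1) hg hX.isom
  obtain ⟨a, b, e1⟩ := h.dec hf hθ (g (j e))
  rw [e1] at hw ⊢
  refine rat_dep (or_iff_not_imp_left.2 fun a0 => by_contra fun n => ?_)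
  have t0 : θ ≠ 0 := by rintro rfl; simp at hθ
  have ab : Φ₀.B a b = 0 := by
    have := hw.sp.2
    simp only [map_add, LinearMap.add_apply, Φ.B_smul_left, Φ.B_smul_right, h.hB, s.alt, s.skew a b, map_neg] at this
    exact (f).injective (mul_left_cancel₀ (sub_ne_zero.2 hθ) (by simp only [map_zero] at *; linear_combination -this))
  obtain ⟨k, hk⟩ := (hf (θ * σ θ)).2 (nrm_fix Φ.σσ θ)
  obtain ⟨v, v1, v2⟩ := exists_dual1 h.hn₀ n
  have := hS _ _ _ a0 (HasE.of_tv hw (tv a 1) (((tv b k).smul t0).congr (smul_zero _) (by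
    rw [hk, map_one]; have := (map_ne_zero σ).2 t0; field_simp)) (by simp [h.B_zero ab])) v v2
  simp [hε, h.B_one v1, hf, Φ.σσ] at this
  exact hθ this.symm

theorem two_o (hε : Φ.ε = 1) (h2 : (2 : F) ≠ 0) {g : V ≃ₗ[F] V} (hg : g ∈ X) {e : V₀} (e0 : e ≠ 0) (he : Φ₀.Sing e) :
    ∃ (c : F) (r : V₀), g (j e) = c • j r := by
  haveI := h.fin
  have h6 := h.six
  have t0 : θ ≠ 0 := by rintro rfl; simp at hθ
  have gi := hX.isom hg
  have sg : ∀ x, Φ₀.B x x = 0 → Φ₀.Sing x := fun x hx => h.sing.1 ⟨by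
    obtain ⟨d, e, -⟩ := Φ.trace (j x); rw [← e, hτ, zero_mul], h.B_zero hx⟩
  have ms := @Submodule.mem_span_singleton_self
  obtain ⟨a, b, e1⟩ := h.dec hf hθ (g (j e))
  have x0 : Φ.B (g (j e)) (g (j e)) = 0 := by rw [gi.1, h.B_zero he.2]
  have Bx : ∀ y, Φ.B (g (j e)) (j y) = f (Φ₀.B a y) + σ θ * f (Φ₀.B b y) := fun y => by simp [e1, h.hB]
  obtain ⟨m, m0, hm, m1, m2, H⟩ : ∃ m, m ≠ 0 ∧ Φ₀.Sing m ∧ Φ₀.B a m = 0 ∧ Φ₀.B b m = 0 ∧ (a = 0 ∨ ∀ y, Φ.B (g (j e)) y = 0 →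
      y ∈ Submodule.span F (Set.range ![j m, j a, j b]) → y ∈ (F ∙ g (j e)) ⊔ F ∙ j m) := by
    have x1 : Φ.B (g (j e)) (j a) = -θ * Φ.B (g (j e)) (j b) := by
      nth_rw 2 [e1] at x0; simp only [map_add, map_smul, smul_eq_mul] at x0; linear_combination x0
    obtain ⟨m, -, m0, hm, k⟩ := exists_sing_pf Φ₀ ![a, b] (U := ⊤) (R := ⊥) (by simp; omega)
    by_cases a0 : a = 0
    · exact ⟨m, m0, hm, k 0, k 1, .inl a0⟩
    by_cases b0 : Φ.B (g (j e)) (j b) = 0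
    · obtain ⟨c1, c2⟩ := sep0 hf hθ ((Bx a).symm.trans (by rw [x1, b0, mul_zero]))
      refine ⟨a, a0, sg a c1, c1, c2, .inr fun y _ hy => (Submodule.span_le.2 ?_ : _ ≤ _) hy⟩
      rintro _ ⟨i, rfl⟩
      fin_cases i
      exacts [mem_sup_self _ _, mem_sup_self _ _, (Submodule.smul_mem_iff _ t0).1 (eq_sub_of_add_eq' e1.symm ▸
        sub_mem (Submodule.mem_sup_left (ms _)) (mem_sup_self _ _))]
    refine ⟨m, m0, hm, k 0, k 1, .inr fun y hy hm => ?_⟩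
    obtain ⟨c, rfl⟩ := (Submodule.mem_span_range_iff_exists_fun F).1 hm
    have k1 : Φ.B (g (j e)) (j m) = 0 := by simp [Bx, show Φ₀.B a m = 0 from k 0, show Φ₀.B b m = 0 from k 1]
    simp only [Fin.sum_univ_three, map_add, map_smul, smul_eq_mul] at hy ⊢
    change c 0 * Φ.B _ (j m) + c 1 * Φ.B _ (j a) + c 2 * Φ.B _ (j b) = 0 at hy
    rw [k1, x1] at hy
    have : c 2 = c 1 * θ := mul_right_cancel₀ b0 (by linear_combination hy)
    convert add_mem (Submodule.mem_sup_left (Submodule.smul_mem _ (c 1) (ms (g (j e)))))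
      (Submodule.smul_mem _ (c 0) (mem_sup_self _ (j m))) using 1
    change c 0 • j m + c 1 • j a + c 2 • j b = _
    rw [this, e1]; module
  replace H := H.resolve_left
  by_cases a0 : a = 0
  · exact e1 ▸ rat_dep (.inl a0)
  replace H := H a0
  have xm : Φ.B (g (j e)) (j m) = 0 := by simp [Bx, m1, m2]
  obtain ⟨n, n', e2⟩ := h.dec hf hθ (g.symm (j m))
  obtain ⟨y, y1, y2⟩ : ∃ y ∈ pf Φ₀ ![e, n, n'], j y ∉ (F ∙ j e) ⊔ F ∙ g.symm (j m) := by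
    have d := finrank_pf (Φ := Φ₀) ![e, n, n'] ⊤
    have := finrank_span_one (F := F₀) e
    obtain ⟨y, hy, y1⟩ := exists_notMem_of_lt (U := ⊤ ⊓ pf Φ₀ ![e, n, n']) (R := F₀ ∙ e) (by simp at d ⊢; omega)
    have := finrank_sup_one (F₀ ∙ e) y
    obtain ⟨z, hz, z1⟩ := exists_notMem_of_lt (U := ⊤ ⊓ pf Φ₀ ![e, n, n']) (R := (F₀ ∙ e) ⊔ F₀ ∙ y) (by simp at d ⊢; omega)
    by_contra! hc
    obtain ⟨t, t1, t2⟩ := h.hn₀.exists_perp_eq_one' z1
    rw [Φ₀.perp_sup, Submodule.mem_inf, Φ₀.mem_perp_span_singleton, Φ₀.mem_perp_span_singleton] at t1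
    have := (sup_le (by simpa using h.B_zero t1.1) (by simpa using h.B_zero t1.2) :
      (F ∙ j e) ⊔ (F ∙ j y) ≤ LinearMap.ker (Φ.B.flip (j t))) ((sup_le le_sup_left (by
        simpa using exch (hc y hy.2) (h.notMem y1)) : (F ∙ j e) ⊔ (F ∙ g.symm (j m)) ≤ _) (hc z hz.2))
    simp [h.B_one t2] at this
  replace y1 := mem_pf.1 y1
  obtain ⟨d, hY⟩ := h.hasE hX he (y1 0)
  replace hY := hY.conj hg gi
  have y3 : Φ.B (j m) (g (j y)) = 0 := by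
    rw [← g.apply_symm_apply (j m), gi.1, e2]
    simp [h.B_zero (show Φ₀.B n y = 0 from y1 1), h.B_zero (show Φ₀.B n' y = 0 from y1 2)]
  obtain ⟨m', k1, k2⟩ : ∃ m' ∈ pf Φ₀ ![m, a, b], Φ.B (j m') (g (j y)) ≠ 0 := by
    by_contra! hc
    obtain ⟨p, p', e3⟩ := h.dec hf hθ (g (j y))
    have k : ∀ p, (∀ w ∈ pf Φ₀ ![m, a, b], Φ₀.B p w = 0) → j p ∈ Submodule.span F (Set.range ![j m, j a, j b]) :=
      fun p hp => by
        have : p ∈ Submodule.span F₀ (Set.range ![m, a, b]) := by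
          rw [← h.hn₀.perp_perp (Submodule.span _ _), Formed.mem_perp']
          exact fun w hw => hp w (mem_pf.2 fun i => hw _ (Submodule.subset_span ⟨i, rfl⟩))
        obtain ⟨c, rfl⟩ := (Submodule.mem_span_range_iff_exists_fun F₀).1 this
        rw [map_sum]
        exact sum_mem fun i _ => by
          rw [map_smulₛₗ]; exact Submodule.smul_mem _ _ (Submodule.subset_span ⟨i, by fin_cases i <;> rfl⟩)
    have k' := fun w hw => sep0 hf hθ (α := Φ₀.B p w) (β := Φ₀.B p' w) (by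
      simpa [e3, h.hB] using Φ.B_eq_zero_symm (hc w hw))
    obtain ⟨_, h1, _, h2, e4⟩ := Submodule.mem_sup.1 (H _ hY.pa (e3 ▸ add_mem (k p fun w hw => (k' w hw).1)
      (Submodule.smul_mem _ _ (k p' fun w hw => (k' w hw).2))))
    obtain ⟨α, rfl⟩ := Submodule.mem_span_singleton.1 h1
    obtain ⟨β, rfl⟩ := Submodule.mem_span_singleton.1 h2
    refine y2 ?_
    rw [show j y = α • j e + β • g.symm (j m) from g.injective (by simp [e4])]
    exact add_mem (Submodule.mem_sup_left (Submodule.smul_mem _ _ (ms _))) (Submodule.smul_mem _ _ (mem_sup_self _ _))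
  replace k1 := mem_pf.1 k1
  obtain ⟨d', hE⟩ := h.hasE hX hm (k1 0)
  obtain ⟨c, c0, hc⟩ := (hE.move hY (Φ.B_eq_zero_symm xm) (Φ.B_eq_zero_symm (by
    simp [Bx, show Φ₀.B a m' = 0 from k1 1, show Φ₀.B b m' = 0 from k1 2])) y3).swap'
  replace hc := (hc.of_smul k2).congr (smul_smul _ _ _) (zero_mul _)
  have c1 := mul_ne_zero ((map_ne_zero σ).2 k2) c0
  generalize σ _ * c = c at hc c1
  obtain ⟨r, μ, e3⟩ := h.rat_add m0 (hS _ _ _ m0 hc)
  have r1 : Φ₀.B m r = 0 := (f).injective (by simpa [e3, h.hB, hm.2] using hc.pa)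
  have r2 : Φ₀.B r r = 0 := (f).injective (by
    simpa [e3, h.hB, hm.2, r1, Φ₀.B_eq_zero_symm r1] using hc.sing.2)
  have := (hf _).1 (h.tv_rat hX hS m0 (((hc.mul (h.hasE0 hX hm (sg r r2) r1).neg).add_smul (-μ)).congr (by
    rw [e3]; module) rfl))
  simp [e3, h.hB, r1, r2, hε, Φ.σσ] at this
  obtain ⟨k, rfl⟩ := (hf μ).2 (mul_left_cancel₀ h2 (by linear_combination this))
  exact ⟨c⁻¹, r + k • m, by rw [map_add, map_smulₛₗ, ← e3, inv_smul_smul₀ c1]⟩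

end R6
end Main

variable {F : Type*} [Field F] {σ : F →+* F} {ι : Type} [Fintype ι] [DecidableEq ι] {F₀ : Subfield F} {P : GL ι F}

theorem isMaximalIn_sub6 [Fintype F] {Φ : Formed σ (ι → F)} (hn : Φ.Nondeg) (h6 : 6 ≤ Fintype.card ι)
    {r : ℕ} (hr : r.Prime) (hc : Fintype.card F = Nat.card F₀ ^ r)
    (hB : ∀ x y, Φ.B (jP F₀ P x) (jP F₀ P y) ∈ F₀)
    (htr : ∀ x, ∃ d ∈ F₀, Φ.τ * d = Φ.Q (jP F₀ P x) ∧ Φ.ε * d + σ d = Φ.B (jP F₀ P x) (jP F₀ P x))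
    (hσ : σ ≠ RingHom.id F) (hτ0 : Φ.τ = 0) : Geo.IsMaximalIn (EG Φ) (ratG F (Set.range (jP F₀ P)) ⊓ EG Φ) := by
  rw [← Nat.card_eq_fintype_card] at hc
  obtain ⟨σ₀, Φ₀, h⟩ := exists_pullN (jP F₀ P) (σ_mem_subfield F₀ σ) hB (hτ0 ▸ zero_mem _) htr hn jP_inj jP_span
  have h : R6 Φ₀ Φ (jP F₀ P) := ⟨h, by simpa⟩
  refine h.isMaximalIn (notSp2_of_ne hσ) (exists_notMem_of_card hr hc) (subring_of_prime hr hc)
    fun X hX hXE hS g hg e e0 he => ?_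
  rcases hr.eq_two_or_odd' with rfl | ho
  · obtain ⟨θ, hθ⟩ : ∃ x, σ x ≠ x := by_contra fun hx => hσ (RingHom.ext (by simpa using hx))
    let σ' : F ≃+* F := RingEquiv.ofBijective σ (Finite.injective_iff_bijective.1 σ.injective)
    have h1 := Asch.card_of_invol (σ := σ') Φ.σσ ⟨θ, hθ⟩
    have hf : ∀ x, x ∈ (algebraMap F₀ F).fieldRange ↔ σ x = x := fun x => by
      rw [mem_fieldRange, Asch.mem_subfield_iff, Nat.pow_left_injective two_ne_zero (hc.symm.trans h1),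
        ← Asch.mem_subfield_iff]
      rfl
    by_cases h2 : Φ.ε = -1
    · exact h.two_sp hX hS hτ0 hf hθ h2 hg e
    have h3 := (mul_self_eq_one_iff.1 Φ.εε).resolve_right h2
    exact h.two_o hX hS hτ0 hf hθ h3 (fun e => h2 (by linear_combination h3 + e)) hg e0 he
  obtain ⟨κ, hκ, hκ'⟩ := exists_σ_ne ho hc hσ Φ.σσ
  have hσκ := σ_mem_subfield F₀ σ κ hκ
  obtain ⟨d, hd, d0, d1⟩ : ∃ d ∈ F₀, d ≠ 0 ∧ Φ.ε * d + σ d = 0 := by
    rcases mul_self_eq_one_iff.1 Φ.εε with e | e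
    · exact ⟨κ - σ κ, sub_mem hκ hσκ, sub_ne_zero.2 hκ'.symm, by simp [e, Φ.σσ]⟩
    · exact ⟨1, one_mem _, one_ne_zero, by simp [e]⟩
  refine h.odd hX hS (d := ⟨d, hd⟩) (fun e => d0 (congrArg Subtype.val e))
    ((algebraMap F₀ F).injective ?_) ((algebraMap F₀ F).injective ?_) (fun β hβ => ?_) hg he
  · simp [← h.hτ, hτ0]
  · rw [map_add, map_mul, ← h.hε, ← h.hσ, map_zero]; exact d1
  · have a0 := mem_fieldRange.1 (hβ 0)
    have a1 := mem_fieldRange.1 (hβ 1)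
    refine mem_fieldRange.2 (mem_of_quad ho hc (neg_mem (sub_mem (sub_mem a1 a0) (one_mem _))) a0 ?_)
    simp only [map_one, map_zero, add_zero, map_add]; ring

end Cfsg.Agent.Root.Mx
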