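import Cfsg.Agent.Low.Sp6a
import Cfsg.Agent.Low.C1
import Cfsg.Agent.Root.SuR

/-! Unitary groups in small dimension: stabilisers of non-degenerate subspaces (`HU.max_nd`), of two orthogonal
3-spaces (`ODec.max_three`) and of a pair of totally isotropic 3-spaces (`HU.max_pair`). -/

set_option autoImplicit false

namespace Cfsg.Agent.Root.Mx

open Cfsg.Agent.Geom Cfsg.Agent.AutCl Module

variable {F : Type*} [Field F] {σ : F →+* F} {V : Type*} [AddCommGroup V] [Module F V] {Φ : Formed σ V}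
  [FiniteDimensional F V] [Finite F] {X : Subgroup (V ≃ₗ[F] V)}

omit [Finite F] in
theorem InE.mv (hn : Φ.Nondeg) {A : Submodule F V} (h : InE Φ X A) {x r p : V} (hx : x ∈ A) (hr : r ∈ A) (hs : Φ.Sing x)
    (e1 : Φ.B x r = 0) (e2 : Φ.B x p = 0) (e3 : Φ.B r p ≠ 0) : ∃ s ∈ X, s p = x + p := by
  obtain ⟨d, s, s1, s2⟩ := h.hasE hn hx (A.smul_mem (σ (Φ.B r p)⁻¹) hr) hs (by simp [e1])
  exact ⟨s, s1, by rw [s2.apply_perp e2]; simp [Φ.σσ, e3, add_comm]⟩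

theorem HU.max_nd (hu : HU Φ) {A : Submodule F V} (hA : (Φ.restrict A).Nondeg) (h4 : 4 ≤ finrank F A) (h1 : A ≠ ⊤)
    (hd : finrank F V < 2 * finrank F A) : Geo.IsMaximalIn (EG Φ) (stab A ⊓ EG Φ) := by
  have hn := hu.nd
  have hp : Plane Φ (Φ.perp A) := plane_herm hu.ne hu.ε (hn.restrict_perp hA)
  have hi := not_map_perp hn hd
  have dj := fun x hx hx' => Submodule.disjoint_def.1 (Φ.restrict_nondeg_iff.1 hA) x hx hx'
  obtain ⟨e, he, f, hf, hef⟩ := exists_pair hn hA (by omega)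
  refine max_crit inf_le_right ?_ fun X h2 h3 g hg hg' => ?_
  · obtain ⟨b, hb, hb0⟩ := Submodule.exists_mem_ne_zero_of_ne_bot (p := Φ.perp A) fun e =>
      h1 (by rw [← hn.perp_perp A, e, Φ.perp_bot])
    obtain ⟨d, g, hg⟩ := exists_isE' hn hef.se (hb e he)
    refine ⟨g, IsE_mem_EG hg, fun h => hb0 (dj b ?_ hb)⟩
    have := (h.1 f).1 hf
    rw [hg.apply_r hef (hb f hf)] at this
    simpa [A.smul_mem_iff Φ.ε_ne_zero] using sub_mem (sub_mem hf (A.smul_mem d he)) this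
  have st : ∀ {U : Submodule F V}, U ≤ A → ∀ g ∈ Φ.isom, (∀ v ∈ Φ.perp U, g v = v) → g ∈ stab A :=
    fun hU g hg h => mem_stab_of_le fun x hx => mem_of_fix_perp hn hg
      (fun v hv => h v (Φ.perp_anti hU hv)) hx
  have inE : InE Φ X A := fun x hx y hy _ _ hg => h2 ⟨st le_rfl _ hg.mem_isom
    (IsE.fix hg (Φ.le_perp_perp _ hx) (Φ.le_perp_perp _ hy)), IsE_mem_EG hg⟩
  have sub : ∀ x ∈ A, ∀ r ∈ A, Φ.IsPair x r → (Φ.restrict (A ⊓ Φ.pairPerp x r)).Nondeg ∧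
      1 ≤ finrank F ↥(A ⊓ Φ.pairPerp x r) := fun x hx r hr h => by
    have hs : (F ∙ x) ⊔ (F ∙ r) ≤ A := sup_le ((Submodule.span_singleton_le_iff_mem _ _).2 hx)
      ((Submodule.span_singleton_le_iff_mem _ _).2 hr)
    have := finrank_inf_perp hn hA hs
    rw [h.finrank_span] at this
    exact ⟨nondeg_inf_perp hn hA h.nondeg_span hs, by unfold Formed.pairPerp; omega⟩
  have full : ∀ x ∈ A, x ≠ 0 → ∀ a d, HasE Φ X x a d → a ∉ A → Full Φ X x := by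
    intro x hx hx0 a d ha ha'
    obtain ⟨r, hr, hxr⟩ := exists_pair_mem hn hA hx hx0 ha.sp
    obtain ⟨u1, u2⟩ := sub x hx r hr hxr
    have lift : ∀ g ∈ Φ.isom, g ∈ stab A → ∀ c : F, g x = c • x → ∀ b ∈ Φ.perp A, ∀ d,
        HasE Φ X x b d → HasE Φ X (c • x) (g b) d := fun g hg hg' c e b hb d h => by
      obtain ⟨k, k1, k2, k3⟩ := hu.adj _ u1 u2 g hg
      have := h.conj (h2 ⟨mul_mem (st inf_le_left k k1 k2) hg', k3⟩) (mul_mem k1 hg)
      rwa [LinearEquiv.mul_apply, LinearEquiv.mul_apply, e, k2 _ (Submodule.smul_mem _ c fun u hu =>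
        Φ.B_eq_zero_symm (Φ.mem_pairPerp.1 hu.2).1), k2 _ (Φ.perp_anti inf_le_left
          ((Formed.perp_mem_stab hg hg' b).1 hb))] at this
    have h4 : ∀ y ∈ A, Φ.B x y = 0 → y ∈ AE Φ X ha.sp := fun y hy e => inE.hasE hn hx hy ha.sp e
    let M : Submodule F V :=
      { carrier := {b | b ∈ Φ.perp A ∧ b ∈ AE Φ X ha.sp}
        zero_mem' := ⟨zero_mem _, zero_mem _⟩
        add_mem' := fun h h' => ⟨add_mem h.1 h'.1, add_mem h.2 h'.2⟩
        smul_mem' := fun c b ⟨h, d, h'⟩ => ⟨Submodule.smul_mem _ c h, by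
          rcases eq_or_ne c 0 with rfl | hc
          · simp
          have hc' : σ c ≠ 0 := by simpa
          have t := fun v (hv : v ∈ Φ.perp A) => hxr.torus_perp (Units.mk0 _ hc')
            (Φ.mem_pairPerp.2 ⟨hv x hx, hv r hr⟩)
          have := (lift _ (hxr.torus (Units.mk0 _ hc')).2 (st le_rfl _ (hxr.torus _).2 t) _
            (hxr.torus_left _) b h d h').of_smul hc'
          rw [t b h, Units.val_mk0, Φ.σσ] at this
          exact ⟨_, this⟩⟩ }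
    obtain ⟨w, hw, e⟩ := exists_prj hn hA a
    have h6 := perp_le_of_fix hn hA hp M (fun g hg hf b ⟨h, d, h'⟩ =>
      ⟨(Formed.perp_mem_stab hg (fix_le_stab _ hf) b).1 h, d, by
        simpa using lift g hg (fix_le_stab _ hf) 1 (by simp [hf x hx]) b h d h'⟩) (b := a - w)
      ⟨fun y hy => by rw [map_sub, e y hy, sub_self], sub_mem ⟨d, ha⟩ (h4 w hw ((e x hx).trans ha.pa))⟩
      (fun y hy => by rw [map_sub, e y hy, sub_self]) (fun e => ha' (sub_eq_zero.1 e ▸ hw))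
    refine full_of_AE ha.sp (fun b hb => ?_) fun d g hg => inE x hx 0 (zero_mem _) d g hg
    obtain ⟨w, hw, e⟩ := exists_prj hn hA b
    simpa using add_mem (h6 (x := b - w) fun y hy => by rw [map_sub, e y hy, sub_self]).2
      (h4 w hw ((e x hx).trans hb))
  obtain ⟨t, ht⟩ := exists_TP (Φ₁ := Φ) hu.ne hu.τ hu.ε
  have tv : ∀ x ∈ A, Φ.Sing x → HasE Φ X x 0 t := fun x hx hs =>
    let ⟨g, hg⟩ := isE_T hn hs ht; ⟨g, inE x hx 0 (zero_mem _) _ g hg, hg⟩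
  have hX : X ≤ Φ.isom := h3.trans EG_le_isom
  have hg1 := hX hg
  by_contra hc
  have dich : ∀ x ∈ A, Φ.Sing x → g x ∈ A ∨ g x ∈ Φ.perp A := by
    intro x hx hs
    by_contra! h5
    obtain ⟨r, hr, e⟩ : ∃ r ∈ A, Φ.B r (g x) ≠ 0 := by by_contra! hc; exact h5.2 hc
    have := finrank_pf (Φ := Φ) ![g x, r] A
    obtain ⟨z, ⟨hz, z1⟩, z0, zs⟩ := exists_sing_herm hu.ne hu.ε hu.Q (T := A ⊓ pf Φ ![g x, r]) (by omega)
    have e1 : Φ.B z (g x) = 0 := Φ.B_eq_zero_symm (mem_pf.1 z1 0)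
    obtain ⟨s, s1, s2⟩ := inE.mv hn hz hr zs (Φ.B_eq_zero_symm (mem_pf.1 z1 1)) e1 e
    have a := IsSp.tv_conj (tv x hx hs) hg hX
    have b := full z hz z0 _ _ (HasE.of_tv (s2 ▸ IsSp.tv_conj a s1 hX) (tv z hz zs) a e1)
      (by simpa [A.smul_mem_iff, Φ.ε_ne_zero, ht.1] using h5.1)
    obtain ⟨y, hy, p⟩ := exists_pair_mem hn hA hz z0 zs
    obtain ⟨k, k1, k2⟩ := tv y hy p.sf
    exact hc (EG_le_of_full' hn b k1 k2.mem_isom (by simp [k2.app, zs.2, p.ef, p.fe, ht.1, Φ.ε_ne_zero]))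
  have all : ∀ C C' : Submodule F V, (∀ x ∈ C, ∀ y ∈ C', Φ.B x y = 0) →
      (∀ x ∈ A, Φ.Sing x → g x ∈ C ∨ g x ∈ C') → g e ∈ C → ∀ x ∈ A, g x ∈ C := by
    intro C C' o di hj
    have opp : ∀ x, ∀ y ∈ A, Φ.Sing y → Φ.B x y ≠ 0 → g x ∈ C → g y ∈ C := fun x y hy hs e h1 =>
      (di y hy hs).resolve_right fun h => e ((hg1.1 x y).symm.trans (o _ h1 _ h))
    refine sing_ind he hf hef (C.comap (g : V →ₗ[F] V)).toAddSubgroup fun x hx hs => ?_
    rcases eq_or_ne x 0 with rfl | hx0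
    · exact zero_mem _
    by_cases e' : Φ.B x e = 0
    · obtain ⟨w, hw, hws, h1, h2⟩ := exists_sing_both hn hA he hef.left_ne_zero hef.se hx hx0 e'
      exact opp w x hx hs (fun e => h2 (Φ.B_eq_zero_symm e)) (opp e w hw hws h1 hj)
    · exact opp e x hx hs (fun e => e' (Φ.B_eq_zero_symm e)) hj
  rcases dich e he hef.se with h4 | h4
  · exact hg' ⟨mem_stab_of_le (all A (Φ.perp A) (fun x hx y hy => hy x hx) dich h4), h3 hg⟩
  · exact hi g hg1 (all _ A (fun x hx y hy => Φ.B_eq_zero_symm (hx y hy))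
      (fun x hx hs => (dich x hx hs).symm) h4)

/-- Two orthogonal non-degenerate 3-spaces. -/
theorem ODec.max_three {D : Fin 2 → Submodule F V} (h : ODec Φ 3 D) (hu : HU Φ) :
    Geo.IsMaximalIn (EG Φ) (dstab D ⊓ EG Φ) := by
  refine h.isMaximalIn ODec.sw_two (fun i => irr_of_three h.hn (h.nd i) (h.rk i).ge) (h.pair_herm hu (by omega))
    fun X hX g hg i x hx x0 hs hD => ?_
  obtain ⟨t, ht⟩ := exists_TP (Φ₁ := Φ) hu.ne hu.τ hu.ε
  have tv : ∀ i, ∀ x ∈ D i, Φ.Sing x → HasE Φ X x 0 t := fun i x hx hs =>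
    let ⟨g, hg⟩ := isE_T h.hn hs ht; ⟨g, h.inE hX.le i x hx 0 (zero_mem _) _ g hg, hg⟩
  have a := IsSp.tv_conj (tv i x hx hs) hg (hX.le'.trans EG_le_isom)
  generalize g x = p at a hD
  obtain ⟨⟨u, hu0⟩, ⟨w, hw⟩, rfl⟩ := exists_add_of_isCompl h.isCompl p
  simp only at a hD
  have o : ∀ y ∈ D 1, Φ.B y u = 0 := fun y hy => h.orth 1 0 (by decide) y hy u hu0
  have w0 : w ≠ 0 := by rintro rfl; exact hD 0 (by simpa)
  by_cases e : Φ.B w w = 0
  · have e' : Φ.B u u = 0 := by simpa [e, o w hw, Φ.B_eq_zero_symm (o w hw)] using a.sp.2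
    refine hX.win hw w0 (HasE.of_tv (add_comm u w ▸ a) (tv 1 w hw ⟨hu.Q _, e⟩) (tv 0 u hu0 ⟨hu.Q _, e'⟩) (o w hw)) ?_
    rw [(D 1).smul_mem_iff (mul_ne_zero Φ.ε_ne_zero ht.1)]
    exact fun m => hD 1 (add_mem m hw)
  have := finrank_pf (Φ := Φ) ![w] (D 1)
  obtain ⟨z, ⟨hz, z1⟩, z0, zs⟩ := exists_sing_herm hu.ne hu.ε hu.Q (T := D 1 ⊓ pf Φ ![w]) (by rw [h.rk] at this; omega)
  have e1 : Φ.B z w = 0 := Φ.B_eq_zero_symm (mem_pf.1 z1 0)
  have e2 : Φ.B z (u + w) = 0 := by simp [e1, o z hz]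
  obtain ⟨s, s1, s2⟩ := (h.inE hX.le 1).mv h.hn hz hw zs e1 e2 (by simpa [o w hw])
  exact hX.win_tv ht.1 a (hD 1) hz z0 zs e2 s1 s2

section Pair
variable {U U' : Submodule F V}

theorem TSP.full_tv (hu : HU Φ) (hX : X ≤ Φ.isom) (h : TSP Φ X U U') (h3 : 3 ≤ finrank F V) {p : V} (hp : p ∈ U)
    (p0 : p ≠ 0) {t : F} (t0 : t ≠ 0) (ht : HasE Φ X p 0 t) : Full Φ X p := by
  have hn := hu.nd
  have mv : ∀ a ∈ U, a ∉ F ∙ p → HasE Φ X a 0 t := fun a ha n => by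
    obtain ⟨y, hy, e1, -, e3⟩ := h.symm.exists_sep hn (x := a - p) (y := 0) (c := p) fun hc => by
      rw [Submodule.span_zero_singleton, sup_bot_eq] at hc
      obtain ⟨u, hu, v, hv, e⟩ := Submodule.mem_sup.1 hc
      obtain ⟨l, rfl⟩ := Submodule.mem_span_singleton.1 hv
      obtain rfl : u = 0 := h.c.disjoint.le_bot ⟨by
        rw [eq_sub_of_add_eq e]; exact sub_mem hp (U.smul_mem _ (sub_mem ha hp)), hu⟩
      have l0 : l ≠ 0 := by rintro rfl; exact p0 (by simpa using e.symm)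
      exact n (Submodule.mem_span_singleton.2 ⟨l⁻¹ * (1 + l), smul_right_injective V l0 (by
        simp only [smul_smul, mul_inv_cancel_left₀ l0]; linear_combination (norm := module) -e)⟩)
    obtain ⟨g, hg, i⟩ := h.e _ (sub_mem ha hp) y hy (Φ.B_eq_zero_symm e1)
    convert IsSp.tv_conj ht hg hX using 1
    rw [i.apply_perp (h.l.1 _ (sub_mem ha hp) p hp), e3]; simp
  refine full_of_AE' hn h3 (notSp2_of_ne hu.ne) p0 ht.sp fun a e => ?_
  obtain ⟨⟨u, hu0⟩, ⟨w, hw⟩, rfl⟩ := exists_add_of_isCompl h.c a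
  refine add_mem ?_ ⟨0, h.e p hp w hw (by simpa [h.l.1 p hp u hu0] using e)⟩
  by_cases m : u ∈ F ∙ p
  · obtain ⟨c, rfl⟩ := Submodule.mem_span_singleton.1 m
    exact smul_mem_AE _ c
  have m1 := U.smul_mem t⁻¹ hu0
  have m2 : t⁻¹ • u ∉ F ∙ p := by rwa [Submodule.smul_mem_iff _ (inv_ne_zero t0)]
  exact ⟨0, (HasE.of_tv (mv _ (add_mem hp m1) (by
    rwa [Submodule.add_mem_iff_right _ (Submodule.mem_span_singleton_self p)])) ht (mv _ m1 m2)
    (h.l.1 p hp _ m1)).congr (by simp [hu.ε, t0]) rfl⟩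

omit [Finite F] in
/-- Without transvections, the Siegel partners of a mixed vector avoid `U`. -/
theorem TSP.key (hu : HU Φ) (h : TSP Φ X U U') (nt : ∀ p ∈ U, p ≠ 0 → ∀ t, HasE Φ X p 0 t → t = 0) {u u' b : V}
    (hu0 : u ∈ U) (hu' : u' ∈ U') (u0 : u ≠ 0) (hb : b ∈ U) (H : ∀ l : F, HasE Φ X (u + u') (l • b) 0) : b = 0 := by
  by_contra b0
  obtain ⟨θ, hθ⟩ := DFunLike.ne_iff.1 hu.ne
  replace hθ : σ θ ≠ θ := hθ
  have e : Φ.B b u' = 0 := Φ.B_eq_zero_symm (by simpa [h.l.1 u hu0 b hb] using (H 1).pa)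
  have k : ∀ l : F, l ≠ 0 → HasE Φ X b (-(σ l • u)) (-(l * σ l * Φ.B u u')) := fun l l0 =>
    (((H l).swap.of_smul l0).mul (h.e b hb (σ l • u') (U'.smul_mem _ hu') (by simp [e]))).congr (by
      simp [hu.ε]) (by simp [hu.ε, h.r.1 u' hu' u' hu', Φ.σσ]; ring)
  by_cases m : u ∈ F ∙ b
  · obtain ⟨c, rfl⟩ := Submodule.mem_span_singleton.1 m
    have c0 : c ≠ 0 := left_ne_zero_of_smul u0
    have t0 : θ ≠ 0 := by rintro rfl; simp at hθ
    have := nt b hb b0 _ (((k (σ (θ / c)) (by simp [t0, c0])).add_smul θ).congr (by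
      simp [Φ.σσ, smul_smul, c0]) rfl)
    simp [e, hu.ε, sub_eq_zero, hθ] at this
  obtain ⟨y, hy, e1, -, e3⟩ := h.symm.exists_sep hu.nd (x := b) (y := 0) (c := u) fun hc => by
    rw [Submodule.span_zero_singleton, sup_bot_eq] at hc
    obtain ⟨w, hw, v, hv, e⟩ := Submodule.mem_sup.1 hc
    obtain rfl : w = 0 := h.c.disjoint.le_bot ⟨by
      rw [eq_sub_of_add_eq e]; exact sub_mem hu0 ((Submodule.span_singleton_le_iff_mem _ _).2 hb hv), hw⟩
    exact m (by simpa [← e] using hv)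
  have h1 := k 1 one_ne_zero
  have h3 := h.e b hb (θ • y) (U'.smul_mem _ hy) (by simp [Φ.B_eq_zero_symm e1])
  have h4 := h1.hB
  have := nt b hb b0 _ ((((h1.mul h3).mul h1.inv).mul h3.inv).congr (by abel) rfl)
  have e4 : Φ.B u y = 1 := by rw [← hu.symm, e3, map_one]
  simp [hu.ε, h.l.1 u hu0 u hu0, h.r.1 y hy y hy, e3, e4] at this h4
  exact hθ (by linear_combination this - h4)

omit [Finite F] in
theorem TSP.part (hu : HU Φ) (h : TSP Φ X U U') (nt : ∀ p ∈ U, p ≠ 0 → ∀ t, HasE Φ X p 0 t → t = 0) {p a : V}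
    (hp : p ∈ U) (p0 : p ≠ 0) (H : ∀ l : F, HasE Φ X p (l • a) 0) : a ∈ U' := by
  obtain ⟨⟨u, hu0⟩, ⟨u', hu'⟩, rfl⟩ := exists_add_of_isCompl h.c a
  by_contra hc
  refine p0 (h.key hu nt hu0 hu' (by rintro rfl; exact hc (by simpa)) hp fun l => ?_)
  rcases eq_or_ne l 0 with rfl | l0
  · simpa using hasE_one X (by simpa using (H 1).sing)
  exact ((H (σ (-l))).swap.of_smul (by simpa)).congr (by simp [Φ.σσ, hu.ε]) (zero_mul _)

omit [Finite F] in
theorem TSP.img (hu : HU Φ) (hX : X ≤ Φ.isom) (h : TSP Φ X U U') (h6 : finrank F V = 6)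
    (nt : ∀ p, p ∈ U ∨ p ∈ U' → p ≠ 0 → ∀ t, HasE Φ X p 0 t → t = 0) {x : V} {R : Submodule F V}
    (hR : ∀ a ∈ R, HasE Φ X x a 0) (hR' : ∀ a, (∀ l : F, HasE Φ X x (l • a) 0) → a ∈ R) (h2 : 2 ≤ finrank F R) :
    x ∈ U ∨ x ∈ U' := by
  have hn := hu.nd
  obtain ⟨⟨u, hu0⟩, ⟨u', hu'⟩, rfl⟩ := exists_add_of_isCompl h.c x
  by_contra! hc
  simp only at hR hR' hc
  have u0 : u ≠ 0 := by rintro rfl; exact hc.2 (by simpa)
  have u1 : u' ≠ 0 := by rintro rfl; exact hc.1 (by simpa)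
  obtain ⟨θ, hθ⟩ := DFunLike.ne_iff.1 hu.ne
  replace hθ : σ θ - θ ≠ 0 := sub_ne_zero.2 hθ
  have k1 := fun b hb (m : b ∈ R) => h.key hu (fun p hp => nt p (.inl hp)) (b := b) hu0 hu' u0 hb
    fun l => hR _ (R.smul_mem l m)
  have k2 := fun b hb (m : b ∈ R) => h.symm.key hu (fun p hp => nt p (.inr hp)) (b := b) hu' hu0 u1 hb
    fun l => add_comm u u' ▸ hR _ (R.smul_mem l m)
  have step : ∀ a ∈ R, ∀ b ∈ U, ∀ b' ∈ U', Φ.B b b' = 0 → Φ.B b u' = 0 → Φ.B b' u = 0 →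
      Φ.B b' a • b = 0 ∧ Φ.B b a • b' = 0 := fun a ha b hb b' hb' e1 e2 e3 => by
    have f : ∀ m : F, (σ m * Φ.B b' a) • b - (m * Φ.B b a) • b' ∈ R := fun m => by
      obtain ⟨s, hs, i⟩ := h.e b hb (m • b') (U'.smul_mem _ hb') (by simp [e1])
      have : s a ∈ R := hR' _ fun l => by
        have := (hR _ (R.smul_mem l ha)).conj hs (hX hs)
        rwa [map_smul, show s (u + u') = u + u' by
          simp [i.app, e2, e3, h.l.1 b hb u hu0, h.r.1 b' hb' u' hu']] at this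
      convert sub_mem this ha using 1
      simp only [i.app, hu.ε, Φ.B_smul_left]; module
    have f1 := k1 _ (U.smul_mem ((σ θ - θ) * Φ.B b' a) hb) (by
      convert sub_mem (f θ) (R.smul_mem θ (f 1)) using 1; simp only [map_one]; module)
    have f2 := k2 _ (U'.smul_mem ((σ θ - θ) * Φ.B b a) hb') (by
      convert sub_mem (f θ) (R.smul_mem (σ θ) (f 1)) using 1; simp only [map_one]; module)
    rw [mul_smul, smul_eq_zero, or_iff_right hθ] at f1 f2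
    exact ⟨f1, f2⟩
  have r1 := h.rk hn
  have r2 := h.symm.rk hn
  have sub : R ≤ (F ∙ u) ⊔ F ∙ u' := fun a ha => by
    obtain ⟨⟨y, hy⟩, ⟨y', hy'⟩, rfl⟩ := exists_add_of_isCompl h.c a
    refine add_mem (Submodule.mem_sup_left (by_contra fun n => ?_)) (Submodule.mem_sup_right (by_contra fun n => ?_))
    · obtain ⟨b', hb', e1, -, e3⟩ := h.symm.exists_sep hn (x := u) (y := 0) (c := y) fun hc => by
        rw [Submodule.span_zero_singleton, sup_bot_eq] at hc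
        obtain ⟨w, hw, v, hv, e⟩ := Submodule.mem_sup.1 hc
        obtain rfl : w = 0 := h.c.disjoint.le_bot ⟨by
          rw [eq_sub_of_add_eq e]; exact sub_mem hy ((Submodule.span_singleton_le_iff_mem _ _).2 hu0 hv), hw⟩
        exact n (by simpa [← e] using hv)
      obtain ⟨b, hb, b0, e⟩ := exists_mem_notMem (Φ := Φ) (U := U) (S := ⊥) ![u', b'] (by
        rw [sup_bot_eq, finrank_bot]; omega)
      have := (step _ ha b hb b' hb' (Φ.B_eq_zero_symm (e 1)) (Φ.B_eq_zero_symm (e 0)) e1).1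
      exact b0 (by simpa [e3, h.r.1 b' hb' y' hy'] using this)
    · obtain ⟨b, hb, e1, -, e3⟩ := h.exists_sep hn (x := u') (y := 0) (c := y') fun hc => by
        rw [Submodule.span_zero_singleton, sup_bot_eq] at hc
        obtain ⟨w, hw, v, hv, e⟩ := Submodule.mem_sup.1 hc
        obtain rfl : w = 0 := h.c.disjoint.le_bot ⟨hw, by
          rw [eq_sub_of_add_eq e]; exact sub_mem hy' ((Submodule.span_singleton_le_iff_mem _ _).2 hu' hv)⟩
        exact n (by simpa [← e] using hv)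
      obtain ⟨b', hb', b0, e⟩ := exists_mem_notMem (Φ := Φ) (U := U') (S := ⊥) ![u, b] (by
        rw [sup_bot_eq, finrank_bot]; omega)
      have := (step _ ha b hb b' hb' (e 1) e1 (Φ.B_eq_zero_symm (e 0))).2
      exact b0 (by simpa [e3, h.l.1 b hb y hy] using this)
  exact u0 (k1 u hu0 ((Submodule.eq_of_le_of_finrank_le sub ((finrank_two u u').trans h2)).ge
    (Submodule.mem_sup_left (Submodule.mem_span_singleton_self u))))

end Pair

/-- The stabiliser of a pair of complementary totally isotropic 3-spaces. -/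
theorem HU.max_pair (hu : HU Φ) {D : Fin 2 → Submodule F V} (hD : Dec 3 D) (hts : ∀ i, Φ.TotSing (D i))
    (hs : ∃ s ∈ EG Φ, (∀ x ∈ D 0, s x ∈ D 1) ∧ ∀ x ∈ D 1, s x ∈ D 0) : Geo.IsMaximalIn (EG Φ) (dstab D ⊓ EG Φ) := by
  have hn := hu.nd
  have hc := hD.isCompl
  have h6 : finrank F V = 6 := hD.finrank_eq
  have hH : TSP Φ (dstab D ⊓ EG Φ) (D 0) (D 1) := ⟨hc, hts 0, hts 1, fun x hx y hy e => by
    obtain ⟨g, hg⟩ := exists_isE0 hn (TotSing.sing (hts 0) hx) (TotSing.sing (hts 1) hy) e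
    refine ⟨g, ⟨hD.mem_dstab (Fin.forall_fin_two.2 ⟨⟨0, fun v hv => ?_⟩, 1, fun v hv => ?_⟩),
      IsE_mem_EG hg⟩, hg⟩
    · rw [hg.apply_perp ((hts 0).1 x hx v hv)]; exact (D 0).add_mem hv ((D 0).smul_mem _ hx)
    · rw [hg.app, (hts 1).1 y hy v hv]; simpa using (D 1).sub_mem hv ((D 1).smul_mem _ hy)⟩
  refine max_crit inf_le_right ?_ fun X h3 h4 g hg hg' => by_contra fun hne => hg' ⟨?_, h4 hg⟩
  · obtain ⟨x, hx, hx0⟩ := hD.exists_ne 0
    have := hH.symm.rk hn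
    have := finrank_sup_one (D 1) x
    obtain ⟨a, ha, ha', -⟩ := hH.exists_notMem hn (S := D 1 ⊔ F ∙ x) le_sup_left ![] (by omega)
    obtain ⟨y, hy, -, e2, e3⟩ := hH.symm.exists_sep hn (x := 0) (y := x) (c := a) (by simpa)
    obtain ⟨g, hg⟩ := exists_isE0 hn (TotSing.sing (hts 0) hx) (TotSing.sing (hts 0) ha)
      ((hts 0).1 x hx a ha)
    refine ⟨g, IsE_mem_EG hg, fun h => ?_⟩
    obtain ⟨j, hj⟩ := exists_of_dstab h.1 1
    have h5 := hj y hy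
    rw [hg.apply_perp (Φ.B_eq_zero_symm e2), Φ.symm, e3, map_one, mul_one] at h5
    revert j
    refine Fin.forall_fin_two.2 ⟨fun _ h5 => ?_, fun _ h5 => ?_⟩
    · rw [(D 0).add_mem_iff_left ((D 0).smul_mem _ hx)] at h5
      simp [hD.eq_zero (by decide) h5 hy] at e3
    · rw [(D 1).add_mem_iff_right hy, (D 1).smul_mem_iff Φ.ε_ne_zero] at h5
      exact hx0 (hD.eq_zero (by decide) hx h5)
  have hi : X ≤ Φ.isom := h4.trans EG_le_isom
  have hX : TSP Φ X (D 0) (D 1) := ⟨hc, hts 0, hts 1, fun x hx y hy e => (hH.e x hx y hy e).mono h3⟩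
  obtain ⟨s, hs, s0, s1⟩ := hs
  have hsX : s ∈ X := h3 ⟨hD.mem_dstab (Fin.forall_fin_two.2 ⟨⟨1, s0⟩, 0, s1⟩), hs⟩
  have nt : ∀ p, p ∈ D 0 ∨ p ∈ D 1 → p ≠ 0 → ∀ t, HasE Φ X p 0 t → t = 0 := by
    have : ∀ p ∈ D 0, p ≠ 0 → ∀ t, HasE Φ X p 0 t → t = 0 := fun p hp p0 t ht => by_contra fun t0 =>
      have := hX.full_tv hu hi (by omega) hp p0 t0 ht
      hne (hX.EG_le hn hp p0 (s0 p hp) (by simpa) this (this.map hsX (hi hsX)))
    rintro p (hp | hp) p0 t ht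
    exacts [this p hp p0 t ht, this _ (s1 p hp) (by simpa) t (IsSp.tv_conj ht hsX hi)]
  have pt : ∀ {U U'}, TSP Φ X U U' → (∀ p ∈ U, p ≠ 0 → ∀ t, HasE Φ X p 0 t → t = 0) →
      ∃ j, ∀ p ∈ U, g p ∈ D j := fun {U U'} h nt' => by
    have k : ∀ p ∈ U, g p ∈ D 0 ∨ g p ∈ D 1 := fun p hp => by
      rcases eq_or_ne p 0 with rfl | p0
      · simp
      refine hX.img hu hi h6 nt (R := (U' ⊓ pf Φ ![p]).map (g : V →ₗ[F] V)) ?_ (fun a ha => ?_) ?_
      · rintro _ ⟨a, ⟨ha, e⟩, rfl⟩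
        exact (h.e p hp a ha (mem_pf.1 e 0)).conj hg (hi hg)
      · obtain ⟨a, rfl⟩ := g.surjective a
        have : ∀ l : F, HasE Φ X p (l • a) 0 := fun l => by simpa using (ha l).conj (inv_mem hg) (hi (inv_mem hg))
        exact ⟨a, ⟨h.part hu nt' hp p0 this, mem_pf.2 fun i => by fin_cases i; simpa using (this 1).pa⟩, rfl⟩
      have := finrank_pf (Φ := Φ) ![p] U'
      have := h.symm.rk hn
      rw [LinearEquiv.finrank_map_eq]; omega
    by_contra! hc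
    obtain ⟨a, ha, a1⟩ := hc 0
    obtain ⟨b, hb, b1⟩ := hc 1
    rcases k _ (add_mem ha hb) with e | e <;> rw [map_add] at e
    · exact a1 ((add_mem_cancel_right ((k b hb).resolve_right b1)).1 e)
    · exact b1 ((add_mem_cancel_left ((k a ha).resolve_left a1)).1 e)
  exact hD.mem_dstab (Fin.forall_fin_two.2 ⟨pt hX fun p hp => nt p (.inl hp), pt hX.symm fun p hp => nt p (.inr hp)⟩)

end Cfsg.Agent.Root.Mx
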