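import Cfsg.Agent.Root.Un3

/-! Overgroups of the monomial group of an orthonormal frame in `SU₆(q)`, `q ≥ 3` (`U6`): the criterion `U6.win`,
elements fixing a frame point (`U6.p1`) or mapping a frame vector to a vector of support at most four (`U6.z4`) are
monomial. -/

set_option autoImplicit false

namespace Cfsg.Agent.Root.Mx

open Cfsg.Agent.Geom Cfsg.Agent.AutCl Module

variable {F : Type*} [Field F] {σ : F →+* F} {V : Type*} [AddCommGroup V] [Module F V] {Φ : Formed σ V}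
  {X : Subgroup (V ≃ₗ[F] V)} {e : Fin 6 → V} [FiniteDimensional F V]

/-- A proper overgroup of the monomial group. -/
structure U6 (Φ : Formed σ V) (e : Fin 6 → V) (X : Subgroup (V ≃ₗ[F] V)) : Prop where
  od : ODec Φ 1 fun i => F ∙ e i
  hu : HU Φ
  on : ∀ i j, Φ.B (e i) (e j) = if i = j then 1 else 0
  eta : ∃ η : F, η * σ η = 1 ∧ η ^ 2 ≠ 1 ∧ η ^ 3 ≠ 1
  le : UM F e ⊓ EG Φ ≤ X
  le' : X ≤ EG Φ
  small : ¬ EG Φ ≤ X

namespace U6
open UF (of_UM)
variable (h : U6 Φ e X)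
include h

theorem ext0 {v : V} (hv : ∀ i, Φ.B (e i) v = 0) : v = 0 := h.od.eq_zero' fun i x hx => by
  obtain ⟨c, rfl⟩ := Submodule.mem_span_singleton.1 hx
  simp [hv]

theorem ext {v w : V} (hv : ∀ i, Φ.B (e i) v = Φ.B (e i) w) : v = w := sub_eq_zero.1 (h.ext0 (by simp [hv]))

theorem sum (v : V) : ∑ i, Φ.B (e i) v • e i = v := h.ext fun i => by simp [map_sum, h.on]

omit [FiniteDimensional F V] h in
theorem out (l : List (Fin 6)) (hl : l.length ≤ 5) : ∃ i, i ∉ l := exists_out_list l (by simp; omega)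

omit [FiniteDimensional F V] in
theorem iso {g : V ≃ₗ[F] V} (hg : g ∈ X) : g ∈ Φ.isom := EG_le_isom (h.le' hg)

theorem mem_UM {g : V ≃ₗ[F] V} (hg : ∀ i, ∃ j, g (e i) ∈ F ∙ e j) : g ∈ UM F e :=
  h.od.mem_dstab fun i => (hg i).imp fun j hj x hx => by
    obtain ⟨c, rfl⟩ := Submodule.mem_span_singleton.1 hx
    simpa using Submodule.smul_mem _ c hj

omit [FiniteDimensional F V] in
theorem memX {g : V ≃ₗ[F] V} (hg : g ∈ UM F e) (hi : g ∈ Φ.isom) (hd : LinearMap.det (g : V →ₗ[F] V) = 1) : g ∈ X :=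
  h.le ⟨hg, h.hu.seg ⟨hi, mem_SLg.2 hd⟩⟩

theorem mem_span {v : V} {i : Fin 6} (hv : ∀ j ≠ i, Φ.B (e j) v = 0) : v ∈ F ∙ e i :=
  Submodule.mem_span_singleton.2 ⟨Φ.B (e i) v, h.ext fun j => by by_cases e : j = i <;> simp [h.on, e, hv]⟩

theorem exists_R (i : Fin 6) {η : F} (hη : η * σ η = 1) : ∃ g ∈ UM F e, IsQ Φ (e i) (η - 1) g :=
  let ⟨g, hg⟩ := h.hu.exists_qr (a := e i) (by simp [h.on]) hη
  ⟨g, h.od.isQ_mem (j := i) hg (Submodule.mem_span_singleton_self _), hg⟩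

theorem exists_δ {i j : Fin 6} (hij : i ≠ j) {η : F} (hη : η * σ η = 1) : ∃ g ∈ X ⊓ UM F e, ∀ v,
    g v = v + ((η - 1) * Φ.B (e i) v) • e i + ((σ η - 1) * Φ.B (e j) v) • e j := by
  obtain ⟨r, a, b⟩ := h.exists_R i hη
  obtain ⟨s, c, d⟩ := h.exists_R j (η := σ η) (by rw [Φ.σσ, mul_comm, hη])
  exact ⟨s * r, ⟨h.memX (mul_mem c a) (mul_mem d.iso b.iso) (by simp [det_mul', b.det, d.det, h.on, mul_comm, hη]),
    mul_mem c a⟩, fun v => by simp [b.app, d.app, h.on, hij.symm]⟩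

theorem exists_sw {i j : Fin 6} (hij : i ≠ j) {l : F} (hl : l * σ l = 1) : ∃ g ∈ UM F e, IsQ Φ (e i - l • e j) (-1) g := by
  obtain ⟨g, hg⟩ := h.hu.exists_isQ (a := e i - l • e j) (c := -1) (by
    simp [h.on, hij, hij.symm]; linear_combination hl)
  refine ⟨g, h.mem_UM fun m => ?_, hg⟩
  by_cases a : m = i
  · exact ⟨j, by simp [hg.app, a, h.on, hij.symm, Submodule.smul_mem _ _ (Submodule.mem_span_singleton_self _)]⟩
  by_cases b : m = j
  · exact ⟨i, h.mem_span fun k hk => by by_cases c : k = j <;> simp [hg.app, b, c, h.on, hij, hij.symm, hk, mul_comm, hl]⟩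
  · exact ⟨m, by simp [hg.app, h.on, Ne.symm a, Ne.symm b]⟩

theorem exists_ssw (i j : Fin 6) : ∃ g ∈ X ⊓ UM F e, g (e i) = e j ∧
    ∀ v, Φ.B (e i) v = 0 → Φ.B (e j) v = 0 → g v = v := by
  rcases eq_or_ne i j with rfl | hij
  · exact ⟨1, one_mem _, rfl, fun _ _ _ => rfl⟩
  obtain ⟨r, a, b⟩ := h.exists_sw hij (l := 1) (by simp)
  obtain ⟨s, c, d⟩ := h.exists_R j (η := -1) (by simp)
  exact ⟨r * s, ⟨h.memX (mul_mem a c) (mul_mem b.iso d.iso) (by
    simp [det_mul', b.det, d.det, h.on, hij, hij.symm]), mul_mem a c⟩,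
    by simp [b.app, d.app, h.on, hij.symm], fun v x y => by simp [b.app, d.app, x, y]⟩

variable [Finite F]

theorem isolate {u b : V} {hu : Φ.Sing u} {j k l : Fin 6} (a1 : j ≠ k) (a2 : j ≠ l) (a3 : k ≠ l) (u1 : Φ.B (e j) u = 0)
    (u2 : Φ.B (e k) u = 0) (u3 : Φ.B (e l) u = 0) (hb : b ∈ AE Φ X hu) (b0 : Φ.B (e j) b ≠ 0) :
    ∃ κ : F, κ ≠ 0 ∧ κ • e j ∈ AE Φ X hu := by
  obtain ⟨η, a, c⟩ := exists_mu h.hu.ne Φ.σσ
  obtain ⟨g, g1, g2⟩ := h.exists_δ a1 a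
  obtain ⟨g', g3, g4⟩ := h.exists_δ a2 a
  have m := sub_mem (map_mem_AE g1.1 (h.iso g1.1) (by simp [g2, u1, u2]) hb) hb
  have m' := sub_mem (map_mem_AE g3.1 (h.iso g3.1) (by simp [g4, u1, u3]) m) m
  have : η - 1 ≠ 0 := sub_ne_zero.2 (by rintro rfl; simp at c)
  exact ⟨(η - 1) * ((η - 1) * Φ.B (e j) b), by simp [*], by
    convert m' using 1; rw [g4, g2]; simp [h.on, a1, a2.symm, a3.symm]⟩

theorem spread {u : V} {hu : Φ.Sing u} {j k : Fin 6} (a1 : j ≠ k) (u1 : Φ.B (e j) u = 0) (u2 : Φ.B (e k) u = 0) {κ : F}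
    (k0 : κ ≠ 0) (hb : κ • e j ∈ AE Φ X hu) {r : Fin 6} (hr : Φ.B (e r) u = 0) (c : F) : c • e r ∈ AE Φ X hu := by
  have := mem_of_mu h.hu.ne Φ.σσ ((AE Φ X hu).comap (LinearMap.toSpanSingleton F V (κ • e j)).toAddMonoidHom)
    (fun η hη => by
      obtain ⟨g, g1, g2⟩ := h.exists_δ a1 hη
      have := map_mem_AE g1.1 (h.iso g1.1) (by simp [g2, u1, u2]) hb
      change η • κ • e j ∈ AE Φ X hu
      convert this using 1; simp [g2, h.on, a1.symm]; module) (c / κ)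
  obtain ⟨g, g1, g2, g3⟩ := h.exists_ssw j r
  simpa [smul_smul, k0, g2] using map_mem_AE g1.1 (h.iso g1.1) (g3 u u1 hr) this

/-- The criterion for an overgroup to contain `SU`. -/
theorem win {u : V} {hu : Φ.Sing u} (u0 : u ≠ 0) {j k : Fin 6} (a1 : j ≠ k) (u1 : Φ.B (e j) u = 0)
    (u2 : Φ.B (e k) u = 0) {κ : F} (k0 : κ ≠ 0) (hb : κ • e j ∈ AE Φ X hu) : False := by
  have S := fun {r} => h.spread a1 u1 u2 k0 hb (r := r)
  have ns : NotSp2 Φ := notSp2_of_ne h.hu.ne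
  have T := fullT_of_comm hu ns fun c => ⟨_, S u1 1, _, S u1 c, by simp [h.on]⟩
  obtain ⟨l, hl⟩ := exists_norm_eq h.hu.ne Φ.σσ (a := -1) (by simp)
  obtain ⟨p, hp⟩ : ∃ p, p = e j + l • e k := ⟨_, rfl⟩
  have ps : Φ.Sing p := ⟨h.hu.Q _, by simp [hp, h.on, a1, a1.symm]; linear_combination hl⟩
  obtain ⟨d, hd⟩ : p ∈ AE Φ X hu := by simpa [hp] using add_mem (S u1 1) (S u2 l)
  obtain ⟨g, hg⟩ := exists_isE h.hu.nd hu (map_zero _) (d := -d) (by simp [h.hu.τ, h.hu.Q]) (by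
    have := hd.hB; rw [ps.2] at this; simp; linear_combination -this)
  obtain ⟨c, c0, hc⟩ := ((hd.mul ⟨g, T _ g hg, hg⟩).congr (add_zero _) (by simp)).swap'
  obtain ⟨r, hr⟩ : ∃ r, Φ.B (e r) u ≠ 0 := by by_contra! H; exact u0 (h.ext0 H)
  have rj : r ≠ j := by rintro rfl; exact hr u1
  have rk : r ≠ k := by rintro rfl; exact hr u2
  obtain ⟨s, hs⟩ := out [j, k, r] (by simp)
  obtain ⟨s', hs'⟩ := out [j, k, r, s] (by simp)
  simp only [List.mem_cons, List.not_mem_nil, or_false, not_or] at hs hs'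
  have z : ∀ m, m ≠ j → m ≠ k → Φ.B (e m) p = 0 := fun m a b => by simp [hp, h.on, a, b]
  obtain ⟨κ', k1, H⟩ := h.isolate (hu := ps) (Ne.symm hs.2.2) (Ne.symm hs'.2.2.1) (Ne.symm hs'.2.2.2) (z r rj rk)
    (z s hs.1 hs.2.1) (z s' hs'.1 hs'.2.1) ⟨0, hc⟩ (by simp [c0, hr])
  have hF := full_of_AE' h.hu.nd (by have := h.od.finrank_eq; omega) ns
    (fun e0 => by simpa [hp, h.on, a1] using congrArg (Φ.B (e j)) e0) ps fun b hb => by
      have := add_mem (smul_mem_AE ps (Φ.B (e j) b)) (sum_mem (t := Finset.univ)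
        (f := fun i => Φ.B (e i) (b - Φ.B (e j) b • p) • e i) fun i _ => by
          by_cases i1 : i = j
          · simp [i1, hp, h.on, a1]
          by_cases i2 : i = k
          · have : Φ.B (e k) b - Φ.B (e j) b * l = 0 := by
              simp [hp] at hb; linear_combination -l * hb + Φ.B (e k) b * hl
            simp [i2, hp, h.on, a1.symm, this]
          exact h.spread (Ne.symm hs.2.2) (z r rj rk) (z s hs.1 hs.2.1) k1 H (z i i1 i2) _)
      simpa only [h.sum, add_sub_cancel] using this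
  obtain ⟨η, a, c⟩ := exists_mu h.hu.ne Φ.σσ
  obtain ⟨g, g1, g2⟩ := h.exists_δ rj.symm a
  refine h.small (EG_le_of_full' h.hu.nd hF g1.1 (h.iso g1.1) ?_)
  rw [g2, z r rj rk]
  simp only [map_add, map_smul, ps.2]
  simpa [hp, h.on, a1, a1.symm, sub_eq_zero] using fun e : η = 1 => by simp [e] at c

section P1
variable {k : Fin 6} {a : V}

omit [Finite F] in
theorem mem_ZS {g : V ≃ₗ[F] V} (hg : g ∈ UM F e) (hi : g ∈ Φ.isom) (hk : g (e k) = e k) : g ∈ ZS Φ X (e k) := by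
  obtain ⟨r, a, b, c⟩ := h.hu.adj _ (h.od.nd k) (h.od.rk k).ge g hi
  refine ⟨hi, hk, r, ⟨a, fun x => h.mem_span fun j hj => ?_⟩, h.le ⟨mul_mem (h.od.mem_dstab_of_fix a b) hg, c⟩⟩
  rw [map_sub, ← a.1 (e j) x, b (e j) (Φ.mem_perp_span_singleton.2 (by simp [h.on, hj.symm])), sub_self]

omit [Finite F] in
theorem rt_e {j : Fin 6} (hj : j ≠ k) : URt Φ (ZS Φ X (e k)) (e j) := ⟨by simp [h.on], fun η _ r hr =>
  h.mem_ZS (h.od.isQ_mem (j := j) hr (Submodule.mem_span_singleton_self _)) hr.iso (hr.perp (by simp [h.on, hj]))⟩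

theorem rt_k (ha : URt Φ (ZS Φ X (e k)) a) : Φ.B (e k) a = 0 := by
  obtain ⟨η, b, c⟩ := exists_mu h.hu.ne Φ.σσ
  obtain ⟨r, hr⟩ := h.hu.exists_qr ha.1 b
  have := congrArg (Φ.B a) (ha.2 η b r hr).2.1
  simp [hr.app, ha.1, sub_eq_zero] at this
  exact Φ.B_eq_zero_symm (this.resolve_left (by rintro rfl; simp at c))

omit [Finite F] in
theorem rt_sc (ha : URt Φ (ZS Φ X (e k)) a) {i : Fin 6} (hi : i ≠ k) {η : F} (hη : η * σ η = 1) :
    URt Φ (ZS Φ X (e k)) (a + ((η - 1) * Φ.B (e i) a) • e i) :=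
  let ⟨r, _, hr⟩ := h.exists_R i hη
  hr.app a ▸ ha.map h.hu.toHD ((h.rt_e hi).2 η hη r hr) hr.iso

theorem rr {u : V} (ha : URt Φ (ZS Φ X (e k)) a) (hb : URt Φ (ZS Φ X (e k)) (a + u)) (e1 : Φ.B a u = 0) :
    ∃ hu : Φ.Sing u, ∃ κ : F, κ ≠ 0 ∧ κ • a ∈ AE Φ X hu := by
  have e2 := Φ.B_eq_zero_symm e1
  have us : Φ.Sing u := ⟨h.hu.Q _, by simpa [e1, e2, ha.1] using hb.1⟩
  obtain ⟨η, b, c⟩ := exists_mu h.hu.ne Φ.σσ
  have b' : σ η * σ (σ η) = 1 := by rw [Φ.σσ, mul_comm, b]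
  obtain ⟨r, hr⟩ := h.hu.exists_qr hb.1 b
  obtain ⟨s, hs⟩ := h.hu.exists_qr ha.1 b'
  refine ⟨us, 1 - η, sub_ne_zero.2 (by rintro rfl; simp at c), 1 - η, r * s, by
    simpa using ZS.mul_mem h.hu.nd h.le' (by simp [h.on]) (mul_mem (hb.2 η b r hr) (ha.2 _ b' s hs)) (isQ_one _) (by
      simp only [det_mul', hr.det, hs.det, ha.1, hb.1]; linear_combination b),
    us, by simp [e2], by simp [h.hu.τ, h.hu.Q], by simp [h.hu.ε, ha.1]; linear_combination -b, fun v => ?_⟩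
  simp [hr.app, hs.app, ha.1, e2, h.hu.ε]
  match_scalars
  · ring
  · linear_combination Φ.B a v * b
  · linear_combination Φ.B a v * b

theorem rt_one (ha : URt Φ (ZS Φ X (e k)) a) {i j : Fin 6} (hij : i ≠ j) (hi : Φ.B (e i) a * σ (Φ.B (e i) a) = 1)
    (hj : Φ.B (e j) a ≠ 0) : False := by
  have k0 := h.rt_k ha
  have ik : i ≠ k := by rintro rfl; simp [k0] at hi
  have := h.rt_sc (h.rt_e ik) ik hi
  rw [show e i + _ = Φ.B (e i) a • e i by simp [h.on]; module] at this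
  obtain ⟨us, κ, k1, H⟩ := h.rr (u := a - Φ.B (e i) a • e i) this (by simpa) (by simp [h.on])
  exact h.win (hu := us) (fun e0 => hj (by simpa [h.on, hij.symm] using congrArg (Φ.B (e j)) e0)) ik (by simp [h.on])
    (by simp [h.on, k0, ik.symm]) (mul_ne_zero k1 (left_ne_zero_of_mul_eq_one hi)) (by rwa [← smul_smul])

theorem rt_five (ha : URt Φ (ZS Φ X (e k)) a) {S : Finset (Fin 6)} (hS : ∀ i ∈ S, Φ.B (e i) a ≠ 0) (h5 : 5 ≤ S.card) :
    False := by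
  have k0 := h.rt_k ha
  obtain ⟨f, f1, f2⟩ : ∃ f : Fin 5 → Fin 6, f.Injective ∧ ∀ i, Φ.B (e (f i)) a ≠ 0 :=
    ⟨S.orderEmbOfCardLe h5, (S.orderEmbOfCardLe h5).injective, fun i => hS _ (S.orderEmbOfCardLe_mem h5 i)⟩
  have fk : ∀ i, f i ≠ k := fun i e => f2 i (e ▸ k0)
  have on : ∀ i j, Φ.B (e (f i)) (e (f j)) = if i = j then 1 else 0 := fun i j => by simp [h.on, f1.eq_iff]
  have sy : ∀ i, Φ.B a (e (f i)) = σ (Φ.B (e (f i)) a) := fun i => (h.hu.symm _ _).symm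
  obtain ⟨η, b, c⟩ := exists_mu h.hu.ne Φ.σσ
  obtain ⟨s, hs⟩ : ∃ s : Fin 5 → F, ∀ i, s i = Φ.B (e (f i)) a * σ (Φ.B (e (f i)) a) := ⟨_, fun _ => rfl⟩
  have s0 : ∀ i, s i ≠ 0 := fun i => hs i ▸ nrm_ne (f2 i)
  have s1 : ∀ i, σ (s i) = s i := fun i => hs i ▸ nrm_fix Φ.σσ _
  obtain ⟨x, y, w, x1, y1, w1, e1⟩ := sum3 h.hu.ne Φ.σσ (s0 0) (s0 1) (s0 2) (z := s 0 + s 1 + s 2 + (1 - η) * s 3)
    fun e0 => c (mul_right_cancel₀ (s0 3) (by have := congrArg σ e0; simp [s1] at this; linear_combination e0 - this))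
  have := h.rt_sc (h.rt_sc (h.rt_sc (h.rt_sc ha (fk 0) x1) (fk 1) y1) (fk 2) w1) (fk 3) b
  simp only [map_add, map_smul, on, add_assoc] at this
  obtain ⟨us, κ, k1, H⟩ := h.rr ha this (by simp [sy, mul_assoc, ← hs]; linear_combination e1)
  have z1 := fun i => (fk i).symm
  obtain ⟨g, g1, g2⟩ := h.exists_δ (fk 4) b
  replace H := sub_mem (map_mem_AE g1.1 (h.iso g1.1) (by simp [g2, on, h.on, z1, f1.eq_iff]) H) H
  rw [g2, map_smul (Φ.B (e k)), k0] at H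
  simp only [smul_zero, mul_zero, zero_smul, add_zero, add_sub_cancel_left] at H
  have k2 : (η - 1) * Φ.B (e (f 4)) (κ • a) ≠ 0 := by simp [k1, f2, sub_eq_zero, show η ≠ 1 by rintro rfl; simp at c]
  refine h.win (fun e0 => ?_) (fk 4) (by simp [on]) (by simp [h.on, z1]) k2 H
  simpa [on, f2, sub_eq_zero, show η ≠ 1 by rintro rfl; simp at c] using congrArg (Φ.B (e (f 3))) e0

theorem noroot (ha : URt Φ (ZS Φ X (e k)) a) {i j : Fin 6} (hij : i ≠ j) (hi : Φ.B (e i) a ≠ 0) (hj : Φ.B (e j) a ≠ 0) :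
    False := by
  suffices ∀ m ≤ 3, ∃ a, URt Φ (ZS Φ X (e k)) a ∧ ∃ S : Finset (Fin 6), S.card = m + 2 ∧ ∀ i ∈ S, Φ.B (e i) a ≠ 0 from
    let ⟨_, a, _, b, c⟩ := this 3 le_rfl; h.rt_five a c b.ge
  intro m hm
  induction m with
  | zero => exact ⟨a, ha, {i, j}, Finset.card_pair hij, by simp [hi, hj]⟩
  | succ m ih =>
    obtain ⟨a, ha, S, h1, h2⟩ := ih (by omega)
    obtain ⟨r, hr⟩ := exists_out (insert k S) ((Finset.card_insert_le _ _).trans_lt (by simp; omega))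
    simp only [Finset.mem_insert, not_or] at hr
    suffices ∃ a, URt Φ (ZS Φ X (e k)) a ∧ ∀ i ∈ insert r S, Φ.B (e i) a ≠ 0 from
      let ⟨a, b, c⟩ := this; ⟨a, b, _, by rw [Finset.card_insert_of_notMem hr.2, h1], c⟩
    by_cases r0 : Φ.B (e r) a = 0
    swap
    · exact ⟨a, ha, by simpa [r0] using h2⟩
    obtain ⟨o, ho, o', ho', oo⟩ := Finset.one_lt_card.1 (show 1 < S.card by omega)
    have or : o ≠ r := by rintro rfl; exact hr.2 ho
    have ok : o ≠ k := by rintro rfl; exact h2 _ ho (h.rt_k ha)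
    have s1 : 1 - Φ.B (e o) a * σ (Φ.B (e o) a) ≠ 0 := fun e => h.rt_one ha oo (sub_eq_zero.1 e).symm (h2 _ ho')
    obtain ⟨g, g1, hg⟩ := h.exists_sw or (l := 1) (by simp)
    obtain ⟨η, b, c⟩ := exists_mu h.hu.ne Φ.σσ
    obtain ⟨s, hs⟩ := h.hu.exists_qr ha.1 b
    refine ⟨_, (ha.map h.hu.toHD (h.mem_ZS g1 hg.iso (hg.perp (by simp [h.on, ok, hr.1]))) hg.iso).map h.hu.toHD
      (ha.2 η b s hs) hs.iso, fun i hi => ?_⟩
    have e1 : Φ.B a (g a) = 1 - Φ.B (e o) a * σ (Φ.B (e o) a) := by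
      simp [hg.app, ha.1, r0, ← h.hu.symm _ a, Φ.σσ]; ring
    rw [hs.app, e1, hg.app]
    have s2 := nrm_fix Φ.σσ (Φ.B (e o) a)
    generalize Φ.B (e o) a * σ (Φ.B (e o) a) = n at s1 s2
    by_cases i1 : i = r
    · simpa [i1, r0, h.on, or.symm] using h2 o ho
    have i2 := h2 i ((Finset.mem_insert.1 hi).resolve_left i1)
    by_cases i3 : i = o
    · simpa [i3, r0, h.on, or, s1, h2 o ho, sub_eq_zero] using fun e : η = 1 => by simp [e] at c
    simp only [map_add, map_smul, map_sub, h.on, i1, i3, if_false, smul_eq_mul, mul_zero, sub_zero, add_zero]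
    rw [← one_add_mul]
    refine mul_ne_zero (fun e => c (mul_right_cancel₀ s1 ?_)) i2
    have := congrArg σ e
    simp [s2] at this
    linear_combination this - e

end P1

/-- An element mapping a frame point to a frame point is monomial. -/
theorem p1 {c : V ≃ₗ[F] V} (hc : c ∈ X) {k l : Fin 6} (hk : c (e k) ∈ F ∙ e l) : c ∈ UM F e := by
  obtain ⟨s, s1, s2, -⟩ := h.exists_ssw l k
  obtain ⟨ζ, hζ⟩ := Submodule.mem_span_singleton.1 hk
  have z : σ ζ * σ (σ ζ) = 1 := by simpa [← hζ, h.on, Φ.σσ, mul_comm] using (h.iso hc).1 (e k) (e k)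
  obtain ⟨r, r1, hr⟩ := h.exists_R k z
  have i := mul_mem hr.iso (h.iso (mul_mem s1.1 hc))
  have e1 : (r * (s * c)) (e k) = e k := by
    rw [Φ.σσ] at z
    simp [← hζ, s2, hr.app, h.on]; match_scalars; linear_combination z
  refine ((UM F e).mul_mem_cancel_left s1.2).1 (((UM F e).mul_mem_cancel_left r1).1 (h.mem_UM fun j => ?_))
  by_cases hj : j = k
  · exact ⟨k, by simp only [hj, e1, Submodule.mem_span_singleton_self]⟩
  have := (h.rt_e hj).map h.hu.toHD ⟨i, e1, r⁻¹, inv_mem hr.mvS, by simpa using mul_mem s1.1 hc⟩ i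
  obtain ⟨i, hi⟩ : ∃ i, Φ.B (e i) ((r * (s * c)) (e j)) ≠ 0 := by
    by_contra! H; simpa [h.ext0 H] using this.1
  exact ⟨i, h.mem_span fun m hm => by_contra fun e0 => h.noroot this hm e0 hi⟩

omit [Finite F] in
theorem exists_supp {g : V ≃ₗ[F] V} (hg : g ∈ UM F e) {Y : Submodule F V} (hY : g ∈ mvS Y) :
    ∃ S : Finset (Fin 6), S.card ≤ 2 * finrank F Y ∧ ∀ x, ∀ k ∉ S, Φ.B (e k) (g x - x) = 0 := by
  obtain ⟨f, h1, h2, -⟩ := Submodule.exists_fun_fin_finrank_span_eq F (Set.range fun i => g (e i) - e i)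
  have := Submodule.finrank_mono (show Submodule.span F (Set.range fun i => g (e i) - e i) ≤ Y from
    Submodule.span_le.2 (by rintro _ ⟨i, rfl⟩; exact hY _))
  choose u hu using h1
  choose π ε h3 using of_UM hg
  refine ⟨Finset.univ.image u ∪ Finset.univ.image (π ∘ u), (Finset.card_union_le _ _).trans
    ((add_le_add Finset.card_image_le Finset.card_image_le).trans (by simp; omega)), fun x k hk => ?_⟩
  simp only [Finset.mem_union, Finset.mem_image, Finset.mem_univ, true_and, not_or, not_exists] at hk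
  refine (h2.ge.trans (Submodule.span_le.2 ?_) : _ ≤ LinearMap.ker (Φ.B (e k))) ?_
  · rintro _ ⟨i, rfl⟩
    simp [← hu, h3, h.on, Ne.symm (hk.1 i), show k ≠ π (u i) from Ne.symm (hk.2 i)]
  rw [← h.sum x, map_sum, ← Finset.sum_sub_distrib]
  exact Submodule.sum_mem _ fun i _ => by
    rw [map_smul, ← smul_sub]; exact Submodule.smul_mem _ _ (Submodule.subset_span ⟨i, rfl⟩)

omit [Finite F] h in
theorem perm {g : V ≃ₗ[F] V} (hg : g ∈ UM F e) : ∃ π : Equiv.Perm (Fin 6), ∃ l : Fin 6 → F, ∀ i, g (e i) = l i • e (π i) := by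
  obtain ⟨π, hπ⟩ := hg
  choose l hl using fun i => Submodule.mem_span_singleton.1 ((hπ i).le ⟨_, Submodule.mem_span_singleton_self _, rfl⟩)
  exact ⟨π, l, fun i => (hl i).symm⟩

theorem z4a {c : V ≃ₗ[F] V} (hc : c ∈ X) (hM : c ∉ UM F e) {k j l : Fin 6} (hjl : j ≠ l) (e1 : Φ.B (e j) (c (e k)) = 0)
    (e2 : Φ.B (e l) (c (e k)) = 0) : ∃ a b, ∀ m, m ≠ a → m ≠ b → Φ.B (e m) (c⁻¹ (e j)) = 0 ∧ Φ.B (e m) (c⁻¹ (e l)) = 0 := by
  obtain ⟨η, b, n2, n3⟩ := h.eta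
  obtain ⟨g, g1, g2⟩ := h.exists_δ hjl b
  obtain ⟨π, μ, hπ⟩ := perm (h.p1 (mul_mem (mul_mem (inv_mem hc) g1.1) hc) (k := k) (l := k) (by simp [g2, e1, e2]))
  have np : ∀ i, c⁻¹ (e j) ∉ F ∙ e i := fun i hi => hM (inv_mem_iff.1 (h.p1 (inv_mem hc) hi))
  have on : ∀ i j, Φ.B (c⁻¹ (e i)) (c⁻¹ (e j)) = if i = j then 1 else 0 := fun i j => by
    rw [(h.iso (inv_mem hc)).1, h.on]
  have hd : ∀ v, (c⁻¹ * g * c) v = v + ((η - 1) * Φ.B (c⁻¹ (e j)) v) • c⁻¹ (e j) +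
      ((σ η - 1) * Φ.B (c⁻¹ (e l)) v) • c⁻¹ (e l) := fun v => by simp [g2, ← (h.iso hc).1 (c.symm _) v]
  have y1 := on j j
  have y2 := on j l
  have y3 := on l j
  have y4 := on l l
  simp only [if_true, hjl, hjl.symm, if_false] at y1 y2 y3 y4
  generalize c⁻¹ * g * c = d at hπ hd
  generalize c⁻¹ (e j) = y at *
  generalize c⁻¹ (e l) = z at *
  obtain ⟨i, hi⟩ : ∃ i, Φ.B y (e i) ≠ 0 := by
    by_contra! H; simp [h.ext0 fun i => Φ.B_eq_zero_symm (H i)] at y1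
  have n1 : η - 1 ≠ 0 := sub_ne_zero.2 (by rintro rfl; simp at n2)
  have n4 : σ η - 1 ≠ 0 := fun e => n1 (by linear_combination b - η * e)
  have n5 : σ η - η ≠ 0 := fun e => n2 (by linear_combination b - η * e)
  have μ0 : μ i ≠ 0 := fun e0 => by simp [(map_eq_zero_iff d d.injective).1 ((hπ i).trans (by simp [e0]))] at hi
  have w1 := hd (e i)
  have w2 : d (d (e i)) = e i + ((η ^ 2 - 1) * Φ.B y (e i)) • y + ((σ η ^ 2 - 1) * Φ.B z (e i)) • z := by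
    rw [hd, w1]; simp [y1, y2, y3, y4]; module
  have w3 : d (d (d (e i))) = e i + ((η ^ 3 - 1) * Φ.B y (e i)) • y + ((σ η ^ 3 - 1) * Φ.B z (e i)) • z := by
    rw [hd, w2]; simp [y1, y2, y3, y4]; module
  simp only [hπ, map_smul, smul_smul] at w1 w2 w3
  have c1 := fun m => congrArg (Φ.B (e m)) w1
  have c2 := fun m => congrArg (Φ.B (e m)) w2
  have c3 := fun m => congrArg (Φ.B (e m)) w3
  simp only [map_add, map_smul, h.on, smul_eq_mul] at c1 c2 c3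
  generalize Φ.B y (e i) = α at *
  generalize Φ.B z (e i) = β at *
  have inj : ∀ a b, π a = π b ↔ a = b := fun a b => π.injective.eq_iff
  by_cases b0 : β = 0
  · refine absurd (h.mem_span fun m hm => by_contra fun m0 => ?_) (np i)
    have a1 := c1 m
    have a2 := c2 m
    simp only [b0, hm, if_false, mul_zero, zero_mul, add_zero, zero_add] at a1 a2
    have m1 : m = π i := by_contra fun e => by simp [e, n1, hi, m0] at a1
    have m2 : m = π (π i) := by_contra fun e => by simp [e, sub_eq_zero, n2, hi, m0] at a2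
    exact hm (m1.trans (π.injective (m1.symm.trans m2)).symm)
  have key : ∀ m, m ≠ i → m ≠ π i → m ≠ π (π i) → Φ.B (e m) y = 0 ∧ Φ.B (e m) z = 0 := fun m a1 a2 a3 => by
    have a4 := c1 m
    have a5 := c2 m
    simp only [a1, a2, a3, if_false, mul_zero, zero_add] at a4 a5
    have : Φ.B (e m) y = 0 := mul_left_cancel₀ (mul_ne_zero (mul_ne_zero n1 hi) n5) (by
      linear_combination a5 - (σ η + 1) * a4)
    exact ⟨this, by simpa [this, b0, n4] using a4⟩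
  by_cases p2 : π (π i) = i
  · exact ⟨i, π i, fun m a1 a2 => key m a1 a2 (by rwa [p2])⟩
  by_cases p1 : π i = i
  · exact absurd (by rw [p1, p1]) p2
  exfalso
  have a1 := c1 (π i)
  have a2 := c2 (π i)
  have a3 := c3 (π i)
  simp only [inj, p1, Ne.symm p1, Ne.symm p2, if_true, if_false, mul_zero, mul_one, zero_add] at a1 a2 a3
  have h2 : η ^ 2 * σ η ^ 2 = 1 := by rw [← mul_pow, b, one_pow]
  have h3 : η ^ 3 * σ η ^ 3 = 1 := by rw [← mul_pow, b, one_pow]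
  have n6 : σ η ^ 2 - 1 ≠ 0 := fun e => n2 (by linear_combination h2 - η ^ 2 * e)
  generalize Φ.B (e (π i)) y = Y at *
  generalize Φ.B (e (π i)) z = Z at *
  have : Y = 0 := mul_left_cancel₀ (mul_ne_zero (mul_ne_zero (mul_ne_zero (sub_ne_zero.2 n3) (sub_ne_zero.2 n2)) n1) hi) (by
    linear_combination -η ^ 3 * (σ η ^ 3 - 1) * a2 + η ^ 3 * (σ η ^ 2 - 1) * a3 - (η ^ 2 - 1) * α * Y * h3 +
      η * (η ^ 3 - 1) * α * Y * h2)
  have hZ : Z = 0 := by simpa [this, n6, b0] using a2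
  simp [this, hZ, μ0] at a1

/-- An element mapping a frame vector to a vector of support at most four is monomial. -/
theorem z4' {c : V ≃ₗ[F] V} (hc : c ∈ X) {k j l : Fin 6} (hjl : j ≠ l) (e1 : Φ.B (e j) (c (e k)) = 0)
    (e2 : Φ.B (e l) (c (e k)) = 0) : c ∈ UM F e := by
  by_contra hM
  obtain ⟨a, b, H⟩ := h.z4a hc hM hjl e1 e2
  obtain ⟨m1, h1⟩ := out [a, b] (by simp)
  obtain ⟨m2, h2⟩ := out [a, b, m1] (by simp)
  obtain ⟨m3, h3⟩ := out [a, b, m1, m2] (by simp)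
  simp only [List.mem_cons, List.not_mem_nil, or_false, not_or] at h1 h2 h3
  have hM' : c⁻¹ ∉ UM F e := by rwa [inv_mem_iff]
  obtain ⟨a1, b1, H1⟩ := h.z4a (inv_mem hc) hM' (Ne.symm h2.2.2) (H _ h1.1 h1.2).1 (H _ h2.1 h2.2.1).1
  obtain ⟨a2, b2, H2⟩ := h.z4a (inv_mem hc) hM' (Ne.symm h3.2.2.1) (H _ h1.1 h1.2).1 (H _ h3.1 h3.2.1).1
  rw [inv_inv] at H1 H2
  have np : ∀ i, ∃ m ≠ i, Φ.B (e m) (c (e m1)) ≠ 0 := fun i => by
    by_contra! H; exact hM (h.p1 hc (h.mem_span H))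
  have H3 : ∀ m, m ≠ a1 → m ≠ b1 → Φ.B (e m) (c (e m3)) = 0 := fun m x y => by
    obtain ⟨p, p1, p2⟩ := np a1
    obtain ⟨r, r1, r2⟩ := np b1
    obtain rfl : p = b1 := by_contra fun e => p2 (H1 p p1 e).1
    obtain rfl : r = a1 := by_contra fun e => r2 (H1 r e r1).1
    have t1 : p = a2 ∨ p = b2 := by by_contra! e; exact p2 (H2 p e.1 e.2).1
    have t2 : r = a2 ∨ r = b2 := by by_contra! e; exact r2 (H2 r e.1 e.2).1
    refine (H2 m ?_ ?_).2 <;> omega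
  let y : Fin 3 → V := ![c (e m1), c (e m2), c (e m3)]
  obtain ⟨u, hu, u0⟩ := (Submodule.ne_bot_iff _).1 (LinearMap.ker_ne_bot_of_finrank_lt
    (f := (LinearMap.pi fun i : Fin 2 => Φ.B (e (![a1, b1] i))) ∘ₗ Fintype.linearCombination F y) (by simp))
  have e0 : ∑ i, u i • y i = 0 := h.ext0 fun m => by
    by_cases x : m = a1
    · exact x ▸ congrFun hu 0
    by_cases x' : m = b1
    · exact x' ▸ congrFun hu 1
    simp [Fin.sum_univ_three, y, H1 m x x', H3 m x x']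
  refine u0 (funext fun i => ?_)
  have := congrArg (Φ.B (y i)) e0
  fin_cases i <;> simpa [Fin.sum_univ_three, y, (h.iso hc).1, h.on, h2, h3, Ne.symm h2.2.2, Ne.symm h3.2.2.1,
    Ne.symm h3.2.2.2] using this

theorem z4 {c : V ≃ₗ[F] V} (hc : c ∈ X) {k : Fin 6} (hk : Sm Φ e 4 (c (e k))) : c ∈ UM F e := by
  obtain ⟨S, h1, h2⟩ := hk
  obtain ⟨j, hj⟩ := exists_out S (by simp; omega)
  obtain ⟨l, hl⟩ := exists_out (insert j S) (by rw [Finset.card_insert_of_notMem hj]; simp; omega)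
  simp only [Finset.mem_insert, not_or] at hl
  exact h.z4' hc (Ne.symm hl.1) (h2 j hj) (h2 l hl.2)

end U6

end Cfsg.Agent.Root.Mx
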