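import Cfsg.Agent.Low.SU6d

/-! Maximality in `SU₆(q)`, `q ≥ 3`, of the stabiliser of an orthonormal frame (`ODec.max_frame6`). -/

set_option autoImplicit false

namespace Cfsg.Agent.Root.Mx

open Cfsg.Agent.Geom Cfsg.Agent.AutCl Module

variable {F : Type*} [Field F] {σ : F →+* F} {V : Type*} [AddCommGroup V] [Module F V] {Φ : Formed σ V}
  {X : Subgroup (V ≃ₗ[F] V)} {e : Fin 6 → V} [FiniteDimensional F V] [Finite F]

/-- Equality of unordered pairs. -/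
abbrev Pe (a b c d : Fin 6) : Prop := (a = c ∧ b = d) ∨ (a = d ∧ b = c)

/-- There is no sharply transitive set of permutations on the pairs of six points. -/
theorem no_sharp {T : Type*} [Finite T] (π : T → Equiv.Perm (Fin 6))
    (H : ∀ i j k l, i ≠ j → k ≠ l → ∃! u, Pe (π u i) (π u j) k l) : False := by
  classical
  have := Fintype.ofFinite T
  have a : ∀ i j, i ≠ j → ∀ x : Fin 5, ∑ u, (if Pe (π u i) (π u j) 0 x.succ then (1 : ZMod 2) else 0) = 1 := fun i j hij x => by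
    obtain ⟨u, h1, h2⟩ := H i j 0 x.succ hij (Fin.succ_ne_zero x).symm
    rw [Finset.sum_eq_single u (fun v _ hv => if_neg fun e => hv (h2 v e)) (by simp), if_pos h1]
  have b : ∀ p q r : Fin 6, p ≠ q → p ≠ r → q ≠ r → ∑ x : Fin 5, ((if Pe p q 0 x.succ then (1 : ZMod 2) else 0) +
      (if Pe p r 0 x.succ then 1 else 0) + (if Pe q r 0 x.succ then 1 else 0)) = 0 := by decide +kernel
  have c := Finset.sum_eq_zero (s := Finset.univ) fun u _ => b (π u 0) (π u 1) (π u 2) (by simp) (by simp) (by simp)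
  rw [Finset.sum_comm] at c
  simp only [Finset.sum_add_distrib, a 0 1 (by simp), a 0 2 (by simp), a 1 2 (by simp)] at c
  exact absurd c (by decide)

theorem pair_xor : ∀ i j k l : Fin 6, i ≠ j → k ≠ l → Pe i j k l ∨ ∃ a b, a ≠ b ∧ ∃ ε : Bool,
    ∀ m, ((m = i ∨ m = j) ↔ (m = k ∨ m = l)) ↔ (ε ↔ (m = a ∨ m = b)) := by decide +kernel

namespace U6
open UF (of_UM)
variable (h : U6 Φ e X)
include h

omit [Finite F] in
theorem isolate1 {u b : V} {hu : Φ.Sing u} {j : Fin 6} (u1 : Φ.B (e j) u = 0) (hb : b ∈ AE Φ X hu) {ζ : F}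
    (hζ : ζ * σ ζ = 1) : ((σ ζ ^ 6 - 1) * Φ.B (e j) b) • e j ∈ AE Φ X hu := by
  obtain ⟨r, r1, hr⟩ := h.exists_R j (η := σ ζ ^ 6) (by rw [map_pow, Φ.σσ, ← mul_pow, mul_comm, hζ, one_pow])
  have z0 := left_ne_zero_of_mul_eq_one hζ
  have i : LinearEquiv.smulOfNeZero F V ζ z0 ∈ Φ.isom :=
    ⟨fun x y => by simp; linear_combination Φ.B x y * hζ, fun x => by simp [h.hu.Q]⟩
  have m : LinearEquiv.smulOfNeZero F V ζ z0 * r ∈ X := h.memX (mul_mem (h.mem_UM fun i => ⟨i, by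
    simpa using Submodule.smul_mem _ _ (Submodule.mem_span_singleton_self _)⟩) r1) (mul_mem i hr.iso) (by
      rw [show ((LinearEquiv.smulOfNeZero F V ζ z0 * r : V ≃ₗ[F] V) : V →ₗ[F] V) = ζ • (r : V →ₗ[F] V) from rfl,
        LinearMap.det_smul, hr.det, h.od.finrank_eq, h.on]
      simp [← mul_pow, hζ])
  obtain ⟨d, hd⟩ := id hb
  have := hd.conj m (h.iso m)
  simp only [LinearEquiv.mul_apply, hr.perp u1, LinearEquiv.smulOfNeZero_apply] at this
  have k : r b ∈ AE Φ X hu := ⟨_, (this.of_smul z0).congr (by rw [smul_smul, mul_comm, hζ, one_smul]) rfl⟩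
  simpa [hr.app] using sub_mem k hb

section Even
variable {w x : V}

omit [FiniteDimensional F V] in
theorem tv_sing (hw : Tv Φ X w) : Φ.B w w = 0 :=
  let ⟨_, a, b⟩ := hw; by simpa [b.det] using mem_SLg.1 (EG_le_SLg (h.le' a))

omit [FiniteDimensional F V] [Finite F] in
theorem tv_map (hw : Tv Φ X w) {g : V ≃ₗ[F] V} (hg : g ∈ X) : Tv Φ X (g w) :=
  let ⟨_, a, b⟩ := hw; ⟨_, mul_mem (mul_mem hg a) (inv_mem hg), b.conj (h.iso hg)⟩

theorem tv_dich (hw : Tv Φ X w) : Sm Φ e 2 w ∨ ∀ i, Φ.B (e i) w ≠ 0 := by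
  refine or_iff_not_imp_right.2 fun H => ?_
  obtain ⟨g, a, b⟩ := hw
  obtain ⟨k, hk⟩ := not_forall_not.1 (H ·)
  obtain ⟨S, s1, s2⟩ := h.exists_supp (h.p1 a (k := k) (l := k) (by simp [b.perp (Φ.B_eq_zero_symm hk)])) b.mvS.2
  refine ⟨S, s1.trans (by have := finrank_span_one (F := F) w; omega), fun i hi => by_contra fun e0 => ?_⟩
  simpa [b.app, e0, ← h.hu.symm (e i)] using s2 (e i) i hi

variable (h2 : (2 : F) = 0)
include h2

omit [Finite F] in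
theorem tv_e {i j : Fin 6} (hij : i ≠ j) {l : F} (hl : l * σ l = 1) : Tv Φ X (e i + l • e j) := by
  obtain ⟨g, a, b⟩ := h.exists_sw hij (l := -l) (by simpa)
  exact ⟨g, h.memX a b.iso (by simp [b.det, h.on, hij, hij.symm]; linear_combination -hl - h2), by simpa using b⟩

theorem tv_step (hw : Tv Φ X w) (f : ∀ i, Φ.B (e i) w ≠ 0) {j k : Fin 6} (hjk : j ≠ k) {l β : F} (hl : l * σ l = 1)
    (hβ : σ (Φ.B (e j) w) + σ (Φ.B (e k) w) * l = β) (b0 : β ≠ 0) : Tv Φ X (e j + l • e k - β • w) ∧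
      ∀ i, Φ.B (e i) (e j + l • e k - β • w) ≠ 0 := by
  obtain ⟨g, a, b⟩ := id hw
  have := h.tv_map (h.tv_e h2 hjk hl) a
  rw [b.app, show _ + _ = e j + l • e k - β • w by simp [← hβ, h.hu.symm]; module] at this
  refine ⟨this, (h.tv_dich this).resolve_left fun ⟨S, s1, s2⟩ => ?_⟩
  obtain ⟨r, hr⟩ := exists_out (insert j (insert k S)) ((Finset.card_insert_le _ _).trans_lt (by
    have := Finset.card_insert_le k S; simp; omega))
  simp only [Finset.mem_insert, not_or] at hr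
  simpa [h.on, hr, b0, f] using s2 r hr.2.2

theorem tv_ne (hw : Tv Φ X w) (f : ∀ i, Φ.B (e i) w ≠ 0) {m o : Fin 6} (hmo : m ≠ o) :
    (1 - Φ.B (e m) w * σ (Φ.B (e m) w)) ^ 2 ≠ Φ.B (e m) w * σ (Φ.B (e m) w) * (Φ.B (e o) w * σ (Φ.B (e o) w)) := by
  intro H
  have a := f m
  have b := f o
  have c := (map_ne_zero σ).2 a
  have d := (map_ne_zero σ).2 b
  refine (h.tv_step h2 hw f hmo (l := (1 - Φ.B (e m) w * σ (Φ.B (e m) w)) / (σ (Φ.B (e o) w) * Φ.B (e m) w))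
    (β := (Φ.B (e m) w)⁻¹) (by simp [Φ.σσ]; field_simp; linear_combination H) (by field_simp; ring) (by simpa)).2 m ?_
  simp [h.on, hmo, a]

theorem tv_eq (hw : Tv Φ X w) (f : ∀ i, Φ.B (e i) w ≠ 0) (m o : Fin 6) :
    Φ.B (e m) w * σ (Φ.B (e m) w) = Φ.B (e o) w * σ (Φ.B (e o) w) := by
  by_contra H
  have hmo : m ≠ o := by rintro rfl; exact H rfl
  obtain ⟨j, hj⟩ := out [m, o] (by simp)
  obtain ⟨k, hk⟩ := out [m, o, j] (by simp)
  obtain ⟨j', hj'⟩ := out [m, o, j, k] (by simp)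
  obtain ⟨k', hk'⟩ := out [m, o, j, k, j'] (by simp)
  simp only [List.mem_cons, List.not_mem_nil, or_false, not_or] at hj hk hj' hk'
  have f' := fun i => (map_ne_zero σ).2 (f i)
  have sq : ∀ x y : F, x ^ 2 = y ^ 2 → x = y := fun x y e =>
    sub_eq_zero.1 (pow_eq_zero_iff two_ne_zero |>.1 (by linear_combination e + (y ^ 2 - x * y) * h2))
  obtain ⟨c, hc⟩ : ∃ c, c = Φ.B (e m) w * σ (Φ.B (e m) w) * (Φ.B (e m) w * σ (Φ.B (e m) w) - Φ.B (e o) w * σ (Φ.B (e o) w)) :=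
    ⟨_, rfl⟩
  have c0 : c ≠ 0 := hc ▸ mul_ne_zero (nrm_ne (f m)) (sub_ne_zero.2 H)
  have c1 : σ c = c := by simp [hc, Φ.σσ, mul_comm]
  obtain ⟨x, y, x1, y1, a, b, e1⟩ := ph_norm h.hu.ne Φ.σσ (f' j) (f' k) (f' j') (f' k') (φ := fun x => c * (x ^ 2) ^ 2)
    (ψ := fun x => (x ^ 2)⁻¹) (fun x y e => sq _ _ (sq _ _ (mul_left_cancel₀ c0 e))) (fun x y e => sq _ _ (inv_injective e))
    (fun x a b => by simp [a, b, c0, c1]) fun x a b => by simp [*]
  obtain ⟨t1, f1⟩ := h.tv_step h2 hw f (Ne.symm hk.2.2) x1 rfl a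
  generalize σ (Φ.B (e j) w) + σ (Φ.B (e k) w) * x = β at a e1 t1 f1
  obtain ⟨t2, f2⟩ := h.tv_step h2 t1 f1 (Ne.symm hk'.2.2.2.2) y1 (β := -σ β * (σ (Φ.B (e j') w) + σ (Φ.B (e k') w) * y))
    (by simp [h.on, hj', hk']; ring) (by simp [a, b])
  generalize σ (Φ.B (e j') w) + σ (Φ.B (e k') w) * y = γ at b e1 t2 f2
  refine h.tv_ne h2 t2 f2 hmo ?_
  have := (map_ne_zero σ).2 b
  simp [h.on, Ne.symm hj.1, Ne.symm hj.2, Ne.symm hk.1, Ne.symm hk.2.1, Ne.symm hj'.1, Ne.symm hj'.2.1, Ne.symm hk'.1,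
    Ne.symm hk'.2.1, Φ.σσ]
  rw [hc] at e1
  field_simp at e1
  linear_combination e1 + (1 - (β * σ β) ^ 2 * (γ * σ γ) * (Φ.B (e m) w * σ (Φ.B (e m) w))) * h2

theorem tv_full (hw : Tv Φ X w) (f : ∀ i, Φ.B (e i) w ≠ 0) : False := by
  obtain ⟨η, b, c⟩ := exists_mu h.hu.ne Φ.σσ
  obtain ⟨g, f1⟩ : ∃ g : Fin 6 → Fin 6, g.Injective := ⟨id, Function.injective_id⟩
  have on : ∀ i j, Φ.B (e (g i)) (e (g j)) = if i = j then 1 else 0 := fun i j => by simp [h.on, f1.eq_iff]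
  obtain ⟨r, r1, r2⟩ := h.exists_δ (f1.ne (show (0 : Fin 6) ≠ 1 by simp)) b
  obtain ⟨s, s1, s2⟩ := h.exists_δ (f1.ne (show (2 : Fin 6) ≠ 3 by simp)) b
  have := h.tv_map (h.tv_map hw r1.1) s1.1
  obtain ⟨u, hu⟩ : ∃ u, ((η - 1) * Φ.B (e (g 0)) w) • e (g 0) + ((σ η - 1) * Φ.B (e (g 1)) w) • e (g 1) +
    ((η - 1) * Φ.B (e (g 2)) w) • e (g 2) + ((σ η - 1) * Φ.B (e (g 3)) w) • e (g 3) = u := ⟨_, rfl⟩
  rw [show s (r w) = w + u by simp [s2, r2, on, ← hu, add_assoc]] at this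
  have e1 : Φ.B w u = 0 := by
    simp [← hu, ← h.hu.symm (e _) w, mul_assoc, h.tv_eq h2 hw f _ (g 0)]
    linear_combination (η + σ η - 2) * (Φ.B (e (g 0)) w * σ (Φ.B (e (g 0)) w)) * h2
  have e2 := Φ.B_eq_zero_symm e1
  have w0 := h.tv_sing hw
  have us : Φ.Sing u := ⟨h.hu.Q _, by simpa [e1, e2, w0] using h.tv_sing this⟩
  obtain ⟨a, a1, a2⟩ := hw
  obtain ⟨a', a3, a4⟩ := this
  have H : w ∈ AE Φ X us := ⟨1, a' * a, mul_mem a3 a1, us, e2, by simp [h.hu.τ, h.hu.Q],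
    by simp [h.hu.ε, w0]; linear_combination h2, fun v => by
      simp [a2.app, a4.app, w0, e2, h.hu.ε]; linear_combination (norm := module) (-Φ.B w v * h2) • (w + u)⟩
  have z : ∀ i : Fin 6, 4 ≤ i → Φ.B (e (g i)) u = 0 := fun i hi => by fin_cases i <;> simp [← hu, on] at hi ⊢
  obtain ⟨ζ, a5, -, a6⟩ := h.eta
  replace H := h.isolate1 (z 4 (by simp)) H a5
  have k1 : (σ ζ ^ 6 - 1) * Φ.B (e (g 4)) w ≠ 0 := mul_ne_zero (fun e => a6 (σ.injective (by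
    rw [map_pow, map_one, ← sub_eq_zero, ← pow_eq_zero_iff two_ne_zero]
    linear_combination e + (1 - σ ζ ^ 3) * h2))) (f _)
  refine h.win (fun e0 => ?_) (f1.ne (show (4 : Fin 6) ≠ 5 by simp)) (z _ (by simp)) (z _ (by simp)) k1 H
  simpa [← hu, on, f, sub_eq_zero, show η ≠ 1 by rintro rfl; simp at c] using congrArg (Φ.B (e (g 0))) e0

theorem mon_even {g : V ≃ₗ[F] V} (hg : g ∈ X) : g ∈ UM F e := by
  obtain ⟨η, b, c⟩ := exists_mu h.hu.ne Φ.σσ
  have n1 : η - 1 ≠ 0 := sub_ne_zero.2 (by rintro rfl; simp at c)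
  obtain ⟨i, -⟩ := out [] (by simp)
  obtain ⟨j, hj⟩ := out [i] (by simp)
  have key := fun l hl => let H := h.tv_map (h.tv_e h2 (i := i) (j := j) (by rintro rfl; simp at hj) (l := l) hl) hg
    (h.tv_dich H).resolve_right (h.tv_full h2 H)
  refine h.z4 hg (k := i) (Sm.mono (m := 2 + 2) ?_ (by simp))
  convert (key 1 (by simp)).comb (key η b) (η / (η - 1)) (-1 / (η - 1)) using 1
  simp only [map_add, map_smul]; match_scalars <;> field_simp <;> ring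

end Even

section Odd

omit [Finite F] in
theorem exists_sg {i j : Fin 6} (hij : i ≠ j) : ∃ s ∈ X ⊓ UM F e, Sg Φ (e i) (e j) s ∧ s * s = 1 := by
  obtain ⟨s, a, b⟩ := h.exists_δ hij (η := -1) (by simp)
  have : Sg Φ (e i) (e j) s := fun v => by rw [b]; simp only [map_neg, map_one]; module
  exact ⟨s, a, this, LinearEquiv.ext fun v => by simp [this _, h.on, hij, hij.symm]; module⟩

omit h [FiniteDimensional F V] [Finite F] in
theorem sg_ext {a b : V} {s t : V ≃ₗ[F] V} (hs : Sg Φ a b s) (ht : Sg Φ a b t) : s = t :=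
  LinearEquiv.ext fun v => (hs v).trans (ht v).symm

omit h [FiniteDimensional F V] [Finite F] in
theorem sg_symm {a b : V} {s : V ≃ₗ[F] V} (hs : Sg Φ a b s) : Sg Φ b a s := fun v => by rw [hs, add_right_comm]

omit h [FiniteDimensional F V] [Finite F] in
theorem sg_conj {a b : V} {s g : V ≃ₗ[F] V} (hs : Sg Φ a b s) (hg : g ∈ Φ.isom) : Sg Φ (g a) (g b) (g * s * g⁻¹) :=
  fun v => by
    obtain ⟨v, rfl⟩ := g.surjective v
    simp [hs _, hg.1]

omit [FiniteDimensional F V] [Finite F] in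
theorem sg_perm {g : V ≃ₗ[F] V} (hg : g ∈ X) {π : Equiv.Perm (Fin 6)} {l : Fin 6 → F} (hπ : ∀ i, g (e i) = l i • e (π i))
    {i j : Fin 6} {s : V ≃ₗ[F] V} (hs : Sg Φ (g (e i)) (g (e j)) s) : Sg Φ (e (π i)) (e (π j)) s := fun v => by
  have n : ∀ i, l i * σ (l i) = 1 := fun i => by simpa [hπ, h.on] using (h.iso hg).1 (e i) (e i)
  rw [hs, hπ, hπ]
  simp only [Φ.B_smul_left]
  linear_combination (norm := module) (-2 * Φ.B (e (π i)) v * n i) • e (π i) + (-2 * Φ.B (e (π j)) v * n j) • e (π j)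

omit [FiniteDimensional F V] [Finite F] in
theorem sg_app {i j : Fin 6} (hij : i ≠ j) {s : V ≃ₗ[F] V} (hs : Sg Φ (e i) (e j) s) (m : Fin 6) :
    s (e m) = if m = i ∨ m = j then -e m else e m := by
  rw [hs]
  by_cases a : m = i
  · subst a; simp [h.on, hij.symm]; module
  by_cases b : m = j
  · subst b; simp [h.on, hij]; module
  simp [h.on, a, b, Ne.symm a, Ne.symm b]

omit [Finite F] in
theorem ext_e {s t : V ≃ₗ[F] V} (H : ∀ m, s (e m) = t (e m)) : s = t :=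
  LinearEquiv.ext fun v => by rw [← h.sum v]; simp [map_sum, H]

/-- The class of sign changes. -/
def Dm (Φ : Formed σ V) (e : Fin 6 → V) (X : Subgroup (V ≃ₗ[F] V)) (s : V ≃ₗ[F] V) : Prop :=
  ∃ w ∈ X, ∃ i j, i ≠ j ∧ Sg Φ (w (e i)) (w (e j)) s

omit [FiniteDimensional F V] [Finite F] in
theorem dm_conj {s c : V ≃ₗ[F] V} (hs : Dm Φ e X s) (hc : c ∈ X) : Dm Φ e X (c * s * c⁻¹) :=
  let ⟨w, a, i, j, b, d⟩ := hs; ⟨c * w, mul_mem hc a, i, j, b, sg_conj d (h.iso hc)⟩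

omit [Finite F] in
theorem dm_eq {w s : V ≃ₗ[F] V} (hw : w ∈ X) {i j : Fin 6} (hij : i ≠ j) (hs : Sg Φ (w (e i)) (w (e j)) s) :
    ∃ r ∈ X ⊓ UM F e, Sg Φ (e i) (e j) r ∧ r * r = 1 ∧ s = w * r * w⁻¹ :=
  let ⟨r, a, b, c⟩ := h.exists_sg hij; ⟨r, a, b, c, sg_ext hs (sg_conj b (h.iso hw))⟩

omit [Finite F] in
theorem dm_mem {s : V ≃ₗ[F] V} (hs : Dm Φ e X s) : s ∈ X ∧ s * s = 1 := by
  obtain ⟨w, a, i, j, b, d⟩ := hs
  obtain ⟨r, r1, -, r2, rfl⟩ := h.dm_eq a b d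
  exact ⟨mul_mem (mul_mem a r1.1) (inv_mem a), by rw [conj_mul, r2]; simp⟩

variable (h2 : (2 : F) ≠ 0)
include h2

theorem Z {g s : V ≃ₗ[F] V} (hg : g ∈ X) {k l : Fin 6} (hkl : k ≠ l) (hs : Sg Φ (e k) (e l) s)
    (H : g * s * g⁻¹ ∈ UM F e) : g ∈ UM F e := by
  obtain ⟨S, s1, s2⟩ := h.exists_supp H (mvS_conj hs.mvS g)
  rw [LinearEquiv.finrank_map_eq] at s1
  refine h.z4 hg (k := k) ⟨S, by have := finrank_two (F := F) (e k) (e l); omega, fun i hi => ?_⟩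
  simpa [hs _, h.on, hkl.symm, h2, add_assoc] using s2 (g (e k)) i hi

theorem dm_H {s : V ≃ₗ[F] V} (hs : Dm Φ e X s) (hm : s ∈ UM F e) : ∃ i j, i ≠ j ∧ Sg Φ (e i) (e j) s := by
  obtain ⟨w, a, i, j, b, d⟩ := hs
  obtain ⟨r, -, r1, -, rfl⟩ := h.dm_eq a b d
  obtain ⟨π, l, hπ⟩ := perm (h.Z h2 a b r1 hm)
  exact ⟨π i, π j, π.injective.ne b, h.sg_perm a hπ d⟩

theorem Z2 {g s t : V ≃ₗ[F] V} (hg : g ∈ X) {i j k l : Fin 6} (hij : i ≠ j) (hkl : k ≠ l) (hs : Sg Φ (e i) (e j) s)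
    (ht : Sg Φ (e k) (e l) t) (ne : s ≠ t) (H : g * (s * t) * g⁻¹ ∈ UM F e) : g ∈ UM F e := by
  rcases pair_xor i j k l hij hkl with (⟨rfl, rfl⟩ | ⟨rfl, rfl⟩) | ⟨a, b, hab, ε, hε⟩
  exacts [absurd (sg_ext hs ht) ne, absurd (sg_ext hs (sg_symm ht)) ne, by
    obtain ⟨r, -, r1, -⟩ := h.exists_sg hab
    refine h.Z h2 hg hab r1 ?_
    cases ε
    · convert H using 3
      refine h.ext_e fun m => ?_
      have := hε m
      rw [LinearEquiv.mul_apply, h.sg_app hab r1, h.sg_app hkl ht, apply_ite s, map_neg, h.sg_app hij hs]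
      by_cases x : m = i ∨ m = j <;> by_cases y : m = k ∨ m = l <;> by_cases z : m = a ∨ m = b <;>
        simp [x, y, z] at this ⊢
    · have n : LinearEquiv.neg F ∈ UM F e := h.mem_UM fun i => ⟨i, by simp⟩
      convert mul_mem H n using 1
      have : r = s * t * LinearEquiv.neg F := h.ext_e fun m => by
        have := hε m
        rw [LinearEquiv.mul_apply, LinearEquiv.neg_apply, map_neg, LinearEquiv.mul_apply, h.sg_app hab r1,
          h.sg_app hkl ht, apply_ite s, map_neg, h.sg_app hij hs]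
        by_cases x : m = i ∨ m = j <;> by_cases y : m = k ∨ m = l <;> by_cases z : m = a ∨ m = b <;>
          simp [x, y, z] at this ⊢
      ext v; simp [this]]

theorem odd_u {s t : V ≃ₗ[F] V} {i j : Fin 6} (hij : i ≠ j) (hs : Sg Φ (e i) (e j) s) (ht : Dm Φ e X t)
    (hM : t ∉ UM F e) : ∃ u, Dm Φ e X u ∧ u * s * u⁻¹ = t ∧ ∀ k, Commute k s → Commute k t → Commute k u := by
  have : Finite V := Module.finite_of_finite F
  have : Finite (V ≃ₗ[F] V) := Finite.of_injective _ (DFunLike.coe_injective (F := V ≃ₗ[F] V))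
  have hs' : Dm Φ e X s := ⟨1, one_mem _, i, j, hij, hs⟩
  obtain ⟨a1, a2⟩ := h.dm_mem hs'
  obtain ⟨b1, b2⟩ := h.dm_mem ht
  obtain ⟨r, r1, r2, -⟩ := h.exists_sg hij
  obtain rfl := sg_ext hs r2
  rcases Nat.even_or_odd (orderOf (s * t)) with ho | ho
  swap
  · obtain ⟨n, hn⟩ := odd_swap a2 b2 ho
    exact ⟨_, h.dm_conj hs' (pow_mem (mul_mem a1 b1) n), hn, fun k x y =>
      (((x.mul_right y).pow_right n).mul_right x).mul_right ((x.mul_right y).pow_right n).inv_right⟩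
  obtain ⟨z1, z2, z3⟩ := Invol.half_pow_spec a2 b2 ho
  obtain ⟨n, hn⟩ := dih a2 b2 (orderOf (s * t) / 2)
  have m := pow_mem (mul_mem a1 b1) (orderOf (s * t) / 2)
  have m' := inv_mem (pow_mem (mul_mem a1 b1) n)
  generalize (s * t) ^ (orderOf (s * t) / 2) = z at *
  have d : Dm Φ e X (s * z) := by
    rcases hn with hn | hn <;> rw [hn]
    exacts [by simpa using h.dm_conj hs' m', by simpa using h.dm_conj ht m']
  obtain ⟨k, l, hkl, c⟩ := h.dm_H h2 d (mul_mem r1.2 (h.Z h2 m hij hs (by rw [z2.eq, mul_inv_cancel_right]; exact r1.2)))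
  refine absurd (h.Z2 h2 b1 hij hkl hs c (fun e => Invol.ne_one_of z1 (by simpa using e.symm)) ?_) hM
  rw [← mul_assoc s, a2, one_mul, ← z3.eq, mul_inv_cancel_right]
  exact h.Z h2 m hij hs (by rw [z2.eq, mul_inv_cancel_right]; exact r1.2)

theorem mon_odd {g : V ≃ₗ[F] V} (hg : g ∈ X) : g ∈ UM F e := by
  by_contra hc
  have : Finite V := Module.finite_of_finite F
  have : Finite (V ≃ₗ[F] V) := Finite.of_injective _ (DFunLike.coe_injective (F := V ≃ₗ[F] V))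
  choose π l hπ using fun u : {u // Dm Φ e X u ∧ g⁻¹ * u ∈ UM F e} => perm u.2.2
  refine no_sharp π fun i j k m hij hkm => ?_
  obtain ⟨s, s1, s2, s3⟩ := h.exists_sg hij
  obtain ⟨r, r1, r2, r3⟩ := h.exists_sg hkm
  have key : ∀ u, Pe (π u i) (π u j) k m ↔ u.1 * s * u.1⁻¹ = g * r * g⁻¹ := fun u => by
    have m1 := mul_mem (inv_mem hg) (h.dm_mem u.2.1).1
    have a := h.sg_perm m1 (hπ u) (sg_conj s2 (h.iso m1))
    rw [show u.1 * s * u.1⁻¹ = g * r * g⁻¹ ↔ g⁻¹ * u.1 * s * (g⁻¹ * u.1)⁻¹ = r from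
      ⟨fun e => by rw [mul_inv_rev, inv_inv, mul_assoc _ _ s, mul_assoc, ← mul_assoc (_ * s), e]; group,
        fun e => by rw [← e]; group⟩]
    refine ⟨?_, fun e' => ?_⟩
    · rintro (⟨rfl, rfl⟩ | ⟨rfl, rfl⟩)
      exacts [sg_ext a r2, sg_ext a (sg_symm r2)]
    rw [e'] at a
    have b := fun x => (h.sg_app ((π u).injective.ne hij) a x).symm.trans (h.sg_app hkm r2 x)
    have c : ∀ x, ¬ (-e x = e x) := fun x e0 => h2 (by
      have := congrArg (Φ.B (e x)) e0; simp [h.on] at this; linear_combination -this)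
    have b1 := b (π u i)
    have b2 := b (π u j)
    have := (π u).injective.ne hij
    simp only [true_or, or_true, if_true] at b1 b2
    split_ifs at b1 b2 with x y
    · unfold Pe; omega
    all_goals simp [c] at b1 b2
  simp only [key]
  have t1 : Dm Φ e X (g * r * g⁻¹) := ⟨g, hg, k, m, hkm, sg_conj r2 (h.iso hg)⟩
  obtain ⟨u, u1, u2, u3⟩ := h.odd_u h2 hij s2 t1 fun e => hc (h.Z h2 hg hkm r2 e)
  obtain ⟨uX, uu⟩ := h.dm_mem u1
  have u4 : g⁻¹ * u ∈ UM F e := h.Z h2 (mul_mem (inv_mem hg) uX) hij s2 (by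
    rw [show g⁻¹ * u * s * (g⁻¹ * u)⁻¹ = g⁻¹ * (u * s * u⁻¹) * g by group, u2]; simpa [mul_assoc] using r1.2)
  refine ⟨⟨u, u1, u4⟩, u2, fun ⟨v, v1, v4⟩ v2 => Subtype.ext (by_contra fun ne => ?_)⟩
  simp only at v2 ne
  obtain ⟨vX, vv⟩ := h.dm_mem v1
  have ui := inv_eq_of_mul_eq_one_right uu
  have vi := inv_eq_of_mul_eq_one_right vv
  have c1 : Commute (u * v) s := by
    change u * v * s = s * (u * v)
    rw [show u * v * s = u * (v * s * v⁻¹) * v by group, v2, ← u2, ui]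
    simp only [← mul_assoc, uu, one_mul]
  have c2 : Commute (u * v) (g * r * g⁻¹) := by
    change u * v * _ = _ * (u * v)
    nth_rw 1 [← v2]; rw [← u2, ui, vi]
    simp only [← mul_assoc, mul_assoc _ v v, mul_assoc _ u u, uu, vv, mul_one]
  have c3 : Commute u v := by
    have := (u3 _ c1 c2).eq
    rw [← mul_assoc, uu, one_mul] at this
    change u * v = v * u
    nth_rw 1 [← this]
    rw [← mul_assoc, ← mul_assoc, uu, one_mul]
  obtain ⟨w, w1, a, b, hab, w2⟩ := id u1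
  obtain ⟨p, p1, p2, -, rfl⟩ := h.dm_eq w1 hab w2
  have d := h.dm_conj v1 (inv_mem w1)
  obtain ⟨a', b', hab', q2⟩ := h.dm_H h2 d (h.Z h2 (h.dm_mem d).1 hab p2 (by
    rw [show w⁻¹ * v * w⁻¹⁻¹ * p * (w⁻¹ * v * w⁻¹⁻¹)⁻¹ = w⁻¹ * (v * (w * p * w⁻¹)) * v⁻¹ * w by group, ← c3.eq]
    simpa [mul_assoc] using (show p ∈ UM F e from p1.2)))
  have n : p ≠ w⁻¹ * v * w⁻¹⁻¹ := fun e => ne (by rw [e]; group)
  have k1 : w * p * w⁻¹ * v ∈ UM F e := by
    have := mul_mem (inv_mem u4) v4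
    rwa [mul_inv_rev, ui, inv_inv, mul_assoc, mul_inv_cancel_left] at this
  have k2 : g⁻¹ * (w * p * w⁻¹ * v) * g ∈ UM F e := by
    have := mul_mem u4 (inv_mem v4)
    rwa [mul_inv_rev, vi, inv_inv, mul_assoc g⁻¹, ← mul_assoc _ v, ← mul_assoc g⁻¹] at this
  have m1 := h.Z2 h2 w1 hab hab' p2 q2 n (by convert k1 using 1; group)
  have m2 := h.Z2 h2 (mul_mem (inv_mem hg) w1) hab hab' p2 q2 n (by convert k2 using 1; group)
  exact hc (by simpa using mul_mem m1 (inv_mem m2))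

end Odd

end U6

theorem ODec.max_frame6 {D : Fin 6 → Submodule F V} (h : ODec Φ 1 D) (hu : HU Φ)
    (eta : ∃ η : F, η * σ η = 1 ∧ η ^ 2 ≠ 1 ∧ η ^ 3 ≠ 1) : Geo.IsMaximalIn (EG Φ) (dstab D ⊓ EG Φ) := by
  choose e m u using fun i => hu.exists_unit (h.nd i) (h.rk i).ge
  obtain rfl : D = fun i => F ∙ e i := funext fun i => (Submodule.eq_of_le_of_finrank_le (by simpa using m i) (by
    rw [h.rk, finrank_span_singleton (by rintro e0; simpa [e0] using u i)])).symm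
  have on : ∀ i j, Φ.B (e i) (e j) = if i = j then 1 else 0 := fun i j => by
    split_ifs with hij
    · rw [hij, u]
    · exact h.orth i j hij _ (m i) _ (m j)
  refine max_crit inf_le_right ?_ fun X h1 h2 g hg hg' => ?_
  · obtain ⟨l, hl⟩ := exists_norm_eq hu.ne Φ.σσ (a := -1) (by simp)
    obtain ⟨d, g, hg⟩ := exists_isE' h.hn (p := e 0 + l • e 1) (a := e 2)
      ⟨hu.Q _, by simp [on]; linear_combination hl⟩ (by simp [on])
    refine ⟨g, IsE_mem_EG hg, fun hc => ?_⟩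
    obtain ⟨j, c, e1⟩ := UF.of_UM hc.1 2
    rw [hg.apply_perp (by simp [on])] at e1
    have a := congrArg (Φ.B (e 0)) e1
    have b := congrArg (Φ.B (e 2)) e1
    by_cases e2 : 0 = j
    · simp [on, ← e2] at b
    · simp [on, e2] at a
  by_contra hc
  have H : U6 Φ e X := ⟨h, hu, on, eta, h1, h2, hc⟩
  exact hg' ⟨(em _).elim (H.mon_even · hg) (H.mon_odd · hg), h2 hg⟩

omit [Finite F] in
theorem exists_eta6 [Fintype F] {q : ℕ} (hF : Fintype.card F = q ^ 2) (h3 : 3 ≤ q) :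
    ∃ η : F, η * frobq hF η = 1 ∧ η ^ 2 ≠ 1 ∧ η ^ 3 ≠ 1 := by
  obtain ⟨γ, hγ⟩ := IsCyclic.exists_ofOrder_eq_natCard (α := Fˣ)
  rw [Nat.card_units, Nat.card_eq_fintype_card, hF] at hγ
  obtain ⟨r, rfl⟩ : ∃ r, q = r + 1 := ⟨q - 1, by omega⟩
  have e : (r + 1) ^ 2 - 1 = r * (r + 2) := by rw [Nat.sub_eq_iff_eq_add (Nat.one_le_pow _ _ (by omega))]; ring
  have k : ∀ n, 0 < n → n < r + 2 → ((γ : F) ^ r) ^ n ≠ 1 := fun n a b c => by
    have := orderOf_dvd_of_pow_eq_one (show γ ^ (r * n) = 1 from Units.ext (by simpa [pow_mul] using c))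
    rw [hγ, e] at this
    have := Nat.le_of_dvd a (Nat.dvd_of_mul_dvd_mul_left (by omega) this)
    omega
  refine ⟨γ ^ r, ?_, k 2 (by omega) (by omega), k 3 (by omega) (by omega)⟩
  rw [frobq_apply, ← pow_succ', ← pow_mul, ← e, ← hγ, ← Units.val_pow_eq_pow_val, pow_orderOf_eq_one, Units.val_one]

end Cfsg.Agent.Root.Mx
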