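import Cfsg.Agent.Low.WU4
import Cfsg.Agent.Root.SuR

/-! Maximality of `(GU₃ ∘ GU₂) ∩ SU₆` in `SU₆(q)`, `q ≥ 3` (`max_su32`, `isMaximalIn_tensor_su32`). -/

set_option autoImplicit false

namespace Cfsg.Agent.Root.Wr

open Cfsg.Agent.Geom Cfsg.Agent.AutCl Module TensorProduct Mx

variable {F : Type*} [Field F] {σ : F →+* F} {W U : Type*} [AddCommGroup W] [Module F W] [AddCommGroup U] [Module F U]
  {Φ₁ : Formed σ W} {Φ₂ : Formed σ U} {Φ : Formed σ (W ⊗[F] U)} {X : Subgroup (W ⊗[F] U ≃ₗ[F] W ⊗[F] U)}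

/-- A proper overgroup of `SU₃ ⊗ SU₂`. -/
structure T6 (Φ₁ : Formed σ W) (Φ₂ : Formed σ U) (Φ : Formed σ (W ⊗[F] U)) (X : Subgroup (W ⊗[F] U ≃ₗ[F] W ⊗[F] U)) :
    Prop extends F3 Φ₁ Φ₂ Φ X where
  hd : Mx.HD Φ₂
  τ : Φ.τ = 0
  d2 : finrank F U = 2
  r : ∀ p a d g, IsE Φ₂ p a d g → TensorProduct.congr (.refl F W) g ∈ X
  small : ¬ EG Φ ≤ X

variable [Finite F] [FiniteDimensional F W] [FiniteDimensional F U]

namespace T6
variable (h : T6 Φ₁ Φ₂ Φ X)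
include h

omit [Finite F] [FiniteDimensional F W] in
theorem dec2 {u v : U} (hp : Φ₂.IsPair u v) (y : U) : y = Φ₂.B v y • u + Φ₂.B u y • v := by
  have d := hp.finrank_pairPerp h.nd₂
  have : Φ₂.pairPerp u v = ⊥ := Submodule.finrank_eq_zero.1 (by have := h.d2; omega)
  have e := hp.sub_mem_pairPerp y
  rw [this, Submodule.mem_bot, h.ε₂, one_mul] at e
  linear_combination (norm := module) e

omit [Finite F] [FiniteDimensional F W] in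
theorem tv {x : U} (hx : Φ₂.B x x = 0) {c : F} (hc : σ c = -c) : ∃ b : U ≃ₗ[F] U,
    TensorProduct.congr (.refl F W) b ∈ X ∧ (∀ y, b y = y + (c * Φ₂.B x y) • x) ∧ ∀ y, b.symm y = y - (c * Φ₂.B x y) • x := by
  obtain ⟨b, hb⟩ := exists_isE h.nd₂ (p := x) (a := 0) (d := -c) ⟨h.hd.Q _, hx⟩ (by simp) (by simp [h.hd.τ, h.hd.Q])
    (by simp [h.ε₂, hc])
  have e : ∀ y, b y = y + (c * Φ₂.B x y) • x := fun y => by simp [hb.app]
  exact ⟨b, h.r _ _ _ _ hb, e, fun y => b.symm_apply_eq.2 (by simp [e, hx])⟩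

theorem hZ (ζ : End F U) (hζ : ZF Φ₁ X ζ) : ∃ k : F, ζ = k • 1 := by
  have f := h.toF3
  obtain ⟨c, c0, hc⟩ := h.uf.tp
  obtain ⟨l, l0, l1⟩ := h.nm
  have sy := h.hd.symm
  suffices H : ∀ x, Φ₂.B x x = 0 → Φ₂.B x (ζ x) = 0 by
    obtain ⟨u, v, hp⟩ := h.ex
    have fe : Φ₂.B v u = 1 := by rw [← sy, hp.ef, map_one]
    have e := H (u + c • v) (by simp [hp.se.2, hp.sf.2, hp.ef, fe, hc])
    simp [H u hp.se.2, H v hp.sf.2, hc] at e
    refine ⟨Φ₂.B v (ζ u), LinearMap.ext fun y => ?_⟩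
    have e' : Φ₂.B u (ζ v) = Φ₂.B v (ζ u) := mul_left_cancel₀ c0 (by linear_combination e)
    rw [h.dec2 hp y, map_add, map_add, map_smul, map_smul, h.dec2 hp (ζ u), h.dec2 hp (ζ v)]
    simp [H u hp.se.2, H v hp.sf.2, e', fe]
  intro x hx
  by_contra n
  have x0 : x ≠ 0 := by rintro rfl; simp at n
  let Z : AddSubgroup (End F U) := .ofSub {ζ | ZF Φ₁ X ζ} ⟨ζ, hζ⟩
    fun a ha b hb x hx => ((ha x hx).add ((hb x hx).neg (tt_mul_zero hx.2)) (by ext; simp [hx.2])).congr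
      fun v => by simp [tmul_add, tmul_neg]
  have cj : ∀ c : F, σ c = -c → ∀ z ∈ Z, (1 + c • nx Φ₂ x) * z * (1 - c • nx Φ₂ x) ∈ Z := fun c hc z hz w hw => by
    obtain ⟨b, b1, b2, b3⟩ := h.tv hx hc
    refine (hz w hw).conj b1 fun v => ?_
    induction v with
    | zero => simp
    | tmul y u =>
      simp only [tt_apply, TensorProduct.congr_tmul, LinearEquiv.refl_apply, cL_tmul, map_smul]
      congr 1
      simp [b2, hx]; module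
    | add x y p q => simp only [map_add, p, q]
  have sc : ∀ z ∈ Z, (l * σ l) • z ∈ Z := fun z hz x hx =>
    (hz _ (hx.smul l)).congr fun v => by simp [smul_tmul, smul_smul, mul_comm]
  have t1 : σ (l * σ l) = l * σ l := by simp [Φ₁.σσ, mul_comm]
  have t0 : l * σ l ≠ 0 := by simpa
  generalize l * σ l = t at *
  have m : (t * (t - 1) * (c * c) * Φ₂.B x (ζ x)) • nx Φ₂ x ∈ Z := by
    convert sub_mem (sc _ (sub_mem (cj c hc ζ hζ) hζ)) (sub_mem (cj (t * c) (by simp [t1, hc]) ζ hζ) hζ) using 1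
    ext y; simp; module
  have k0 : t * (t - 1) * (c * c) * Φ₂.B x (ζ x) ≠ 0 := by simp [t0, c0, n, sub_eq_zero, l1]
  let A : Subalgebra F (End F U) :=
    { carrier := {z | ∀ ρ ∈ f.rfS, ρ * z ∈ f.rfS}
      add_mem' := fun hp hq ρ e => by rw [mul_add]; exact add_mem (hp ρ e) (hq ρ e)
      algebraMap_mem' := fun k ρ e => by simpa [Algebra.algebraMap_eq_smul_one] using f.rfS.smul_mem k e
      mul_mem' := fun hp hq ρ e => by rw [← mul_assoc]; exact hq _ (hp ρ e) }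
  have a1 : nx Φ₂ x ∈ A := fun ρ hρ => (f.rfS.smul_mem_iff k0).1 (by
    simpa using (show _ ∈ f.rfS from f.rf_eta m (by ext; simp [hx]) hρ))
  obtain ⟨y, hp⟩ := h.nd₂.exists_isPair x0 ⟨h.hd.Q _, hx⟩
  have fe : Φ₂.B y x = 1 := by rw [← sy, hp.ef, map_one]
  obtain ⟨b, b1, b2, b3⟩ := h.tv hp.sf.2 hc
  have a2 : nx Φ₂ (x + c • y) ∈ A := fun ρ hρ => by
    change RF _ _ _
    convert FS.rf_conj (a1 _ (FS.rf_conj hρ (g := b.symm) (inv_mem b1))) b1 using 1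
    ext u
    have e : b x = x + c • y := by simp [b2, fe]
    simp only [LinearMap.comp_apply, LinearEquiv.coe_coe, End.mul_apply, LinearMap.smulRight_apply, map_smul,
      LinearEquiv.symm_symm, LinearEquiv.apply_symm_apply, e]
    simp [b3, hp.ef, hc, sub_eq_add_neg]
  have a3 : ∀ p q, nx Φ₂ p ∈ A → nx Φ₂ q ∈ A → Φ₂.B p q ≠ 0 → rk1 p (Φ₂.B q) ∈ A := fun p q a b e => by
    convert A.smul_mem (A.mul_mem a b) (Φ₂.B p q)⁻¹ using 1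
    ext u; simp [smul_smul, e, mul_comm (Φ₂.B q u)]
  have a4 := a3 _ _ a1 a2 (by simp [hx, hp.ef, c0])
  have a5 := a3 _ _ a2 a1 (by simp [hx, fe, c0])
  have dc : ∀ p, p = (Φ₂.B y p - Φ₂.B x p / c) • x + (Φ₂.B x p / c) • (x + c • y) := fun p => by
    conv_lhs => rw [h.dec2 hp p]
    match_scalars <;> field_simp <;> ring
  refine h.small (f.win fun ρ => one_mul ρ ▸ (mem_of_rk1 (R := A.toSubmodule) (fun p κ => ?_) ρ) 1 f.rf_one)
  obtain ⟨q, rfl⟩ := h.nd₂.exists_eq_B κ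
  obtain ⟨α, β, rfl⟩ : ∃ α β : F, p = α • x + β • (x + c • y) := ⟨_, _, dc p⟩
  obtain ⟨γ, δ, rfl⟩ : ∃ α β : F, q = α • x + β • (x + c • y) := ⟨_, _, dc q⟩
  generalize x + c • y = z at *
  rw [Subalgebra.mem_toSubmodule]
  convert add_mem (add_mem (A.smul_mem a1 (α * σ γ)) (A.smul_mem a4 (α * σ δ)))
    (add_mem (A.smul_mem a5 (β * σ γ)) (A.smul_mem a2 (β * σ δ))) using 1
  ext u; simp; module

theorem hS (ρ : End F U) (hρ : RF Φ₁ X ρ) : ∃ k : F, ρ = k • 1 := by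
  obtain ⟨ρ', e⟩ := exists_isAdj h.nd₂ ρ
  obtain ⟨k, hk⟩ := h.uf.kap
  have w := fun k => h.hZ _ (h.zf_comm (ρ₁' := 1) (fun _ _ => rfl) e h.rf_one hρ k)
  obtain ⟨a, ha⟩ := w 1
  obtain ⟨b, hb⟩ := w k
  simp only [one_mul, mul_one, map_one] at ha hb
  exact ⟨(σ k - k)⁻¹ * (σ k * a - b), by
    rw [mul_smul, eq_inv_smul_iff₀ hk]; linear_combination (norm := module) σ k • ha - hb⟩

theorem par {c : W ⊗[F] U ≃ₗ[F] W ⊗[F] U} (hc : c ∈ X) {w w' : W} (hw : Φ₁.Sing w) (w0 : w ≠ 0)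
    (H : ∀ u, ∃ u', c (w ⊗ₜ u) = w' ⊗ₜ u') : c ∈ tstab F W U :=
  h.toF3.par h.hS h.hZ (fun _ _ _ _ => ((h.iso hc).1 _ _).trans (h.B _ _ _ _))
    (fun g p q => mul_mem (mul_mem hc (h.l g p q)) (inv_mem hc)) hw w0 H

omit [FiniteDimensional F U] in
theorem mem {r : W ≃ₗ[F] W} (hr : r ∈ TU Φ₁) : lT U r ∈ X :=
  let ⟨_, _, hg⟩ := h.uf.tu_isE hr; h.l _ hg.mem_isom (isE_SL hg)

theorem recT {c : W ⊗[F] U ≃ₗ[F] W ⊗[F] U} (hc : c ∈ X) {r : W ≃ₗ[F] W} (hr : r ∈ TU Φ₁)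
    (H : c⁻¹ * lT U r * c ∈ tstab F W U) : c ∈ tstab F W U := by
  have := h.nt
  obtain ⟨w, hw, w0, κ, k0, -, e⟩ := hr
  obtain ⟨a, b, e1⟩ := H
  obtain ⟨a, e2, -⟩ := scalar_of_mv e1 (conj_mem_mvS e c) (k := 0) ![] ![] (by simp) (by simp) (by
    have := finrank_ptc c w; have := h.d2; have := h.d3; omega)
  obtain ⟨x, -, -, e3⟩ := rec1 h.uf.nd w0 k0 e e2
  exact inv_mem_iff.1 (h.par (inv_mem hc) hw w0 e3)

theorem recC {c : W ⊗[F] U ≃ₗ[F] W ⊗[F] U} (hc : c ∈ X) {r : W ≃ₗ[F] W} (hr : r ∈ TU Φ₁) (H : Commute c (lT U r)) :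
    c ∈ tstab F W U := h.recT hc hr (by rw [mul_assoc, ← H.eq, inv_mul_cancel_left]; exact lT_mem r)

/-- An element fixing enough points is a tensor product. -/
theorem fin {d : W ⊗[F] U ≃ₗ[F] W ⊗[F] U} (hd : d ∈ X) {y y' : W} (n : y' ∉ F ∙ y) (y0 : y ≠ 0)
    (e : ∀ u, d (y ⊗ₜ u) = y ⊗ₜ u) (e' : ∀ u, d (y' ⊗ₜ u) = y' ⊗ₜ u) : d ∈ tstab F W U := by
  obtain ⟨x, x1, x0, x2⟩ := exists_sing_herm h.uf.ne h.uf.ε h.uf.Q (T := (F ∙ y) ⊔ F ∙ y') (by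
    have := Submodule.finrank_lt_finrank_of_lt (show (F ∙ y) < (F ∙ y) ⊔ F ∙ y' from
      left_lt_sup.2 fun e => n (e (Submodule.mem_span_singleton_self _)))
    rw [finrank_span_singleton y0] at this; omega)
  refine h.par hd x2 x0 (w' := x) fun u => ⟨u, ?_⟩
  obtain ⟨p, hp, q, hq, rfl⟩ := Submodule.mem_sup.1 x1
  obtain ⟨s, rfl⟩ := Submodule.mem_span_singleton.1 hp
  obtain ⟨t, rfl⟩ := Submodule.mem_span_singleton.1 hq
  simp [add_tmul, ← smul_tmul', e, e']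

omit [FiniteDimensional F U] in
theorem exists_opp {y : W} (y0 : y ≠ 0) : ∃ x, Φ₁.Sing x ∧ x ≠ 0 ∧ Φ₁.B x y ≠ 0 := by
  obtain ⟨w, f, hp⟩ := h.uf.pair
  by_contra! H
  exact y0 (h.uf.nd _ fun x => Φ₁.B_eq_zero_symm (sing_induction hp (P := fun x => Φ₁.B x y = 0)
    (fun x hx => by by_cases x0 : x = 0; simp [x0]; exact H x hx x0) (fun a b p q => by simp [p, q]) x))

theorem le_odd (h2 : (2 : F) ≠ 0) : X ≤ tstab F W U := by
  have : Finite (W ⊗[F] U) := Module.finite_of_finite F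
  have : Finite (W ⊗[F] U ≃ₗ[F] W ⊗[F] U) := Finite.of_injective _ DFunLike.coe_injective
  have := h.nt
  obtain ⟨c, c0, hc⟩ := h.uf.tp
  obtain ⟨w, f, hp⟩ := h.uf.pair
  have un : ∀ r ∈ TU Φ₁, ∀ x, lT U r (lT U r x - x) = lT U r x - x := fun r ⟨w, o, _, c, _, _, q⟩ x => by
    simp [lT_rk1 q, o.2]
  obtain ⟨r, hr, -⟩ := h.uf.tu hp.se hp.left_ne_zero c0 hc
  refine quad_engine h2 (h.mem hr) (lT_mem r) (un r hr) (fun c hc => h.recT hc hr) fun c hc z hz z1 z2 z3 z4 => ?_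
  have md := mul_mem (mul_mem (inv_mem hc) (h.mem hr)) hc
  have ud : ∀ x, (c⁻¹ * lT U r * c) ((c⁻¹ * lT U r * c) x - x) = (c⁻¹ * lT U r * c) x - x := fun x => by
    simpa using congrArg c.symm (un r hr (c x))
  obtain ⟨Y, y1, y2⟩ : ∃ Y : Submodule F (W ⊗[F] U), finrank F Y ≤ finrank F U ∧ c⁻¹ * lT U r * c ∈ mvS Y :=
    let ⟨w, _, _, _, _, _, e⟩ := hr; ⟨_, finrank_ptc c w, conj_mem_mvS e c⟩
  generalize c⁻¹ * lT U r * c = d at *
  have le : ∀ r ∈ TU Φ₁, Subgroup.closure {lT U r, d} ≤ X := fun r hr =>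
    (Subgroup.closure_le _).2 (by rintro _ (rfl | rfl); exacts [h.mem hr, md])
  have fx : ∀ r ∈ TU Φ₁, ∀ z ∈ Subgroup.closure {lT U r, d}, z ≠ 1 → z * z = 1 → Commute z (lT U r) → Commute z d →
      ∃ y, y ≠ 0 ∧ r y = y ∧ ∀ u, d (y ⊗ₜ u) = y ⊗ₜ u := fun r hr z hz z1 z2 z3 z4 => by
    obtain ⟨w, o, w0, κ, k0, -, e1⟩ := id hr
    obtain ⟨S, s1, s2, s3⟩ := quad_fix' (e := .refl F (W ⊗[F] U)) h2 h.d3.ge w0 (φ := κ • Φ₁.B w)
      (fun e => w0 (h.uf.nd _ fun y => by simpa [k0] using LinearMap.congr_fun e y)) e1 (by simp [o.2]) ud y1 y2 hz z1 z2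
      z3 z4 (h.recC (le r hr hz) hr z3)
    obtain ⟨y, hy, y0⟩ := exists_notMem_of_lt (U := S) (R := ⊥) (by have := h.d3; simp; omega)
    exact ⟨y, y0, by rw [e1, show κ * Φ₁.B w y = 0 from s2 y hy]; simp, s3 y hy⟩
  obtain ⟨y, y0, -, s2⟩ := fx r hr z hz z1 z2 z3 z4
  obtain ⟨x, hx, x0, n⟩ := h.exists_opp y0
  obtain ⟨r', hr', e⟩ := h.uf.tu hx x0 c0 ‹_›
  have : Fact (ringChar F).Prime := ⟨CharP.char_is_prime F _⟩
  rcases quad_pair h2 (un r' hr') ud with H | ⟨z, hz, z1, z2, z3, z4⟩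
  · by_contra hd
    obtain ⟨t, a1, a2, a3⟩ := Invol.exists_mem_normalizer_of_lt H (X := Subgroup.closure {lT U r', d} ⊓ tstab F W U)
      (lt_of_le_of_ne inf_le_left fun e => hd (e.ge (Subgroup.subset_closure (by simp))).2)
    exact a2 ⟨a1, h.recT (le r' hr' a1) hr' (by
      simpa using ((Subgroup.mem_normalizer_iff.1 (inv_mem a3) _).1 ⟨Subgroup.subset_closure (by simp), lT_mem r'⟩).2)⟩
  obtain ⟨y', y1, b2, b3⟩ := fx r' hr' z hz z1 z2 z3 z4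
  exact h.fin md (notMem_of_fun n (by simpa [e, c0, x0] using b2)) y1 b3 s2

omit [Finite F] [FiniteDimensional F W] [FiniteDimensional F U] in
theorem cent {g : W ⊗[F] U ≃ₗ[F] W ⊗[F] U} (hg : g ∈ X) (ht : g ∈ tstab F W U) {w : W} {u : U} (u0 : Φ₂.B u u ≠ 0)
    (e : g (w ⊗ₜ u) = w ⊗ₜ u) {r : W ≃ₗ[F] W} {κ : F} (hr : ∀ x, r x = x + (κ * Φ₁.B w x) • w) :
    g * lT U r = lT U r * g := by
  obtain ⟨a, b, e1⟩ := ht
  have u1 : b u ≠ 0 := by rintro e; simp [b.map_eq_zero_iff.1 e] at u0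
  have k : ∀ x, Φ₁.B w x • a w = Φ₁.B w (a x) • w := fun x => tmul_inj2 (F := F) u1 (by
    have e2 := (h.iso hg).1 (w ⊗ₜ u) (x ⊗ₜ u)
    rw [e, e1, h.B, h.B] at e2
    rw [← smul_tmul', ← e1, e]
    by_cases w0 : w = 0
    · simp [w0]
    obtain ⟨l, e3⟩ := Submodule.mem_span_singleton.1 (mem_span_of_tmul u1 ((e1 w u).symm.trans e))
    have e4 : u = l • b u := tmul_inj w0 (by rw [← e, e1, ← e3, smul_tmul])
    have e5 : Φ₂.B u u = l * Φ₂.B u (b u) := by nth_rw 2 [e4]; simp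
    have : Φ₁.B w (a x) = Φ₁.B w x * l := mul_right_cancel₀ (right_ne_zero_of_mul (e5 ▸ u0)) (by rw [e2, e5]; ring)
    rw [this, ← smul_tmul', mul_smul, ← tmul_smul l, ← e4])
  exact LinearEquiv.toLinearMap_injective (TensorProduct.ext' fun x v => by
    simp [e1, hr, mul_smul, k])

theorem conjT {g : W ⊗[F] U ≃ₗ[F] W ⊗[F] U} (hg : g ∈ X) (ht : g ∈ tstab F W U) {r : W ≃ₗ[F] W} (hr : r ∈ TU Φ₁) :
    ∃ r' ∈ TU Φ₁, g⁻¹ * lT U r * g = lT U r' := by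
  obtain ⟨a, b, e⟩ := inv_mem ht
  obtain ⟨w, o, p, k, q, q', t⟩ := hr
  obtain ⟨u, v, hu⟩ := h.ex
  have m : ∀ x y, Φ₁.B (a x) (a y) = Φ₂.B (b.symm u) (b.symm v) * Φ₁.B x y := fun x y => by
    simpa only [e, h.B, hu.ef, mul_comm, LinearEquiv.apply_symm_apply, one_mul, mul_one] using
      (h.iso (inv_mem hg)).1 (x ⊗ₜ b.symm u) (y ⊗ₜ b.symm v)
  generalize Φ₂.B (b.symm u) (b.symm v) = μ at m
  obtain ⟨x, y, pr⟩ := h.uf.pair
  have m0 : μ ≠ 0 := fun e => pr.left_ne_zero (a.map_eq_zero_iff.1 (h.uf.nd _ fun y => by simpa [e] using m x (a.symm y)))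
  have m1 : σ μ = μ := by simpa [m, pr.ef, (h.uf.pair_symm pr).ef] using (h.uf.symm (a x) (a y)).symm
  refine ⟨a * r * a⁻¹, ⟨a w, h.uf.sing (by simp [m, o.2]), by simpa, k / μ, by simp [q, m0], by simp [q', m1, neg_div],
    fun x => ?_⟩, by
      have := conj_lf (e := .refl F _) (e' := .refl F _) e r
      rw [inv_inv] at this; exact this⟩
  obtain ⟨x, rfl⟩ := a.surjective x
  simp [t, m, ← mul_assoc, m0]

section Even
variable (h2 : (2 : F) = 0)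
include h2

omit [Finite F] [FiniteDimensional F W] [FiniteDimensional F U] h in
theorem sq {r : W ≃ₗ[F] W} (hr : r ∈ TU Φ₁) : lT U r * lT U r = 1 := by
  obtain ⟨w, o, -, c, -, -, q⟩ := hr
  rw [← lT_mul, show r * r = 1 from LinearEquiv.ext fun x => by simp [q, o.2, add_assoc, ← two_smul F, h2]]
  exact TensorProduct.congr_refl_refl

theorem odd {g : W ⊗[F] U ≃ₗ[F] W ⊗[F] U} (hg : g ∈ X) (n : g ∉ tstab F W U) {r s : W ≃ₗ[F] W} (hr : r ∈ TU Φ₁)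
    (hs : s ∈ TU Φ₁) : Odd (orderOf (lT U r * (g⁻¹ * lT U s * g))) := by
  have : Finite (W ⊗[F] U) := Module.finite_of_finite F
  have : Finite (W ⊗[F] U ≃ₗ[F] W ⊗[F] U) := Finite.of_injective _ DFunLike.coe_injective
  have := h.nt
  refine Nat.not_even_iff_odd.1 fun ho => n (h.recT hg hs ?_)
  have a2 := sq (U := U) h2 hr
  have b2 : g⁻¹ * lT U s * g * (g⁻¹ * lT U s * g) = 1 := by simpa using conj_sq (sq (U := U) h2 hs) g⁻¹
  have b1 := mul_mem (mul_mem (inv_mem hg) (h.mem hs)) hg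
  obtain ⟨z1, z2, z3⟩ := Invol.half_pow_spec a2 b2 ho
  obtain ⟨j, hj⟩ := dih a2 b2 (orderOf (lT U r * (g⁻¹ * lT U s * g)) / 2)
  have m := pow_mem (mul_mem (h.mem hr) b1) (orderOf (lT U r * (g⁻¹ * lT U s * g)) / 2)
  have m' := pow_mem (mul_mem (h.mem hr) b1) j
  generalize (lT U r * (g⁻¹ * lT U s * g)) ^ (orderOf (lT U r * (g⁻¹ * lT U s * g)) / 2) = z at *
  generalize (lT U r * (g⁻¹ * lT U s * g)) ^ j = k at *
  have t := mul_mem (lT_mem r) (h.recC m hr z2)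
  obtain ⟨p, hp, e⟩ : ∃ p ∈ TU Φ₁, lT U r * z = lT U p := by
    rcases hj with hj | hj <;> rw [hj] at t ⊢
    · exact h.conjT m' (h.recT m' hr t) hr
    rw [show k⁻¹ * (g⁻¹ * lT U s * g) * k = (g * k)⁻¹ * lT U s * (g * k) by group] at t ⊢
    exact h.conjT (mul_mem hg m') (h.recT (mul_mem hg m') hs t) hs
  obtain ⟨w, o, w0, c, c0, hc, q⟩ := id hr
  obtain ⟨v, o', v0, d, d0, hd, q'⟩ := id hp
  obtain ⟨u, u0⟩ := exists_ne (0 : U)
  obtain ⟨l, rfl⟩ : ∃ l : F, l • w = v := by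
    obtain ⟨u', e1⟩ := comm_pt h.uf.nd w0 c0 q q (s := lT U p) (by
      rw [← e]; exact ((Commute.refl _).mul_left z2).eq) u
    have e2 : p w ∈ F ∙ w := mem_span_of_tmul u0 e1
    rw [q', Submodule.add_mem_iff_right _ (Submodule.mem_span_singleton_self w)] at e2
    by_cases e3 : Φ₁.B v w = 0
    swap
    · exact Submodule.mem_span_singleton.1 ((Submodule.smul_mem_iff _ (mul_ne_zero d0 e3)).1 e2)
    obtain ⟨f, hf⟩ := h.uf.nd.exists_isPair w0 o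
    obtain ⟨a, a1, -, a3, D⟩ := h.dec hf
    have := D v
    rw [Φ₁.B_eq_zero_symm e3] at this
    generalize Φ₁.B f v = α, Φ₁.B a v / Φ₁.B a a = β at this
    subst this
    have : β = 0 := by simpa [o.2, a1, Φ₁.B_eq_zero_symm a1, a3] using o'.2
    exact ⟨α, by simp [this]⟩
  have e1 : ∀ x, (r * p) x = x + ((c + d * (l * σ l)) * Φ₁.B w x) • w := fun x => by
    simp [q, q', o.2, smul_smul]; module
  have e2 : z = lT U (r * p) := by rw [lT_mul, ← e, ← mul_assoc, a2, one_mul]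
  refine h.recC b1 ⟨w, o, w0, _, fun e0 => Invol.ne_one_of z1 ?_, by simp [hc, hd, Φ₁.σσ]; ring, e1⟩ (e2 ▸ z3.symm)
  rw [e2, show r * p = 1 from LinearEquiv.ext fun x => by simp [e1, e0]]
  exact TensorProduct.congr_refl_refl

theorem fixy {g : W ⊗[F] U ≃ₗ[F] W ⊗[F] U} (hg : g ∈ X) (n : g ∉ tstab F W U) {v : W} {s s' : W ≃ₗ[F] W} {κ κ' : F}
    (o : Φ₁.Sing v) (v0 : v ≠ 0) (k0 : κ ≠ 0) (k1 : σ κ = -κ) (q : ∀ x, s x = x + (κ * Φ₁.B v x) • v) (k2 : κ' ≠ 0)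
    (k3 : σ κ' = -κ') (q' : ∀ x, s' x = x + (κ' * Φ₁.B v x) • v) (ne : κ ≠ κ') {w : W} (hw : Φ₁.Sing w) (w0 : w ≠ 0) :
    ∃ y, y ≠ 0 ∧ Φ₁.B w y = 0 ∧ ∀ u, (g⁻¹ * lT U s * g) (y ⊗ₜ u) = y ⊗ₜ u := by
  have := h.nt
  have hs : s ∈ TU Φ₁ := ⟨v, o, v0, κ, k0, k1, q⟩
  have hs' : s' ∈ TU Φ₁ := ⟨v, o, v0, κ', k2, k3, q'⟩
  obtain ⟨r, hr, qr⟩ := h.uf.tu hw w0 k0 k1
  let Y := ptc (1 : W ⊗[F] U ≃ₗ[F] W ⊗[F] U) w ⊔ ptc g v
  have key : ∀ {s κ}, s ∈ TU Φ₁ → (∀ x, s x = x + (κ * Φ₁.B v x) • v) → ∃ k ∈ X ⊓ mvS Y,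
      k * lT U r * k⁻¹ = g⁻¹ * lT U s * g ∧ g * k ∈ tstab F W U ∧ ∃ β : U ≃ₗ[F] U, ∀ u, (g * k) (w ⊗ₜ u) = v ⊗ₜ β u :=
    fun {s κ} hs q => by
    have b2 : g⁻¹ * lT U s * g * (g⁻¹ * lT U s * g) = 1 := by simpa using conj_sq (sq (U := U) h2 hs) g⁻¹
    obtain ⟨j, hj⟩ := odd_swap (sq h2 hr) b2 (h.odd h2 hg n hr hs)
    have m1 : lT U r ∈ X ⊓ mvS Y := ⟨h.mem hr, mvS_mono le_sup_left (by simpa using conj_mem_mvS qr 1)⟩
    have m2 : g⁻¹ * lT U s * g ∈ X ⊓ mvS Y :=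
      ⟨X.mul_mem (X.mul_mem (X.inv_mem hg) (h.mem hs)) hg, mvS_mono le_sup_right (conj_mem_mvS q g)⟩
    have m := pow_mem (mul_mem m1 m2) j
    have m3 := mul_mem (mul_mem m m1) (inv_mem m)
    generalize (lT U r * (g⁻¹ * lT U s * g)) ^ j * lT U r * ((lT U r * (g⁻¹ * lT U s * g)) ^ j)⁻¹ = k at hj m3
    have c := comm_pt h.uf.nd w0 k0 qr q (s := g * k) (by
      rw [mul_assoc g, ← inv_mul_cancel_right (k * lT U r) k, hj]; group)
    exact ⟨k, m3, hj, h.par (mul_mem hg m3.1) hw w0 c, exists_beta w0 c⟩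
  obtain ⟨k, m1, e1, t1, β, hβ⟩ := key hs q
  obtain ⟨k', m2, e2, t2, β', hβ'⟩ := key hs' q'
  have hγ : ∀ u, (k'⁻¹ * k) (w ⊗ₜ u) = w ⊗ₜ β'.symm (β u) := fun u => inv_mul_apply.2 (g.injective (by
    rw [← LinearEquiv.mul_apply, ← LinearEquiv.mul_apply, hβ, hβ']; simp))
  have m := mul_mem (inv_mem m2) m1
  have t : k'⁻¹ * k ∈ tstab F W U := by simpa [mul_assoc] using mul_mem (inv_mem t2) t1
  have nc : ∀ u, Φ₂.B u u ≠ 0 → (k'⁻¹ * k) (w ⊗ₜ u) ≠ w ⊗ₜ u := fun u u0 e => by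
    have c := h.cent m.1 t u0 e qr
    have : g⁻¹ * lT U s * g = g⁻¹ * lT U s' * g := by
      rw [← e1, ← e2, show k * lT U r * k⁻¹ = k' * (k'⁻¹ * k * lT U r) * k⁻¹ by group, c]; group
    obtain ⟨x, hx⟩ := h.uf.nd.exists_eq_one v0
    have := tmul_inj2 (show u ≠ 0 by rintro rfl; simp at u0)
      (LinearEquiv.congr_fun (mul_left_cancel (mul_right_cancel this)) (x ⊗ₜ u))
    exact ne (smul_left_injective F v0 (by simpa [q, q', hx] using this))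
  have fx : ∀ d ∈ X ⊓ mvS Y, ∀ x ∈ Φ.perp Y, d x = x := fun d hd x hx =>
    fix_of_mvS h.nondeg (h.iso hd.1) hd.2 fun z hz => Φ.B_eq_zero_symm (hx z hz)
  have me : g⁻¹ * lT U s * g ∈ X ⊓ mvS Y :=
    ⟨X.mul_mem (X.mul_mem (X.inv_mem hg) (h.mem hs)) hg, mvS_mono le_sup_right (conj_mem_mvS q g)⟩
  have ho := h.odd h2 hg n hr hs
  have b2 : g⁻¹ * lT U s * g * (g⁻¹ * lT U s * g) = 1 := by simpa using conj_sq (sq (U := U) h2 hs) g⁻¹
  have ne' : g⁻¹ * lT U s * g ∉ tstab F W U := fun e => n (h.recT hg hs e)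
  generalize g⁻¹ * lT U s * g = e at *
  have inj : ∀ u, w ⊗ₜ u ∈ Φ.perp Y → u = 0 := fun u hu => by_contra fun u0 => by
    by_cases us : Φ₂.B u u = 0
    swap
    · exact nc u us (fx _ m _ hu)
    obtain ⟨u', hp⟩ := h.nd₂.exists_isPair u0 ⟨h.hd.Q _, us⟩
    have i : IsE Φ (w ⊗ₜ u) (-κ • w ⊗ₜ u') 0 (lT U r) := ⟨h.sing hw u, by simp [h.B, hw.2], by simp [h.τ, h.Q],
      by simp [h.B, hw.2], fun x => by
        rw [lT_rk1 qr]
        conv_lhs => rw [h.dec2 hp (cL (Φ₁.B w) x)]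
        simp [h.Bl, h.toF3.ε, k1, tmul_add]; module⟩
    have i' := i.conj (h.iso me.1)
    rw [fx _ me _ hu] at i'
    have : Fact (ringChar F).Prime := ⟨CharP.char_is_prime F _⟩
    have c2 : ringChar F = 2 := (Nat.prime_dvd_prime_iff_eq Fact.out Nat.prime_two).1
      ((ringChar.spec F 2).1 (by exact_mod_cast h2))
    have p := (i.mul i').pow_char (ringChar F)
    rw [c2, inv_eq_of_mul_eq_one_right b2, ← mul_assoc, ← mul_assoc, mul_assoc (lT U r * e), ← pow_two, ← pow_mul] at p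
    have := (Nat.coprime_two_right.2 ho).pow_right 3 |>.eq_one_of_dvd (orderOf_dvd_of_pow_eq_one p)
    rw [orderOf_eq_one_iff, mul_eq_one_iff_inv_eq] at this
    exact ne' (this ▸ inv_mem (lT_mem r))
  obtain ⟨f, hf⟩ := h.uf.nd.exists_isPair w0 hw
  obtain ⟨a, a1, a2, a3, D⟩ := h.dec hf
  have sh : ∀ x ∈ Φ.perp Y, x = w ⊗ₜ cL (Φ₁.B f) x + a ⊗ₜ ((Φ₁.B a a)⁻¹ • cL (Φ₁.B a) x) := fun x hx => by
    have := F3.tdec D x
    rwa [show cL (Φ₁.B w) x = 0 from h.nd₂.ext_right fun u => by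
      rw [← h.Bl, hx (w ⊗ₜ u) (Submodule.mem_sup_left ⟨u, rfl⟩), map_zero], tmul_zero, add_zero] at this
  have sj : ∀ u, ∃ u', w ⊗ₜ u' + a ⊗ₜ u ∈ Φ.perp Y := fun u => by
    have d1 := h.nondeg.finrank_add_finrank_perp Y
    have d2 := Submodule.finrank_add_le_finrank_add_finrank (ptc (1 : W ⊗[F] U ≃ₗ[F] W ⊗[F] U) w) (ptc g v)
    have d3 := finrank_ptc (1 : W ⊗[F] U ≃ₗ[F] W ⊗[F] U) w
    have d4 := finrank_ptc g v
    rw [finrank_tensorProduct, h.d3, h.d2] at d1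
    let L : Φ.perp Y →ₗ[F] U := (Φ₁.B a a)⁻¹ • cL (Φ₁.B a) ∘ₗ (Φ.perp Y).subtype
    have l1 : Function.Injective L := (injective_iff_map_eq_zero L).2 fun x hx => Subtype.ext (by
      have e := sh x x.2
      rw [show (Φ₁.B a a)⁻¹ • cL (Φ₁.B a) x.1 = 0 from hx, tmul_zero, add_zero] at e
      rw [e, inj (cL (Φ₁.B f) x.1) (e ▸ x.2)]; simp)
    have d5 := LinearMap.finrank_range_of_inj l1
    obtain ⟨x, rfl⟩ := (Submodule.eq_top_of_finrank_eq (S := LinearMap.range L) (le_antisymm (Submodule.finrank_le _)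
      (by rw [d5, h.d2]; rw [h.d2] at d3 d4; change finrank F Y ≤ _ at d2; omega))).ge (Submodule.mem_top (x := u))
    exact ⟨_, sh x x.2 ▸ x.2⟩
  obtain ⟨p, b, e3⟩ := id t
  obtain ⟨u, u', pu⟩ := h.ex
  obtain ⟨l, hl⟩ := Submodule.mem_span_singleton.1 (mem_span_of_tmul (b.map_ne_zero_iff.2 pu.left_ne_zero)
    ((e3 w u).symm.trans (hγ u)))
  choose φ hφ using sj
  have c1 := fun u => congrArg (cL (Φ₁.B a)) (fx _ m _ (hφ u))
  have c2 := fun u => congrArg (cL (Φ₁.B f)) (fx _ m _ (hφ u))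
  simp only [map_add, e3, ← hl, cL_tmul, map_smul, Φ₁.B_eq_zero_symm a1, a2, (h.uf.pair_symm hf).ef, smul_zero, zero_smul,
    zero_add, add_zero, smul_eq_mul, mul_one, one_smul, mul_zero] at c1 c2
  have n0 : Φ₁.B a (p a) ≠ 0 := fun e => pu.left_ne_zero (by simpa [e, a3] using (c1 u).symm)
  have c3 : ∀ u, b u = (Φ₁.B a a / Φ₁.B a (p a)) • u := fun u => by
    rw [div_eq_inv_mul, mul_smul, ← c1, inv_smul_smul₀ n0]
  generalize Φ₁.B a a / Φ₁.B a (p a) = μ at c3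
  obtain ⟨τ, hτ⟩ := exists_trace_one h.uf.ne Φ₁.σσ
  have n1 : 1 - l * μ ≠ 0 := fun e => nc (u + τ • u') (by
    simp [pu.se.2, pu.sf.2, pu.ef, ← h.hd.symm u u', hτ]) (by
    rw [e3, ← hl, c3, smul_tmul, smul_smul, ← sub_eq_zero.1 e, one_smul])
  refine ⟨(Φ₁.B f (p a) * μ / (1 - l * μ)) • w + a, fun e => a3 (by
    simpa [Φ₁.B_eq_zero_symm a1] using congrArg (Φ₁.B a) e), by simp [hw.2, a1], fun x => ?_⟩
  convert fx _ me _ (hφ x) <;>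
  · rw [add_tmul, smul_tmul]
    congr 2
    refine smul_right_injective U n1 ?_
    have := c2 x
    simp only [c3] at this
    simp only [smul_smul, mul_div_cancel₀ _ n1]
    linear_combination (norm := module) this

theorem le_even : X ≤ tstab F W U := fun g hg => by_contra fun n => by
  obtain ⟨c, c0, hc⟩ := h.uf.tp
  obtain ⟨l, l0, l1⟩ := h.nm
  obtain ⟨v, f, hp⟩ := h.uf.pair
  have k2 : l * σ l * c ≠ 0 := by simp [l0, c0]
  have k3 : σ (l * σ l * c) = -(l * σ l * c) := by simp [Φ₁.σσ, hc, mul_comm l]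
  obtain ⟨s, hs, q⟩ := h.uf.tu hp.se hp.left_ne_zero c0 hc
  obtain ⟨s', -, q'⟩ := h.uf.tu hp.se hp.left_ne_zero k2 k3
  have H := fun w => h.fixy h2 hg n hp.se hp.left_ne_zero c0 hc q k2 k3 q' (fun e => l1 (by simpa [c0] using e.symm)) (w := w)
  obtain ⟨y, y0, -, e⟩ := H v hp.se hp.left_ne_zero
  obtain ⟨x, hx, x0, x1⟩ := h.exists_opp y0
  obtain ⟨y', y1, y2, e'⟩ := H x hx x0
  exact n (h.recT hg hs (h.fin (mul_mem (mul_mem (inv_mem hg) (h.mem hs)) hg) (notMem_of_fun x1 y2) y1 e' e))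

end Even

end T6

theorem max_su32 (hσ : σ ≠ RingHom.id F) (hB : ∀ w u w' u', Φ.B (w ⊗ₜ u) (w' ⊗ₜ u') = Φ₁.B w w' * Φ₂.B u u')
    (h₁ : Mx.HD Φ₁) (h₂ : Mx.HD Φ₂) (hτ : Φ.τ = 0) (hQ : ∀ x, Φ.Q x = 0) (hE : SEG Φ) (h2 : finrank F U = 2)
    (h3 : finrank F W = 3) (nm : ∃ l : F, l ≠ 0 ∧ l * σ l ≠ 1) (cb : ∃ l : F, σ l ^ 3 ≠ l ^ 3) :
    Geo.IsMaximalIn (EG Φ) (tstab F W U ⊓ EG Φ) := by
  have s := fun a b => congr_mem_isom hB (.inr fun _ _ => hQ _) (a := a) (b := b)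
  obtain ⟨u, -, u0, hu⟩ := exists_sing_herm hσ h₂.ε h₂.Q (T := ⊤) (by simp [h2])
  have f : ∀ X, tstab F W U ⊓ EG Φ ≤ X → X ≤ EG Φ → F3 Φ₁ Φ₂ Φ X := fun X a b =>
    ⟨⟨hB, hQ, ⟨h₁, hσ, h3.ge⟩, h₂.nd, h₂.ε, ⟨u, h₂.nd.exists_isPair u0 hu⟩, b.trans EG_le_isom, fun g p q => a ⟨lT_mem g,
      hE ⟨s _ _ p (one_mem _), mem_SLg.2 ((det_congr g 1).trans (by simp [mem_SLg.1 q, ← Module.End.one_eq_id]))⟩⟩⟩,
      h3, nm, cb⟩
  refine max_crit inf_le_right ?_ fun X x1 x2 g hg hg' => by_contra fun hS => hg' ⟨?_, x2 hg⟩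
  · have h := f _ inf_le_right le_rfl
    obtain ⟨w, z, hp⟩ := h.uf.pair
    obtain ⟨v, hv⟩ := h₂.nd.exists_isPair u0 hu
    obtain ⟨t, t0, ht⟩ := h.uf.tp
    obtain ⟨g, hg⟩ := isE_T h.nondeg (h.sing hp.se u) (t := t) ⟨t0, by simp [hτ], by simp [h.ε, ht]⟩
    refine ⟨g, IsE_mem_EG hg, fun ⟨⟨a, b, e1⟩, _⟩ => ?_⟩
    obtain ⟨a, rfl, -⟩ := scalar_of_mv e1 (Y := F ∙ w ⊗ₜ u) (fun x => by
      simpa [hg.app] using Submodule.smul_mem _ _ (Submodule.mem_span_singleton_self _)) (k := 0) ![] ![] (by simp)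
      (by simp) (by have := finrank_span_one (F := F) (w ⊗ₜ[F] u); omega)
    have := congrArg (Φ₂.B v ∘ cL (Φ₁.B z)) (hg.app (z ⊗ₜ v))
    simp [hB, hp.ef, hv.ef, hv.fe, hv.sf.2, hp.fe, t0, Φ₁.ε_ne_zero, Φ₂.ε_ne_zero] at this
  have h : T6 Φ₁ Φ₂ Φ X := ⟨f X x1 x2, h₂, hτ, h2, fun p a d g hg => x1 ⟨⟨1, g, fun _ _ => rfl⟩,
    hE ⟨s _ _ (one_mem _) hg.mem_isom, mem_SLg.2 ((det_congr 1 g).trans (by
      simp [mem_SLg.1 (isE_SL hg), ← Module.End.one_eq_id]))⟩⟩, hS⟩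
  exact (em _).elim (h.le_even · hg) (h.le_odd · hg)

omit [Finite F] in
theorem isMaximalIn_tensor_su32 [Fintype F] {q : ℕ} (hF : Fintype.card F = q ^ 2) (h3 : 3 ≤ q)
    {e : Fin 6 ≃ Fin 2 × Fin 3} {P : GL (Fin 6) F}
    {f₁ : (Fin 2 → F) → (Fin 2 → F) → F} {f₂ : (Fin 3 → F) → (Fin 3 → F) → F} (hf₁ : Geo.IsUnitaryFormPow q f₁)
    (hf₂ : Geo.IsUnitaryFormPow q f₂) (hT : Geo.IsTensorFormStructure (fun x : F => x ^ q) (hermForm 6 F q) f₁ f₂ e P) :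
    Geo.IsMaximalIn (GU 6 F q ⊓ Geo.specialLinear (Fin 6) F)
      (Geo.tensorProductSubgroup 2 3 e P ⊓ (GU 6 F q ⊓ Geo.specialLinear (Fin 6) F)) := by
  obtain ⟨Φ₂, b1, b2⟩ := exists_herm' hF hf₁ one_ne_zero (one_pow q)
  obtain ⟨Ψ, a1, a2⟩ := exists_herm' hF hf₂ one_ne_zero (one_pow q)
  obtain ⟨c, hc, e1⟩ := tensor_eq (σ := frobq hF) hT (formOfGram_B Φ₂.B fun u v => by simp [b2])
    (formOfGram_B Ψ.B fun u v => by simp [a2])
  have hn : 4 ≤ 6 := by omega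
  have hc' : c ^ q = c := by
    obtain ⟨w, -, w0⟩ := exists_notMem_of_lt (U := (⊤ : Submodule F (Fin 3 → F))) (R := ⊥) (by simp)
    obtain ⟨u, -, u0⟩ := exists_notMem_of_lt (U := (⊤ : Submodule F (Fin 2 → F))) (R := ⊥) (by simp)
    obtain ⟨w', hw⟩ := a1.nd.exists_eq_one w0
    obtain ⟨u', hu⟩ := b1.nd.exists_eq_one u0
    rw [a2, one_mul] at hw
    rw [b2, one_mul] at hu
    have := hermForm_pow hF 6 (((kE F _ _).trans (Asch.tv e P)) (w ⊗ₜ u)) (((kE F _ _).trans (Asch.tv e P)) (w' ⊗ₜ u'))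
    rw [e1, e1] at this
    simpa [hf₁.herm u, hf₂.herm w, hw, hu] using this
  obtain ⟨Φ₁, a1, a2⟩ := exists_herm' hF hf₂ hc hc'
  refine isMaximalIn_tensorF (fun g => mem_suGL hF hn) (max_su32 (frobq_ne_id hF) (fun w u w' u' => by
    rw [a2, b2, one_mul]; exact e1 w' u' w u) a1 b1 rfl (fun _ => rfl) (SEG.comap (EG_herm hF hn).ge _) (by simp)
    (by simp) ?_ ?_) <;> by_contra! H
  · have := Nat.le_of_dvd (by omega) ((FiniteField.forall_pow_eq_one_iff F (q + 1)).1 fun x => Units.ext (by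
      simpa [pow_succ'] using H x x.ne_zero))
    have : q + 2 < q ^ 2 := by nlinarith
    omega
  · have := (FiniteField.forall_pow_eq_one_iff F ((q - 1) * 3)).1 fun x => Units.ext (by
      have := H x
      rw [frobq_apply, ← pow_mul, show q * 3 = (q - 1) * 3 + 3 by omega, pow_add] at this
      simpa using this)
    rw [hF, show q ^ 2 - 1 = (q - 1) * (q + 1) by rw [mul_comm, ← Nat.sq_sub_sq]] at this
    have := Nat.le_of_dvd (by omega) (Nat.dvd_of_mul_dvd_mul_left (by omega) this)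
    omega

end Cfsg.Agent.Root.Wr
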