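import Cfsg.Agent.Low.Fr5

/-! Orthogonal families (`on_ext`, `on_zero`); overgroups `PY` of the stabiliser of a non-degenerate plane of a
five-dimensional orthogonal space, `q ≥ 5`, contain all Eichler maps or stabilise the plane (`PY.main`). -/

set_option autoImplicit false

namespace Cfsg.Agent.Root.Mx

open Cfsg.Agent.Geom Cfsg.Agent.AutCl Module QuadraticMap

variable {F : Type*} [Field F] {V : Type*} [AddCommGroup V] [Module F V] {Q : QuadraticForm F V}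
  {Y : Subgroup (OG Q)}

attribute [-simp] QuadraticMap.polar_self

theorem on_proj (h2 : (2 : F) ≠ 0) {ι : Type*} [Fintype ι] {v : ι → V} (h0 : ∀ i, Q (v i) ≠ 0)
    (h1 : ∀ i j, i ≠ j → polar Q (v i) (v j) = 0) (x : V) (i : ι) :
    polar Q (v i) (x - ∑ j, (polar Q (v j) x / (2 * Q (v j))) • v j) = 0 := by
  have := h0 i
  rw [polar_sub_right, ← polarBilin_apply_apply Q (v i) (∑ _, _), map_sum, Finset.sum_eq_single i
    (fun j _ hj => by simp [h1 i j hj.symm]) (by simp)]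
  simp only [map_smul, polarBilin_apply_apply, polar_self', smul_eq_mul]
  field_simp; ring

variable [FiniteDimensional F V]

theorem on_ext (hn : (Formed.ofQuad Q).Nondeg) (h2 : (2 : F) ≠ 0) {k : ℕ} {v : Fin k → V} (h0 : ∀ i, Q (v i) ≠ 0)
    (h1 : ∀ i j, i ≠ j → polar Q (v i) (v j) = 0) (hk : k < finrank F V) :
    ∃ c, Q c ≠ 0 ∧ ∀ i, polar Q (v i) c = 0 := by
  by_contra! hc
  have z : ∀ c, (∀ i, polar Q (v i) c = 0) → Q c = 0 := fun c H => by_contra fun e => by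
    obtain ⟨i, hi⟩ := hc c e; exact hi (H i)
  obtain ⟨p, -, p0, hp⟩ := exists_mem_notMem (Φ := Formed.ofQuad Q) (U := ⊤) (S := ⊥) v
    (by rwa [top_sup_eq, finrank_top, finrank_bot, zero_add])
  replace hp : ∀ i, polar Q (v i) p = 0 := hp
  refine p0 (hn p fun x => ?_)
  have e := on_proj h2 h0 h1 x
  have e2 := z _ fun i => (by rw [polar_add_right, hp, e, add_zero] :
    polar Q (v i) (p + (x - ∑ j, (polar Q (v j) x / (2 * Q (v j))) • v j)) = 0)
  rw [quad_add, z _ hp, z _ e, polar_sub_right, ← polarBilin_apply_apply Q p (∑ _, _), map_sum] at e2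
  simpa [polar_comm Q p (v _), hp] using e2

theorem on_zero (hn : (Formed.ofQuad Q).Nondeg) (h2 : (2 : F) ≠ 0) {ι : Type*} [Fintype ι] [Nonempty ι] {v : ι → V}
    (h0 : ∀ i, Q (v i) ≠ 0) (h1 : ∀ i j, i ≠ j → polar Q (v i) (v j) = 0) (hk : Fintype.card ι = finrank F V)
    {x : V} (hx : ∀ i, polar Q (v i) x = 0) : x = 0 := by
  have li : LinearIndependent F v := LinearMap.BilinForm.linearIndependent_of_iIsOrtho (B := polarBilin Q)
    (fun i j hij => h1 i j hij) fun i e => mul_ne_zero h2 (h0 i) (by rw [← polar_self']; exact e)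
  refine hn x fun y => ?_
  have : y ∈ Submodule.span F (Set.range v) := li.span_eq_top_of_card_eq_finrank hk ▸ trivial
  obtain ⟨c, rfl⟩ := (Submodule.mem_span_range_iff_exists_fun F).1 this
  simp [map_sum, ofQuad_B_apply, polar_comm Q x, hx]

theorem on_two (hn : (Formed.ofQuad Q).Nondeg) (h2 : (2 : F) ≠ 0) (h5 : finrank F V = 5) {a b c : V} (ha : Q a ≠ 0)
    (hb : Q b ≠ 0) (hc : Q c ≠ 0) (ab : polar Q a b = 0) (ac : polar Q a c = 0) (bc : polar Q b c = 0) :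
    ∃ d e, Q d ≠ 0 ∧ Q e ≠ 0 ∧ (polar Q a d = 0 ∧ polar Q b d = 0 ∧ polar Q c d = 0) ∧
      (polar Q a e = 0 ∧ polar Q b e = 0 ∧ polar Q c e = 0) ∧ polar Q d e = 0 ∧
      ∀ x, polar Q a x = 0 → polar Q b x = 0 → polar Q c x = 0 → polar Q d x = 0 → polar Q e x = 0 → x = 0 := by
  have ba := (polar_comm Q b a).trans ab
  have ca := (polar_comm Q c a).trans ac
  have cb := (polar_comm Q c b).trans bc
  obtain ⟨d, hd, H⟩ := on_ext hn h2 (v := ![a, b, c]) (by simp [Fin.forall_fin_succ, *])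
    (by simp [Fin.forall_fin_succ, *]) (by omega)
  have ad : polar Q a d = 0 := H 0
  have bd : polar Q b d = 0 := H 1
  have cd : polar Q c d = 0 := H 2
  clear H
  have da := (polar_comm Q d a).trans ad
  have db := (polar_comm Q d b).trans bd
  have dc := (polar_comm Q d c).trans cd
  obtain ⟨e, he, H⟩ := on_ext hn h2 (v := ![a, b, c, d]) (by simp [Fin.forall_fin_succ, *])
    (by simp [Fin.forall_fin_succ, *]) (by omega)
  have ae : polar Q a e = 0 := H 0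
  have be : polar Q b e = 0 := H 1
  have ce : polar Q c e = 0 := H 2
  have de : polar Q d e = 0 := H 3
  clear H
  have ea := (polar_comm Q e a).trans ae
  have eb := (polar_comm Q e b).trans be
  have ec := (polar_comm Q e c).trans ce
  have ed := (polar_comm Q e d).trans de
  exact ⟨d, e, hd, he, ⟨ad, bd, cd⟩, ⟨ae, be, ce⟩, de, fun x x1 x2 x3 x4 x5 =>
    on_zero hn h2 (v := ![a, b, c, d, e]) (by simp [Fin.forall_fin_succ, *]) (by simp [Fin.forall_fin_succ, *])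
      (by simp [h5]) (by simp [Fin.forall_fin_succ, *])⟩

theorem on_rep [Finite F] (hn : (Formed.ofQuad Q).Nondeg) (h2 : (2 : F) ≠ 0) (h5 : finrank F V = 5) {a b c : V}
    (ha : Q a ≠ 0) (hb : Q b ≠ 0) (hc : Q c ≠ 0) (ab : polar Q a b = 0) (ac : polar Q a c = 0)
    (bc : polar Q b c = 0) (l : F) : ∃ x, polar Q a x = 0 ∧ polar Q b x = 0 ∧ polar Q c x = 0 ∧ Q x = l := by
  obtain ⟨d, e, hd, he, h1, h3, de, -⟩ := on_two hn h2 h5 ha hb hc ab ac bc
  obtain ⟨x, y, H⟩ := exists_bin h2 hd he l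
  exact ⟨x • d + y • e, by simp [h1, h3], by simp [h1, h3], by simp [h1, h3], by
    rw [quad_add, quad_smul, quad_smul, ← H]; simp [de]; ring⟩

omit [FiniteDimensional F V] in
theorem Ro.back {x v : V} (hx : Ro Y x) (h : Ro Y (v - polar Q x v • x)) : Ro Y v := by
  have := h.map hx.2
  rwa [← hx.app, ← OG.mul_apply, refl_mul_self] at this

theorem eich_of_roots [Finite F] (hn : (Formed.ofQuad Q).Nondeg) (h2 : (2 : F) ≠ 0) (h5 : finrank F V = 5)
    (H : ∀ v, Q v = 1 → Ro Y v) (p a : V) : eich Q p a ∈ Y := by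
  refine eich_mem_of_nonsing hn (notExc_of_two_ne_zero h2) (fun a hp pa ha => ?_) a
  by_cases p0 : p = 0
  · simp [p0]
  obtain ⟨r0, h0⟩ := hn.exists_eq_one p0
  replace h0 : polar Q p r0 = 1 := h0
  have ap := (polar_comm Q a p).trans pa
  have pp : polar Q p p = 0 := by rw [polar_self', hp, mul_zero]
  obtain ⟨r1, h1, h3⟩ : ∃ r, polar Q p r = 1 ∧ polar Q a r = 0 :=
    ⟨r0 - (polar Q a r0 / (2 * Q a)) • a, by simp [h0, pa], by simp [polar_self']; field_simp; ring⟩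
  obtain ⟨r, h1, h3, h4⟩ : ∃ r, polar Q p r = 1 ∧ polar Q a r = 0 ∧ Q r = 0 :=
    ⟨r1 - Q r1 • p, by simp [h1, pp], by simp [h3, ap], by
      rw [quad_sub, quad_smul, hp, polar_smul_right, polar_comm, h1]; simp⟩
  obtain ⟨c, c1, c2, c3, c4⟩ := on_rep hn h2 h5 (a := a) (b := p + r) (c := p - r) ha
    (by rw [quad_add, hp, h4, h1]; simp) (by rw [quad_sub, hp, h4, h1]; simp) (by simp [ap, h3]) (by simp [ap, h3])
    (by simp [pp, polar_self', h4, h1, polar_comm Q r p]) (1 - Q a / 4)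
  have pc : polar Q p c = 0 := mul_left_cancel₀ h2 (by
    rw [polar_add_left] at c2; rw [polar_sub_left] at c3; linear_combination c2 + c3)
  have k : ∀ w, polar Q p w = 0 → Q w = 1 → eich Q p w ∈ Y := fun w h1 h3 => by
    rw [eich_eq_refl_mul hp h1 (by simp [h3])]
    exact mul_mem (H _ (by rw [quad_add_smul_of_perp hp h1, h3])).2 (H _ h3).2
  have h4 : (4 : F) ≠ 0 := fun h => mul_ne_zero h2 h2 (by linear_combination h)
  rw [show a = ((2 : F)⁻¹ • a + c) + ((2 : F)⁻¹ • a - c) by match_scalars <;> field_simp <;> ring,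
    eich_add hp (by simp [pa, pc]) (by simp [pa, pc])]
  refine mul_mem (k _ (by simp [pa, pc]) ?_) (k _ (by simp [pa, pc]) ?_)
  · rw [quad_add, quad_smul, c4]; simp [c1]; field_simp; ring
  · rw [quad_sub, quad_smul, c4]; simp [c1]; field_simp; ring

/-- The orthogonal complement of a plane. -/
abbrev pA (Q : QuadraticForm F V) (b₁ b₂ x : V) : Prop := polar Q b₁ x = 0 ∧ polar Q b₂ x = 0

/-- The plane spanned by two vectors. -/
abbrev pB (F : Type*) [Field F] [Module F V] (b₁ b₂ : V) : Submodule F V := Submodule.span F {b₁, b₂}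

/-- An overgroup of the stabiliser of a non-degenerate plane. -/
structure PY (Y : Subgroup (OG Q)) (b₁ b₂ : V) : Prop where
  hn : (Formed.ofQuad Q).Nondeg
  two : (2 : F) ≠ 0
  five : 5 ≤ Nat.card F
  d5 : finrank F V = 5
  q1 : Q b₁ ≠ 0
  q2 : Q b₂ ≠ 0
  o : polar Q b₁ b₂ = 0
  r1 : ∀ v, pA Q b₁ b₂ v ∨ v ∈ pB F b₁ b₂ → Q v = 1 → refl Q v ∈ Y
  r2 : ∀ u v, pA Q b₁ b₂ u ∨ u ∈ pB F b₁ b₂ → pA Q b₁ b₂ v → Q u = Q v → Q v ≠ 0 →
    refl Q u * refl Q v ∈ Y

namespace PY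
variable [Finite F] {b₁ b₂ a a' b b' : V} (h : PY Y b₁ b₂)
include h

local notation "A" => pA Q b₁ b₂
local notation "B" => pB F b₁ b₂

omit [FiniteDimensional F V] in
theorem avoid (x y z w : F) : ∃ t, t ≠ x ∧ t ≠ y ∧ t ≠ z ∧ t ≠ w := by
  have := Fintype.ofFinite F
  classical
  obtain ⟨t, ht⟩ := exists_out_list [x, y, z, w] (by have := h.five; rw [Nat.card_eq_fintype_card] at this; simpa)
  exact ⟨t, by simpa [not_or] using ht⟩

omit [FiniteDimensional F V] in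
theorem ex_t {ν : F} (κ : F) (hν : ν ≠ 0) : ∃ t, t ≠ 0 ∧ κ + ν * t ^ 2 ≠ 0 := by
  by_cases H : ∃ r, κ + ν * r ^ 2 = 0
  · obtain ⟨r, hr⟩ := H
    obtain ⟨t, h0, h1, h2, -⟩ := h.avoid 0 r (-r) 0
    refine ⟨t, h0, fun e => mul_ne_zero hν (mul_ne_zero (sub_ne_zero.2 h1) (sub_ne_zero.2 h2)) ?_⟩
    linear_combination e - hr
  · exact ⟨1, one_ne_zero, fun e => H ⟨1, e⟩⟩

omit h [FiniteDimensional F V] [Finite F] in
theorem ab (ha : A a) (hb : b ∈ B) : polar Q a b = 0 := by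
  obtain ⟨x, y, rfl⟩ := Submodule.mem_span_pair.1 hb
  simp [polar_comm Q a, ha.1, ha.2]

omit h [FiniteDimensional F V] [Finite F] in
theorem ba (ha : A a) (hb : b ∈ B) : polar Q b a = 0 := (polar_comm Q b a).trans (ab ha hb)

omit h [FiniteDimensional F V] [Finite F] in
theorem Qab (ha : A a) (hb : b ∈ B) : Q (a + b) = Q a + Q b := by rw [quad_add, ab ha hb, add_zero]

omit h [FiniteDimensional F V] [Finite F] in
theorem comb (ha : A a) (ha' : A a') (s t : F) : A (s • a + t • a') := ⟨by simp [ha.1, ha'.1], by simp [ha.2, ha'.2]⟩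

omit h [FiniteDimensional F V] [Finite F] in
theorem subs (ha : A a) (ha' : A a') (t : F) : A (a - t • a') := ⟨by simp [ha.1, ha'.1], by simp [ha.2, ha'.2]⟩

omit [FiniteDimensional F V] [Finite F] in
theorem dec (v : V) : ∃ a b, A a ∧ b ∈ B ∧ v = a + b := by
  have o' := (polar_comm Q b₂ b₁).trans h.o
  have := on_proj (Q := Q) h.two (v := ![b₁, b₂]) (by simp [Fin.forall_fin_succ, h.q1, h.q2])
    (by simp [Fin.forall_fin_succ, h.o, o']) v
  rw [Fin.sum_univ_two] at this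
  exact ⟨_, _, ⟨this 0, this 1⟩, Submodule.mem_span_pair.2 ⟨_, _, rfl⟩, (sub_add_cancel _ _).symm⟩

omit [FiniteDimensional F V] [Finite F] in
theorem dualA (ha : A a) (a0 : a ≠ 0) : ∃ c, A c ∧ polar Q a c = 1 := by
  obtain ⟨v, hv⟩ := h.hn.exists_eq_one a0
  obtain ⟨c, d, hc, hd, rfl⟩ := h.dec v
  exact ⟨c, hc, by simpa [ofQuad_B_apply, ab ha hd] using hv⟩

omit [FiniteDimensional F V] [Finite F] in
theorem dualB (hb : b ∈ B) (b0 : b ≠ 0) : ∃ c ∈ B, polar Q b c = 1 := by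
  obtain ⟨v, hv⟩ := h.hn.exists_eq_one b0
  obtain ⟨c, d, hc, hd, rfl⟩ := h.dec v
  exact ⟨d, hd, by simpa [ofQuad_B_apply, ba hc hb] using hv⟩

omit [FiniteDimensional F V] [Finite F] in
theorem rebase (hb : b ∈ B) (q : Q b ≠ 0) :
    ∃ d ∈ B, Q d ≠ 0 ∧ polar Q b d = 0 ∧ ∀ y ∈ B, ∃ α β : F, y = α • b + β • d := by
  obtain ⟨x, y, rfl⟩ := Submodule.mem_span_pair.1 hb
  have o' := (polar_comm Q b₂ b₁).trans h.o
  obtain ⟨q1, q2⟩ := And.intro h.q1 h.q2
  have e : Q (x • b₁ + y • b₂) = x ^ 2 * Q b₁ + y ^ 2 * Q b₂ := by rw [quad_add, quad_smul, quad_smul]; simp [h.o]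
  rw [e] at q
  refine ⟨(y * Q b₂) • b₁ + (-(x * Q b₁)) • b₂, Submodule.mem_span_pair.2 ⟨_, _, rfl⟩, ?_, ?_, fun z hz => ?_⟩
  · rw [quad_add, quad_smul, quad_smul, polar_smul_left, polar_smul_right, h.o]
    exact fun e => mul_ne_zero (mul_ne_zero q1 q2) q (by linear_combination e)
  · simp [h.o, o', polar_self']; ring
  · obtain ⟨u, w, rfl⟩ := Submodule.mem_span_pair.1 hz
    refine ⟨(u * x * Q b₁ + w * y * Q b₂) / (x ^ 2 * Q b₁ + y ^ 2 * Q b₂),
      (u * y - w * x) / (x ^ 2 * Q b₁ + y ^ 2 * Q b₂), ?_⟩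
    match_scalars <;> field_simp <;> ring

theorem rep (ha : A a) (q : Q a ≠ 0) (s l : F) : ∃ c, A c ∧ polar Q a c = s ∧ Q c = l := by
  have h2 := h.two
  obtain ⟨x, x1, x2, x3, x4⟩ := on_rep h.hn h2 h.d5 h.q1 h.q2 q h.o ha.1 ha.2 (l - s ^ 2 / (4 * Q a))
  have h4 : (4 : F) ≠ 0 := fun h => mul_ne_zero h2 h2 (by linear_combination h)
  refine ⟨(s / (2 * Q a)) • a + (1 : F) • x, comb ha ⟨x1, x2⟩ _ _, by simp [x3, polar_self']; field_simp, ?_⟩
  rw [quad_add, quad_smul, one_smul, x4]; simp [x3]; field_simp; ring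

omit [FiniteDimensional F V] [Finite F] in
theorem rep0 (ha : A a) (a0 : a ≠ 0) (q : Q a = 0) {s : F} (hs : s ≠ 0) (l : F) :
    ∃ c, A c ∧ polar Q a c = s ∧ Q c = l := by
  obtain ⟨c, hc, e⟩ := h.dualA ha a0
  refine ⟨((l - s ^ 2 * Q c) / s) • a + s • c, comb ha hc _ _, by simp [e, polar_self', q], ?_⟩
  rw [quad_add, quad_smul, quad_smul, q]; simp [e]; field_simp; ring

theorem mvA (ha : A a) (ha' : A a') (hb : b ∈ B) (q : Q a ≠ 0) (e : Q a = Q a') (H : Ro Y (a + b)) :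
    Ro Y (a' + b) := by
  have k : ∀ a a', A a → A a' → Q a ≠ 0 → Q a = Q a' → Q (a - a') ≠ 0 → Ro Y (a + b) → Ro Y (a' + b) :=
    fun a a' ha ha' q e n H => by
      obtain ⟨c, hc, c1, c2⟩ := h.rep ha q 0 (Q (a - a'))
      have m : A (a - a') := by simpa using subs ha ha' 1
      have := H.map (h.r2 (a - a') c (.inl m) hc c2.symm (c2 ▸ n))
      rwa [OG.mul_apply, refl_of_perp (v := c) (by simp [polar_comm Q c a, c1, ab hc hb]), map_add,
        refl_sub_apply e n, refl_of_perp (ab m hb)] at this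
  by_cases n : Q (a - a') = 0
  · have h2 := h.two
    have m : A (-a') := by simp [pA, ha'.1, ha'.2]
    refine k (-a') a' m ha' (by simpa [← e]) (by simp) ?_ (k a (-a') ha m q (by simpa) ?_ H)
    · rw [show -a' - a' = (-2 : F) • a' by module, quad_smul, ← e]; simp [h2, q]
    · rw [quad_sub] at n ⊢
      rw [polar_neg_right, QuadraticMap.map_neg]
      exact fun e' => mul_ne_zero (mul_ne_zero h2 h2) q (by linear_combination n + e' + 2 * e)
  · exact k a a' ha ha' q e n H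

theorem mvB (ha : A a) (hb : b ∈ B) (hb' : b' ∈ B) (q : Q a ≠ 0) (e : Q b = Q b') (b0 : b ≠ 0) (b0' : b' ≠ 0)
    (H : Ro Y (a + b)) : Ro Y (a + b') := by
  have h2 := h.two
  have k : ∀ b b', b ∈ B → b' ∈ B → Q b = Q b' → Q (b - b') ≠ 0 → Ro Y (a + b) → Ro Y (a + b') :=
    fun b b' hb hb' e n H => by
      obtain ⟨c, hc, c1, c2⟩ := h.rep ha q 0 (Q (b - b'))
      have := H.map (h.r2 (b - b') c (.inr (sub_mem hb hb')) hc c2.symm (c2 ▸ n))
      rwa [OG.mul_apply, refl_of_perp (v := c) (by simp [polar_comm Q c a, c1, ab hc hb]), map_add,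
        refl_sub_apply e n, refl_of_perp (ba ha (sub_mem hb hb'))] at this
  by_cases n : Q (b - b') = 0
  swap
  · exact k b b' hb hb' e n H
  by_cases q' : Q b = 0
  · obtain ⟨x, y, rfl⟩ := Submodule.mem_span_pair.1 hb
    obtain ⟨x', y', rfl⟩ := Submodule.mem_span_pair.1 hb'
    have o' := (polar_comm Q b₂ b₁).trans h.o
    have Qe : ∀ x y : F, Q (x • b₁ + y • b₂) = x ^ 2 * Q b₁ + y ^ 2 * Q b₂ := fun x y => by
      rw [quad_add, quad_smul, quad_smul]; simp [h.o]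
    have nz : ∀ x y : F, x • b₁ + y • b₂ ≠ 0 → Q (x • b₁ + y • b₂) = 0 → x ≠ 0 := fun x y h0 h1 => by
      rintro rfl
      have : y = 0 := by simpa [Qe, h.q2] using (Qe 0 y).symm.trans h1
      simp [this] at h0
    have x0 := nz x y b0 q'
    have x0' := nz x' y' b0' (e ▸ q')
    have sb : ∀ x y x' y' : F, x • b₁ + y • b₂ - (x' • b₁ + y' • b₂) = (x - x') • b₁ + (y - y') • b₂ :=
      fun _ _ _ _ => by module
    have m : x • b₁ + (-y) • b₂ ∈ B := Submodule.mem_span_pair.2 ⟨_, _, rfl⟩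
    have h4 := mul_ne_zero h2 h2
    rw [sb, Qe] at n
    rw [Qe, Qe] at e
    rw [Qe] at q'
    refine k _ _ m hb' (by rw [Qe, Qe, ← e]; ring) ?_ (k _ _ hb m (by rw [Qe, Qe]; ring) ?_ H) <;> rw [sb, Qe]
    · exact fun e' => mul_ne_zero (mul_ne_zero h4 (mul_ne_zero x0 x0')) h.q1 (by
        linear_combination -n - e' + 4 * q' - 2 * e)
    · exact fun e' => mul_ne_zero (mul_ne_zero h4 (mul_ne_zero x0 x0)) h.q1 (by linear_combination 4 * q' - e')
  · refine k (-b') b' (neg_mem hb') hb' (by simp) ?_ (k b (-b') hb (neg_mem hb') (by simpa) ?_ H)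
    · rw [show -b' - b' = (-2 : F) • b' by module, quad_smul, ← e]; simp [h2, q']
    · rw [quad_sub] at n ⊢
      rw [polar_neg_right, QuadraticMap.map_neg]
      exact fun e' => mul_ne_zero (mul_ne_zero h2 h2) q' (by linear_combination n + e' + 2 * e)

theorem mv (ha : A a) (ha' : A a') (hb : b ∈ B) (hb' : b' ∈ B) (q : Q a ≠ 0) (e : Q a = Q a') (e' : Q b = Q b')
    (b0 : b ≠ 0) (b0' : b' ≠ 0) (H : Ro Y (a + b)) : Ro Y (a' + b') :=
  h.mvA ha ha' hb' q e (h.mvB ha hb hb' q e' b0 b0' H)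

omit [FiniteDimensional F V] in
theorem sA (ha : A a) (hb : b ∈ B) (a0 : a ≠ 0) (q : Q a = 0) (H : Ro Y (a + b)) :
    ∃ a' s, A a' ∧ s ≠ (0 : F) ∧ Q a' ≠ 0 ∧ Ro Y (a' + s • b) := by
  obtain ⟨s, s0, hs⟩ := h.ex_t (-1) one_ne_zero
  obtain ⟨c, hc, c1, c2⟩ := h.rep0 ha a0 q s0 1
  have := H.refl ⟨c2, h.r1 c (.inl hc) c2⟩
  rw [polar_add_left, c1, ba hc hb, add_zero, show c - s • (a + b) = (c - s • a) + (-s) • b by module] at this
  refine ⟨_, -s, subs hc ha s, neg_ne_zero.2 s0, ?_, this⟩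
  rw [quad_sub, quad_smul, q, c2, polar_smul_right, polar_comm, c1, smul_eq_mul]
  exact fun e => hs (by linear_combination -e)

omit [FiniteDimensional F V] in
theorem sB (ha : A a) (hb : b ∈ B) (b0 : b ≠ 0) (q : Q b = 0) (H : Ro Y (a + b)) :
    ∃ a' b', A a' ∧ b' ∈ B ∧ Q a' ≠ 0 ∧ Q b' ≠ 0 ∧ Ro Y (a' + b') := by
  obtain ⟨s, s0, hs⟩ := h.ex_t (-1) one_ne_zero
  obtain ⟨d, hd, e⟩ := h.dualB hb b0
  obtain ⟨c, hc, c1, c2⟩ : ∃ c ∈ B, polar Q b c = s ∧ Q c = 1 := by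
    refine ⟨((1 - s ^ 2 * Q d) / s) • b + s • d, add_mem (Submodule.smul_mem _ _ hb) (Submodule.smul_mem _ _ hd),
      by simp [e, polar_self', q], ?_⟩
    rw [quad_add, quad_smul, quad_smul, q]; simp [e]; field_simp; ring
  have := H.refl ⟨c2, h.r1 c (.inr hc) c2⟩
  have qa := H.1
  rw [Qab ha hb, q, add_zero] at qa
  rw [polar_add_left, c1, ab ha hc, zero_add, show c - s • (a + b) = (-s) • a + (c - s • b) by module] at this
  refine ⟨_, _, ⟨by simp [ha.1], by simp [ha.2]⟩, sub_mem hc (Submodule.smul_mem _ _ hb), ?_, ?_, this⟩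
  · simp [quad_smul, qa, s0]
  rw [quad_sub, quad_smul, q, c2, polar_smul_right, polar_comm, c1, smul_eq_mul]
  exact fun e => hs (by linear_combination -e)

theorem cls (ha : A a) (hb : b ∈ B) (q : Q a ≠ 0) (q' : Q b ≠ 0) (H : Ro Y (a + b)) (ha' : A a') (hb' : b' ∈ B)
    (r : Q a' ≠ 0) {t : F} (t0 : t ≠ 0) (e : Q b' = t ^ 2 * Q b) (e1 : Q (a' + b') = 1) : Ro Y (a' + b') := by
  obtain ⟨c, hc, c1, c2⟩ := h.rep ha' r (t - 2 * Q b' / t) (Q a)
  have m : t⁻¹ • b' ∈ B := Submodule.smul_mem _ _ hb'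
  have q3 : Q b = Q (t⁻¹ • b') := by rw [quad_smul, e]; field_simp
  have hx := h.mv ha hc hb m q c2.symm q3 (by rintro rfl; simp at q') (fun e => q' (by rw [q3, e, map_zero])) H
  have e2 : polar Q (c + t⁻¹ • b') (a' + b') = t := by
    simp only [polar_add_left, polar_add_right, polar_comm Q c a', c1, ab hc hb', ba ha' m, polar_smul_left,
      polar_self', smul_eq_mul]
    field_simp; ring
  have e3 : a' + b' - polar Q (c + t⁻¹ • b') (a' + b') • (c + t⁻¹ • b') = a' - t • c := by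
    rw [e2]; match_scalars <;> field_simp <;> ring
  refine hx.back (e3 ▸ ?_)
  have e4 : Q (a' - t • c) = 1 := by rw [← e3, ← hx.app, OG.map_Q, e1]
  exact ⟨e4, h.r1 _ (.inl (subs ha' hc t)) e4⟩

theorem other (ha : A a) (hb : b ∈ B) (q : Q a ≠ 0) (q' : Q b ≠ 0) (H : Ro Y (a + b)) (hb' : b' ∈ B) (b0 : b' ≠ 0) :
    ∃ a'' b'', A a'' ∧ b'' ∈ B ∧ Q a'' ≠ 0 ∧ b'' ≠ 0 ∧ Ro Y (a'' + b'') ∧ ∃ t : F, t ≠ 0 ∧ Q b' = t ^ 2 * Q b'' := by
  have h2 := h.two
  have bz : b ≠ 0 := by rintro rfl; simp at q'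
  obtain ⟨d, hd, d0, bd, sp⟩ := h.rebase hb q'
  obtain ⟨α, β, e⟩ := sp b' hb'
  by_cases β0 : β = 0
  · refine ⟨a, b, ha, hb, q, bz, H, α, ?_, by rw [e, β0, zero_smul, add_zero, quad_smul]⟩
    rintro rfl; simp [β0] at e; exact b0 e
  obtain ⟨τ, τ0, hτ⟩ := h.ex_t (Q b) d0
  obtain ⟨y, hy, y1, c, t, c0, e1⟩ : ∃ y ∈ B, Q y = Q b ∧ ∃ c t : F, c ≠ 0 ∧ b' = c • (y - t • b) := by
    have e2 : Q (b + τ • d) = Q b + Q d * τ ^ 2 := by rw [quad_add, quad_smul]; simp [bd]; ring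
    refine ⟨(refl Q (b + τ • d)).1 b, ?_, OG.map_Q _ _, -β * (Q b + Q d * τ ^ 2) / (2 * Q b * τ),
      1 - 2 * Q b / (Q b + Q d * τ ^ 2) + α * (2 * Q b * τ) / (β * (Q b + Q d * τ ^ 2)), by simp [*], ?_⟩ <;>
      rw [refl_apply]
    · exact sub_mem hb (Submodule.smul_mem _ _ (add_mem hb (Submodule.smul_mem _ _ hd)))
    · rw [e, e2, polar_add_left, polar_smul_left, polar_comm Q d b, bd, polar_self']
      match_scalars <;> field_simp <;> ring
  by_contra hc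
  have qab := H.1
  rw [Qab ha hb] at qab
  have key : ∀ κ : F, κ ≠ 0 → 1 - κ ^ 2 * Q b ≠ 0 →
      κ ^ 2 * (t ^ 2 * Q a + Q b) = 1 ∧ Q b' = (c / κ) ^ 2 := fun κ κ0 hκ => by
    obtain ⟨x, hx, x1, x2⟩ := h.rep ha q (κ * t - κ * polar Q b y) (1 - κ ^ 2 * Q b)
    have m : κ • y ∈ B := Submodule.smul_mem _ _ hy
    have := H.refl (h.cls ha hb q q' H hx m (x2 ▸ hκ) κ0 (by rw [quad_smul, y1])
      (by rw [Qab hx m, x2, quad_smul, y1]; ring))
    rw [show polar Q (a + b) (x + κ • y) = κ * t by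
      simp only [polar_add_left, polar_add_right, x1, ab ha hy, ba hx hb, polar_smul_right, smul_eq_mul]; ring,
      show x + κ • y - (κ * t) • (a + b) = (x - (κ * t) • a) + κ • (y - t • b) by module] at this
    have m' : κ • (y - t • b) ∈ B := Submodule.smul_mem _ _ (sub_mem hy (Submodule.smul_mem _ _ hb))
    have e2 : b' = (c / κ) • κ • (y - t • b) := by rw [smul_smul, div_mul_cancel₀ _ κ0, e1]
    have n0 : κ • (y - t • b) ≠ 0 := fun e => b0 (by rw [e2, e, smul_zero])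
    have ma := subs hx ha (κ * t)
    generalize κ • (y - t • b) = z at this m' e2 n0
    have qz : Q (x - (κ * t) • a) = 0 ∨ x - (κ * t) • a = 0 → Q z = 1 := fun e => by
      have := this.1
      rw [Qab ma m'] at this
      rcases e with e | e <;> simpa [e] using this
    by_cases z0 : x - (κ * t) • a = 0
    · refine ⟨?_, by rw [e2, quad_smul, qz (.inr z0), mul_one]⟩
      rw [sub_eq_zero.1 z0, quad_smul] at x2
      linear_combination x2
    exfalso
    by_cases z1 : Q (x - (κ * t) • a) = 0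
    · obtain ⟨a3, s, h3, s0, h4, h5⟩ := h.sA ma m' z0 z1 this
      exact hc ⟨a3, s • z, h3, Submodule.smul_mem _ _ m', h4, smul_ne_zero s0 n0, h5, c / κ / s, by simp [*],
        by rw [e2, quad_smul, quad_smul]; field_simp⟩
    · exact hc ⟨_, z, ma, m', z1, n0, this, c / κ, by simp [*], by rw [e2, quad_smul]⟩
  obtain ⟨k1, k2⟩ := key 1 one_ne_zero fun e => q (by linear_combination qab + e)
  obtain ⟨κ, κ0, hκ⟩ := h.ex_t (-1) one_ne_zero
  by_cases e3 : 1 - κ ^ 2 * Q b = 0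
  · exact hc ⟨a, b, ha, hb, q, bz, H, c * κ, mul_ne_zero c0 κ0, by rw [k2]; linear_combination c ^ 2 * e3⟩
  · exact hκ (by linear_combination (key κ κ0 e3).1 - κ ^ 2 * k1)

theorem all1 (ha : A a) (hb : b ∈ B) (q : Q a ≠ 0) (q' : Q b ≠ 0) (H : Ro Y (a + b)) (ha' : A a') (hb' : b' ∈ B)
    (r : Q a' ≠ 0) (e1 : Q (a' + b') = 1) : Ro Y (a' + b') := by
  by_cases b0 : b' = 0
  · exact ⟨e1, h.r1 _ (.inl (by simpa [b0])) e1⟩
  obtain ⟨x, y, hx, hy, x0, y0, H', t, t0, e⟩ := h.other ha hb q q' H hb' b0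
  by_cases qy : Q y = 0
  · have e2 := H'.1
    rw [Qab hx hy] at e2
    rw [Qab ha' hb'] at e1
    rw [qy, mul_zero] at e
    exact h.mv hx ha' hy hb' x0 (by linear_combination e2 - e1 + e - qy) (qy.trans e.symm) y0 b0 H'
  · exact h.cls hx hy x0 qy H' ha' hb' r t0 e e1

theorem all (ha : A a) (hb : b ∈ B) (a0 : a ≠ 0) (b0 : b ≠ 0) (H : Ro Y (a + b)) (v : V) (hv : Q v = 1) : Ro Y v := by
  obtain ⟨a, b, ha, hb, q, q', H⟩ : ∃ a b, A a ∧ b ∈ B ∧ Q a ≠ 0 ∧ Q b ≠ 0 ∧ Ro Y (a + b) := by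
    by_cases q : Q a = 0
    · obtain ⟨a', s, h1, s0, h2, h3⟩ := h.sA ha hb a0 q H
      have := H.1
      rw [Qab ha hb, q, zero_add] at this
      exact ⟨a', s • b, h1, Submodule.smul_mem _ _ hb, h2, by simp [quad_smul, this, s0], h3⟩
    by_cases q' : Q b = 0
    · exact h.sB ha hb b0 q' H
    · exact ⟨a, b, ha, hb, q, q', H⟩
  obtain ⟨x, y, hx, hy, rfl⟩ := h.dec v
  by_cases x0 : x = 0
  · exact ⟨hv, h.r1 _ (.inr (by simpa [x0])) hv⟩
  by_cases r : Q x = 0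
  swap
  · exact h.all1 ha hb q q' H hx hy r hv
  have qy : Q y = 1 := by rwa [Qab hx hy, r, zero_add] at hv
  obtain ⟨β, β0, hβ⟩ := h.ex_t (-1) one_ne_zero
  obtain ⟨s, s0, s1, s2, -⟩ := h.avoid 0 (-(2 * β)) (2 * (1 - β ^ 2) / β) 0
  obtain ⟨c, hc, c1, c2⟩ := h.rep0 hx x0 r s0 (1 - β ^ 2)
  have m : β • y ∈ B := Submodule.smul_mem _ _ hy
  have hz := h.all1 ha hb q q' H hc m (fun e => hβ (by linear_combination c2 - e))
    (by rw [Qab hc m, c2, quad_smul, qy]; ring)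
  have e2 : polar Q (c + β • y) (x + y) = s + 2 * β := by
    simp only [polar_add_left, polar_add_right, polar_comm Q c x, c1, ab hc hy, ba hx m, polar_smul_left,
      polar_self', qy, smul_eq_mul]
    ring
  have e3 : x + y - polar Q (c + β • y) (x + y) • (c + β • y) =
      (x - (s + 2 * β) • c) + (1 - (s + 2 * β) * β) • y := by rw [e2]; module
  refine hz.back (e3 ▸ h.all1 ha hb q q' H (subs hx hc _) (Submodule.smul_mem _ _ hy) ?_
    (by rw [← e3, ← hz.app, OG.map_Q, hv]))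
  rw [quad_sub, quad_smul, r, c2, polar_smul_right, c1, smul_eq_mul]
  refine fun e => mul_ne_zero (show s + 2 * β ≠ 0 from fun e => s1 (by linear_combination e))
    (show 2 * (1 - β ^ 2) - s * β ≠ 0 from fun e => s2 (by field_simp; linear_combination -e)) ?_
  have := mul_left_cancel₀ β0 (show β * ((s + 2 * β) * (2 * (1 - β ^ 2) - s * β)) = β * 0 by linear_combination e)
  exact this

theorem stabA (H : ∀ v, Ro Y v → A v ∨ v ∈ B) {g : OG Q} (hg : g ∈ Y) (ha : A a) : A (g.1 a) := by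
  have h2 := h.two
  have o' := (polar_comm Q b₂ b₁).trans h.o
  obtain ⟨a₀, h0, H0⟩ := on_ext h.hn h2 (v := ![b₁, b₂]) (by simp [Fin.forall_fin_succ, h.q1, h.q2])
    (by simp [Fin.forall_fin_succ, h.o, o']) (by rw [h.d5]; omega)
  obtain ⟨x, hx, -, qx⟩ := h.rep (a := a₀) ⟨H0 0, H0 1⟩ h0 0 1
  obtain ⟨s, s0, hs⟩ := h.ex_t (ν := -1) 1 (by simp)
  obtain ⟨c, c1, c2, c3, c4⟩ := on_rep h.hn h2 h.d5 h.q1 h.q2 (c := x) (by simp [qx]) h.o hx.1 hx.2 (1 + -1 * s ^ 2)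
  have qc : Q c ≠ 0 := c4 ▸ hs
  obtain ⟨d, hd, Hd⟩ := on_ext h.hn h2 (v := ![b₁, b₂, x, c]) (by simp [Fin.forall_fin_succ, h.q1, h.q2, qx, qc])
    (by simp [Fin.forall_fin_succ, h.o, o', hx.1, hx.2, c1, c2, c3, polar_comm Q x, polar_comm Q c,
      polar_comm Q c x ▸ c3]) (by rw [h.d5]; omega)
  have d1 : A d := ⟨Hd 0, Hd 1⟩
  have xd : polar Q x d = 0 := Hd 2
  have cd : polar Q c d = 0 := Hd 3
  clear Hd H0
  obtain ⟨τ, τ0, hτ⟩ := h.ex_t (Q c) hd
  have e2 : Q (c + τ • d) = Q c + Q d * τ ^ 2 := by rw [quad_add, quad_smul]; simp [cd]; ring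
  obtain ⟨α, β, β0, e3⟩ : ∃ α β : F, β ≠ 0 ∧ Q (α • c + β • d) = Q c :=
    ⟨1 - 2 * Q c / (Q c + Q d * τ ^ 2), -(2 * Q c * τ) / (Q c + Q d * τ ^ 2), by simp [h2, qc, τ0, hτ], by
      refine (congrArg Q ?_).trans (OG.map_Q (refl Q (c + τ • d)) c)
      rw [refl_apply, e2, polar_add_left, polar_smul_left, polar_comm Q d c, cd, polar_self']
      match_scalars <;> field_simp <;> ring⟩
  have rx := H _ (Ro.map ⟨qx, h.r1 x (.inl hx) qx⟩ hg)
  have ry : ∀ y, A y → polar Q x y = 0 → Q y = Q c → (A (g.1 x) ∧ A (g.1 y)) ∨ (g.1 x ∈ B ∧ g.1 y ∈ B) :=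
    fun y hy y1 y2 => by
      have e : Q (s • x + (1 : F) • y) = 1 := by rw [quad_add, quad_smul, one_smul, y2, c4, qx]; simp [y1]
      have n : polar Q (g.1 x) (g.1 (s • x + (1 : F) • y)) ≠ 0 := by
        rw [OG.map_polar]; simp [y1, polar_self', qx, s0, h2]
      have k : g.1 y = g.1 (s • x + (1 : F) • y) - s • g.1 x := by simp
      rcases H _ (Ro.map ⟨e, h.r1 _ (.inl (comb hx hy _ _)) e⟩ hg) with h1 | h1 <;> rcases rx with h3 | h3
      · exact .inl ⟨h3, k ▸ subs h1 h3 s⟩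
      · exact absurd (ba h1 h3) n
      · exact absurd (ab h3 h1) n
      · exact .inr ⟨h3, k ▸ sub_mem h1 (Submodule.smul_mem _ _ h3)⟩
  have r1 := ry c ⟨c1, c2⟩ c3 rfl
  have r2 := ry _ (comb ⟨c1, c2⟩ d1 α β) (by simp [c3, xd]) e3
  have k : g.1 d = β⁻¹ • g.1 (α • c + β • d) + (-(α / β)) • g.1 c := by
    simp only [map_add, map_smul]; match_scalars <;> field_simp <;> ring
  have nb : ∀ y, A y → y ∈ B → Q y = 0 := fun y h1 h3 => by
    have := ab h1 h3
    rw [polar_self'] at this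
    simpa [h2] using this
  have gx : Q (g.1 x) ≠ 0 := by simp [OG.map_Q, qx]
  rcases r1 with r1 | r1 <;> rcases r2 with r2 | r2
  · have gd : A (g.1 d) := k ▸ comb r2.2 r1.2 _ _
    have := on_proj (Q := Q) h2 (v := ![x, c, d]) (by simp [Fin.forall_fin_succ, hd, qx, qc])
      (by simp [Fin.forall_fin_succ, c3, xd, cd, polar_comm Q c x, polar_comm Q d x, polar_comm Q d c]) a
    simp only [Fin.sum_univ_three, Matrix.cons_val_zero, Matrix.cons_val_one, Matrix.cons_val] at this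
    have z := on_zero h.hn h2 (v := ![b₁, b₂, x, c, d]) (by simp [Fin.forall_fin_succ, h.q1, h.q2, qx, qc, hd])
      (by simp [Fin.forall_fin_succ, h.o, o', hx.1, hx.2, c1, c2, c3, xd, cd, d1.1, d1.2, polar_comm Q x b₁,
        polar_comm Q x b₂, polar_comm Q c b₁, polar_comm Q c b₂, polar_comm Q d b₁, polar_comm Q d b₂,
        polar_comm Q c x, polar_comm Q d x, polar_comm Q d c]) (by simp [h.d5])
      (Fin.forall_fin_succ.2 ⟨by simp [ha.1, hx.1, c1, d1.1], Fin.forall_fin_succ.2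
        ⟨by simp [ha.2, hx.2, c2, d1.2], this⟩⟩)
    rw [sub_eq_zero.1 z]
    exact ⟨by simp [r1.1.1, r1.2.1, gd.1], by simp [r1.1.2, r1.2.2, gd.2]⟩
  · exact absurd (nb _ r1.1 r2.1) gx
  · exact absurd (nb _ r2.1 r1.1) gx
  have gd : g.1 d ∈ B := k ▸ add_mem (Submodule.smul_mem _ _ r2.2) (Submodule.smul_mem _ _ r1.2)
  obtain ⟨z, -, z0, xz, sp⟩ := h.rebase r1.1 gx
  have kk : ∀ y, polar Q x y = 0 → Q y ≠ 0 → g.1 y ∈ B → ∃ t : F, t ≠ 0 ∧ g.1 y = t • z := fun y y1 y2 y3 => by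
    obtain ⟨u, t, e⟩ := sp _ y3
    have e4 := OG.map_polar g x y
    rw [e, y1] at e4
    obtain rfl : u = 0 := by simpa [xz, polar_self', h2, gx] using e4
    refine ⟨t, ?_, by simpa using e⟩
    rintro rfl
    exact y2 (by rw [← OG.map_Q g, e]; simp)
  obtain ⟨t, t0, e4⟩ := kk c c3 qc r1.2
  obtain ⟨t', t0', e5⟩ := kk d xd hd gd
  have := OG.map_polar g c d
  rw [e4, e5, cd] at this
  simp [polar_self', h2, z0, t0, t0'] at this

theorem main : (∀ p a, eich Q p a ∈ Y) ∨ ∀ g ∈ Y, ∀ b ∈ B, g.1 b ∈ B := by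
  by_cases H : ∀ v, Ro Y v → A v ∨ v ∈ B
  · refine .inr fun g hg b hb => ?_
    obtain ⟨x, y, hx, hy, e⟩ := h.dec (g.1 b)
    suffices x = 0 by rwa [e, this, zero_add]
    refine h.hn x fun v => ?_
    obtain ⟨c, d, hc, hd, rfl⟩ := h.dec v
    have := ba (h.stabA H (inv_mem hg) hc) hb
    rw [OG.polar_inv_right, e, polar_add_left, ba hc hy, add_zero] at this
    simp [ofQuad_B_apply, this, ab hx hd]
  · push Not at H
    obtain ⟨v, hv, h1, h2⟩ := H
    obtain ⟨x, y, hx, hy, rfl⟩ := h.dec v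
    exact .inl (eich_of_roots h.hn h.two h.d5 (h.all hx hy (by rintro rfl; simp [hy] at h2)
      (by rintro rfl; exact h1 (by simpa using hx)) hv))

end PY

end Cfsg.Agent.Root.Mx
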