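import Cfsg.Agent.Low.SubSp
import Cfsg.Agent.Low.SpR
import Cfsg.Agent.Root.Qp

/-! Symplectic groups in small dimension, I: full transvection groups `TT`, the pointwise quadratic engine
`engine`, stabilisers of non-degenerate subspaces (`IsSp.max_nd`) and of pairs of Lagrangians in dimension six
(`IsSp.max_pair`). -/

set_option autoImplicit false

namespace Cfsg.Agent.Root.Mx

open Cfsg.Agent.Geom Cfsg.Agent.AutCl Module

variable {F : Type*} [Field F] {V : Type*} [AddCommGroup V] [Module F V]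
  {Φ : Formed (RingHom.id F) V} {X H : Subgroup (V ≃ₗ[F] V)}

/-- All transvections with centre `v` lie in `X`. -/
def TT (Φ : Formed (RingHom.id F) V) (X : Subgroup (V ≃ₗ[F] V)) (v : V) : Prop := ∀ t, HasE Φ X v 0 t

namespace IsSp

theorem tt_zero (h : IsSp Φ) : TT Φ X 0 := fun t =>
  ⟨1, one_mem _, h.sing 0, by simp, by simp [h.τ], by simp [h.ε], fun x => by simp⟩

theorem tt_smul (h : IsSp Φ) {v : V} (h1 : TT Φ X v) (c : F) : TT Φ X (c • v) := by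
  rcases eq_or_ne c 0 with rfl | hc
  · rw [zero_smul]; exact h.tt_zero
  · exact h.tv_smul (c := c⁻¹) (inv_ne_zero hc) (by rwa [inv_smul_smul₀ hc])

theorem tt_conj (hX : X ≤ Φ.isom) {v : V} (h1 : TT Φ X v) {s : V ≃ₗ[F] V} (hs : s ∈ X) : TT Φ X (s v) :=
  fun t => tv_conj (h1 t) hs hX

theorem tt_shift (hX : X ≤ Φ.isom) {x y : V} (h1 : TT Φ X x) (h2 : TT Φ X y) (e : Φ.B y x ≠ 0) :
    TT Φ X (x + y) := by
  obtain ⟨s, hs, i⟩ := h2 (-(Φ.B y x)⁻¹)
  convert tt_conj hX h1 hs using 1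
  rw [i.app]; simp [e]

theorem tt_add (h : IsSp Φ) (hX : X ≤ Φ.isom) {x y z : V} (h1 : TT Φ X x) (h2 : TT Φ X y) (h3 : TT Φ X z)
    (e1 : Φ.B z x ≠ 0) (e2 : Φ.B z y ≠ 0) (e3 : Φ.B z (x + y) ≠ 0) : TT Φ X (x + y) := by
  by_cases e : Φ.B y x = 0
  swap
  · exact tt_shift hX h1 h2 e
  have a := tt_shift hX (tt_shift hX h1 h3 e1) h2 (by rw [map_add, e, zero_add, h.skew]; simpa)
  have b := tt_shift hX a (h.tt_smul h3 (-1)) (by
    rw [add_right_comm, map_add, Φ.B_smul_left, Φ.B_smul_left, h.alt, mul_zero, add_zero]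
    exact mul_ne_zero (by simp) e3)
  convert b using 1; module

theorem tt_of_tv (h : IsSp Φ) (h2 : (2 : F) ≠ 0) (hX : X ≤ Φ.isom) {v : V}
    (hT : ∀ c : F, c ≠ 0 → ∃ s ∈ X, s v = c • v) {t : F} (ht : t ≠ 0) (h1 : HasE Φ X v 0 t) : TT Φ X v := by
  have k : ∀ c : F, HasE Φ X v 0 (t * (c * c)) := fun c => by
    rcases eq_or_ne c 0 with rfl | hc
    · simpa using hasE_one X (h.sing v)
    obtain ⟨s, hs, e⟩ := hT c hc
    exact ((e ▸ tv_conj h1 hs hX).of_smul hc).congr (smul_zero _) rfl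
  intro u
  refine ((k ((u / t + 1) / 2)).mul (k ((u / t - 1) / 2)).inv).congr (by simp) ?_
  simp only [h.ε, RingHom.id_apply, map_zero, LinearMap.zero_apply]
  field_simp; ring

theorem EG_le [FiniteDimensional F V] (h : IsSp Φ) (all : ∀ v, TT Φ X v) : EG Φ ≤ X :=
  Mx.EG_le fun p a d g hg => (full_of_AE (h.sing p) (fun w e => ⟨_, (HasE.of_tv (all (p + w) (-1))
    (all p _) (all w _) e).congr (by simp [h.ε]) rfl⟩) fun d g hg => (all p d).mem hg).2 _ _ _ hg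

theorem exists_both (hn : Φ.Nondeg) {W : Submodule F V} (hW : (Φ.restrict W).Nondeg) {x y : V} (hx : x ∈ W)
    (hy : y ∈ W) (x0 : x ≠ 0) (y0 : y ≠ 0) : ∃ z ∈ W, Φ.B z x ≠ 0 ∧ Φ.B z y ≠ 0 := by
  have k : ∀ x ∈ W, x ≠ 0 → ∃ z ∈ W, Φ.B z x ≠ 0 := fun x hx x0 => by
    by_contra! hc
    exact x0 (Φ.restrict_nondeg_iff'.1 hW x hx fun v hv => Φ.B_eq_zero_symm (hc v hv))
  obtain ⟨a, ha, e⟩ := k x hx x0
  obtain ⟨b, hb, e'⟩ := k y hy y0
  by_cases h1 : Φ.B a y = 0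
  · by_cases h2 : Φ.B b x = 0
    · exact ⟨a + b, add_mem ha hb, by simpa [h2], by simpa [h1]⟩
    · exact ⟨b, hb, h2, e'⟩
  · exact ⟨a, ha, e, h1⟩

theorem tt_move (h : IsSp Φ) (hn : Φ.Nondeg) (hX : X ≤ Φ.isom) {W : Submodule F V} (hW : (Φ.restrict W).Nondeg)
    (hT : ∀ w ∈ W, TT Φ X w) {a a' d : V} (ha : a ∈ W) (ha' : a' ∈ W) (a0 : a ≠ 0) (a1 : a' ≠ 0)
    (hd : d ∈ Φ.perp W) (h1 : TT Φ X (a + d)) : TT Φ X (a' + d) := by
  have k : ∀ {a a'}, a ∈ W → a' ∈ W → Φ.B a' a ≠ 0 → TT Φ X (a + d) → TT Φ X (a' + d) := fun {a a'} ha ha' e h1 => by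
    convert tt_shift hX h1 (hT _ (sub_mem ha' ha)) (by
      rwa [map_add, hd _ (sub_mem ha' ha), Φ.B_sub_left, h.alt, add_zero, sub_zero]) using 1
    abel
  obtain ⟨z, hz, e1, e2⟩ := exists_both hn hW ha ha' a0 a1
  exact k hz ha' (by rw [h.skew]; simpa) (k ha hz e1 h1)

/-- The stabiliser of a non-degenerate subspace of dimension less than half the dimension. -/
theorem max_nd [FiniteDimensional F V] (h : IsSp Φ) (hn : Φ.Nondeg) {W : Submodule F V}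
    (hW : (Φ.restrict W).Nondeg) (h0 : W ≠ ⊥) (hd : 2 * finrank F W < finrank F V) :
    Geo.IsMaximalIn (EG Φ) (stab W ⊓ EG Φ) := by
  have hW' := hn.restrict_perp hW
  have hc := hn.isCompl_perp hW
  have hr := hn.finrank_add_finrank_perp W
  obtain ⟨w, hw, w0⟩ := Submodule.exists_mem_ne_zero_of_ne_bot h0
  refine max_crit inf_le_right ?_ fun X h1 h2 g hg hg' => ?_
  · obtain ⟨u, hu, u0⟩ := exists_notMem_of_lt (U := Φ.perp W) (R := ⊥) (by rw [finrank_bot]; omega)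
    obtain ⟨z, hz, e, -⟩ := exists_both hn hW hw hw w0 w0
    obtain ⟨g, hg⟩ := h.exists_tv hn (z + u) 1
    refine ⟨g, IsE_mem_EG hg, fun hm => u0 ?_⟩
    have := (mem_stab.1 hm.1 w).1 hw
    rw [hg.app] at this
    simp only [map_zero, LinearMap.zero_apply, smul_zero, sub_zero, one_mul, zero_sub, Φ.B_add_left,
      Φ.B_eq_zero_symm (hu w hw), add_zero] at this
    rw [W.add_mem_iff_right hw, W.smul_mem_iff (neg_ne_zero.2 e), W.add_mem_iff_right hz] at this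
    exact hc.disjoint.le_bot ⟨this, hu⟩
  have hX : X ≤ Φ.isom := h2.trans EG_le_isom
  have t : ∀ v, v ∈ W ∨ v ∈ Φ.perp W → TT Φ X v := fun v hv t => by
    obtain ⟨g, hg⟩ := h.exists_tv hn v t
    refine ⟨g, h1 ⟨mem_stab_of_le fun x hx => ?_, IsE_mem_EG hg⟩, hg⟩
    rw [hg.app]
    rcases hv with hv | hv
    · simpa using add_mem hx (neg_mem (W.smul_mem _ hv))
    · simpa [Φ.B_eq_zero_symm (hv x hx)] using hx
  obtain ⟨x, hx, x1, x2⟩ : ∃ x ∈ Φ.perp W, g x ∉ Φ.perp W ∧ g x ∉ W := by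
    obtain ⟨a, ha, a1⟩ := exists_notMem_of_stab (W := Φ.perp W) (g := g) fun hm =>
      hg' (stab_perp_inf hn W ▸ ⟨hm, h2 hg⟩)
    obtain ⟨b, hb, b1⟩ : ∃ b ∈ Φ.perp W, g b ∉ W := by
      by_contra! hb
      have := Submodule.finrank_mono (show (Φ.perp W).map (g : V →ₗ[F] V) ≤ W by
        rintro _ ⟨b, h, rfl⟩; exact hb b h)
      rw [LinearEquiv.finrank_map_eq] at this; omega
    by_cases a2 : g a ∈ W
    · by_cases b2 : g b ∈ Φ.perp W
      · exact ⟨a + b, add_mem ha hb, by rwa [map_add, (Φ.perp W).add_mem_iff_left b2],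
          by rwa [map_add, W.add_mem_iff_right a2]⟩
      · exact ⟨b, hb, b2, b1⟩
    · exact ⟨a, ha, a1, a2⟩
  obtain ⟨⟨a, ha⟩, ⟨d, hd'⟩, e⟩ := exists_add_of_isCompl hc (g x)
  have a0 : a ≠ 0 := by rintro rfl; exact x1 (by simpa [e] using hd')
  have d0 : d ≠ 0 := by rintro rfl; exact x2 (by simpa [e] using ha)
  have t1 : TT Φ X (a + d) := e ▸ tt_conj hX (t x (.inr hx)) hg
  refine h.EG_le fun v => ?_
  obtain ⟨⟨a', ha'⟩, ⟨d', hd''⟩, rfl⟩ := exists_add_of_isCompl hc v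
  rcases eq_or_ne a' 0 with rfl | a1
  · simpa using t d' (.inr hd'')
  rcases eq_or_ne d' 0 with rfl | d1
  · simpa using t a' (.inl ha')
  have := h.tt_move hn hX hW (fun w hw => t w (.inl hw)) ha ha' a0 a1 hd' t1
  rw [add_comm] at this ⊢
  exact h.tt_move hn hX hW' (fun w hw => t w (.inr hw)) hd' hd'' d0 d1 (Φ.le_perp_perp W ha') this

end IsSp

/-- Pointwise form of `quad_engine`. -/
theorem engine [Finite F] [FiniteDimensional F V] (h2 : (2 : F) ≠ 0) {s c : V ≃ₗ[F] V} (hX : s ∈ X) (hH : s ∈ H)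
    (hs : ∀ x, s (s x - x) = s x - x) (rc : ∀ c ∈ X, c⁻¹ * s * c ∈ H → c ∈ H) (hc : c ∈ X)
    (hz : ∀ z ∈ X, z ≠ 1 → z * z = 1 → Commute z s → Commute z (c⁻¹ * s * c) →
      (∀ n, z n = -n → ∃ y y', z y = -y ∧ z y' = -y' ∧ n = (s y - y) + ((c⁻¹ * s * c) y' - y')) →
      c⁻¹ * s * c ∈ H) : c ∈ H := rc c hc <| by
  have : Finite V := Module.finite_of_finite F
  have : Finite (V ≃ₗ[F] V) := Finite.of_injective _ DFunLike.coe_injective
  have : Fact (ringChar F).Prime := ⟨CharP.char_is_prime F _⟩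
  have le : Subgroup.closure {s, c⁻¹ * s * c} ≤ X := (Subgroup.closure_le _).2 (by
    rintro _ (rfl | rfl); exacts [hX, mul_mem (mul_mem (inv_mem hc) hX) hc])
  rcases quad_pair h2 hs (d := c⁻¹ * s * c) (fun x => by
    simpa using congrArg c.symm (hs (c x))) with h | ⟨z, a1, a2, a3, a4, a5⟩
  swap
  · refine hz z (le a1) a2 a3 a4 a5 fun n hn => ?_
    generalize c⁻¹ * s * c = d at *
    have : z ∈ mvS (LinearMap.range ((s : V →ₗ[F] V) - 1) ⊔ LinearMap.range ((d : V →ₗ[F] V) - 1)) :=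
      (Subgroup.closure_le _).2 (by
        rintro _ (rfl | rfl) x
        exacts [Submodule.mem_sup_left ⟨x, rfl⟩, Submodule.mem_sup_right ⟨x, rfl⟩]) a1
    obtain ⟨_, ⟨y, rfl⟩, _, ⟨y', rfl⟩, e⟩ := Submodule.mem_sup.1 (this n)
    have zz : ∀ x, z (z x) = x := fun x => DFunLike.congr_fun a3 x
    have c1 : ∀ x, s (z x) = z (s x) := fun x => (DFunLike.congr_fun a4.eq x).symm
    have c2 : ∀ x, d (z x) = z (d x) := fun x => (DFunLike.congr_fun a5.eq x).symm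
    have e' := congrArg z e
    simp only [LinearMap.sub_apply, LinearEquiv.coe_coe, Module.End.one_apply, map_add, map_sub, hn, map_neg] at e e'
    refine ⟨(4 : F)⁻¹ • (z y - y), (4 : F)⁻¹ • (z y' - y'), by simp [zz, smul_sub], by simp [zz, smul_sub], ?_⟩
    have h4 : (4 : F) ≠ 0 := by rw [show (4 : F) = 2 * 2 by norm_num]; exact mul_ne_zero h2 h2
    simp only [map_smul, map_sub, c1, c2]
    refine smul_right_injective V h4 ?_
    simp only [smul_add, smul_sub, smul_inv_smul₀ h4]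
    linear_combination (norm := module) e - e'
  by_contra hd
  obtain ⟨r, a1, a2, a3⟩ := Invol.exists_mem_normalizer_of_lt h (X := Subgroup.closure {s, c⁻¹ * s * c} ⊓ H)
    (lt_of_le_of_ne inf_le_left fun e => hd (e.ge (Subgroup.subset_closure (by simp))).2)
  exact a2 ⟨a1, rc r (le a1) (by
    simpa using ((Subgroup.mem_normalizer_iff.1 (inv_mem a3) s).1 ⟨Subgroup.subset_closure (by simp), hH⟩).2)⟩

section Pair
variable [FiniteDimensional F V] {U U' A A' : Submodule F V}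

omit [FiniteDimensional F V] in
theorem IsSp.symm_zero (h : IsSp Φ) (hn : Φ.Nondeg) (h2 : (2 : F) ≠ 0) {W : Submodule F V} {a b : V}
    (ha : ∀ x ∈ W, Φ.B b x • a + Φ.B a x • b = 0) (hW : a ≠ 0 → ∃ x ∈ W, Φ.B a x ≠ 0) : a = 0 ∨ b = 0 := by
  refine or_iff_not_imp_left.2 fun a0 => ?_
  obtain ⟨x, hx, e⟩ := hW a0
  have e1 := ha x hx
  have e2 := congrArg (Φ.B · x) e1
  simp only [map_add, Φ.B_smul_left, RingHom.id_apply, LinearMap.add_apply, map_zero, LinearMap.zero_apply] at e2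
  have e3 : Φ.B b x = 0 := by
    refine mul_left_cancel₀ (mul_ne_zero h2 e) ?_
    linear_combination e2
  simpa [e3, e] using e1

theorem TSP.pl (hs : IsSp Φ) (hn : Φ.Nondeg) (h2 : (2 : F) ≠ 0) (h : TSP Φ X U U') (hA : TSP Φ X A A') {p y : V}
    (hp : p ∈ U) (hp' : p ∈ A) (nt : ∀ t, HasE Φ X p 0 t → t = 0) (hy : y ∈ A') (e : Φ.B p y = 0) : y ∈ U' := by
  have h1 := hA.e p hp' y hy e
  have k : ∀ w ∈ U', Φ.B p w = 0 → Φ.B y w = 0 := fun w hw e' => by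
    have h3 := h.e p hp w hw e'
    have := nt _ ((((h1.mul h3).mul h1.inv).mul h3.inv).congr (by abel) rfl)
    simp only [hs.ε, map_neg, map_add, LinearMap.add_apply, hs.alt, hs.skew y w, map_zero,
      LinearMap.neg_apply] at this
    refine mul_left_cancel₀ h2 ?_
    linear_combination -this
  have : y ∈ U' ⊔ F ∙ p := by
    by_contra hc
    obtain ⟨w, hw, e'⟩ := hn.exists_perp_eq_one' hc
    rw [Φ.perp_sup, h.symm.perp hn, Submodule.mem_inf, Φ.mem_perp_span_singleton] at hw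
    simp [k w hw.1 hw.2] at e'
  obtain ⟨u, hu, _, ⟨l, rfl⟩, rfl⟩ := Submodule.mem_sup.1 (Submodule.mem_sup.2 (by
    obtain ⟨u, hu, v, hv, e⟩ := Submodule.mem_sup.1 this
    exact ⟨u, hu, v, (LinearMap.span_singleton_eq_range F V p) ▸ hv, e⟩) :
      y ∈ U' ⊔ LinearMap.range (LinearMap.toSpanSingleton F V p))
  simp only [LinearMap.toSpanSingleton_apply] at *
  have e1 : Φ.B p u = 0 := by simpa [hs.alt] using e
  have := nt _ (((h1.mul (h.e p hp u hu e1).inv).add_smul (-l)).congr (by module) rfl)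
  simp only [hs.ε, map_neg, k u hu e1, RingHom.id_apply] at this
  have : l = 0 := mul_left_cancel₀ h2 (by linear_combination -this)
  simpa [this] using hu

theorem TSP.le_of_pt (hs : IsSp Φ) (hn : Φ.Nondeg) (h2 : (2 : F) ≠ 0) (h6 : 6 ≤ finrank F V) (h : TSP Φ X U U')
    (hA : TSP Φ X A A') (nt : ∀ p, p ∈ U ∨ p ∈ U' → p ≠ 0 → ∀ t, HasE Φ X p 0 t → t = 0) {p : V}
    (hp : p ∈ U) (hp' : p ∈ A) (p0 : p ≠ 0) : A ≤ U ∧ A' ≤ U' := by
  have key : ∀ {U U' A A' : Submodule F V}, TSP Φ X U U' → TSP Φ X A A' →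
      (∀ p, p ∈ U ∨ p ∈ U' → p ≠ 0 → ∀ t, HasE Φ X p 0 t → t = 0) → ∀ p ∈ U, p ∈ A → p ≠ 0 → ∀ a ∈ A,
      a ∈ U ∧ ∃ b ∈ U', b ∈ A' ∧ b ≠ 0 := fun {U U' A A'} h hA nt p hp hp' p0 a ha => by
    have := hA.symm.rk hn
    obtain ⟨b, hb, b0, e⟩ := exists_mem_notMem (Φ := Φ) (U := A') (S := ⊥) ![p, a] (by
      rw [sup_bot_eq, finrank_bot]; omega)
    have hb' := h.pl hs hn h2 hA hp hp' (nt p (.inl hp) p0) hb (e 0)
    exact ⟨h.symm.pl hs hn h2 hA.symm hb' hb (nt b (.inr hb') b0) ha (Φ.B_eq_zero_symm (e 1)), b, hb', hb, b0⟩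
  obtain ⟨-, b, hb, hb', b0⟩ := key h hA nt p hp hp' p0 p hp'
  exact ⟨fun a ha => (key h hA nt p hp hp' p0 a ha).1,
    fun a ha => (key h.symm hA.symm (fun p hp => nt p hp.symm) b hb hb' b0 a ha).1⟩

theorem TSP.exists_ne (hn : Φ.Nondeg) (h : TSP Φ X U U') {p : V} (hp : p ∈ U) (p0 : p ≠ 0) :
    ∃ f ∈ U', Φ.B p f = 1 := by
  obtain ⟨y, hy⟩ := hn.exists_eq_one p0
  obtain ⟨u, u', rfl⟩ := exists_add_of_isCompl h.c y
  exact ⟨u', u'.2, by rwa [map_add, h.l.1 p hp u u.2, zero_add] at hy⟩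

theorem TSP.tt_all (hs : IsSp Φ) (hn : Φ.Nondeg) (hX : X ≤ Φ.isom) (h : TSP Φ X U U') {p : V} (hp : p ∈ U)
    (p0 : p ≠ 0) (hT : TT Φ X p) {a : V} (ha : a ∈ U) : TT Φ X a := by
  by_cases hc : p ∈ (U' ⊔ F ∙ (a - p)) ⊔ F ∙ (0 : V)
  · rw [Submodule.span_zero_singleton, sup_bot_eq] at hc
    obtain ⟨u, hu, v, hv, e⟩ := Submodule.mem_sup.1 hc
    obtain ⟨l, rfl⟩ := Submodule.mem_span_singleton.1 hv
    obtain rfl : u = 0 := h.c.disjoint.le_bot ⟨by
      rw [eq_sub_of_add_eq e]; exact sub_mem hp (U.smul_mem _ (sub_mem ha hp)), hu⟩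
    have l0 : l ≠ 0 := by rintro rfl; exact p0 (by simpa using e.symm)
    convert hs.tt_smul hT (l⁻¹ * (1 + l)) using 1
    refine smul_right_injective V l0 ?_
    simp only [smul_smul, mul_inv_cancel_left₀ l0]
    linear_combination (norm := module) e
  obtain ⟨y, hy, e1, -, e3⟩ := h.symm.exists_sep hn hc
  obtain ⟨g, hg, i⟩ := h.e _ (sub_mem ha hp) y hy (Φ.B_eq_zero_symm e1)
  convert IsSp.tt_conj hX hT hg using 1
  rw [i.apply_perp (h.l.1 _ (sub_mem ha hp) p hp), e3]; simp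

theorem TSP.EG_le_tt (hs : IsSp Φ) (hn : Φ.Nondeg) (hX : X ≤ Φ.isom) (hc : IsCompl U U') (hU : Φ.TotSing U)
    (hU' : Φ.TotSing U') (h1 : ∀ a ∈ U, TT Φ X a) (h2 : ∀ a ∈ U', TT Φ X a) : EG Φ ≤ X := by
  refine hs.EG_le fun v => ?_
  obtain ⟨⟨a, ha⟩, ⟨b, hb⟩, rfl⟩ := exists_add_of_isCompl hc v
  by_cases e : Φ.B b a = 0
  swap
  · exact IsSp.tt_shift hX (h1 a ha) (h2 b hb) e
  rcases eq_or_ne b 0 with rfl | b0
  · simpa using h1 a ha
  obtain ⟨y, hy⟩ := hn.exists_eq_one b0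
  obtain ⟨⟨u, hu⟩, ⟨u', hu'⟩, rfl⟩ := exists_add_of_isCompl hc y
  simp only [map_add, hU'.1 b hb u' hu', add_zero] at hy
  have := IsSp.tt_shift hX (IsSp.tt_shift hX (h1 _ (add_mem ha hu)) (h2 b hb) (by simp [e, hy]))
    (h1 _ (neg_mem hu)) (by simp [hU.1 u hu a ha, hs.alt, hs.skew b u, hy])
  convert this using 1; simp only; abel

/-- The stabiliser of a pair of complementary Lagrangians in `Sp₆(q)`, `q` odd. -/
theorem IsSp.max_pair [Finite F] (hs : IsSp Φ) (hn : Φ.Nondeg) (h2 : (2 : F) ≠ 0) (hE : Φ.isom ≤ EG Φ)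
    {D : Fin 2 → Submodule F V} (hD : Dec 3 D) (hts : ∀ i, Φ.TotSing (D i)) :
    Geo.IsMaximalIn (EG Φ) (dstab D ⊓ EG Φ) := by
  have hc := hD.isCompl
  have h6 : finrank F V = 6 := hD.finrank_eq
  have inE : ∀ x ∈ D 0, ∀ y ∈ D 1, ∀ g, IsE Φ x y 0 g → g ∈ dstab D := fun x hx y hy g hg =>
    hD.mem_dstab (Fin.forall_fin_two.2 ⟨⟨0, fun v hv => by
      rw [hg.apply_perp ((hts 0).1 x hx v hv)]; exact (D 0).add_mem hv ((D 0).smul_mem _ hx)⟩, 1, fun v hv => by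
      rw [hg.app, (hts 1).1 y hy v hv]; simpa using (D 1).sub_mem hv ((D 1).smul_mem _ hy)⟩)
  have hH : TSP Φ (dstab D ⊓ EG Φ) (D 0) (D 1) := ⟨hc, hts 0, hts 1, fun x hx y hy e => by
    obtain ⟨g, hg⟩ := exists_isE0 hn (hs.sing x) (hs.sing y) e
    exact ⟨g, ⟨inE x hx y hy g hg, IsE_mem_EG hg⟩, hg⟩⟩
  have dz : ∀ {x}, x ∈ D 0 → x ∈ D 1 → x = 0 := fun h h' => hD.eq_zero (by decide) h h'
  obtain ⟨a, ha, a0⟩ := hD.exists_ne 0
  refine max_crit inf_le_right ?_ fun X h3 h4 g hg hg' => by_contra fun hne => hg' ⟨?_, h4 hg⟩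
  · obtain ⟨f, hf, e⟩ := hH.exists_ne hn ha a0
    obtain ⟨g, hg⟩ := hs.exists_tv hn a 1
    refine ⟨g, IsE_mem_EG hg, fun h => ?_⟩
    obtain ⟨j, hj⟩ := exists_of_dstab h.1 1
    have h5 := hj f hf
    simp only [hg.app, e, map_zero, LinearMap.zero_apply, smul_zero, sub_zero, mul_one, zero_sub] at h5
    revert j
    refine Fin.forall_fin_two.2 ⟨fun _ h5 => ?_, fun _ h5 => ?_⟩
    · rw [(D 0).add_mem_iff_left ((D 0).smul_mem _ ha)] at h5
      simp [dz h5 hf] at e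
    · rw [(D 1).add_mem_iff_right hf, (D 1).smul_mem_iff (by simp)] at h5
      exact a0 (dz ha h5)
  have hi : X ≤ Φ.isom := h4.trans EG_le_isom
  have hX : TSP Φ X (D 0) (D 1) := ⟨hc, hts 0, hts 1, fun x hx y hy e => (hH.e x hx y hy e).mono h3⟩
  obtain ⟨⟨w, hw, w0, w1⟩, -⟩ := exists_swap hn hD hts
  have hwX : w ∈ X := h3 ⟨hD.mem_dstab (Fin.forall_fin_two.2 ⟨⟨1, w0⟩, 0, w1⟩), hE hw⟩
  have nt : ∀ p, p ∈ D 0 ∨ p ∈ D 1 → p ≠ 0 → ∀ t, HasE Φ X p 0 t → t = 0 := by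
    have : ∀ p ∈ D 0, p ≠ 0 → ∀ t, HasE Φ X p 0 t → t = 0 := fun p hp p0 t ht => by_contra fun t0 => by
      obtain ⟨f, hf, e⟩ := hX.exists_ne hn hp p0
      have pr : Φ.IsPair p f := ⟨hs.sing p, hs.sing f, e⟩
      have := hs.tt_of_tv h2 hi (fun c c0 => by
        have := torus_mem (hts 0) (hts 1) hp hf pr (Units.mk0 c c0)
        exact ⟨_, h3 ⟨hD.mem_dstab (Fin.forall_fin_two.2 ⟨⟨0, this.1⟩, 1, this.2⟩), hE (pr.torus _).2⟩,
          pr.torus_left _⟩) t0 ht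
      exact hne (TSP.EG_le_tt hs hn hi hc (hts 0) (hts 1) (fun a ha => hX.tt_all hs hn hi hp p0 this ha)
        fun a ha => hX.symm.tt_all hs hn hi (w0 p hp) (by simpa) (tt_conj hi this hwX) ha)
    rintro p (hp | hp) p0 t ht
    exacts [this p hp p0 t ht, this _ (w1 p hp) (by simpa) t (tv_conj ht hwX hi)]
  have pt : ∀ c ∈ X, ∀ i j, ∀ p ∈ D i, p ≠ 0 → c p ∈ D j → c ∈ dstab D := fun c hc => by
    have hA := hX.map hc (hi hc)
    have nt' := fun p (hp : p ∈ D 1 ∨ p ∈ D 0) => nt p hp.symm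
    refine Fin.forall_fin_two.2 ⟨Fin.forall_fin_two.2 ⟨fun p hp p0 e => ?_, fun p hp p0 e => ?_⟩,
      Fin.forall_fin_two.2 ⟨fun p hp p0 e => ?_, fun p hp p0 e => ?_⟩⟩ <;>
      refine hD.mem_dstab (Fin.forall_fin_two.2 ?_)
    · have := hX.le_of_pt hs hn h2 h6.ge hA nt e ⟨p, hp, rfl⟩ (by simpa)
      exact ⟨⟨0, fun x hx => this.1 ⟨x, hx, rfl⟩⟩, 1, fun x hx => this.2 ⟨x, hx, rfl⟩⟩
    · have := hX.symm.le_of_pt hs hn h2 h6.ge hA nt' e ⟨p, hp, rfl⟩ (by simpa)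
      exact ⟨⟨1, fun x hx => this.1 ⟨x, hx, rfl⟩⟩, 0, fun x hx => this.2 ⟨x, hx, rfl⟩⟩
    · have := hX.le_of_pt hs hn h2 h6.ge hA.symm nt e ⟨p, hp, rfl⟩ (by simpa)
      exact ⟨⟨1, fun x hx => this.2 ⟨x, hx, rfl⟩⟩, 0, fun x hx => this.1 ⟨x, hx, rfl⟩⟩
    · have := hX.symm.le_of_pt hs hn h2 h6.ge hA.symm nt' e ⟨p, hp, rfl⟩ (by simpa)
      exact ⟨⟨0, fun x hx => this.2 ⟨x, hx, rfl⟩⟩, 1, fun x hx => this.1 ⟨x, hx, rfl⟩⟩
  have cases : ∀ c ∈ dstab D, ((∀ x ∈ D 0, c x ∈ D 0) ∧ ∀ x ∈ D 1, c x ∈ D 1) ∨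
      ((∀ x ∈ D 0, c x ∈ D 1) ∧ ∀ x ∈ D 1, c x ∈ D 0) := fun c ⟨σ, hσ⟩ => by
    have k : ∀ i j, σ i = j → ∀ x ∈ D i, c x ∈ D j := fun i j e x hx => e ▸ hσ i ▸ ⟨x, hx, rfl⟩
    have : (σ 0 = 0 ∧ σ 1 = 1) ∨ (σ 0 = 1 ∧ σ 1 = 0) := by clear k hσ; revert σ; decide
    exact this.imp (fun h => ⟨k _ _ h.1, k _ _ h.2⟩) fun h => ⟨k _ _ h.1, k _ _ h.2⟩
  obtain ⟨b, hb, b0, e⟩ := exists_mem_notMem (Φ := Φ) (U := D 1) (S := ⊥) ![a] (by
    rw [sup_bot_eq, finrank_bot, hD.rk]; omega)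
  replace b0 : b ≠ 0 := b0
  obtain ⟨s, hsX, i⟩ := hX.e a ha b hb (e 0)
  have ab : Φ.B a b = 0 := e 0
  have ba := Φ.B_eq_zero_symm ab
  have sa : ∀ x, s x = x + Φ.B b x • a + Φ.B a x • b := fun x => by rw [i.app]; simp [hs.ε]
  have q : ∀ x, s (s x - x) = s x - x := fun x => by
    rw [sa (s x - x), sa x]; simp [hs.alt, ab, ba]
  have rc : ∀ c ∈ X, c⁻¹ * s * c ∈ dstab D → c ∈ dstab D := fun c hc' hd => by
    have i' := i.conj (inv_mem (hi hc'))
    rw [inv_inv] at i'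
    set d := c⁻¹ * s * c
    have da : ∀ x, d x = x + Φ.B (c⁻¹ b) x • c⁻¹ a + Φ.B (c⁻¹ a) x • c⁻¹ b := fun x => by
      rw [i'.app]; simp [hs.ε]
    rcases cases d hd with hd | hd
    swap
    · have q' : d (d a - a) = d a - a := by simpa [d] using congrArg c.symm (q (c a))
      have : (2 : F) • d a = d (d a) + a := by
        rw [map_sub] at q'; linear_combination (norm := module) -q'
      have := dz (this ▸ add_mem (hd.2 _ (hd.1 a ha)) ha) ((D 1).smul_mem _ (hd.1 a ha))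
      exact absurd (by simpa [h2] using this) a0
    obtain ⟨⟨a1, ha1⟩, ⟨a2, ha2⟩, e1⟩ := exists_add_of_isCompl hc (c⁻¹ a)
    obtain ⟨⟨b1, hb1⟩, ⟨b2, hb2⟩, e2⟩ := exists_add_of_isCompl hc (c⁻¹ b)
    simp only at e1 e2
    rcases hs.symm_zero hn h2 (W := D 0) (a := a2) (b := b2) (fun x hx => by
      have := hd.1 x hx
      rw [da, e1, e2] at this
      simp only [Φ.B_add_left, (hts 0).1 _ ha1 x hx, (hts 0).1 _ hb1 x hx, zero_add, smul_add] at this
      refine dz ?_ (add_mem ((D 1).smul_mem _ ha2) ((D 1).smul_mem _ hb2))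
      convert sub_mem (sub_mem (sub_mem this hx) ((D 0).smul_mem (Φ.B b2 x) ha1)) ((D 0).smul_mem (Φ.B a2 x) hb1)
        using 1
      abel) (fun h => by
        obtain ⟨f, hf, e⟩ := hX.symm.exists_ne hn ha2 h
        exact ⟨f, hf, by simp [e]⟩) with rfl | rfl
    · exact pt c hc' 0 0 _ (by rw [e1, add_zero]; exact ha1 : c⁻¹ a ∈ D 0) (by simpa) (by simpa)
    · exact pt c hc' 0 1 _ (by rw [e2, add_zero]; exact hb1 : c⁻¹ b ∈ D 0) (by simpa) (by simpa)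
  have kz : ∀ z ∈ X, z * z = 1 → Commute z s → ((∀ x ∈ D 0, z x ∈ D 0) ∧ ∀ x ∈ D 1, z x ∈ D 1) ∧
      ((∀ n, z n = -n → s n = n) ∨ (z a = -a ∧ z b = -b)) := fun z hz z2 zc => by
    have zz : ∀ x, z (z x) = x := fun x => DFunLike.congr_fun z2 x
    have c1 : ∀ x, s (z x) = z (s x) := fun x => (DFunLike.congr_fun zc.eq x).symm
    have zi := (hi hz).1
    rcases cases z (rc z hz (by rw [mul_assoc, ← zc.eq, inv_mul_cancel_left]; exact inE a ha b hb s i)) with hd | hd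
    swap
    · let B : LinearMap.BilinForm F (D 0) := (Φ.B.compl₂ (z : V →ₗ[F] V)).domRestrict₁₂ (D 0) (D 0)
      have hB : B.IsAlt := fun x => mul_left_cancel₀ h2 (by
        have := zi x (z x)
        rw [zz, hs.skew] at this
        simp only [B, LinearMap.domRestrict₁₂_apply, LinearMap.compl₂_apply, LinearEquiv.coe_coe]
        linear_combination -this)
      have := even_finrank_of_alt (hA := hB) fun x hx => by_contra fun x0 => by
        obtain ⟨f, hf, e⟩ := hX.exists_ne hn x.2 (by simpa using x0)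
        have : Φ.B x (z (z f)) = 0 := hx ⟨z f, hd.2 f hf⟩
        simp [zz, e] at this
      rw [hD.rk] at this
      exact absurd this (by decide)
    refine ⟨hd, or_iff_not_imp_left.2 fun hN => ?_⟩
    have key : ∀ x, Φ.B (z b) x • z a + Φ.B (z a) x • z b = Φ.B b x • a + Φ.B a x • b := fun x => by
      obtain ⟨x, rfl⟩ := z.surjective x
      have := c1 x
      rw [sa, sa, map_add, map_add, map_smul, map_smul, ← zi b x, ← zi a x] at this
      linear_combination (norm := module) -this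
    have one : z a = -a ∨ z b = -b := by
      by_contra! hc'
      refine hN fun n hn' => ?_
      have := c1 n
      rw [hn', map_neg, sa, map_add, map_add, hn', map_smul, map_smul] at this
      have e1 : Φ.B b n • (z a + a) = -(Φ.B a n • (z b + b)) := by linear_combination (norm := module) -this
      have m1 := (D 0).smul_mem (Φ.B b n) (add_mem (hd.1 a ha) ha)
      have e2 := dz m1 (e1 ▸ neg_mem ((D 1).smul_mem _ (add_mem (hd.2 b hb) hb)))
      rw [e2, eq_comm, neg_eq_zero] at e1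
      rw [smul_eq_zero, add_eq_zero_iff_eq_neg, or_iff_left (by tauto)] at e1 e2
      rw [sa, e1, e2]; simp
    rcases one with h | h
    · refine ⟨h, eq_neg_of_add_eq_zero_left ((hs.symm_zero hn h2 (W := ⊤) (a := a) (fun x _ => ?_) fun h =>
        (hn.exists_ne h).imp fun x hx => ⟨trivial, hx⟩).resolve_left a0)⟩
      have := key x
      rw [h] at this
      simp only [map_neg, LinearMap.neg_apply, Φ.B_add_left] at this ⊢
      linear_combination (norm := module) -this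
    · refine ⟨eq_neg_of_add_eq_zero_left ((hs.symm_zero hn h2 (W := ⊤) (a := b) (fun x _ => ?_) fun h =>
        (hn.exists_ne h).imp fun x hx => ⟨trivial, hx⟩).resolve_left b0), h⟩
      have := key x
      rw [h] at this
      simp only [map_neg, LinearMap.neg_apply, Φ.B_add_left] at this ⊢
      linear_combination (norm := module) -this
  refine engine h2 hsX (inE a ha b hb s i) q rc hg fun z hz z1 z2 c1 c2 hN => ?_
  have zz : ∀ x, z (z x) = x := fun x => DFunLike.congr_fun z2 x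
  have i' := i.conj (inv_mem (hi hg))
  rw [inv_inv] at i'
  have da : ∀ x, (g⁻¹ * s * g) x = x + Φ.B (g⁻¹ b) x • g⁻¹ a + Φ.B (g⁻¹ a) x • g⁻¹ b := fun x => by
    rw [i'.app]; simp [hs.ε]
  obtain ⟨hd, -⟩ := kz z hz z2 c1
  rcases (kz (g * z * g⁻¹) (mul_mem (mul_mem hg hz) (inv_mem hg)) (by
    rw [show g * z * g⁻¹ * (g * z * g⁻¹) = g * (z * z) * g⁻¹ by group, z2]; simp) (by
    have := c2.eq
    change _ * _ = _ * _
    rw [show g * z * g⁻¹ * s = g * (z * (g⁻¹ * s * g)) * g⁻¹ by group, this]; group)).2 with h | h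
  · refine absurd (LinearEquiv.ext fun x => ?_) z1
    have k : ∀ n, z n = -n → ∃ y, z y = -y ∧ n = s y - y := fun n hn' => by
      obtain ⟨y, y', e1, e2, e3⟩ := hN n hn'
      have := h (g y') (by simp [e2])
      exact ⟨y, e1, by simpa [this] using e3⟩
    obtain ⟨y, e1, e2⟩ := k (z x - x) (by simp [zz])
    obtain ⟨y', -, rfl⟩ := k y e1
    rwa [q, sub_self, sub_eq_zero] at e2
  have h1 : z (g⁻¹ a) = -g⁻¹ a := by simpa using congrArg g.symm h.1
  have h1' : z (g⁻¹ b) = -g⁻¹ b := by simpa using congrArg g.symm h.2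
  have fx : ∀ p, z p = p → (g⁻¹ * s * g) p = p := fun p hp => by
    have k : ∀ y, z y = -y → Φ.B y p = 0 := fun y hy => mul_left_cancel₀ h2 (by
      have := (hi hz).1 y p
      rw [hy, hp, map_neg, LinearMap.neg_apply] at this
      linear_combination -this)
    rw [da, k _ h1, k _ h1']; simp
  by_cases h0 : ∃ i, ∃ p ∈ D i, p ≠ 0 ∧ z p = p
  · obtain ⟨j, p, hp, p0, e⟩ := h0
    exact pt _ (mul_mem (mul_mem (inv_mem hg) hsX) hg) j j p hp p0 ((fx p e).symm ▸ hp)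
  push Not at h0
  have k : ∀ j, (∀ x ∈ D j, z x ∈ D j) → ∀ x ∈ D j, z x = -x := fun j hj x hx =>
    eq_neg_of_add_eq_zero_left (by_contra fun hc => h0 j _ (add_mem (hj x hx) hx) hc (by simp [zz, add_comm]))
  have : ⊤ ≤ Submodule.span F (Set.range ![a, b, g⁻¹ a, g⁻¹ b]) := fun x _ => by
    obtain ⟨⟨u, hu⟩, ⟨u', hu'⟩, rfl⟩ := exists_add_of_isCompl hc x
    obtain ⟨y, y', -, -, e⟩ := hN (u + u') (by rw [map_add, k 0 hd.1 u hu, k 1 hd.2 u' hu', neg_add])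
    have m : ∀ j, ![a, b, g⁻¹ a, g⁻¹ b] j ∈ Submodule.span F (Set.range ![a, b, g⁻¹ a, g⁻¹ b]) :=
      fun j => Submodule.subset_span ⟨j, rfl⟩
    simp only
    rw [e, sa, da, add_assoc y, add_sub_cancel_left, add_assoc y', add_sub_cancel_left]
    exact add_mem (add_mem (Submodule.smul_mem _ _ (m 0)) (Submodule.smul_mem _ _ (m 1)))
      (add_mem (Submodule.smul_mem _ _ (m 2)) (Submodule.smul_mem _ _ (m 3)))
  have := (Submodule.finrank_mono this).trans (finrank_span_fam _)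
  rw [finrank_top] at this
  omega

end Pair

end Cfsg.Agent.Root.Mx
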