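import Cfsg.Agent.Low.Sp4a
import Cfsg.Agent.Low.Sp6a

/-! The five-dimensional orthogonal module `Spin Φ Q ω` of self-adjoint trace zero maps of a four-dimensional symplectic
space: the induced group `Spin.ind`, the criterion `Spin.win`, and the maximality of the normaliser of a skew map with
scalar square (`Spin.max_skew`) and of the stabiliser of an orthonormal frame (`Spin.max_frame`). -/

set_option autoImplicit false

namespace Cfsg.Agent.Root.Mx

open Cfsg.Agent.Geom Cfsg.Agent.AutCl Module QuadraticMap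

variable {F : Type*} [Field F] {V : Type*} [AddCommGroup V] [Module F V] {W : Type*} [AddCommGroup W] [Module F W]
  {Φ : Formed (RingHom.id F) V} {Q : QuadraticForm F W} {ω : W →ₗ[F] End F V} {X H : Subgroup (V ≃ₗ[F] V)}

attribute [-simp] QuadraticMap.polar_self

/-- The orthogonal module of a four-dimensional symplectic space. -/
structure Spin (Φ : Formed (RingHom.id F) V) (Q : QuadraticForm F W) (ω : W →ₗ[F] End F V) : Prop where
  sp : IsSp Φ
  hn : Φ.Nondeg
  two : (2 : F) ≠ 0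
  d4 : finrank F V = 4
  hQ : (Formed.ofQuad Q).Nondeg
  d5 : finrank F W = 5
  sq : ∀ w v, ω w (ω w v) = Q w • v
  adj : ∀ w u v, Φ.B (ω w u) v = Φ.B u (ω w v)
  tr : ∀ w, LinearMap.trace F V (ω w) = 0
  surj : ∀ a : End F V, (∀ u v, Φ.B (a u) v = Φ.B u (a v)) → LinearMap.trace F V a = 0 → ∃ w, ω w = a

/-- The group induced on the orthogonal module, up to sign. -/
def Spin.ind (Q : QuadraticForm F W) (ω : W →ₗ[F] End F V) (X : Subgroup (V ≃ₗ[F] V)) : Subgroup (OG Q) where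
  carrier := {k | ∃ ε : F, ε * ε = 1 ∧ ∃ g ∈ X, ∀ w v, ω (k.1 w) (g v) = ε • g (ω w v)}
  one_mem' := ⟨1, by simp, 1, one_mem _, by simp⟩
  mul_mem' := fun {a b} ⟨ε, a1, g, a2, a3⟩ ⟨δ, b1, l, b2, b3⟩ =>
    ⟨ε * δ, by linear_combination δ * δ * a1 + b1, g * l, mul_mem a2 b2, fun w v => by
      rw [OG.mul_apply, LinearEquiv.mul_apply, a3, b3, map_smul, smul_smul]; rfl⟩
  inv_mem' := fun {a} ⟨ε, a1, g, a2, a3⟩ => ⟨ε, a1, g⁻¹, inv_mem a2, fun w v => g.injective (by
    have := a3 ((a⁻¹).1 w) (g⁻¹ v)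
    rw [OG.apply_inv_apply] at this
    simp only [LinearEquiv.coe_inv, LinearEquiv.apply_symm_apply, map_smul] at this ⊢
    rw [this, smul_smul, a1, one_smul])⟩

namespace Spin
variable [FiniteDimensional F V] [FiniteDimensional F W] (h : Spin Φ Q ω)
include h

omit [FiniteDimensional F W] in
theorem ex0 : ∃ x : V, x ≠ 0 := by
  obtain ⟨x, -, x0⟩ := exists_notMem_of_lt (U := (⊤ : Submodule F V)) (R := ⊥) (by simp [h.d4])
  exact ⟨x, x0⟩

omit [FiniteDimensional F V] [FiniteDimensional F W] in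
theorem anti (u w : W) (v : V) : ω u (ω w v) = polar Q u w • v - ω w (ω u v) := by
  have := h.sq (u + w) v
  simp only [map_add, LinearMap.add_apply, h.sq, quad_add] at this
  linear_combination (norm := module) this

omit [FiniteDimensional F W] in
theorem scal {c d : F} (e : ∀ v : V, c • v = d • v) : c = d := by
  obtain ⟨x, x0⟩ := h.ex0
  exact smul_left_injective F x0 (e x)

omit [FiniteDimensional F W] in
theorem inj {u w : W} (e : ∀ v, ω u v = ω w v) : u = w := by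
  refine sub_eq_zero.1 (h.hQ _ fun y => h.scal fun v => ?_)
  have := h.anti (u - w) y v
  simp only [map_sub, LinearMap.sub_apply, e, sub_self, sub_zero, map_zero] at this
  rw [zero_smul]; exact this.symm

omit [FiniteDimensional F W] in
theorem mk0 {a : End F V} (e : ∀ x y, Φ.B (a x) (a y) = Φ.B x y) : ∃ g ∈ Φ.isom, ∀ x, g x = a x :=
  ⟨LinearEquiv.ofInjectiveEndo a ((injective_iff_map_eq_zero a).2 fun x hx => h.hn x fun y => by
    rw [← e, hx]; simp), ⟨e, fun x => by rw [(h.sp.sing _).1, (h.sp.sing _).1]⟩, fun _ => rfl⟩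

omit [FiniteDimensional F W] in
theorem wedge {x y : V} (e : Φ.B x y = 0) : ∃ w, ∀ v, ω w v = Φ.B x v • y - Φ.B y v • x := by
  obtain ⟨w, hw⟩ := h.surj ((Φ.B x).smulRight y - (Φ.B y).smulRight x) (fun u v => by
    simp [h.sp.skew u x, h.sp.skew u y]; ring) (by simp [LinearMap.trace_smulRight, e, h.sp.skew x y])
  exact ⟨w, fun v => by simp [hw]⟩

omit [FiniteDimensional F W] in
theorem two_perp {x : V} (x0 : x ≠ 0) : ∃ y z, Φ.B x y = 0 ∧ Φ.B x z = 0 ∧ Φ.B y z = 1 := by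
  obtain ⟨x', hx⟩ := h.hn.exists_eq_one x0
  obtain ⟨y, -, y0, hy⟩ := exists_mem_notMem (Φ := Φ) (U := ⊤) (S := ⊥) ![x, x']
    (by rw [top_sup_eq, finrank_top, finrank_bot, h.d4]; omega)
  obtain ⟨z, hz⟩ := h.hn.exists_eq_one (show y ≠ 0 from y0)
  have h1 : Φ.B x' y = 0 := hy 1
  exact ⟨y, z - Φ.B x z • x', hy 0, by simp [hx], by simp [hz, h.sp.skew x' y, h1]⟩

omit [FiniteDimensional F W] in
theorem cent {a : End F V} (e : ∀ w v, a (ω w v) = ω w (a v)) : ∃ c : F, ∀ v, a v = c • v := by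
  have k : ∀ x, ∃ c : F, a x = c • x := fun x => by
    by_cases x0 : x = 0
    · exact ⟨0, by simp [x0]⟩
    obtain ⟨y, z, xy, xz, yz⟩ := h.two_perp x0
    obtain ⟨u, hu⟩ := h.wedge xy
    obtain ⟨w, hw⟩ := h.wedge xz
    have e1 := e u z
    have e2 := e w y
    simp only [hu, hw, xy, xz, yz, h.sp.skew y z, zero_smul, one_smul, zero_sub, map_neg, neg_smul, neg_neg] at e1 e2
    have e3 := congrArg (Φ.B y) e2
    have e4 := congrArg (Φ.B y) e1
    simp only [map_neg, map_sub, map_smul, h.sp.alt, h.sp.skew x y, xy, yz, smul_eq_mul] at e3 e4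
    exact ⟨_, by rw [e2, show Φ.B x (a y) = 0 by linear_combination -e3 - e4, zero_smul, zero_sub, ← neg_smul]⟩
  obtain ⟨c, hc⟩ := LinearMap.exists_eq_smul_id_of_forall_notLinearIndependent (f := a) fun v hv => by
    obtain ⟨c, hc⟩ := k v
    have := LinearIndependent.pair_iff.1 hv (-c) 1 (by simp [hc])
    simp at this
  exact ⟨c, fun v => by simp [hc]⟩

theorem act {g : V ≃ₗ[F] V} (hg : g ∈ Φ.isom) : ∃ k : OG Q, ∀ w v, ω (k.1 w) (g v) = g (ω w v) := by
  have k : ∀ w, ∃ w', ∀ v, ω w' (g v) = g (ω w v) := fun w => by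
    obtain ⟨w', e⟩ := h.surj (g.conj (ω w)) (fun u v => by
      obtain ⟨u, rfl⟩ := g.surjective u
      obtain ⟨v, rfl⟩ := g.surjective v
      simp [LinearEquiv.conj_apply, hg.1, h.adj]) (by rw [LinearMap.trace_conj', h.tr])
    exact ⟨w', fun v => by simp [e, LinearEquiv.conj_apply]⟩
  choose κ hκ using k
  have ex : ∀ {u w}, (∀ v, ω u (g v) = ω w (g v)) → u = w := fun e => h.inj fun v => by
    simpa using e (g.symm v)
  let L : W →ₗ[F] W := ⟨⟨κ, fun u w => ex fun v => by simp [hκ]⟩, fun c w => ex fun v => by simp [hκ]⟩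
  refine ⟨⟨LinearEquiv.ofInjectiveEndo L ((injective_iff_map_eq_zero L).2 fun w hw => h.inj fun v => ?_),
    Formed.mem_isom_ofQuad.2 fun w => h.scal fun v => ?_⟩, hκ⟩
  · have := hκ w v
    rw [show κ w = 0 from hw] at this
    simpa using this.symm
  · obtain ⟨v, rfl⟩ := g.surjective v
    rw [← h.sq, ← map_smul, ← h.sq]
    exact (congrArg _ (hκ w v)).trans (hκ w _)

omit [FiniteDimensional F V] [FiniteDimensional F W] in
theorem rf {u : W} (q : Q u ≠ 0) (w : W) (v : V) : ω ((refl Q u).1 w) (ω u v) = -ω u (ω w v) := by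
  rw [refl_apply, h.anti u w]
  simp only [map_sub, map_smul, LinearMap.sub_apply, LinearMap.smul_apply, h.sq, smul_smul]
  match_scalars <;> field_simp

omit [FiniteDimensional F W] in
theorem mk1 {u : W} (q : Q u = 1) :
    ∃ g ∈ Φ.isom, (∀ x, g x = ω u x) ∧ ∀ w v, ω ((refl Q u).1 w) (g v) = (-1 : F) • g (ω w v) := by
  obtain ⟨g, hg, e⟩ := h.mk0 (a := ω u) fun x y => by rw [h.adj, h.sq, q, one_smul]
  exact ⟨g, hg, e, fun w v => by rw [e, e, h.rf (by simp [q]), neg_one_smul]⟩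

omit [FiniteDimensional F W] in
theorem mk2 {u w : W} (e : Q u = Q w) (q : Q w ≠ 0) :
    ∃ g ∈ Φ.isom, (∀ x, g x = (Q w)⁻¹ • ω u (ω w x)) ∧
      ∀ y v, ω ((refl Q u * refl Q w).1 y) (g v) = (1 : F) • g (ω y v) := by
  obtain ⟨g, hg, e'⟩ := h.mk0 (a := (Q w)⁻¹ • (ω u * ω w)) fun x y => by
    simp only [LinearMap.smul_apply, End.mul_apply, map_smul, h.adj, h.sq, e, Φ.B_smul_left, smul_eq_mul,
      RingHom.id_apply]
    field_simp
  exact ⟨g, hg, e', fun y v => by simp [e', OG.mul_apply, h.rf (e ▸ q), h.rf q]⟩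

omit [FiniteDimensional F V] [FiniteDimensional F W] in
theorem neg_mem : LinearEquiv.neg F ∈ Φ.isom := ⟨fun x y => by simp, fun x => by rw [(h.sp.sing _).1, (h.sp.sing _).1]⟩

omit [FiniteDimensional F W] in
theorem win (hX : X ≤ Φ.isom) (hn : LinearEquiv.neg F ∈ X) (H : ∀ p a, eich Q p a ∈ ind Q ω X) : EG Φ ≤ X := by
  refine h.sp.EG_le fun x t => ?_
  obtain ⟨g, hg⟩ := h.sp.exists_tv h.hn x t
  refine ⟨g, ?_, hg⟩
  have ga : ∀ v, g v = v - (t * Φ.B x v) • x := fun v => by rw [hg.app]; simp [sub_eq_add_neg]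
  by_cases x0 : x = 0
  · rw [show g = 1 from LinearEquiv.ext fun v => by simp [ga, x0]]; exact one_mem _
  obtain ⟨y, z, xy, xz, yz⟩ := h.two_perp x0
  obtain ⟨u, hu⟩ := h.wedge xy
  obtain ⟨w, hw⟩ := h.wedge xz
  have yx : Φ.B y x = 0 := Φ.B_eq_zero_symm xy
  have zx : Φ.B z x = 0 := Φ.B_eq_zero_symm xz
  have uw : ∀ v, ω u (ω w v) = -(Φ.B x v • x) := fun v => by simp [hu, hw, xz, yz, yx, h.sp.alt]
  have qu : Q u = 0 := h.scal fun v => by rw [← h.sq]; simp [hu, xy, yx, h.sp.alt]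
  have qw : Q w = 0 := h.scal fun v => by rw [← h.sq]; simp [hw, xz, zx, h.sp.alt]
  have pw : polar Q u w = 0 := h.scal fun v => by
    have := h.anti u w v
    rw [uw] at this
    simp only [hu, hw, xy, zx, h.sp.alt, h.sp.skew y z, yz, map_sub, map_smul, smul_eq_mul] at this
    linear_combination (norm := module) -this
  have h2 := h.two
  obtain ⟨ε, e1, k, hk, e2⟩ := H u ((t / 2) • w)
  have e3 : ∀ s v, ω ((eich Q u (t • w)).1 s) (k (k v)) = k (k (ω s v)) := fun s v => by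
    rw [show t • w = (t / 2) • w + (t / 2) • w by match_scalars; field_simp; ring,
      eich_add qu (by simp [pw]) (by simp [pw]), OG.mul_apply, e2, e2, map_smul, smul_smul, e1, one_smul]
  have e4 : ∀ s v, ω ((eich Q u (t • w)).1 s) (g v) = g (ω s v) := fun s v => by
    have g1 : ∀ v, g v = v + t • ω u (ω w v) := fun v => by rw [ga, uw]; module
    have a1 : ∀ v, ω w (ω u v) = -ω u (ω w v) := fun v => by rw [h.anti u w, pw]; simp
    rw [eich_apply qu (by simp [pw]), quad_smul, g1, g1, h.anti w s, (ω u).map_sub, (ω u).map_smul, h.anti u s]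
    simp only [map_add, map_sub, map_smul, LinearMap.add_apply, LinearMap.sub_apply, LinearMap.smul_apply, h.sq, a1,
      quad_smul, qu, qw, polar_smul_left, map_neg, smul_eq_mul]
    module
  obtain ⟨c, hc⟩ := h.cent (a := (g⁻¹ * k * k : V ≃ₗ[F] V)) fun s v => g.injective (by
    simp only [LinearEquiv.coe_coe, LinearEquiv.mul_apply, LinearEquiv.coe_inv, LinearEquiv.apply_symm_apply]
    rw [← e4, LinearEquiv.apply_symm_apply, e3])
  have e5 := (mul_mem (mul_mem (inv_mem hg.mem_isom) (hX hk)) (hX hk)).1 y z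
  erw [hc, hc] at e5
  rw [Φ.B_smul_left, map_smul, yz, RingHom.id_apply, smul_eq_mul, mul_one] at e5
  have e6 : ∀ v, k (k v) = c • g v := fun v => by
    have := congrArg g (hc v)
    simpa using this
  rcases mul_self_eq_one_iff.1 e5 with rfl | rfl
  · rw [show g = k * k from LinearEquiv.ext fun v => by simp [e6]]; exact mul_mem hk hk
  · rw [show g = LinearEquiv.neg F * (k * k) from LinearEquiv.ext fun v => by simp [e6]]
    exact mul_mem hn (mul_mem hk hk)

omit [FiniteDimensional F W] in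
theorem exists_anti {J : End F V} {δ : F} (δ0 : δ ≠ 0) (sk : ∀ u v, Φ.B (J u) v = -Φ.B u (J v))
    (JJ : ∀ v, J (J v) = δ • v) : ∃ b, Q b ≠ 0 ∧ ∀ v, ω b (J v) = -J (ω b v) := by
  have h2 := h.two
  by_contra! hc
  have z : ∀ b, (∀ v, ω b (J v) = -J (ω b v)) → Q b = 0 := fun b H => by_contra fun e => by
    obtain ⟨v, hv⟩ := hc b e; exact hv (H v)
  have cj : ∀ w, ∃ w', ∀ v, ω w' v = δ⁻¹ • J (ω w (J v)) := fun w => by
    obtain ⟨w', e⟩ := h.surj (δ⁻¹ • (J * (ω w * J))) (fun u v => by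
      simp [sk, h.adj]) (by
        rw [map_smul, LinearMap.trace_mul_comm, show ω w * J * J = δ • ω w from LinearMap.ext fun v => by simp [JJ],
          map_smul, h.tr]; simp)
    exact ⟨w', fun v => by simp [e]⟩
  have an : ∀ w w', (∀ v, ω w' v = δ⁻¹ • J (ω w (J v))) → ∀ v, ω (w - w') (J v) = -J (ω (w - w') v) :=
    fun w w' e v => by simp [e, JJ, smul_smul, δ0]
  have z0 : ∀ s, (∀ v, ω s (J v) = -J (ω s v)) → s = 0 := fun s hs => h.hQ s fun w => by
    obtain ⟨w', e⟩ := cj w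
    have e1 := z (s + (w - w')) fun v => by
      rw [map_add, LinearMap.add_apply, LinearMap.add_apply, hs, an w w' e, map_add, neg_add]
    rw [quad_add, z s hs, z _ (an w w' e), polar_sub_right] at e1
    have e2 : ∀ v, ω (w + w') (J v) = J (ω (w + w') v) := fun v => by simp [e, JJ, smul_smul, δ0, add_comm]
    have e3 : (2 * polar Q s (w + w')) * δ = 0 := h.scal fun v => by
      have k : ∀ u, (2 * polar Q s (w + w')) • J u = 0 := fun u => by
        have a1 := h.anti s (w + w') (J u)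
        have a2 := congrArg J (h.anti s (w + w') u)
        rw [e2, hs, hs, map_neg, e2] at a1
        rw [map_sub, map_smul] at a2
        linear_combination (norm := module) -a1 - a2
      rw [mul_smul, ← JJ, k, zero_smul]
    rw [polar_add_right] at e3
    exact mul_left_cancel₀ (mul_ne_zero (mul_ne_zero h2 h2) δ0) (by
      rw [ofQuad_B_apply]; linear_combination e3 + 2 * δ * e1)
  obtain ⟨c, hc⟩ := h.cent (a := J) fun w v => by
    obtain ⟨w', e⟩ := cj w
    rw [← sub_eq_zero.1 (z0 _ (an w w' e))] at e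
    nth_rw 1 [e]; simp [JJ, smul_smul, δ0]
  obtain ⟨x, x0⟩ := h.ex0
  obtain ⟨y, hy⟩ := h.hn.exists_eq_one x0
  have e := sk x y
  rw [hc, hc, Φ.B_smul_left, map_smul, hy] at e
  have := JJ x
  rw [hc, hc, show c = 0 from mul_left_cancel₀ h2 (by simp at e; linear_combination e)] at this
  simp [eq_comm (a := (0 : V)), δ0, x0] at this

theorem max_skew [Finite F] (h5 : 5 ≤ Nat.card F) (hE : Φ.isom ≤ EG Φ) {J : End F V} {δ : F} (δ0 : δ ≠ 0)
    (sk : ∀ u v, Φ.B (J u) v = -Φ.B u (J v)) (JJ : ∀ v, J (J v) = δ • v)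
    (hH : ∀ g, g ∈ H ↔ ∃ ε : F, ε * ε = 1 ∧ ∀ v, g (J v) = ε • J (g v)) : Geo.IsMaximalIn (EG Φ) (H ⊓ EG Φ) := by
  have h2 := h.two
  refine max_crit inf_le_right ?_ fun X h3 h4 g hg hg' => by_contra fun hne => hg' ⟨?_, h4 hg⟩
  · obtain ⟨x, x0⟩ := h.ex0
    obtain ⟨g, hg⟩ := h.sp.exists_tv h.hn x 1
    refine ⟨g, IsE_mem_EG hg, fun hm => ?_⟩
    obtain ⟨ε, -, e⟩ := (hH g).1 hm.1
    have ga : ∀ v, g v = v - Φ.B x v • x := fun v => by rw [hg.app]; simp [sub_eq_add_neg]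
    obtain ⟨v, -, v0, hv⟩ := exists_mem_notMem (Φ := Φ) (U := ⊤) (S := ⊥) ![x, J x]
      (by rw [top_sup_eq, finrank_top, finrank_bot, h.d4]; omega)
    have v1 : Φ.B x v = 0 := hv 0
    have v2 : Φ.B x (J v) = 0 := by rw [← neg_eq_zero, ← sk]; exact hv 1
    have e1 := congrArg J (e v)
    simp only [ga, v1, v2, zero_smul, sub_zero, map_smul, JJ, smul_smul] at e1
    obtain rfl : ε = 1 := mul_right_cancel₀ δ0 ((smul_left_injective F v0 e1).symm.trans (one_mul _).symm)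
    obtain ⟨y, hy⟩ := h.hn.exists_eq_one x0
    have e2 := e y
    simp only [ga, hy, one_smul, map_sub, sub_right_inj] at e2
    have e3 := sk x y
    rw [← e2, Φ.B_smul_left, hy] at e3
    have e4 := JJ x
    rw [← e2, show Φ.B x (J y) = 0 from mul_left_cancel₀ h2 (by simp at e3; linear_combination e3)] at e4
    simp [eq_comm (a := (0 : V)), δ0, x0] at e4
  have hi : X ≤ Φ.isom := h4.trans EG_le_isom
  obtain ⟨b₁, q1, a1⟩ := h.exists_anti δ0 sk JJ
  obtain ⟨b₂, e2⟩ := h.surj (J * ω b₁) (fun u v => by simp [sk, h.adj, a1]) (mul_left_cancel₀ h2 (by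
    have := LinearMap.trace_mul_comm F (ω b₁) J
    rw [show ω b₁ * J = -(J * ω b₁) from LinearMap.ext a1, map_neg] at this
    linear_combination -this))
  replace e2 : ∀ v, ω b₂ v = J (ω b₁ v) := fun v => by simp [e2]
  have q2 : Q b₂ = -δ * Q b₁ := h.scal fun v => by rw [← h.sq]; simp [e2, a1, h.sq, JJ, smul_smul, mul_comm]
  have o : polar Q b₁ b₂ = 0 := h.scal fun v => by
    have := h.anti b₁ b₂ v
    rw [e2, e2, a1] at this
    linear_combination (norm := module) -this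
  have eJ : ∀ v, J v = (Q b₁)⁻¹ • ω b₂ (ω b₁ v) := fun v => by simp [e2, h.sq, smul_smul, q1]
  have sg : ∀ u, pA Q b₁ b₂ u ∨ u ∈ pB F b₁ b₂ → ∃ ε : F, ε * ε = 1 ∧ ∀ v, ω u (J v) = ε • J (ω u v) := by
    rintro u (hu | hu)
    · exact ⟨1, by simp, fun v => by simp [eJ, h.anti u, polar_comm Q u, hu.1, hu.2]⟩
    · obtain ⟨x, y, rfl⟩ := Submodule.mem_span_pair.1 hu
      exact ⟨-1, by simp, fun v => by simp [a1, e2, add_comm]⟩
  have hY : PY (ind Q ω X) b₁ b₂ := by
    refine ⟨h.hQ, h2, h5, h.d5, q1, by simp [q2, δ0, q1], o, fun v hv q => ?_, fun u v hu hv e q => ?_⟩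
    · obtain ⟨g, hg, e, r⟩ := h.mk1 q
      obtain ⟨ε, e1, e3⟩ := sg v hv
      exact ⟨-1, by simp, g, h3 ⟨(hH g).2 ⟨ε, e1, fun x => by rw [e, e, e3]⟩, hE hg⟩, r⟩
    · obtain ⟨g, hg, e', r⟩ := h.mk2 e q
      obtain ⟨ε, e1, e3⟩ := sg u hu
      obtain ⟨η, e4, e5⟩ := sg v (.inl hv)
      exact ⟨1, by simp, g, h3 ⟨(hH g).2 ⟨ε * η, by linear_combination η * η * e1 + e4, fun x => by
        simp only [e', e5, map_smul, e3, smul_smul]; congr 1; ring⟩, hE hg⟩, r⟩
  have st := hY.main.resolve_left fun H => hne (h.win hi (h3 ⟨(hH _).2 ⟨1, by simp, by simp⟩, hE h.neg_mem⟩) H)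
  obtain ⟨k, hk⟩ := h.act (hi hg)
  have m : k ∈ ind Q ω X := ⟨1, by simp, g, hg, by simpa using hk⟩
  obtain ⟨α, β, k1⟩ := Submodule.mem_span_pair.1 (st k m b₁ (Submodule.subset_span (by simp)))
  obtain ⟨γ, ζ, k2⟩ := Submodule.mem_span_pair.1 (st k m b₂ (Submodule.subset_span (by simp)))
  have p0 := OG.map_polar k b₁ b₂
  rw [← k1, ← k2, o] at p0
  simp only [polar_add_left, polar_add_right, polar_smul_left, polar_smul_right, polar_self', o, polar_comm Q b₂ b₁,
    smul_eq_mul] at p0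
  have p1 : γ * α * Q b₁ + ζ * β * Q b₂ = 0 := mul_left_cancel₀ h2 (by linear_combination p0)
  have e : ∀ v, g (J v) = (ζ * α - γ * β) • J (g v) := fun v => by
    rw [eJ, map_smul, ← hk, ← hk, ← k1, ← k2, eJ]
    simp only [map_add, map_smul, LinearMap.add_apply, LinearMap.smul_apply, h.sq, h.anti b₁ b₂, o]
    linear_combination (norm := module) ((Q b₁)⁻¹ * p1) • g v
  refine (hH g).2 ⟨_, mul_right_cancel₀ δ0 (h.scal fun v => ?_), e⟩
  obtain ⟨v, rfl⟩ := g.surjective v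
  have := e (J v)
  rw [JJ, e, map_smul, map_smul, JJ] at this
  rw [one_mul, this, smul_smul, smul_smul]

theorem max_frame [Finite F] (hp : ∀ c : F, ∃ n : ℕ, (n : F) = c) (hE : Φ.isom ≤ EG Φ) {e : Fin 5 → W}
    (q : ∀ i, Q (e i) = 1) (o : ∀ i j, i ≠ j → polar Q (e i) (e j) = 0)
    (h1 : ∀ g ∈ Φ.isom, (∀ i, ∃ j, ∃ ε : F, ε * ε = 1 ∧ ∀ v, g (ω (e i) v) = ε • ω (e j) (g v)) → g ∈ H)
    (h0 : ∀ g ∈ H, ∀ i j, ∃ ε : F, ε * ε = 1 ∧
      ∀ v, g (ω (e i) (g.symm (ω (e j) v))) = ε • ω (e j) (g (ω (e i) (g.symm v)))) :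
    Geo.IsMaximalIn (EG Φ) (H ⊓ EG Φ) := by
  have h2 := h.two
  have on : ∀ i j, polar Q (e i) (e j) = if i = j then 2 else 0 := fun i j => by
    split_ifs with hij
    · rw [hij, polar_self', q, mul_one]
    · exact o i j hij
  have fo : Fo Q e := ⟨h2, hp, on, fun v => by
    have := on_zero h.hQ h2 (v := e) (by simp [q]) o (by simp [h.d5]) (on_proj h2 (by simp [q]) o v)
    simp only [q, mul_one] at this
    exact (sub_eq_zero.1 this).symm⟩
  have mon : ∀ (k : OG Q) (ε : F), ε * ε = 1 → ∀ g ∈ Φ.isom, (∀ w v, ω (k.1 w) (g v) = ε • g (ω w v)) → Mon e k →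
      g ∈ H ⊓ EG Φ := fun k ε e1 g hg r m => ⟨h1 g hg fun i => by
    obtain ⟨j, η, e2, e3⟩ := m i
    refine ⟨j, ε * η, by linear_combination η * η * e1 + e2, fun v => ?_⟩
    have := r (e i) v
    rw [e3, map_smul, LinearMap.smul_apply] at this
    rw [mul_smul, this, smul_smul, e1, one_smul], hE hg⟩
  refine max_crit inf_le_right ?_ fun X h3 h4 g hg hg' => by_contra fun hne => hg' ?_
  · obtain ⟨y, hy⟩ : ∃ y, y = (2 : F)⁻¹ • (e 0 + e 1 + e 2 + e 3) := ⟨_, rfl⟩
    have c : polar Q (e 0) y = 1 ∧ polar Q (e 1) y = 1 ∧ polar Q (e 2) y = 1 ∧ polar Q (e 3) y = 1 := by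
      simp [hy, on, h2]
    have qy : Q y = 1 := mul_left_cancel₀ h2 (by
      rw [← polar_self']; nth_rw 1 [hy]; simp [c]; field_simp; ring)
    obtain ⟨g, hg, -, r⟩ := h.mk1 qy
    refine ⟨g, hE hg, fun hm => ?_⟩
    obtain ⟨ε, e1, e2⟩ := h0 g hm.1 0 1
    have e3 : ∀ v, g (ω (e 0) (g.symm v)) = ω (y - e 0) v := fun v => by
      have := r (e 0) (g.symm v)
      rw [refl_apply, qy, polar_comm, c.1, LinearEquiv.apply_symm_apply] at this
      simp only [inv_one, mul_one, one_smul, map_sub, LinearMap.sub_apply] at this ⊢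
      linear_combination (norm := module) this
    have p1 : polar Q (y - e 0) (e 1) = 1 := by simp [polar_comm Q y, c, on]
    simp only [e3, h.anti (y - e 0) (e 1), p1] at e2
    rcases mul_self_eq_one_iff.1 e1 with rfl | rfl
    · have := congrArg (polar Q (e 2)) (h.inj (u := e 1) (w := (2 : F) • (y - e 0)) fun v => by
        have := congrArg (ω (e 1)) (e2 v)
        simp only [map_sub (ω (e 1)), map_smul, h.sq, q, LinearMap.smul_apply] at this ⊢
        linear_combination (norm := module) this)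
      simp [on, c] at this
      exact h2 this.symm
    · exact one_ne_zero (h.scal (c := 1) (d := 0) fun v => by linear_combination (norm := module) e2 v)
  have hi : X ≤ Φ.isom := h4.trans EG_le_isom
  have hY : F5 (ind Q ω X) e := by
    refine ⟨fo, by simp, fun i => ?_, fun i j k l a b => ?_⟩
    · obtain ⟨g, hg, -, r⟩ := h.mk1 (q i)
      exact ⟨-1, by simp, g, h3 (mon _ _ (by simp) g hg r (fo.mon_e i)), r⟩
    · obtain ⟨g, hg, -, r⟩ := h.mk2 (u := e i - e j) (w := e k - e l) (by rw [fo.Q_sub a, fo.Q_sub b])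
        (by rwa [fo.Q_sub b])
      exact ⟨1, by simp, g, h3 (mon _ _ (by simp) g hg r ((fo.mon_sub a).mul (fo.mon_sub b))), r⟩
  obtain ⟨k, hk⟩ := h.act (hi hg)
  refine mon k 1 (by simp) g (hi hg) (by simpa using hk) (hY.mon (fun H => hne (h.win hi (h3 ⟨h1 _ h.neg_mem fun i =>
    ⟨i, 1, by simp, by simp⟩, hE h.neg_mem⟩) fun p a => ?_)) ⟨1, by simp, g, hg, by simpa using hk⟩)
  by_cases hpa : Q p = 0 ∧ polar Q p a = 0
  · obtain ⟨k, hk, e⟩ := H (IsE_mem_EG (isE_eich hpa.1 hpa.2))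
    rwa [← show k = eich Q p a from Subtype.ext e]
  · rw [eich_of_not hpa]; exact one_mem _

end Spin

end Cfsg.Agent.Root.Mx
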