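import Cfsg.Agent.Low.Sp4b
import Cfsg.Agent.Low.GU5
import Cfsg.Agent.Elu.XsTool

/-! The orthogonal module of the standard symplectic space of dimension four (`spin_std`) and the matrix-level
statements `pair_sp4`, `gu_sp2`, `xs_max_sp4`. -/

set_option autoImplicit false

namespace Cfsg.Agent.Root.Mx

open Cfsg Cfsg.Agent.Geom Cfsg.Agent.AutCl Module QuadraticMap Matrix

variable (F : Type*) [Field F]

/-- The form `x² + y z - b c`. -/
noncomputable def Q5 : QuadraticForm F (Fin 5 → F) := proj 0 0 + proj 1 2 - proj 3 4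

/-- The self-adjoint matrices of trace zero. -/
def M5 : (Fin 5 → F) →ₗ[F] Matrix (Fin 2 ⊕ Fin 2) (Fin 2 ⊕ Fin 2) F where
  toFun w := fromBlocks !![w 0, w 1; w 2, -w 0] !![0, w 3; -w 3, 0] !![0, w 4; -w 4, 0] !![w 0, w 2; w 1, -w 0]
  map_add' u w := by ext (i | i) (j | j) <;> fin_cases i <;> fin_cases j <;> simp <;> ring
  map_smul' c w := by ext (i | i) (j | j) <;> fin_cases i <;> fin_cases j <;> simp

variable {F}

theorem spin_std (h2 : (2 : F) ≠ 0) : Spin (sympFormed 2 F) (Q5 F) (toLin'.toLinearMap ∘ₗ M5 F) := by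
  refine ⟨⟨fun _ => rfl, rfl, rfl⟩, sympFormed_nondeg 2 F, h2, by simp, fun x hx => ?_, by simp, fun w v => ?_,
    fun w u v => ?_, fun w => ?_, fun a ha ht => ?_⟩
  · have h0 := hx (Pi.single 0 1)
    have h1 := hx (Pi.single 1 1)
    have h3 := hx (Pi.single 2 1)
    have h4 := hx (Pi.single 3 1)
    have h5 := hx (Pi.single 4 1)
    simp [ofQuad_B_apply, polar, Q5] at h0 h1 h3 h4 h5
    ext i
    fin_cases i <;> simp
    · exact mul_left_cancel₀ h2 (by linear_combination h0)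
    · linear_combination h3
    · linear_combination h1
    · linear_combination -h5
    · linear_combination -h4
  · ext (i | i) <;> fin_cases i <;> simp [M5, Q5, mulVec, dotProduct] <;> ring
  · simp [M5, mulVec, dotProduct, sympForm_apply]; ring
  · simp [M5, trace_toLin'_eq, trace]
  · obtain ⟨a, rfl⟩ := toLin'.surjective a
    have k := fun i j => ha (Pi.single i 1) (Pi.single j 1)
    simp only [sympFormed_B, sympForm_apply, toLin'_apply, mulVec_single_one, Fin.sum_univ_two] at k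
    simp [trace_toLin'_eq, trace] at ht
    have k1 := k (.inl 0) (.inr 0)
    have k2 := k (.inl 0) (.inr 1)
    have k3 := k (.inl 1) (.inr 0)
    have k4 := k (.inl 1) (.inr 1)
    have k5 := k (.inl 0) (.inl 0)
    have k6 := k (.inl 0) (.inl 1)
    have k7 := k (.inl 1) (.inl 1)
    have k8 := k (.inr 0) (.inr 0)
    have k9 := k (.inr 0) (.inr 1)
    have k0 := k (.inr 1) (.inr 1)
    simp [Pi.single_apply] at k1 k2 k3 k4 k5 k6 k7 k8 k9 k0
    refine ⟨![a (.inl 0) (.inl 0), a (.inl 0) (.inl 1), a (.inl 1) (.inl 0), a (.inl 0) (.inr 1), a (.inr 0) (.inl 1)],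
      congrArg toLin' ?_⟩
    have e : a (.inl 1) (.inl 1) = -a (.inl 0) (.inl 0) := mul_left_cancel₀ h2 (by linear_combination ht + k1 + k4)
    have z : ∀ x : F, x = -x → x = 0 := fun x e => mul_left_cancel₀ h2 (by linear_combination e)
    ext (i | i) (j | j) <;> fin_cases i <;> fin_cases j <;>
      simp [M5, e, ← k1, ← k2, ← k3, ← k4, k6, neg_eq_iff_eq_neg.1 k9, z _ k5, z _ k7, z _ k8.symm, z _ k0.symm]

theorem pair_sp4 [Fintype F] (hodd : Odd (Fintype.card F)) (h5 : 5 ≤ Fintype.card F)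
    (D : Fin 2 → Submodule F (Fin 2 ⊕ Fin 2 → F)) (hD : Geo.IsMDecomposition 2 D)
    (hts : ∀ i, Geo.IsTotallySingularFor (sympForm 2 F) (D i)) :
    Geo.IsMaximalIn (spGL 2 F) (Geo.decompositionStabilizer D ⊓ spGL 2 F) := by
  have h2 := two_ne_zero_of_odd_card hodd
  replace hD := dec_of hD
  have hc := hD.isCompl
  have ht : ∀ i, ∀ x ∈ D i, ∀ y ∈ D i, (sympFormed 2 F).B x y = 0 := fun i x hx y hy =>
    (sympFormed_B 2 F x y).trans (hts i x hx y hy)
  obtain ⟨J, j0, j1⟩ : ∃ J : End F (Fin 2 ⊕ Fin 2 → F), (∀ x ∈ D 0, J x = x) ∧ ∀ x ∈ D 1, J x = -x :=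
    ⟨LinearMap.ofIsCompl hc (D 0).subtype (-(D 1).subtype), fun x hx => LinearMap.ofIsCompl_apply_left hc ⟨x, hx⟩,
      fun x hx => LinearMap.ofIsCompl_apply_right hc ⟨x, hx⟩⟩
  have m : ∀ x, (J x = x → x ∈ D 0) ∧ (J x = -x → x ∈ D 1) := fun x => by
    obtain ⟨⟨u, hu⟩, ⟨w, hw⟩, rfl⟩ := exists_add_of_isCompl hc x
    simp only [map_add, j0 u hu, j1 w hw]
    refine ⟨fun e => ?_, fun e => ?_⟩
    · rwa [show w = 0 from smul_right_injective _ h2 (by linear_combination (norm := module) -e), add_zero]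
    · rwa [show u = 0 from smul_right_injective _ h2 (by linear_combination (norm := module) e), zero_add]
  refine isMaximalIn_inf (glEquiv _ F) (H' := dstab D) ((spin_std h2).max_skew (J := J) (δ := 1)
    (by rwa [Nat.card_eq_fintype_card]) (EG_symp 2).ge one_ne_zero (fun u v => ?_) (fun v => ?_) fun g => ⟨fun ⟨σ, hσ⟩ => ?_,
      fun ⟨ε, e1, e⟩ => hD.mem_dstab ?_⟩) (fun g => mem_spGL) fun g => Iff.rfl
  · obtain ⟨⟨a, ha⟩, ⟨b, hb⟩, rfl⟩ := exists_add_of_isCompl hc u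
    obtain ⟨⟨c, hc'⟩, ⟨d, hd⟩, rfl⟩ := exists_add_of_isCompl hc v
    simp only [map_add, map_neg, LinearMap.add_apply, LinearMap.neg_apply, j0 a ha, j0 c hc', j1 b hb, j1 d hd,
      ht 0 a ha c hc', ht 1 b hb d hd]
    ring
  · obtain ⟨⟨a, ha⟩, ⟨b, hb⟩, rfl⟩ := exists_add_of_isCompl hc v
    simp [j0 a ha, j1 b hb]
  · have k : ∀ i j, σ i = j → ∀ x ∈ D i, g x ∈ D j := fun i j e x hx => e ▸ hσ i ▸ ⟨x, hx, rfl⟩
    rcases (by clear k hσ; revert σ; decide : (σ 0 = 0 ∧ σ 1 = 1) ∨ (σ 0 = 1 ∧ σ 1 = 0)) with e | e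
    · refine ⟨1, by simp, fun v => ?_⟩
      obtain ⟨⟨a, ha⟩, ⟨b, hb⟩, rfl⟩ := exists_add_of_isCompl hc v
      simp [j0 a ha, j1 b hb, j0 _ (k _ _ e.1 a ha), j1 _ (k _ _ e.2 b hb)]
    · refine ⟨-1, by simp, fun v => ?_⟩
      obtain ⟨⟨a, ha⟩, ⟨b, hb⟩, rfl⟩ := exists_add_of_isCompl hc v
      simp [j0 a ha, j1 b hb, j1 _ (k _ _ e.1 a ha), j0 _ (k _ _ e.2 b hb), add_comm]
  · rcases mul_self_eq_one_iff.1 e1 with rfl | rfl
    · exact Fin.forall_fin_two.2 ⟨⟨0, fun x hx => (m _).1 (by simpa [j0 x hx] using (e x).symm)⟩, 1, fun x hx =>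
        (m _).2 (by simpa [j1 x hx] using (e x).symm)⟩
    · exact Fin.forall_fin_two.2 ⟨⟨1, fun x hx => (m _).2 (by simpa [j0 x hx, neg_eq_iff_eq_neg] using (e x).symm)⟩,
        0, fun x hx => (m _).1 (by simpa [j1 x hx] using (e x).symm)⟩

theorem gu_sp2 [Fintype F] (hodd : Odd (Fintype.card F)) (h5 : 5 ≤ Fintype.card F)
    (K : Subalgebra F (Matrix (Fin 2 ⊕ Fin 2) (Fin 2 ⊕ Fin 2) F)) (hK : Geo.IsFieldSubalgebra 2 K)
    (hac : Geo.IsAdjointClosedFor (sympForm 2 F) K) (hnsa : ¬ Geo.IsSelfAdjointFor (sympForm 2 F) K) :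
    Geo.IsMaximalIn (spGL 2 F) (Geo.subalgebraNormalizer K ⊓ spGL 2 F) := by
  refine with_field hK fun K' _ _ _ _ h2 h3 h4 h6 => ?_
  obtain ⟨τ, Ψ, L, h, t1, t3, t2, -⟩ := exists_HS (sympFormed_nondeg 2 F) h2 (fun k => by
    obtain ⟨a, ha, e⟩ := h4 k
    obtain ⟨b, hb, e'⟩ := hac a ha
    obtain ⟨k', e''⟩ := (h3 b).1 hb
    exact ⟨k', fun u v => by simp only [sympFormed_B, ← e, ← e'', e']⟩) fun hc => hnsa fun a ha u v => by
      obtain ⟨k, e⟩ := (h3 a).1 ha
      simpa [e] using hc k u v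
  have two := two_ne_zero_of_odd_card hodd
  obtain ⟨k, hk⟩ : ∃ k, τ k ≠ k := by_contra fun hx => t1 (RingHom.ext (by simpa using hx))
  obtain ⟨θ, θ0, hθ⟩ : ∃ θ : K', θ ≠ 0 ∧ τ θ = -θ := ⟨k - τ k, sub_ne_zero.2 hk.symm, by rw [map_sub, Ψ.σσ, neg_sub]⟩
  have θne : τ θ ≠ θ := fun e => θ0 (mul_left_cancel₀ (a := (2 : K')) (by
    rw [← map_ofNat (algebraMap F K')]; simpa using two) (by linear_combination hθ - e))
  obtain ⟨δ, hδ⟩ := HS.fixed h2 t2 θne (k := θ * θ) (by rw [map_mul, hθ]; ring)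
  refine isMaximalIn_inf (glEquiv _ F) ((spin_std two).max_skew (J := Algebra.lsmul F F _ θ) (δ := δ)
    (by rwa [Nat.card_eq_fintype_card]) (EG_symp 2).ge (by rintro rfl; simp [θ0, eq_comm (a := (0 : K'))] at hδ)
    (fun u v => ?_) (fun v => ?_) fun g => ?_) (fun g => mem_spGL) h6
  · simp only [Algebra.lsmul_coe, h.hB, Ψ.B_smul_left, hθ, map_smul, smul_eq_mul, neg_mul, map_neg]
  · simp only [Algebra.lsmul_coe, smul_smul, ← hδ, algebraMap_smul]
  simp only [Algebra.lsmul_coe]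
  rw [mem_normG_scal]
  refine ⟨fun hg => ?_, fun ⟨ε, _, e⟩ k => ?_⟩
  · obtain ⟨k, hk⟩ := hg θ
    obtain ⟨x, x0⟩ := exists_ne (0 : Fin 2 ⊕ Fin 2 → F)
    have := (hk (θ • x)).symm
    rw [hk, smul_smul, smul_smul, ← hδ, algebraMap_smul, map_smul, ← algebraMap_smul K' δ, hδ] at this
    rcases mul_self_eq_mul_self_iff.1 (smul_left_injective K' (by simpa using x0) this) with rfl | rfl
    exacts [⟨1, by simp, by simpa using hk⟩, ⟨-1, by simp, by simpa using hk⟩]
  · obtain ⟨α, β, rfl⟩ := exists_coord h2 (J := θ) (fun c e => θne (by rw [← e, t2])) k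
    exact ⟨algebraMap F K' α + algebraMap F K' (β * ε) * θ, fun v => by
      simp only [add_smul, mul_smul, algebraMap_smul, map_add, map_smul, e]⟩

open Elu in
theorem Spin.max_xs [Finite F] {V : Type*} [AddCommGroup V] [Module F V] {W : Type*} [AddCommGroup W] [Module F W]
    {Φ : Formed (RingHom.id F) V} {Q : QuadraticForm F W} {ω : W →ₗ[F] End F V} {H : Subgroup (V ≃ₗ[F] V)}
    [FiniteDimensional F V] [FiniteDimensional F W] (h : Spin Φ Q ω) (hp : ∀ c : F, ∃ n : ℕ, (n : F) = c)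
    (hE : Φ.isom ≤ EG Φ) {R : Subgroup (End F V)ˣ} (hx : Xs R) (hR : ∀ x ∈ R, Iso Φ x.1) {a b c d : (End F V)ˣ}
    (ha : a ∈ R) (hb : b ∈ R) (hc : c ∈ R) (hd : d ∈ R) (G : Gam a.1 b.1 c.1 d.1)
    (hH : ∀ g, g ∈ H ↔ Nm R (g : V →ₗ[F] V)) : Geo.IsMaximalIn (EG Φ) (H ⊓ EG Φ) := by
  obtain ⟨r, r4, m, s, an⟩ : ∃ r : Fin 5 → (End F V)ˣ, r 4 = r 0 * r 1 * r 2 * r 3 ∧ (∀ i, r i ∈ R) ∧
      (∀ i, r i * r i = 1) ∧ ∀ i j, i ≠ j → r i * r j = -(r j * r i) := by
    have := G.r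
    refine ⟨![a, b, c, d, a * b * c * d], rfl, by
      simp [Fin.forall_fin_succ, ha, hb, hc, hd, mul_mem (mul_mem (mul_mem ha hb) hc) hd], fun i => Units.ext ?_,
      fun i j hij => Units.ext ?_⟩
    · fin_cases i <;> simp [mul_assoc, this]
    · fin_cases i <;> fin_cases j <;> simp [mul_assoc, this] at hij ⊢
  have s' : ∀ i v, (r i).1 ((r i).1 v) = v := fun i v => LinearMap.congr_fun (congrArg Units.val (s i)) v
  have an' : ∀ i j, i ≠ j → ∀ v, (r i).1 ((r j).1 v) = -(r j).1 ((r i).1 v) := fun i j hij v =>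
    LinearMap.congr_fun (congrArg Units.val (an i j hij)) v
  choose e he using fun i => h.surj (r i).1 (fun u v => by rw [← (hR _ (m i)).1, s']) (by
    obtain ⟨j, hj⟩ := exists_ne i
    exact hx.trace_anti (y := r j) (congrArg Units.val (an j i hj)))
  have q : ∀ i, Q (e i) = 1 := fun i => h.scal fun v => by rw [← h.sq, he, s', one_smul]
  have o : ∀ i j, i ≠ j → polar Q (e i) (e j) = 0 := fun i j hij => h.scal fun v => by
    have := h.anti (e i) (e j) v
    rw [he, he, an' i j hij] at this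
    linear_combination (norm := module) -this
  refine h.max_frame hp hE q o (fun g hg H => (hH g).2 ⟨LinearMap.GeneralLinearGroup.ofLinearEquiv g, ?_, rfl⟩)
    fun g hg i j => ?_
  swap
  · obtain ⟨u, hu, e1⟩ := (hH g).1 hg
    have e2 : ∀ v, g (ω (e i) (g.symm v)) = (u * r i * u⁻¹).1 v := fun v => by
      obtain ⟨v, rfl⟩ := g.surjective v
      have : u⁻¹.1 (g v) = v := by rw [show g v = u.1 v by rw [e1]; rfl, ← End.mul_apply, Units.inv_mul, End.one_apply]
      simp only [Units.val_mul, End.mul_apply, this, he, LinearEquiv.symm_apply_apply, e1, LinearEquiv.coe_coe]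
    simp only [e2, he j]
    rcases hx.comm (hu _ (m i)) (m j) with e3 | e3
    · exact ⟨1, by simp, fun v => by rw [one_smul]; exact LinearMap.congr_fun (congrArg Units.val e3) v⟩
    · exact ⟨-1, by simp, fun v => by rw [neg_one_smul]; exact LinearMap.congr_fun (congrArg Units.val e3) v⟩
  generalize hu : LinearMap.GeneralLinearGroup.ofLinearEquiv g = u
  have ug : ∀ v, u.1 v = g v := fun v => by rw [← hu]; rfl
  let S := R.comap (MulAut.conj u).toMonoidHom
  have n1 : -1 ∈ R := by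
    rw [show (-1 : (End F V)ˣ) = r 0 * r 1 * (r 0 * r 1) by
      rw [mul_assoc, ← mul_assoc (r 1), an 1 0 (by decide), neg_mul, mul_assoc, s, mul_one, mul_neg, s]]
    exact mul_mem (mul_mem (m _) (m _)) (mul_mem (m _) (m _))
  have mS : ∀ i, r i ∈ S := fun i => by
    obtain ⟨j, ε, e1, e2⟩ := H i
    change u * r i * u⁻¹ ∈ R
    rcases mul_self_eq_one_iff.1 e1 with rfl | rfl
    · rw [show u * r i = r j * u from Units.ext (LinearMap.ext fun v => by simpa [ug, he] using e2 v),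
        mul_inv_cancel_right]
      exact m j
    · rw [show u * r i = -1 * r j * u from Units.ext (LinearMap.ext fun v => by simpa [ug, he] using e2 v),
        mul_inv_cancel_right]
      exact mul_mem n1 (m j)
  have st : ∀ x ∈ R, ∀ i, i ≠ 4 → ∃ y ∈ S ⊓ R, Commute (x * y) (r i) ∧ ∀ j, j ≠ i → j ≠ 4 → Commute y (r j) :=
    fun x hx' i hi => by
      rcases hx.comm hx' (m i) with e1 | e1
      · exact ⟨1, one_mem _, by rw [mul_one]; exact e1, fun _ _ _ => Commute.one_left _⟩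
      refine ⟨r i * r 4, mul_mem ⟨mS _, m _⟩ ⟨mS _, m _⟩, ?_, fun j h1 h2 => ?_⟩
      · change _ * _ = _ * _
        rw [mul_assoc, mul_assoc, an 4 i hi.symm, ← mul_assoc (r i) x, neg_eq_iff_eq_neg.2 e1 |>.symm]
        simp only [mul_neg, neg_mul, mul_assoc]
      · change _ * _ = _ * _
        rw [mul_assoc, an 4 j h2.symm, mul_neg, ← mul_assoc, an i j h1.symm, neg_mul, neg_neg, mul_assoc]
  intro x hx'
  obtain ⟨y0, m0, c0, d0⟩ := st x hx' 0 (by decide)
  obtain ⟨y1, m1, c1, d1⟩ := st _ (mul_mem hx' m0.2) 1 (by decide)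
  obtain ⟨y2, m2, c2, d2⟩ := st _ (mul_mem (mul_mem hx' m0.2) m1.2) 2 (by decide)
  obtain ⟨y3, m3, c3, d3⟩ := st _ (mul_mem (mul_mem (mul_mem hx' m0.2) m1.2) m2.2) 3 (by decide)
  have mz := mul_mem (mul_mem (mul_mem (mul_mem hx' m0.2) m1.2) m2.2) m3.2
  have z0 := ((c0.mul_left (d1 0 (by decide) (by decide))).mul_left (d2 0 (by decide) (by decide))).mul_left
    (d3 0 (by decide) (by decide))
  have z1 := (c1.mul_left (d2 1 (by decide) (by decide))).mul_left (d3 1 (by decide) (by decide))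
  have z2 := c2.mul_left (d3 2 (by decide) (by decide))
  have zi : ∀ i, Commute (x * y0 * y1 * y2 * y3) (r i) := fun i => by
    fin_cases i
    exacts [z0, z1, z2, c3, r4 ▸ ((z0.mul_right z1).mul_right z2).mul_right c3]
  obtain ⟨t, ht⟩ := h.cent (a := (x * y0 * y1 * y2 * y3).1) fun w v => by
    rw [sub_eq_zero.1 (on_zero h.hQ h.two (v := e) (by simp [q]) o (by simp [h.d5]) (on_proj h.two (by simp [q]) o w))]
    simp only [map_sum, map_smul, LinearMap.sum_apply, LinearMap.smul_apply, he]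
    exact Finset.sum_congr rfl fun i _ => congrArg _ (LinearMap.congr_fun (congrArg Units.val (zi i).eq) v)
  have mz' : x * y0 * y1 * y2 * y3 ∈ S := by
    change u * _ * u⁻¹ ∈ R
    rwa [show u * (x * y0 * y1 * y2 * y3) = x * y0 * y1 * y2 * y3 * u from Units.ext (LinearMap.ext fun v => by
      rw [Units.val_mul, Units.val_mul _ u, End.mul_apply, End.mul_apply, ht, ht, map_smul]), mul_inv_cancel_right]
  rwa [S.mul_mem_cancel_right m3.1, S.mul_mem_cancel_right m2.1, S.mul_mem_cancel_right m1.1,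
    S.mul_mem_cancel_right m0.1] at mz'

open Elu in
theorem xs_max_sp4 [Fintype F] (hodd : Odd (Fintype.card F)) (p : ℕ) (R : Subgroup (GL (Fin 2 ⊕ Fin 2) F))
    (hp : p.Prime) (hF : Fintype.card F = p) (hs : Geo.IsSymplecticTypeGroup 2 R)
    (hi : Geo.ActsAbsolutelyIrreducibly (Geo.matrixSet R)) (hR : R ≤ spGL 2 F) (h32 : Nat.card R = 32)
    (hZ : Nat.card (Subgroup.center R) = 2) (hm : Geo.IsOfMinusType 2 R) :
    Geo.IsMaximalIn (spGL 2 F) (Geo.subgroupNormalizer R ⊓ spGL 2 F) := by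
  have h2 := two_ne_zero_of_odd_card hodd
  have H := xs_of hs hi h2
  obtain ⟨a, ha, b, hb, c, hc, d, hd, G⟩ := H.exists_gam_minus (H.mi (minus_tl hm) (card_tl.trans h32))
    (card_center_tl.trans hZ) (card_tl.trans h32)
  refine isMaximalIn_inf (glEquiv _ F) (H' := (Geo.subgroupNormalizer R).map (glEquiv _ F).toMonoidHom)
    ((spin_std h2).max_xs (fun c => ?_) (EG_symp 2).ge H (inG_sp (F := F) 2 ▸ inG_of_le hR) ha hb hc hd G fun g => ?_)
    (fun g => mem_spGL) fun g => (Subgroup.mem_map_iff_mem (glEquiv _ F).injective).symm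
  · have : Fact (Nat.card F).Prime := ⟨by rwa [Nat.card_eq_fintype_card, hF]⟩
    obtain ⟨n, hn⟩ := mem_powers_of_prime_card (G := Multiplicative F) (p := Nat.card F) rfl
      (g := Multiplicative.ofAdd 1) (g' := Multiplicative.ofAdd c) (by simp)
    exact ⟨n, by simpa [← ofAdd_nsmul] using hn⟩
  · rw [← inG_nm]
    exact exists_congr fun k => and_congr_right fun _ => by
      rw [← coe_glEquiv]; exact LinearEquiv.toLinearMap_injective.eq_iff.symm

end Cfsg.Agent.Root.Mx
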