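import Cfsg.Agent.Low.Sp6a
import Cfsg.Agent.Low.GU5

/-! Symplectic groups in small dimension, II: overgroups `U3` of `GU₃(q)` in `Sp₆(q)`, `q` odd; the stabiliser of an
isotropic point over the extension field normalises the field (`U3.line`). -/

set_option autoImplicit false

namespace Cfsg.Agent.Root.Mx

open Cfsg.Agent.Geom Cfsg.Agent.AutCl Module

variable {F K : Type*} [Field F] [Field K] [Algebra F K] {V : Type*} [AddCommGroup V] [Module F V]
  [Module K V] [IsScalarTower F K V] {τ : K →+* K} {Φ : Formed (RingHom.id F) V} {Ψ : Formed τ V}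
  {L : K →ₗ[F] F} {θ : K} {X : Subgroup (V ≃ₗ[F] V)}

/-- An overgroup `X` of `GU₃(q)` in `Sp₆(q)`. -/
structure U3 (Φ : Formed (RingHom.id F) V) (Ψ : Formed τ V) (L : K →ₗ[F] F) (θ : K)
    (X : Subgroup (V ≃ₗ[F] V)) : Prop extends HS Φ Ψ L where
  sp : IsSp Φ
  h2 : (2 : F) ≠ 0
  rk : finrank K V = 3
  hε : Ψ.ε = 1
  hf : ∀ c, τ (algebraMap F K c) = algebraMap F K c
  θ0 : θ ≠ 0
  hθ : τ θ = -θ
  iso : X ≤ Φ.isom
  mem : ∀ u ∈ Ψ.isom, u.restrictScalars F ∈ X

namespace U3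
variable (h : U3 Φ Ψ L θ X)
include h

theorem two : (2 : K) ≠ 0 := by rw [← map_ofNat (algebraMap F K)]; simpa using h.h2

theorem θne : τ θ ≠ θ := fun e => h.θ0 (mul_left_cancel₀ h.two (by linear_combination h.hθ - e))

theorem τne : τ ≠ RingHom.id K := fun e => h.θne (by rw [e]; rfl)

theorem τ0 : Ψ.τ = 0 := by
  have := Ψ.τσ θ
  rw [← sub_eq_zero, ← mul_sub, mul_eq_zero, sub_eq_zero] at this
  exact this.resolve_right h.θne

theorem Q0 (x : V) : Ψ.Q x = 0 := Ψ.Q_eq_zero h.τne x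

theorem coord (k : K) : ∃ α β : F, k = algebraMap F K α + algebraMap F K β * θ :=
  exists_coord h.deg (fun c e => h.θne (by rw [← e, h.hf])) k

theorem sq : ∃ δ : F, algebraMap F K δ = θ * θ :=
  HS.fixed h.deg h.hf h.θne (by rw [map_mul, h.hθ]; ring)

theorem symm (x y : V) : τ (Ψ.B x y) = Ψ.B y x := by rw [Ψ.symm x y, h.hε, one_mul]

theorem fin : FiniteDimensional K V := .of_finrank_pos (by rw [h.rk]; omega)

theorem Lτ (k : K) : L (τ k) = -L k := by
  haveI := h.fin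
  obtain ⟨x, -, x0⟩ := exists_notMem_of_lt (U := (⊤ : Submodule K V)) (R := ⊥) (by simp [h.rk])
  obtain ⟨y, hy⟩ := h.hn'.exists_eq_one x0
  have := h.sp.skew x (k • y)
  rwa [h.hB, h.hB, ← h.symm, Ψ.B_smul_right, hy, mul_one] at this

theorem L0 (c : F) : L (algebraMap F K c) = 0 := mul_left_cancel₀ h.h2 (by
  have := h.Lτ (algebraMap F K c)
  rw [h.hf] at this; linear_combination this)

theorem Lc (α β : F) : L (algebraMap F K α + algebraMap F K β * θ) = β * L θ := by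
  rw [map_add, h.L0, ← Algebra.smul_def, map_smul, zero_add, smul_eq_mul]

theorem Lθ : L θ ≠ 0 := fun e => by
  obtain ⟨k, hk⟩ := h.one
  obtain ⟨α, β, rfl⟩ := h.coord k
  simp [h.Lc, e] at hk

theorem Lext {a : K} (e : ∀ k, L (τ k * a) = 0) : a = 0 := by_contra fun a0 =>
  h.Lθ (by simpa [Ψ.σσ, a0] using e (τ (θ / a)))

theorem Bext {x v w : V} (e : ∀ k : K, Φ.B (k • x) v = Φ.B (k • x) w) : Ψ.B x v = Ψ.B x w :=
  sub_eq_zero.1 (h.Lext fun k => by
    have := e k
    rw [h.hB, h.hB, Ψ.B_smul_left, Ψ.B_smul_left] at this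
    rw [mul_sub, map_sub, this, sub_self])

theorem lin (φ : K →ₗ[F] K) : ∃ a b : K, ∀ k, φ k = a * k + b * τ k := by
  refine ⟨(φ 1 + φ θ / θ) / 2, (φ 1 - φ θ / θ) / 2, fun k => ?_⟩
  obtain ⟨α, β, rfl⟩ := h.coord k
  have := h.two
  have := h.θ0
  rw [map_add, ← Algebra.smul_def β, map_smul, Algebra.algebraMap_eq_smul_one α, map_smul]
  simp only [Algebra.smul_def, map_add, map_mul, h.hf, h.hθ, map_one]
  field_simp; ring

theorem win {x : V} (x0 : x ≠ 0) (hx : Ψ.Sing x) [FiniteDimensional F V] (hT : TT Φ X x) : EG Φ ≤ X := by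
  haveI := h.fin
  have all : ∀ v, Ψ.B v v = 0 → TT Φ X v := fun v hv => by
    rcases eq_or_ne v 0 with rfl | v0
    · exact h.sp.tt_zero
    obtain ⟨u, hu, rfl⟩ := h.hn'.witt_vec x0 v0 (hv.trans hx.2.symm) (by rw [h.Q0, h.Q0])
    exact IsSp.tt_conj h.iso hT (h.mem u hu)
  refine h.sp.EG_le fun v => ?_
  rcases eq_or_ne v 0 with rfl | v0
  · exact h.sp.tt_zero
  obtain ⟨y, hy⟩ := h.hn'.exists_isPair x0 hx
  obtain ⟨p, hp, e⟩ : ∃ p, Ψ.Sing p ∧ Ψ.B p v ≠ 0 := by
    by_contra! hc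
    exact v0 (h.hn'.right v (sing_induction hy hc fun a b ha hb => by rw [Ψ.B_add_left, ha, hb, add_zero]))
  set q := τ ((Ψ.B v v / 2 + θ) / Ψ.B p v) • p with hq
  have e1 : Ψ.B q v = Ψ.B v v / 2 + θ := by rw [hq, Ψ.B_smul_left, Ψ.σσ, div_mul_cancel₀ _ e]
  have e2 : Ψ.B q q = 0 := (hp.smul _).2
  have e3 : Ψ.B v q = Ψ.B v v / 2 - θ := by
    rw [← h.symm, e1, map_add, map_div₀, h.symm, h.hθ, map_ofNat, sub_eq_add_neg]
  obtain ⟨c, hc⟩ := HS.fixed h.deg h.hf h.θne (k := Ψ.B v v / 2) (by rw [map_div₀, h.symm, map_ofNat])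
  have := h.two
  simpa using IsSp.tt_shift h.iso (all (v - q) (by
    simp only [map_sub, LinearMap.sub_apply, e1, e2, e3]; field_simp; ring)) (all q e2) (by
    rw [h.hB, map_sub, e1, e2, sub_zero, ← hc, map_add, h.L0, zero_add]; exact h.Lθ)

variable [FiniteDimensional F V] (ne : ¬ EG Φ ≤ X) {x y m : V} (hp : Ψ.IsPair x y)
include ne hp

theorem zl {g : V ≃ₗ[F] V} (hg : g ∈ X) {a b : K} (e : ∀ v, g v = v + (a * Ψ.B x v + b * τ (Ψ.B x v)) • x) :
    b = 0 := by_contra fun b0 => by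
  haveI := h.fin
  have xx := hp.se.2
  have tv : ∀ a : K, τ a = -a → ∃ r ∈ X, ∀ v, r v = v + (a * Ψ.B x v) • x := fun a ha => by
    obtain ⟨r, hr⟩ := exists_isE h.hn' (a := 0) (d := -a) hp.se (by simp) (by simp [h.τ0])
      (by simp [h.hε, ha])
    exact ⟨_, h.mem r hr.mem_isom, fun v => by change r v = _; simp [hr.app]⟩
  let S : AddSubgroup K :=
    { carrier := {b | ∃ g ∈ X, ∀ v, g v = v + (b * τ (Ψ.B x v)) • x}
      zero_mem' := ⟨1, one_mem _, fun v => by simp⟩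
      add_mem' := fun ⟨g, hg, e⟩ ⟨g', hg', e'⟩ => ⟨g * g', mul_mem hg hg', fun v => by
        rw [LinearEquiv.mul_apply, e, e']; simp [xx, add_mul, add_smul]; abel⟩
      neg_mem' := fun ⟨g, hg, e⟩ => ⟨g⁻¹, inv_mem hg, fun v => g.injective (by
        rw [LinearEquiv.coe_inv, g.apply_symm_apply, e]; simp [xx])⟩ }
  have ha : τ a = -a := by
    have e1 := (h.iso hg).1 y (θ • y)
    have yx : Ψ.B y x = 1 := hp.fe.trans h.hε
    rw [e, e, h.hB, h.hB] at e1
    simp only [map_add, map_smul, LinearMap.add_apply, Ψ.B_smul_left, hp.ef, hp.sf.2, xx, yx, smul_eq_mul, mul_one,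
      mul_zero, map_one, map_zero, zero_add, add_zero, h.hθ] at e1
    have e2 := h.Lτ (a * θ)
    have e3 := h.Lτ (b * θ)
    rw [map_mul, h.hθ, mul_neg, map_neg, neg_inj] at e2 e3
    rw [mul_neg, map_neg, mul_add, map_add, mul_comm θ, mul_comm θ, e2, e3] at e1
    obtain ⟨α, β, e4⟩ := h.coord (a * θ)
    have : β = 0 := by
      rw [e4, h.Lc] at e1
      exact (mul_eq_zero.1 (mul_left_cancel₀ h.h2 (by linear_combination e1) : β * L θ = 0)).resolve_right h.Lθ
    have e5 := congrArg τ e4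
    rw [this, map_zero, zero_mul, add_zero] at e4 e5
    rw [h.hf, ← e4, map_mul, h.hθ] at e5
    exact mul_right_cancel₀ h.θ0 (by linear_combination -e5)
  have hb : b ∈ S := by
    obtain ⟨r, hr, er⟩ := tv (-a) (by rw [map_neg, ha])
    exact ⟨r * g, mul_mem hr hg, fun v => by
      rw [LinearEquiv.mul_apply, er, e]; simp [xx, add_smul]; abel⟩
  have sq : ∀ w : K, b * (w * w) ∈ S := fun w => by
    rcases eq_or_ne w 0 with rfl | w0
    · simp
    obtain ⟨g, hg, e⟩ := hb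
    let t := hp.torus (Units.mk0 w w0)
    have ht := h.mem t.1 t.2
    refine ⟨_, mul_mem (mul_mem ht hg) (inv_mem ht), fun v => ?_⟩
    obtain ⟨v, rfl⟩ := t.1.surjective v
    have e1 : t.1 x = w • x := hp.torus_left _
    have e2 : Ψ.B x v = τ w * Ψ.B x (t.1 v) := by rw [← t.2.1, e1, Ψ.B_smul_left]
    change t.1 (g (t.1.symm (t.1 v))) = _
    rw [t.1.symm_apply_apply, e, map_add, map_smul, e1, e2, map_mul, Ψ.σσ, smul_smul]
    congr 2; ring
  have all : ∀ k, k ∈ S := fun k => by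
    have := h.two
    convert sub_mem (sq ((k / b + 1) / 2)) (sq ((k / b - 1) / 2)) using 1
    field_simp; ring
  refine ne (h.win hp.left_ne_zero hp.se fun t => ?_)
  obtain ⟨T, hT⟩ := h.sp.exists_tv h.hn x t
  obtain ⟨g, hg, e⟩ := all (algebraMap F K (t * L θ) / (2 * θ))
  obtain ⟨r, hr, er⟩ := tv (-(algebraMap F K (t * L θ) / (2 * θ))) (by
    rw [map_neg, map_div₀, h.hf, map_mul τ, h.hθ, map_ofNat, mul_neg, div_neg])
  refine ⟨T, ?_, hT⟩
  rw [show T = r * g from LinearEquiv.ext fun v => ?_]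
  · exact mul_mem hr hg
  rw [LinearEquiv.mul_apply, er, e, hT.app, h.hB x v]
  obtain ⟨α, β, e⟩ := h.coord (Ψ.B x v)
  simp only [map_zero, LinearMap.zero_apply, smul_zero, sub_zero, zero_sub, map_add, map_smul, xx, e, h.Lc,
    map_mul, h.hf, h.hθ, add_zero, add_assoc, ← add_smul]
  rw [← algebraMap_smul K]
  congr 2
  have := h.two
  have := h.θ0
  simp only [map_neg, map_mul]
  field_simp; ring

omit ne [FiniteDimensional F V] in
theorem exists_m : ∃ m, Ψ.B x m = 0 ∧ Ψ.B y m = 0 ∧ Ψ.B m m ≠ 0 ∧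
    ∀ v, Ψ.B x v = 0 → v = Ψ.B y v • x + (Ψ.B m v / Ψ.B m m) • m := by
  haveI := h.fin
  have h1 := hp.finrank_pairPerp h.hn'
  obtain ⟨⟨m, hm⟩, m0, e⟩ := finrank_eq_one_iff'.1 (show finrank K (Ψ.pairPerp x y) = 1 by rw [h.rk] at h1; omega)
  have mm : Ψ.B m m ≠ 0 := fun e' => m0 (hp.nondeg_pairPerp h.hn' _ fun w => by
    obtain ⟨c, rfl⟩ := e w; simp [e'])
  refine ⟨m, (Ψ.mem_pairPerp.1 hm).1, (Ψ.mem_pairPerp.1 hm).2, mm, fun v hv => ?_⟩
  obtain ⟨c, hc⟩ := e ⟨_, hp.sub_mem_pairPerp v⟩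
  have hc : c • m = v - Ψ.B y v • x := by simpa [hv, h.hε] using congrArg Subtype.val hc
  have := congrArg (Ψ.B m) hc
  rw [map_smul, map_sub, map_smul, Ψ.B_eq_zero_symm (Ψ.mem_pairPerp.1 hm).1, smul_zero, sub_zero] at this
  rw [← this, smul_eq_mul, mul_div_cancel_right₀ _ mm, hc]; abel

theorem qk {g : V ≃ₗ[F] V} (hg : g ∈ X) (h1 : ∀ k : K, g (k • x) = k • x)
    (h2 : ∀ v, Ψ.B x v = 0 → g v - v ∈ K ∙ x) (v : V) : g (θ • v) = θ • g v := by
  haveI := h.fin
  obtain ⟨m, xm, ym, mm, hm⟩ := h.exists_m hp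
  have xx := hp.se.2
  have yx : Ψ.B y x = 1 := hp.fe.trans h.hε
  have mx := Ψ.B_eq_zero_symm xm
  have par : ∀ {g : V ≃ₗ[F] V} {w : V}, (∀ k : K, g (k • w) - k • w ∈ K ∙ x) →
      ∃ a b : K, ∀ k, g (k • w) = k • w + (a * k + b * τ k) • x := fun {g w} hw => by
    obtain ⟨a, b, e⟩ := h.lin ((Ψ.B y).restrictScalars F ∘ₗ ((g : V →ₗ[F] V) - 1) ∘ₗ
      (LinearMap.toSpanSingleton K V w).restrictScalars F)
    refine ⟨a, b, fun k => ?_⟩
    obtain ⟨c, hc⟩ := Submodule.mem_span_singleton.1 (hw k)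
    have : Ψ.B y (g (k • w) - k • w) = _ := e k
    rw [← this, ← hc, Ψ.B_smul_right, yx, mul_one, hc]; abel
  have key : ∀ g ∈ X, (∀ k : K, g (k • x) = k • x) → ∀ b : K, (∀ k : K, g (k • m) = k • m + (b * τ k) • x) →
      ∀ v, g (θ • v) = θ • g v := fun g hg h1 b h2 => by
    have gi := (h.iso hg).1
    have e1 : ∀ v, Ψ.B x (g v) = Ψ.B x v := fun v => h.Bext fun k => by rw [← gi (k • x) v, h1]
    have e2 : ∀ v, Ψ.B m (g v) = Ψ.B m v + b * τ (Ψ.B x v) := fun v => sub_eq_zero.1 (h.Lext fun k => by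
      have := gi (k • m) v
      rw [h2, h.hB, h.hB, Ψ.B_add_left, Ψ.B_smul_left, Ψ.B_smul_left, Ψ.B_smul_left, e1, map_add] at this
      have e := h.Lτ (τ (b * τ k) * Ψ.B x v)
      rw [map_mul τ, Ψ.σσ] at e
      rw [mul_sub, mul_add, map_sub, map_add, show τ k * (b * τ (Ψ.B x v)) = b * τ k * τ (Ψ.B x v) by ring, e]
      linear_combination this)
    obtain ⟨d, r, hr⟩ := exists_isE' h.hn' hp.se xm
    have hrX := h.mem r hr.mem_isom
    set r' := r.restrictScalars F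
    have er : ∀ v, r' v = v + (Ψ.B m v - d * Ψ.B x v) • x - Ψ.B x v • m := fun v => by
      change r v = _; rw [hr.app, h.hε, one_mul]
    have b0 := h.zl ne hp (mul_mem (mul_mem hg hrX) (inv_mem (mul_mem hrX hg))) (a := 0) (b := -2 * b) fun w => by
      obtain ⟨v, rfl⟩ := (r' * g).surjective w
      rw [LinearEquiv.mul_apply, LinearEquiv.coe_inv, LinearEquiv.symm_apply_apply, LinearEquiv.mul_apply,
        LinearEquiv.mul_apply, er, er, map_sub, map_add, h1, h2]
      simp only [e1, e2, map_sub, map_add, map_smul, xx, xm, smul_zero, add_zero, sub_zero]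
      module
    obtain rfl : b = 0 := by simpa [h.two] using b0
    have f1 : ∀ v, Ψ.B x v = 0 → g v = v := fun v hv => by
      rw [hm v hv, map_add, h1, h2]; simp
    obtain ⟨a, b, e⟩ := par (g := g) (w := y) fun k => by
      rw [hm (g (k • y) - k • y) (by rw [map_sub, e1, sub_self]), map_sub (Ψ.B m), e2]
      simp [Submodule.smul_mem]
    have e3 : ∀ v, g v = v + (a * Ψ.B x v + b * τ (Ψ.B x v)) • x := fun v => by
      have := f1 (v - Ψ.B x v • y) (by simp [hp.ef])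
      rw [map_sub, e] at this
      linear_combination (norm := module) this
    obtain rfl := h.zl ne hp hg e3
    intro v
    rw [e3, e3, map_smul, smul_eq_mul]; module
  obtain ⟨a, b, e⟩ := par (g := g) (w := m) fun k => h2 _ (by simp [xm])
  obtain ⟨d, r, hr⟩ := exists_isE' h.hn' hp.se (a := τ (-a / Ψ.B m m) • m) (by simp [xm])
  have := key _ (mul_mem hg (h.mem r hr.mem_isom)) (fun k => by
    change g (r _) = _; rw [map_smul, hr.apply_p, h1]) b (fun k => by
    change g (r _) = _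
    rw [hr.apply_perp (by simp [xm]), map_add, e, h1, Ψ.B_smul_left, Ψ.σσ, map_smul, smul_eq_mul, add_assoc,
      ← add_smul]
    congr 2; field_simp; ring) (r.symm v)
  change g (r _) = θ • g (r _) at this
  simpa using this

omit ne hp [FiniteDimensional F V] in
theorem mem_norm [Finite V] {g : V ≃ₗ[F] V} :
    g ∈ normG (scal F K V) ↔ ∃ ε : F, ε * ε = 1 ∧ ∀ v, g (θ • v) = ε • θ • g v := by
  haveI := h.fin
  rw [mem_normG_scal]
  refine ⟨fun hg => ?_, fun ⟨ε, _, e⟩ k => ?_⟩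
  · obtain ⟨k, hk⟩ := hg θ
    obtain ⟨δ, hδ⟩ := h.sq
    obtain ⟨x, -, x0⟩ := exists_notMem_of_lt (U := (⊤ : Submodule K V)) (R := ⊥) (by simp [h.rk])
    have := (hk (θ • x)).symm
    rw [hk, smul_smul, smul_smul, ← hδ, algebraMap_smul, map_smul, ← algebraMap_smul K δ, hδ] at this
    rcases mul_self_eq_mul_self_iff.1 (smul_left_injective K (by simpa using x0) this) with rfl | rfl
    exacts [⟨1, by simp, by simpa using hk⟩, ⟨-1, by simp, by simpa using hk⟩]
  · obtain ⟨α, β, rfl⟩ := h.coord k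
    exact ⟨algebraMap F K α + algebraMap F K (β * ε) * θ, fun v => by
      simp only [add_smul, mul_smul, algebraMap_smul, map_add, map_smul, e]⟩

theorem line [Finite V] {c : V ≃ₗ[F] V} (hc : c ∈ X) (h1 : ∀ k : K, c (k • x) ∈ K ∙ x) :
    c ∈ normG (scal F K V) := by
  haveI := h.fin
  obtain ⟨m, xm, ym, mm, hm⟩ := h.exists_m hp
  have xx := hp.se.2
  have mx := Ψ.B_eq_zero_symm xm
  have ci := (h.iso hc).1
  obtain ⟨δ, hδ⟩ := h.sq
  have st : c ∈ stab ((K ∙ x).restrictScalars F) := mem_stab_of_le fun v hv => by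
    obtain ⟨k, rfl⟩ := Submodule.mem_span_singleton.1 hv; exact h1 k
  have l1 : ∀ v, v ∈ K ∙ x ↔ c v ∈ K ∙ x := mem_stab.1 st
  have l2 : ∀ {v}, v ∈ K ∙ x → c.symm v ∈ K ∙ x := fun hv => (l1 _).2 (by simpa using hv)
  have sx : ∀ k : K, k • x ∈ K ∙ x := fun k => Submodule.smul_mem _ _ (Submodule.mem_span_singleton_self x)
  have p1 : ∀ {v}, Ψ.B x v = 0 → Ψ.B x (c.symm v) = 0 := fun {v} hv => (h.Bext fun k => by
    obtain ⟨k', e⟩ := Submodule.mem_span_singleton.1 (h1 k)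
    rw [← ci, ← e, c.apply_symm_apply, h.hB, map_zero]; simp [hv]).trans (map_zero _)
  have ml : ∀ {v}, Ψ.B x v = 0 → Ψ.B m v = 0 → v ∈ K ∙ x := fun {v} e e' => by
    rw [hm v e, e']; simpa using sx _
  have k1 : ∀ u : K, c ((u * Ψ.B m (c.symm (θ • m))) • x) = θ • c ((u * Ψ.B m (c.symm m)) • x) := fun u => by
    obtain ⟨d, r, hr⟩ := exists_isE' h.hn' hp.se (a := τ u • m) (by simp [xm])
    have er : ∀ v, Ψ.B x v = 0 → (c * r.restrictScalars F * c⁻¹) v = v + c ((u * Ψ.B m (c.symm v)) • x) :=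
      fun v hv => by
        change c (r (c.symm v)) = _
        rw [hr.apply_perp (p1 hv), map_add, c.apply_symm_apply, Ψ.B_smul_left, Ψ.σσ]
    have := h.qk ne hp (mul_mem (mul_mem hc (h.mem r hr.mem_isom)) (inv_mem hc)) (fun k => by
      obtain ⟨k', e⟩ := Submodule.mem_span_singleton.1 (l2 (sx k))
      rw [er _ (by simp [xx]), ← e]; simp [mx]) (fun v hv => by rw [er v hv]; simpa using h1 _) m
    rw [er _ (by simp [xm]), er _ xm, smul_add] at this
    exact add_left_cancel this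
  have q1 : Ψ.B m (c.symm m) ≠ 0 := fun e => by
    obtain ⟨k, hk⟩ := Submodule.mem_span_singleton.1 ((l1 _).1 (ml (p1 xm) e))
    rw [c.apply_symm_apply] at hk
    exact mm (by nth_rw 2 [← hk]; simp [mx])
  obtain ⟨ε, hε, k2⟩ : ∃ ε : F, ε * ε = 1 ∧ Ψ.B m (c.symm (θ • m)) = ε • θ * Ψ.B m (c.symm m) := by
    set κ := Ψ.B m (c.symm (θ • m)) / Ψ.B m (c.symm m) with hκ
    have k2 : ∀ u : K, c ((u * κ) • x) = θ • c (u • x) := fun u => by
      have := k1 (u / Ψ.B m (c.symm m))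
      rw [div_mul_cancel₀ _ q1] at this
      rw [← this, hκ]; congr 2; ring
    have := k2 κ
    rw [← one_mul κ, k2, one_smul, one_mul, smul_smul, ← hδ, algebraMap_smul, ← map_smul, ← algebraMap_smul K δ,
      hδ] at this
    rcases mul_self_eq_mul_self_iff.1 (smul_left_injective K hp.left_ne_zero (c.injective this)) with e | e
    exacts [⟨1, by simp, by rw [one_smul]; exact (div_eq_iff q1).1 e⟩,
      ⟨-1, by simp, by rw [neg_smul, one_smul]; exact (div_eq_iff q1).1 e⟩]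
  have εε : ∀ v : V, ε • ε • v = v := fun v => by rw [smul_smul, hε, one_smul]
  let D : V →ₗ[F] V := (c : V →ₗ[F] V) ∘ₗ Algebra.lsmul F F V θ ∘ₗ (c.symm : V →ₗ[F] V) - ε • Algebra.lsmul F F V θ
  have hD : ∀ v, D v = c (θ • c.symm v) - ε • θ • v := fun v => rfl
  have θθ : ∀ v : V, θ • θ • v = δ • v := fun v => by rw [smul_smul, ← hδ, algebraMap_smul]
  have D1 : ∀ v ∈ K ∙ x, D v = 0 := fun v hv => by
    obtain ⟨k, e⟩ := Submodule.mem_span_singleton.1 (l2 hv)
    have := k1 (k / Ψ.B m (c.symm m))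
    rw [k2, div_mul_cancel₀ _ q1, e, c.apply_symm_apply, show k / Ψ.B m (c.symm m) * (ε • θ * Ψ.B m (c.symm m)) =
      ε • (θ * k) by simp [Algebra.smul_def]; field_simp, smul_assoc, mul_smul, e, map_smul] at this
    rw [hD, ← this, εε, sub_self]
  have D2 : ∀ v, Ψ.B x v = 0 → D v ∈ K ∙ x := fun v hv => by
    have a1 := ml (v := c.symm (θ • m) - ε • θ • c.symm m) (by
      rw [map_sub, p1 (by simp [xm]), ← algebraMap_smul K]; simp [p1 xm]) (by
      rw [map_sub, k2, ← algebraMap_smul K ε (θ • _)]; simp [Algebra.smul_def, mul_assoc])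
    have a2 : D m ∈ K ∙ x := by
      convert neg_mem (Submodule.smul_of_tower_mem _ ε ((l1 _).1 a1)) using 1
      simp [hD, smul_sub, εε]
    have a3 : D (θ • m) ∈ K ∙ x := by
      convert (l1 _).1 (Submodule.smul_mem _ θ a1) using 1
      simp [hD, smul_sub, θθ, smul_comm θ ε]
    obtain ⟨α, β, e⟩ := h.coord (Ψ.B m v / Ψ.B m m)
    rw [hm v hv, map_add, D1 _ (sx _), zero_add, e, add_smul, mul_smul, algebraMap_smul, algebraMap_smul, map_add,
      map_smul, map_smul]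
    exact add_mem (Submodule.smul_of_tower_mem _ _ a2) (Submodule.smul_of_tower_mem _ _ a3)
  have D3 : ∀ v, Ψ.B x (D v) = 0 := fun v => (h.Bext fun k => by
    have e := D1 _ (sx k)
    rw [hD, sub_eq_zero] at e
    rw [hD, map_zero, map_sub, ← c.apply_symm_apply (k • x), ci, h.adj, h.hθ, neg_smul, ← ci, map_neg c, e,
      c.apply_symm_apply, c.apply_symm_apply, map_smul, h.adj, h.hθ]
    simp).trans (map_zero _)
  have d1 : (1 : F) - δ ≠ 0 := fun e => by
    rw [← sub_eq_zero.1 e, map_one, eq_comm, mul_self_eq_one_iff] at hδ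
    rcases hδ with e | e <;> exact h.θne (by rw [e]; simp)
  have sc : ∀ ε : F, ε * ε = 1 → ∃ u ∈ X, (∃ ω : K, ∀ v, u v = ω • v) ∧
      ∀ v, u v = ((1 + δ) / (1 - δ)) • v + (2 / (1 - δ)) • ε • θ • v := by
    intro ε hε
    let ω : K := algebraMap F K ((1 + δ) / (1 - δ)) + algebraMap F K (2 / (1 - δ) * ε) * θ
    have hω : τ ω * ω = 1 := by
      have : ((1 + δ) / (1 - δ)) ^ 2 - (2 / (1 - δ) * ε) ^ 2 * δ = 1 := by
        field_simp; linear_combination (-4 * δ) * hε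
      have := congrArg (algebraMap F K) this
      simp only [map_sub, map_mul _ _ δ, map_pow, hδ, map_one] at this
      simp only [ω, map_add τ, map_mul τ, h.hf, h.hθ]
      linear_combination this
    refine ⟨_, h.mem (LinearEquiv.smulOfNeZero K V ω (right_ne_zero_of_mul_eq_one hω)) ⟨fun a b => ?_,
      fun a => by rw [h.Q0, h.Q0]⟩, ⟨ω, fun v => rfl⟩, fun v => ?_⟩
    · change Ψ.B (ω • a) (ω • b) = _
      rw [Ψ.B_smul_left, Ψ.B_smul_right, ← mul_assoc, hω, one_mul]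
    · change ω • v = _
      simp only [ω, add_smul, mul_smul, algebraMap_smul]
  obtain ⟨u, hu, -, eu⟩ := sc 1 (one_mul 1)
  obtain ⟨u', hu', ⟨ω, eω⟩, eu'⟩ := sc ε hε
  have b0 : (2 : F) / (1 - δ) ≠ 0 := div_ne_zero h.h2 d1
  have ul : ∀ (k : K) v, u' (k • v) = k • u' v := fun k v => by rw [eω, eω, smul_comm]
  have eg : ∀ v, (c * u * c⁻¹ * u'⁻¹) (u' v) = u' v + (2 / (1 - δ)) • D v := fun v => by
    change c (u (c.symm (u'.symm (u' v)))) = _
    rw [u'.symm_apply_apply, eu, eu', hD]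
    simp only [map_add, map_smul, c.apply_symm_apply]; module
  have ux : ∀ v, Ψ.B x (u' v) = 0 → Ψ.B x v = 0 := fun v hv => (h.Bext fun k => by
    rw [← (h.iso hu').1, eω (k • x), h.hB, map_zero]
    simp [hv]).trans (map_zero _)
  have D4 : ∀ v, D (θ • v) = θ • D v := fun v => by
    have := h.qk ne hp (mul_mem (mul_mem (mul_mem hc hu) (inv_mem hc)) (inv_mem hu')) (fun k => by
      obtain ⟨w, e⟩ := u'.surjective (k • x)
      have hw : w ∈ K ∙ x := by
        refine (mem_stab.1 (mem_stab_of_le (U := (K ∙ x).restrictScalars F) (g := u') fun v hv => ?_) w).2 (e ▸ sx k)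
        rw [eω]
        exact Submodule.smul_mem (K ∙ x) ω hv
      rw [← e, eg, D1 w hw]; simp) (fun w hw => by
      obtain ⟨w, rfl⟩ := u'.surjective w
      rw [eg]; simpa using Submodule.smul_of_tower_mem _ _ (D2 w (ux w hw))) (u' v)
    rw [← ul, eg, eg, ul, smul_add, smul_comm θ] at this
    exact smul_right_injective V b0 (add_left_cancel this)
  have D5 : ∀ v, D (D v) = -((2 : F) • ε • θ • D v) := fun v => by
    have e : c (θ • c.symm (D v + ε • θ • v)) = δ • v := by rw [hD]; simp [θθ]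
    rw [← sub_add_cancel (c _) (ε • θ • (D v + ε • θ • v)), ← hD, map_add, map_smul, D4, smul_add, smul_add,
      smul_comm θ ε, εε, θθ] at e
    generalize θ • D v = w at e ⊢
    linear_combination (norm := module) e
  have z : ∀ v : V, -((2 : F) • ε • θ • v) = 0 → v = 0 := fun v hv => by
    simpa [h.h2, h.θ0, left_ne_zero_of_mul_eq_one hε] using hv
  refine h.mem_norm.2 ⟨ε, hε, fun v => ?_⟩
  have := z _ ((D5 (c v)).symm.trans (z _ ((D5 _).symm.trans (D1 _ (D2 _ (D3 (c v)))))))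
  rwa [hD, c.symm_apply_apply, sub_eq_zero] at this

end U3

end Cfsg.Agent.Root.Mx
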