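import Cfsg.Agent.Low.Sp6b

/-! Symplectic groups in small dimension, III: `GU₃(q).2` is maximal in `Sp₆(q)`, `q` odd (`HS.max_gu3`,
`gu_sp3`). -/

set_option autoImplicit false

namespace Cfsg.Agent.Root.Mx

open Cfsg.Agent.Geom Cfsg.Agent.AutCl Module

variable {F K : Type*} [Field F] [Field K] [Algebra F K] {V : Type*} [AddCommGroup V] [Module F V]
  [Module K V] [IsScalarTower F K V] {τ : K →+* K} {Φ : Formed (RingHom.id F) V} {Ψ : Formed τ V}
  {L : K →ₗ[F] F} {θ : K} {X : Subgroup (V ≃ₗ[F] V)}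

namespace U3
variable (h : U3 Φ Ψ L θ X) [FiniteDimensional F V] (ne : ¬ EG Φ ≤ X)
include h ne

theorem le_norm [Finite F] [Finite V] : X ≤ normG (scal F K V) := fun g hg => by
  haveI := h.fin
  haveI : FiniteDimensional F K := .of_finrank_pos (by rw [h.deg]; omega)
  haveI : Finite K := Module.finite_of_finite F
  obtain ⟨δ, hδ⟩ := h.sq
  have θθ : ∀ v : V, θ • θ • v = δ • v := fun v => by rw [smul_smul, ← hδ, algebraMap_smul]
  obtain ⟨x, x0, hx⟩ := exists_sing_top Ψ h.rk.ge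
  obtain ⟨y, hp⟩ := h.hn'.exists_isPair x0 hx
  have xx := hx.2
  have lin : ∀ u ∈ Ψ.isom, u.restrictScalars F ∈ normG (scal F K V) := fun u _ =>
    h.mem_norm.2 ⟨1, one_mul 1, fun v => by rw [one_smul]; exact map_smul u θ v⟩
  obtain ⟨r, hr⟩ := exists_isE h.hn' (a := 0) (d := θ) hx (by simp) (by simp [h.τ0]) (by simp [h.hε, h.hθ])
  have hsX := h.mem r hr.mem_isom
  set s := r.restrictScalars F
  have sa : ∀ v, s v = v - (θ * Ψ.B x v) • x := fun v => by
    change r v = _; simp [hr.app, sub_eq_add_neg]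
  have q : ∀ v, s (s v - v) = s v - v := fun v => by rw [sa (s v - v), sa v]; simp [xx]
  have sx : ∀ k : K, k • x ∈ K ∙ x := fun k => Submodule.smul_mem _ _ (Submodule.mem_span_singleton_self x)
  have tr : ∀ c ∈ X, ∀ u ∈ Ψ.isom, c * u.restrictScalars F ∈ normG (scal F K V) → c ∈ normG (scal F K V) :=
    fun c _ u hu e => by simpa using mul_mem e (inv_mem (lin u hu))
  have da : ∀ (c : V ≃ₗ[F] V) v, (c⁻¹ * s * c) v = v - c.symm ((θ * Ψ.B x (c v)) • x) := fun c v => by
    change c.symm (s (c v)) = _; rw [sa, map_sub, c.symm_apply_apply]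
  have nz : ∀ v : V, (2 : F) • θ • v = 0 → v = 0 := fun v hv => by simpa [h.h2, h.θ0] using hv
  have rc : ∀ c ∈ X, c⁻¹ * s * c ∈ normG (scal F K V) → c ∈ normG (scal F K V) := fun c hc hd => by
    obtain ⟨ε, hε, e⟩ := h.mem_norm.1 hd
    set d := c⁻¹ * s * c with hd'
    have e1 : ∀ v, d (θ • v) = θ • d v := by
      rcases mul_self_eq_one_iff.1 hε with rfl | rfl
      · simpa using e
      have q' : ∀ v, d (d v) = (2 : F) • d v - v := fun v => by
        have : d (d v - v) = d v - v := by simpa [d] using congrArg c.symm (q (c v))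
        rw [map_sub] at this; linear_combination (norm := module) this
      have a1 : ∀ v, d (θ • v) = -(θ • d v) := by simpa using e
      have a2 := q' (θ • x)
      rw [a1, map_neg, a1, q', smul_sub, smul_comm θ] at a2
      have : (2 : F) • (2 : F) • θ • d x = 0 := by
        generalize θ • d x = w, θ • x = w' at a2
        linear_combination (norm := module) a2
      exact absurd (by simpa [h.h2, h.θ0] using this) x0
    have l1 : ∀ k : K, c (k • c.symm x) ∈ K ∙ x := fun k => by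
      have : c (θ • c.symm x) ∈ K ∙ x := by
        have e2 : d (c.symm (-θ⁻¹ • y)) - c.symm (-θ⁻¹ • y) = c.symm x := by
          rw [hd', da]; simp [hp.ef, h.θ0]
        rw [← e2, smul_sub, ← e1, hd', da]; simpa using sx _
      obtain ⟨α, β, rfl⟩ := h.coord k
      rw [add_smul, mul_smul, algebraMap_smul, algebraMap_smul, map_add, map_smul, map_smul, c.apply_symm_apply]
      exact add_mem (Submodule.smul_of_tower_mem _ _ (Submodule.mem_span_singleton_self x))
        (Submodule.smul_of_tower_mem _ _ this)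
    have e3 : Ψ.B (c.symm x) (c.symm x) = 0 := (h.Bext fun k => by
      obtain ⟨k', e⟩ := Submodule.mem_span_singleton.1 (l1 k)
      rw [← (h.iso hc).1, ← e, c.apply_symm_apply, h.hB, map_zero]; simp [xx]).trans (map_zero _)
    obtain ⟨u, hu, e⟩ := h.hn'.witt_vec x0 (v := c.symm x) (by simpa) (e3.trans xx.symm) (by rw [h.Q0, h.Q0])
    exact tr c hc u hu (h.line ne hp (mul_mem hc (h.mem u hu)) fun k => by
      change c (u _) ∈ _; rw [map_smul, e]; exact l1 k)
  obtain ⟨x1, e1, x10, hx1⟩ := exists_sing_notMem2 h.τne Ψ (U := pf Ψ ![g.symm x]) (R := ⊥) (by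
    have := finrank_pf (Φ := Ψ) ![g.symm x] ⊤
    rw [finrank_top, top_inf_eq, h.rk] at this; rw [finrank_bot]; omega)
  obtain ⟨u, hu, e⟩ := h.hn'.witt_vec x0 (v := x1) x10 (hx1.2.trans xx.symm) (by rw [h.Q0, h.Q0])
  refine tr g hg u hu ?_
  have hc := mul_mem hg (h.mem u hu)
  have ex : Ψ.B x ((g * u.restrictScalars F).symm x) = 0 := by
    change Ψ.B x (u.symm (g.symm x)) = 0
    rw [← hu.1, e, u.apply_symm_apply]; exact Ψ.B_eq_zero_symm (mem_pf.1 e1 0)
  generalize g * u.restrictScalars F = c at hc ex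
  refine engine h.h2 hsX (lin r hr.mem_isom) q rc hc fun z hz z1 z2 c1 c2 hN => absurd ?_ z1
  have zz : ∀ x, z (z x) = x := fun x => DFunLike.congr_fun z2 x
  have zi := (h.iso hz).1
  have ci := (h.iso hc).1
  have nd : ∀ n, z n = -n → (∀ n', z n' = -n' → Φ.B n n' = 0) → n = 0 := fun n hn e => h.hn n fun v => by
    have e1 := e (z v - v) (by simp [zz])
    have e2 := zi n v
    rw [← zi, zz, zz] at e2
    have e3 := zi n (z v)
    rw [zz, hn, map_neg, LinearMap.neg_apply] at e3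
    rw [map_sub, ← e3] at e1
    exact mul_left_cancel₀ h.h2 (by linear_combination -e1)
  have c1' : ∀ v, z (s v) = s (z v) := fun v => DFunLike.congr_fun c1.eq v
  have c2' : ∀ v, z ((c⁻¹ * s * c) v) = (c⁻¹ * s * c) (z v) := fun v => DFunLike.congr_fun c2.eq v
  have dec : ∀ n, z n = -n → ∃ k k' : K, z (k • x) = -(k • x) ∧ z (c.symm (k' • x)) = -c.symm (k' • x) ∧
      n = k • x + c.symm (k' • x) := fun n hn => by
    obtain ⟨w, w', e1, e2, e3⟩ := hN n hn
    have a1 : s w - w = (-(θ * Ψ.B x w)) • x := by rw [sa]; module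
    have a2 : (c⁻¹ * s * c) w' - w' = c.symm ((-(θ * Ψ.B x (c w'))) • x) := by rw [da]; simp
    exact ⟨_, _, by rw [← a1, map_sub, c1', e1, map_neg]; abel, by rw [← a2, map_sub, c2', e2, map_neg]; abel,
      by rw [e3, a1, a2]⟩
  have ll : ∀ k k' : K, Φ.B (c.symm (k • x)) (c.symm (k' • x)) = 0 := fun k k' => by
    rw [← ci, c.apply_symm_apply, c.apply_symm_apply, h.zero xx]
  have fx : ∀ a : F, z (a • c.symm x) = -(a • c.symm x) → a = 0 := fun a ha => by
    simpa [x0] using nd _ ha fun n hn => by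
      obtain ⟨k, k', -, -, rfl⟩ := dec n hn
      have := h.zero ex k 1
      have := ll 1 k'
      rw [one_smul] at *
      simp [h.sp.skew (k • x), *]
  obtain ⟨w', hw', ew'⟩ : ∃ w', z w' = -w' ∧ ∀ k : K, z (c.symm (k • x)) = -c.symm (k • x) →
      ∃ a : F, c.symm (k • x) = a • w' := by
    have co : ∀ α β : F, c.symm ((algebraMap F K α + algebraMap F K β * θ) • x) =
        α • c.symm x + β • c.symm (θ • x) := fun α β => by simp [add_smul, mul_smul]
    by_cases hc : ∃ α β : F, β ≠ 0 ∧ z (α • c.symm x + β • c.symm (θ • x)) = -(α • c.symm x + β • c.symm (θ • x))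
    · obtain ⟨α, β, β0, e⟩ := hc
      refine ⟨_, e, fun k hk => ?_⟩
      obtain ⟨α', β', rfl⟩ := h.coord k
      rw [co] at hk ⊢
      have e' : (α' - β' / β * α) • c.symm x = (α' • c.symm x + β' • c.symm (θ • x)) -
          (β' / β) • (α • c.symm x + β • c.symm (θ • x)) := by
        match_scalars <;> field_simp <;> ring
      have := fx (α' - β' / β * α) (by rw [e', map_sub, hk, z.map_smul (β' / β), e]; module)
      exact ⟨β' / β, by rw [this, zero_smul, eq_comm, sub_eq_zero] at e'; exact e'⟩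
    · refine ⟨0, by simp, fun k hk => ⟨0, ?_⟩⟩
      obtain ⟨α', β', rfl⟩ := h.coord k
      rw [co] at hk ⊢
      obtain rfl : β' = 0 := by_contra fun e => hc ⟨_, _, e, hk⟩
      rw [zero_smul, add_zero] at hk ⊢
      simp [fx _ hk]
  obtain ⟨ε, hε, e⟩ := h.mem_norm.1 (rc z hz (by rw [mul_assoc, ← c1.eq, inv_mul_cancel_left]; exact lin r hr.mem_isom))
  rcases mul_self_eq_one_iff.1 hε with rfl | rfl
  · have k0 : ∀ k : K, z (k • x) = -(k • x) → k • x = 0 := fun k hk => by
      have key : ∀ α β : F, α * Φ.B (k • x) w' + β * Φ.B (θ • k • x) w' = 0 →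
          α • k • x + β • θ • k • x = 0 := fun α β e' => nd _ (by
        rw [map_add, z.map_smul α, z.map_smul β, e, hk]; simp [add_comm]) fun n hn => by
        obtain ⟨j, j', -, e2, rfl⟩ := dec n hn
        obtain ⟨a, ha⟩ := ew' j' e2
        have := h.zero xx (θ * k) j
        rw [mul_smul] at this
        rw [ha]
        simp only [map_add, map_smul, LinearMap.add_apply, LinearMap.smul_apply, smul_eq_mul, RingHom.id_apply, this,
          h.zero xx k j]
        linear_combination a * e'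
      by_cases e0 : Φ.B (k • x) w' = 0
      · simpa using key 1 0 (by simp [e0])
      have := key (Φ.B (θ • k • x) w') (-Φ.B (k • x) w') (by ring)
      rw [← algebraMap_smul K, ← algebraMap_smul K (-_), smul_smul _ θ, ← add_smul, smul_eq_zero] at this
      refine this.resolve_left fun e => ?_
      have := congrArg L e
      rw [h.Lc, map_zero] at this
      simp [e0, h.Lθ] at this
    refine LinearEquiv.ext fun v => sub_eq_zero.1 (nd _ (by simp [zz]) fun n hn => ?_)
    obtain ⟨j, j', e1, -, e2⟩ := dec (z v - v) (by simp [zz])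
    obtain ⟨i, i', e3, -, rfl⟩ := dec n hn
    change Φ.B (z v - v) _ = 0
    rw [e2, k0 j e1, k0 i e3, zero_add, zero_add, ll]
  obtain ⟨w, ew⟩ : ∃ w : V, ∀ k : K, z (k • x) = -(k • x) → ∃ a : F, k • x = a • w := by
    by_cases hc : ∃ k : K, k ≠ 0 ∧ z (k • x) = -(k • x)
    · obtain ⟨k, k0, hk⟩ := hc
      refine ⟨k • x, fun j hj => ?_⟩
      obtain ⟨α, β, e'⟩ := h.coord (j / k)
      have e2 : j • x = α • k • x + β • θ • k • x := by
        rw [← div_mul_cancel₀ j k0, e']; simp [add_smul, mul_smul]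
      rw [e2, map_add, z.map_smul α, z.map_smul β, e, hk, smul_neg θ] at hj
      have := nz (β • k • x) (by
        rw [smul_comm θ β (k • x)]
        generalize θ • k • x = w at hj ⊢
        generalize k • x = w' at hj
        linear_combination (norm := module) hj)
      exact ⟨α, by rw [e2, ← smul_comm θ β, this]; simp⟩
    · exact ⟨0, fun k hk => ⟨0, by rw [show k = 0 from by_contra fun e => hc ⟨k, e, hk⟩]; simp⟩⟩
  have m : ∀ j, ![w, w', θ • w, θ • w'] j ∈ Submodule.span F (Set.range ![w, w', θ • w, θ • w']) :=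
    fun j => Submodule.subset_span ⟨j, rfl⟩
  have k : ∀ n, z n = -n → ∃ a b : F, n = a • w + b • w' := fun n hn => by
    obtain ⟨j, j', e1, e2, rfl⟩ := dec n hn
    obtain ⟨a, ha⟩ := ew j e1
    obtain ⟨b, hb⟩ := ew' j' e2
    exact ⟨a, b, by rw [ha, hb]⟩
  have δ0 : δ ≠ 0 := by rintro rfl; exact h.θ0 (by simpa using hδ.symm)
  have : ⊤ ≤ Submodule.span F (Set.range ![w, w', θ • w, θ • w']) := fun v _ => by
    obtain ⟨a, b, e1⟩ := k (v - z v) (by simp [zz])
    obtain ⟨a', b', e2⟩ := k (θ • (v + z v)) (by simp [e, zz, add_comm])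
    have e3 := congrArg (θ • ·) e2
    simp only [θθ] at e3
    rw [smul_add θ, smul_comm θ a', smul_comm θ b'] at e3
    rw [← Submodule.smul_mem_iff _ (mul_ne_zero δ0 h.h2), show (δ * 2) • v = δ • (v - z v) + δ • (v + z v) by module,
      e1, e3]
    exact add_mem (Submodule.smul_mem _ _ (add_mem (Submodule.smul_mem _ _ (m 0)) (Submodule.smul_mem _ _ (m 1))))
      (add_mem (Submodule.smul_mem _ _ (m 2)) (Submodule.smul_mem _ _ (m 3)))
  have := (Submodule.finrank_mono this).trans (finrank_span_fam _)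
  have h6 := Module.finrank_mul_finrank F K V
  rw [finrank_top] at this
  rw [h.deg, h.rk] at h6
  omega

end U3

theorem HS.max_gu3 [FiniteDimensional F V] [Finite F] [Finite V] (h : HS Φ Ψ L) (h3 : finrank K V = 3)
    (h2 : (2 : F) ≠ 0) (hs : IsSp Φ) (hEG : EG Φ = Φ.isom) (hε : Ψ.ε = 1)
    (hf : ∀ c, τ (algebraMap F K c) = algebraMap F K c) (h1 : τ ≠ RingHom.id K) :
    Geo.IsMaximalIn (EG Φ) (normG (scal F K V) ⊓ EG Φ) := by
  obtain ⟨k, hk⟩ : ∃ k, τ k ≠ k := by_contra fun hx => h1 (RingHom.ext (by simpa using hx))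
  have U : ∀ X, normG (scal F K V) ⊓ EG Φ ≤ X → X ≤ EG Φ → U3 Φ Ψ L (k - τ k) X := fun X a b =>
    ⟨h, hs, h2, h3, hε, hf, sub_ne_zero.2 hk.symm, by rw [map_sub, Ψ.σσ, neg_sub], hEG ▸ b, fun u hu =>
      a ⟨mem_normG_scal.2 fun k => ⟨k, fun v => map_smul u k v⟩, hEG ▸ ⟨fun x y => by
        rw [h.hB, h.hB]; exact congrArg L (hu.1 x y), fun x => by rw [(hs.sing _).1, (hs.sing _).1]⟩⟩⟩
  refine max_crit inf_le_right ?_ fun X a b g hg hg' => by_contra fun ne =>
    hg' ⟨(U X a b).le_norm ne hg, b hg⟩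
  have u := U _ le_rfl inf_le_right
  generalize k - τ k = θ at u
  haveI := u.fin
  obtain ⟨x, -, x0⟩ := exists_notMem_of_lt (U := (⊤ : Submodule K V)) (R := ⊥) (by simp [h3])
  obtain ⟨y, hy⟩ := h.hn'.exists_eq_one x0
  obtain ⟨g, hg⟩ := hs.exists_tv h.hn x 1
  refine ⟨g, IsE_mem_EG hg, fun hm => ?_⟩
  obtain ⟨ε, hε, e⟩ := u.mem_norm.1 hm.1
  obtain ⟨w, hw, w0⟩ := exists_notMem_of_lt (U := pf Ψ ![x]) (R := ⊥) (by
    have := finrank_pf (Φ := Ψ) ![x] ⊤
    rw [finrank_top, top_inf_eq, h3] at this; rw [finrank_bot]; omega)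
  have xw : Ψ.B x w = 0 := mem_pf.1 hw 0
  have e1 := e w
  have e2 := e y
  have l1 := u.L0 1
  rw [map_one] at l1
  simp only [hg.app, h.hB, map_smul, xw, hy, smul_eq_mul, mul_one, l1, map_zero, LinearMap.zero_apply, mul_zero,
    sub_zero, zero_smul, add_zero, smul_zero, one_mul, zero_sub] at e1 e2
  obtain rfl : ε = 1 := (smul_left_injective F (smul_ne_zero u.θ0 w0) ((one_smul F _).trans e1)).symm
  simp [u.Lθ, show x ≠ 0 from x0] at e2

theorem gu_sp3 {F : Type*} [Field F] [Fintype F] (hodd : Odd (Fintype.card F))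
    (K : Subalgebra F (Matrix (Fin 3 ⊕ Fin 3) (Fin 3 ⊕ Fin 3) F)) (hK : Geo.IsFieldSubalgebra 2 K)
    (hac : Geo.IsAdjointClosedFor (sympForm 3 F) K) (hnsa : ¬ Geo.IsSelfAdjointFor (sympForm 3 F) K) :
    Geo.IsMaximalIn (spGL 3 F) (Geo.subalgebraNormalizer K ⊓ spGL 3 F) := by
  refine with_field hK fun K' _ _ _ _ h2 h3 h4 h5 => ?_
  obtain ⟨τ, Ψ, L, h, t1, t3, t2, -⟩ := exists_HS (sympFormed_nondeg 3 F) h2 (fun k => by
    obtain ⟨a, ha, e⟩ := h4 k
    obtain ⟨b, hb, e'⟩ := hac a ha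
    obtain ⟨k', e''⟩ := (h3 b).1 hb
    exact ⟨k', fun u v => by simp only [sympFormed_B, ← e, ← e'', e']⟩) fun hc => hnsa fun a ha u v => by
      obtain ⟨k, e⟩ := (h3 a).1 ha
      simpa [e] using hc k u v
  have hd := Module.finrank_mul_finrank F K' (Fin 3 ⊕ Fin 3 → F)
  exact isMaximalIn_inf (glEquiv _ F) (h.max_gu3 (by simp [h2] at hd; omega)
    (two_ne_zero_of_odd_card hodd) ⟨fun _ => rfl, rfl, rfl⟩ (EG_symp 3) t3 t2 t1) (fun g => mem_spGL) h5

end Cfsg.Agent.Root.Mx
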