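import Cfsg.Agent.Low.Sp6a
import Cfsg.Agent.Root.Tq2
import Cfsg.Agent.Root.Quad3
import Cfsg.Agent.Root.Ten8

/-! Two quadratic families that agree modulo a `p'`-group containing the commutators are equal (`quad_eq`);
a normalised `p`-singular subgroup has a `p`-element centralising a given `p`-element (`exists_pelem_comm`);
`Sp₂ ⊗ O₃` in `Sp₆`, I: the setting `SO3` and the criterion `SO3.win`. -/

set_option autoImplicit false

namespace Cfsg.Agent.Root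

open Cfsg Polynomial Cfsg.Agent.Classical Matrix
open scoped MatrixGroups commutatorElement

variable {k : Type*} [Field k] {M : Type*} [AddCommGroup M] [Module k M]

theorem quad_nil [FiniteDimensional k M] (h2 : (2 : k) ≠ 0) (h3 : Nat.card k ≠ 3) {G : Subgroup (GLM k M)}
    {α β : Module.End k M} (hα : Qd G α) (hβ : Qd G β)
    (hN : ∀ a ∈ G, ∀ b ∈ G, ∃ m : ℕ, (m : k) ≠ 0 ∧ ⁅a, b⁆ ^ m = 1) : ∃ n, zz α β ^ n = 0 := by
  by_contra! hn
  obtain ⟨p, hp, h0, v, hv, hpv⟩ := exists_irreducible_of_not_nilpotent hn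
  obtain ⟨w, hw, hw'⟩ := left_ne_zero_of_root hα.sq hβ.sq hp h0 hv hpv
  have := Fact.mk hp
  obtain ⟨τ, hτ, hτ2⟩ := exists_sq_ne_one (three_lt_card_adjoinRoot (three_lt_card h2 h3) p)
  obtain ⟨g, h, hh, a, b, c, d, r, -, e⟩ := PP_surj h2 h3 hα hβ h0 0 (dSL (Units.mk0 τ hτ))
  obtain ⟨g', h', hh', a', b', c', d', r', -, e'⟩ := PP_surj h2 h3 hα hβ h0 0 (uSL 1)
  obtain ⟨m, m0, hm⟩ := hN h hh h' hh'
  have m1 : (g, h) ∈ PP G hα.sq hβ.sq := ⟨hh, _, _, _, _, r⟩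
  have m2 : (g', h') ∈ PP G hα.sq hβ.sq := ⟨hh', _, _, _, _, r'⟩
  obtain ⟨-, a, b, c, d, r⟩ := pow_mem (mul_mem (mul_mem (mul_mem m1 m2) (inv_mem m1)) (inv_mem m2)) m
  change Rep α β (⁅g, g'⁆ ^ m) (⁅h, h'⁆ ^ m) a b c d at r
  have e1 : SpecialLinearGroup.map (AdjoinRoot.mk p) (⁅g, g'⁆ ^ m) = uSL (m * (τ ^ 2 - 1)) := by
    rw [map_pow, map_commutatorElement, e, e', commutatorElement_def, conj_uSL_of_upper (by simp), uSL_inv, ← uSL_add,
      uSL_pow]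
    simp [sub_eq_add_neg]
  have e2 : ∀ i j, AdjoinRoot.mk p (((⁅g, g'⁆ ^ m : SL(2, k[X])) : Matrix (Fin 2) (Fin 2) k[X]) i j) =
      (uSL ((m : AdjoinRoot p) * (τ ^ 2 - 1))).1 i j := fun i j => by rw [← e1]; rfl
  rw [r.1] at e2
  have dv : ∀ t, AdjoinRoot.mk p (t * X) = 0 → p ∣ t := fun t ht =>
    (hp.prime.dvd_or_dvd (AdjoinRoot.mk_eq_zero.1 ht)).resolve_right (root_ne_zero hp h0)
  have kill : ∀ t, p ∣ t → ∀ x, Commute (ev α β p) x → ev α β t (x w) = 0 := by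
    rintro _ ⟨t, rfl⟩ x hx
    rw [mul_comm, map_mul, Module.End.mul_apply, ← Module.End.mul_apply (ev α β p), hx.eq, Module.End.mul_apply, hw,
      map_zero, map_zero]
  have c1 : Commute (ev α β p) α := ev_left hα.sq p
  have c2 : Commute (ev α β p) β := ev_right hβ.sq p
  have e3 := LinearMap.congr_fun r.2 w
  rw [hm, Tm] at e3
  simp only [LinearMap.add_apply, Module.End.mul_apply (ev α β _),
    kill a (dv a (by simpa using e2 0 0)) _ (c1.mul_right c2), kill c (dv c (by simpa using e2 1 0)) _ c2,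
    kill d (dv d (by simpa using e2 1 1)) _ (c2.mul_right c1), map_one, Units.val_one, add_zero, left_eq_add] at e3
  refine hw' (aeval_eq_zero_of_coprime hp (fun hb => ?_) (kill p dvd_rfl α c1) e3)
  have e4 := e2 0 1
  simp only [of_apply, cons_val', cons_val_one, cons_val_fin_one, cons_val_zero, AdjoinRoot.mk_eq_zero.2 hb,
    uSL_val] at e4
  refine mul_ne_zero ?_ (sub_ne_zero.2 hτ2) e4.symm
  rw [← map_natCast (algebraMap k (AdjoinRoot p))]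
  exact (_root_.map_ne_zero _).2 m0

theorem eq_one_of_unip {g : Module.End k M} {m n : ℕ} (hm : (m : k) ≠ 0) (e : g ^ m = 1) (h : (g - 1) ^ n = 0) :
    g = 1 := by
  have key : ∀ v, (g - 1) ((g - 1) v) = 0 → (g - 1) v = 0 := fun v hv => by
    have s : ∀ j : ℕ, (g ^ j) v = v + (j : k) • (g - 1) v := fun j => by
      induction j with
      | zero => simp
      | succ j ih =>
        rw [pow_succ', Module.End.mul_apply, ih, map_add, map_smul, sub_eq_zero.1 hv]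
        simp only [LinearMap.sub_apply, Module.End.one_apply, Nat.cast_succ]
        module
    simpa [e, hm] using s m
  have : ∀ (n : ℕ) v, ((g - 1) ^ n : Module.End k M) v = 0 → (g - 1) v = 0 := fun n => by
    induction n with
    | zero => intro v hv; simp [show v = 0 from hv]
    | succ n ih => exact fun v hv => key v (ih _ (by rwa [pow_succ] at hv))
  exact sub_eq_zero.1 (LinearMap.ext fun v => this n v (by simp [h]))

theorem exists_pelem_comm' {G : Type*} [Group G] [Finite G] {p : ℕ} [hp : Fact p.Prime] {N : Subgroup G} [N.Normal] {s g : G}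
    {k : ℕ} (hs : s ^ p ^ k = 1) (hg : g ∈ N) (h : p ∣ orderOf g) :
    ∃ y ∈ N, y ≠ 1 ∧ (∃ k, y ^ p ^ k = 1) ∧ Commute y s := by
  obtain ⟨Q, hQ⟩ := (Invol.isPGroup_zpowers hs).exists_le_sylow
  have h1 : p ∣ Nat.card (N.subgroupOf Q) := by
    obtain ⟨x, hx⟩ := exists_prime_orderOf_dvd_card' p (h.trans (N.orderOf_dvd_natCard hg))
    obtain ⟨R, hR⟩ := (Invol.isPGroup_zpowers (p := p) (n := 1) (x := (x : G)) (by
      rw [pow_one, ← hx, ← Subgroup.coe_pow, pow_orderOf_eq_one]; rfl)).exists_le_sylow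
    obtain ⟨c, rfl⟩ := MulAction.exists_smul_eq G R Q
    have m : c * x * c⁻¹ ∈ (c • R : Sylow p G) := Subgroup.smul_mem_pointwise_smul _ (MulAut.conj c) _
      (hR (Subgroup.mem_zpowers _))
    have := Subgroup.orderOf_dvd_natCard (N.subgroupOf (c • R : Sylow p G)) (x := ⟨_, m⟩)
      (‹N.Normal›.conj_mem _ x.2 c)
    rwa [← Subgroup.orderOf_coe, show orderOf (c * x * c⁻¹ : G) = p from
      (MulAut.conj c).orderOf_eq _ |>.trans ((Subgroup.orderOf_coe x).trans hx)] at this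
  obtain ⟨⟨y, hy⟩, a, b⟩ := (Q.2.of_equiv ConjAct.toConjAct).exists_fixed_point_of_prime_dvd_card_of_fixed_point
    (N.subgroupOf Q) h1 (a := 1) fun c => smul_one c
  refine ⟨y, hy, fun e => b (Subtype.ext (Subtype.ext e.symm)), (Q.2 y).imp fun k e => congrArg Subtype.val e, ?_⟩
  have := congrArg (fun z => (z.1 : G)) (a (ConjAct.toConjAct ⟨s, hQ (Subgroup.mem_zpowers s)⟩))
  exact (mul_inv_eq_iff_eq_mul.1 this).symm

theorem exists_pelem_comm {G : Type*} [Group G] [Finite G] {p : ℕ} [hp : Fact p.Prime] {N : Subgroup G} {s g : G}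
    {k : ℕ} (hs : s ^ p ^ k = 1) (hn : ∀ n ∈ N, s * n * s⁻¹ ∈ N) (hg : g ∈ N) (h : p ∣ orderOf g) :
    ∃ y ∈ N, y ≠ 1 ∧ (∃ k, y ^ p ^ k = 1) ∧ Commute y s := by
  obtain ⟨y, a, b, ⟨k, c⟩, d⟩ := exists_pelem_comm' (N := N.subgroupOf (Subgroup.normalizer N)) (p := p) (k := k)
    (s := ⟨s, Subgroup.mem_normalizer_fintype hn⟩) (g := ⟨g, Subgroup.le_normalizer hg⟩) (Subtype.ext hs) hg
    (by rwa [← Subgroup.orderOf_coe])
  exact ⟨y, a, fun e => b (Subtype.ext e), ⟨k, congrArg Subtype.val c⟩, congrArg Subtype.val d.eq⟩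

namespace Mx

theorem quad_eq [FiniteDimensional k M] (h2 : (2 : k) ≠ 0) (h3 : Nat.card k ≠ 3) {G N : Subgroup (M ≃ₗ[k] M)}
    {α β : Module.End k M} (hα : α * α = 0) (hβ : β * β = 0) (ha : ∀ c : k, HasL G (c • α))
    (hb : ∀ c : k, HasL G (c • β)) (hN : ∀ a ∈ G, ∀ b ∈ G, ⁅a, b⁆ ∈ N) (hp : ∀ g ∈ N, ∃ m : ℕ, (m : k) ≠ 0 ∧ g ^ m = 1)
    {g : M ≃ₗ[k] M} (hg : g ∈ N) (e : (g : Module.End k M) = (1 - α) * (1 + β)) : α = β := by
  let E := LinearMap.GeneralLinearGroup.generalLinearEquiv k M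
  have q : ∀ {α : Module.End k M}, α * α = 0 → (∀ c : k, HasL G (c • α)) → Qd (G.comap E.toMonoidHom) α :=
    fun h1 h => ⟨h1, fun c => by
      obtain ⟨g, hg, e⟩ := h c
      exact ⟨E.symm g, by simpa using hg, e⟩⟩
  obtain ⟨n, hn⟩ := quad_nil h2 h3 (q hα ha) (q hβ hb) fun a ha b hb => by
    obtain ⟨m, m0, e⟩ := hp _ (hN _ ha _ hb)
    exact ⟨m, m0, E.injective (by rw [map_pow, map_commutatorElement, map_one]; exact e)⟩
  obtain ⟨m, m0, e1⟩ := hp g hg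
  have c : Commute ((1 - α) * (1 + β)) (zz α β) :=
    ((Commute.one_left _).sub_left (commute_zz_left hα).symm).mul_left
      ((Commute.one_left _).add_left (commute_zz_right hβ).symm)
  have e2 : ((1 - α) * (1 + β) - 1) ^ 2 = -((1 - α) * (1 + β)) * zz α β := by
    rw [zz]
    linear_combination (norm := noncomm_ring) (1 - α) * (hβ * (1 + α)) + hα
  have e3 := eq_one_of_unip (g := (1 - α) * (1 + β)) (n := 2 * n) m0
    (e ▸ (map_pow LinearEquiv.automorphismGroup.toLinearMapMonoidHom g m).symm.trans (by rw [e1, map_one]))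
    (by rw [pow_mul, e2, c.neg_left.mul_pow, hn, mul_zero])
  linear_combination (norm := noncomm_ring) -((1 + α) * e3) + hα * (-1 - β)

end Mx

end Cfsg.Agent.Root

namespace Cfsg.Agent.Root.Mx

open Cfsg.Agent.Geom Cfsg.Agent.AutCl Module TensorProduct

variable {F : Type*} [Field F] {W U : Type*} [AddCommGroup W] [Module F W] [AddCommGroup U] [Module F U]
  {Φ₁ : Formed (RingHom.id F) W} {Φ₂ : Formed (RingHom.id F) U} {Φ : Formed (RingHom.id F) (W ⊗[F] U)}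
  {X : Subgroup (W ⊗[F] U ≃ₗ[F] W ⊗[F] U)}

theorem HD.sym (h : HD Φ₂) (x y : U) : Φ₂.B x y = Φ₂.B y x := by rw [Φ₂.symm, h.ε]; simp

theorem HD.mem_isom (h : HD Φ₂) {g : U ≃ₗ[F] U} (e : ∀ x y, Φ₂.B (g x) (g y) = Φ₂.B x y) : g ∈ Φ₂.isom :=
  ⟨e, fun x => by rw [h.Q, h.Q]⟩

theorem exists_norm_ne {θ : F} (t0 : θ ≠ 0) (t1 : θ * θ ≠ 1) {n : F} (n0 : n ≠ 0) (m : F) :
    ∃ t : F, t ≠ 0 ∧ m + t * t * n ≠ 0 := by
  by_contra! h
  exact mul_ne_zero (sub_ne_zero.2 t1) n0 (by linear_combination h θ t0 - h 1 one_ne_zero)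

/-- The symmetric product of two vectors as a self-adjoint map. -/
def sy (Φ₂ : Formed (RingHom.id F) U) (a b : U) : End F U := rk1 a (Φ₂.B b) + rk1 b (Φ₂.B a)

/-- A conjugation invariant space of endomorphisms of an orthogonal space containing a non-zero self-adjoint
map killing a non-singular vector contains the squares of the singular vectors. -/
theorem HD.rk1_mem [FiniteDimensional F U] (h : HD Φ₂) (h2 : (2 : F) ≠ 0) (h3 : 3 ≤ finrank F U) {θ : F} (t0 : θ ≠ 0)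
    (t1 : θ * θ ≠ 1) (R : Submodule F (End F U))
    (hc : ∀ g ∈ Φ₂.isom, ∀ ρ ∈ R, g.toLinearMap ∘ₗ ρ ∘ₗ g.symm.toLinearMap ∈ R) {ρ : End F U} (hρ : ρ ∈ R)
    (ad : ∀ x y, Φ₂.B (ρ x) y = Φ₂.B x (ρ y)) {e : U} (e0 : Φ₂.B e e ≠ 0) (he : ρ e = 0) (r0 : ρ ≠ 0) {u : U}
    (hu : Φ₂.B u u = 0) : rk1 u (Φ₂.B u) ∈ R := by
  have cj : ∀ g ∈ Φ₂.isom, ∀ a b, sy Φ₂ a b ∈ R → sy Φ₂ (g a) (g b) ∈ R := fun g hg a b m => by
    convert hc g hg _ m using 1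
    ext x
    obtain ⟨x, rfl⟩ := g.surjective x
    simp [sy, hg.1]
  have cm : ∀ a b, sy Φ₂ a b = sy Φ₂ b a := fun a b => add_comm _ _
  have s1 : ∀ v u, Φ₂.B v v ≠ 0 → Φ₂.B u u = 0 → Φ₂.B v u = 0 → sy Φ₂ v u ∈ R → sy Φ₂ u u ∈ R := fun v u a b c m => by
    have c' := Φ₂.B_eq_zero_symm c
    obtain ⟨r, hr⟩ := h.exists_rf (v := v + u) (by simpa [b, c, c'])
    have := add_mem m (cj r hr.iso _ _ m)
    rw [hr.perp (x := u) (by simp [b, c]), hr.app] at this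
    convert R.smul_mem (-2 : F)⁻¹ this using 1
    ext x
    simp [sy, b, c, c']
    match_scalars <;> field_simp <;> ring
  have s2 : ∀ v y z, Φ₂.B y y ≠ 0 → Φ₂.B v y = 0 → Φ₂.B v z = 0 → sy Φ₂ v y ∈ R → sy Φ₂ v z ∈ R :=
    fun v y z a b c m => by
    have k : ∀ z, Φ₂.B v z = 0 → Φ₂.B y z = 0 → sy Φ₂ v z ∈ R := fun z c d => by
      have d' := Φ₂.B_eq_zero_symm d
      obtain ⟨t, t0, ht⟩ : ∃ t : F, t ≠ 0 ∧ Φ₂.B y y + t * t * Φ₂.B z z ≠ 0 := by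
        by_cases e : Φ₂.B z z = 0
        · exact ⟨1, one_ne_zero, by simpa [e]⟩
        · exact exists_norm_ne t0 t1 e _
      have n : Φ₂.B (y + t • z) (y + t • z) = Φ₂.B y y + t * t * Φ₂.B z z := by simp [d, d']; ring
      obtain ⟨r, hr⟩ := h.exists_rf (v := y + t • z) (n ▸ ht)
      have := cj r hr.iso _ _ m
      rw [hr.perp (x := v) (by simp [Φ₂.B_eq_zero_symm b, Φ₂.B_eq_zero_symm c]), hr.app, n] at this
      generalize Φ₂.B y y + t * t * Φ₂.B z z = N at ht this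
      convert R.smul_mem (N / (-2 * t * Φ₂.B y y)) (sub_mem this (R.smul_mem (1 + -2 / N * Φ₂.B y y) m)) using 1
      ext x
      simp [sy, d']
      match_scalars <;> field_simp <;> ring
    convert add_mem (k (z - (Φ₂.B y z / Φ₂.B y y) • y) (by simp [b, c]) (by simp [a])) (R.smul_mem (Φ₂.B y z / Φ₂.B y y) m)
      using 1
    ext x
    simp [sy]
    module
  obtain ⟨x, x1, x0⟩ : ∃ x, Φ₂.B e x = 0 ∧ ρ x ≠ 0 := by
    obtain ⟨x, hx⟩ := DFunLike.ne_iff.1 r0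
    exact ⟨x - (Φ₂.B e x / Φ₂.B e e) • e, by simp [e0], by simpa [he] using hx⟩
  obtain ⟨t, t0', ht⟩ := exists_norm_ne t0 t1 e0 (Φ₂.B x x)
  obtain ⟨v, v0, v1⟩ : ∃ v, Φ₂.B v v ≠ 0 ∧ ρ v - (Φ₂.B v (ρ v) / Φ₂.B v v) • v ≠ 0 := by
    refine ⟨x + t • e, by convert ht using 1; simp [x1, Φ₂.B_eq_zero_symm x1]; ring, fun a => x0 ?_⟩
    generalize Φ₂.B (x + t • e) (ρ (x + t • e)) / Φ₂.B (x + t • e) (x + t • e) = k at a
    have b := congrArg (Φ₂.B e) a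
    simp [← ad, he, x1, t0', e0] at b
    simpa [b, he] using a
  obtain ⟨r, hr⟩ := h.exists_rf v0
  have m : sy Φ₂ v (ρ v - (Φ₂.B v (ρ v) / Φ₂.B v v) • v) ∈ R := by
    have e5 : ∀ x, r.symm x = r x := fun x => r.symm_apply_eq.2 (LinearEquiv.congr_fun hr.sq x).symm
    convert R.smul_mem (Φ₂.B v v / 2) (sub_mem hρ (hc r hr.iso ρ hρ)) using 1
    ext x
    simp [sy, e5, hr.app, ← ad v x]
    match_scalars <;> field_simp <;> ring
  have y1 : Φ₂.B v (ρ v - (Φ₂.B v (ρ v) / Φ₂.B v v) • v) = 0 := by simp [v0]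
  generalize ρ v - (Φ₂.B v (ρ v) / Φ₂.B v v) • v = y at v1 m y1
  rcases eq_or_ne u 0 with rfl | u0
  · convert zero_mem R; ext; simp
  obtain ⟨z, z0, z1, m⟩ : ∃ z, z ≠ 0 ∧ Φ₂.B z z = 0 ∧ sy Φ₂ z z ∈ R := by
    by_cases a : Φ₂.B y y = 0
    · exact ⟨y, v1, a, s1 v y v0 a y1 m⟩
    obtain ⟨z, z0, z1, z2⟩ := exists_ker2 h3 (Φ₂.B v) (Φ₂.B u)
    have m' := s2 v y z a y1 z1 m
    by_cases b : Φ₂.B z z = 0
    · exact ⟨z, z0, b, s1 v z v0 b z1 m'⟩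
    · exact ⟨u, u0, hu, s1 z u b hu (Φ₂.B_eq_zero_symm z2)
        (s2 z v u v0 (Φ₂.B_eq_zero_symm z1) (Φ₂.B_eq_zero_symm z2) (cm v z ▸ m'))⟩
  obtain ⟨g, hg, rfl⟩ := h.nd.witt_vec z0 u0 (hu.trans z1.symm) (by rw [h.Q, h.Q])
  convert R.smul_mem (2 : F)⁻¹ (cj g hg _ _ m) using 1
  rw [sy, ← two_smul F, inv_smul_smul₀ h2]

/-- The setting `Sp₂ ⊗ O₃ ≤ X ≤ Sp₆`. -/
structure SO3 (Φ₁ : Formed (RingHom.id F) W) (Φ₂ : Formed (RingHom.id F) U) (Φ : Formed (RingHom.id F) (W ⊗[F] U))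
    (X : Subgroup (W ⊗[F] U ≃ₗ[F] W ⊗[F] U)) : Prop where
  B : ∀ w u w' u', Φ.B (w ⊗ₜ u) (w' ⊗ₜ u') = Φ₁.B w w' * Φ₂.B u u'
  sp : IsSp Φ
  sp₁ : IsSp Φ₁
  nd₁ : Φ₁.Nondeg
  hd : HD Φ₂
  dW : finrank F W = 2
  dU : finrank F U = 3
  two : (2 : F) ≠ 0
  three : Nat.card F ≠ 3
  iso : X ≤ Φ.isom
  mem : ∀ a ∈ Φ₁.isom, ∀ b ∈ Φ₂.isom, TensorProduct.congr a b ∈ X

/-- The maps `ρ` with `1 + (w B(w, ·)) ⊗ ρ ∈ X`. -/
def ZR (Φ₁ : Formed (RingHom.id F) W) (X : Subgroup (W ⊗[F] U ≃ₗ[F] W ⊗[F] U)) (w : W) (ρ : End F U) : Prop :=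
  ∃ g ∈ X, ∀ x, g x = x + w ⊗ₜ ρ (cL (Φ₁.B w) x)

namespace SO3

variable [FiniteDimensional F W] [FiniteDimensional F U] (h : SO3 Φ₁ Φ₂ Φ X)
include h

omit [FiniteDimensional F W] [FiniteDimensional F U] in
theorem Bl (w : W) (u : U) (x : W ⊗[F] U) : Φ.B (w ⊗ₜ u) x = Φ₂.B u (cL (Φ₁.B w) x) := by
  induction x with
  | zero => simp
  | tmul w u => simp [h.B]
  | add x y a b => simp only [map_add, a, b]

theorem nondeg : Φ.Nondeg := fun x e => eq_of_cL fun φ => by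
  obtain ⟨w, rfl⟩ := h.nd₁.exists_eq_B φ
  exact h.hd.nd.ext fun u => by simpa [h.Bl, h.hd.sym u] using Φ.B_eq_zero_symm (e (w ⊗ₜ u))

omit [FiniteDimensional F W] [FiniteDimensional F U] in
theorem theta : ∃ θ : F, θ ≠ 0 ∧ θ * θ ≠ 1 := by
  simpa [sq] using Root.exists_sq_ne_one (three_lt_card h.two h.three)

omit [FiniteDimensional F U] in
theorem decW {w r : W} (e : Φ₁.B w r = 1) (z : W) : z = Φ₁.B w z • r - Φ₁.B r z • w := by
  have hp : Φ₁.IsPair w r := ⟨h.sp₁.sing w, h.sp₁.sing r, e⟩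
  have := hp.finrank_pairPerp h.nd₁
  have e0 : Φ₁.pairPerp w r = ⊥ := Submodule.finrank_eq_zero.1 (by have := h.dW; omega)
  have : z - (Φ₁.B w z • r - Φ₁.B r z • w) ∈ Φ₁.pairPerp w r :=
    Φ₁.mem_pairPerp.2 ⟨by simp [e, h.sp₁.alt], by simp [h.sp₁.skew w r, e, h.sp₁.alt]⟩
  rwa [e0, Submodule.mem_bot, sub_eq_zero] at this

omit [FiniteDimensional F U] in
theorem dec {w r : W} (e : Φ₁.B w r = 1) (x : W ⊗[F] U) :
    x = r ⊗ₜ cL (Φ₁.B w) x - w ⊗ₜ cL (Φ₁.B r) x := by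
  induction x with
  | zero => simp
  | tmul z u => rw [cL_tmul, cL_tmul, ← smul_tmul, ← smul_tmul, ← sub_tmul, ← h.decW e]
  | add x y a b => simp only [map_add, tmul_add]; linear_combination (norm := abel) a + b

omit [FiniteDimensional F U] in
theorem ex₁ : ∃ w r, Φ₁.B w r = 1 := by
  have : Nontrivial W := Module.nontrivial_of_finrank_pos (R := F) (by rw [h.dW]; omega)
  obtain ⟨w, w0⟩ := exists_ne (0 : W)
  exact ⟨w, h.nd₁.exists_eq_one w0⟩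

omit [FiniteDimensional F U] in
theorem trans₁ {w z : W} (w0 : w ≠ 0) (z0 : z ≠ 0) : ∃ a ∈ Φ₁.isom, a w = z :=
  h.nd₁.witt_vec w0 z0 (by rw [h.sp₁.alt, h.sp₁.alt]) (by rw [(h.sp₁.sing _).1, (h.sp₁.sing _).1])

omit [FiniteDimensional F W] [FiniteDimensional F U] in
theorem zr_conj {w : W} {ρ : End F U} (H : ZR Φ₁ X w ρ) {a : W ≃ₗ[F] W} (ha : a ∈ Φ₁.isom) {b : U ≃ₗ[F] U}
    (hb : b ∈ Φ₂.isom) : ZR Φ₁ X (a w) (b.toLinearMap ∘ₗ ρ ∘ₗ b.symm.toLinearMap) := by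
  obtain ⟨g, hg, e⟩ := H
  have m := h.mem a ha b hb
  refine ⟨_, mul_mem (mul_mem m hg) (inv_mem m), fun x => ?_⟩
  obtain ⟨x, rfl⟩ := (TensorProduct.congr a b).surjective x
  have : cL (Φ₁.B (a w)) (TensorProduct.congr a b x) = b (cL (Φ₁.B w) x) := by
    induction x with
    | zero => simp
    | tmul w u => simp [ha.1]
    | add x y a b => simp only [map_add, a, b]
  simp [-TensorProduct.congr_symm_tmul, e, this]

/-- The space of the `ρ` with `ZR w ρ`. -/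
def zr {w : W} (w0 : w ≠ 0) : Submodule F (End F U) where
  carrier := {ρ | ZR Φ₁ X w ρ}
  zero_mem' := ⟨1, one_mem _, by simp⟩
  add_mem' := fun ⟨g, a, b⟩ ⟨g', a', b'⟩ => ⟨_, mul_mem a a', fun x => by
    simp [b, b', h.sp₁.alt, tmul_add]; abel⟩
  smul_mem' := fun c ρ H => by
    have k : ∀ c : F, ZR Φ₁ X w ((c * c) • ρ) := fun c => by
      rcases eq_or_ne c 0 with rfl | c0
      · exact ⟨1, one_mem _, by simp⟩
      obtain ⟨a, ha, e⟩ := h.trans₁ w0 (smul_ne_zero c0 w0)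
      obtain ⟨g, hg, e'⟩ := h.zr_conj H ha (one_mem _)
      exact ⟨g, hg, fun x => by simp [e', e, smul_tmul, smul_smul]; rfl⟩
    obtain ⟨g, a, b⟩ := k ((c + 1) / 2)
    obtain ⟨g', a', b'⟩ := k ((c - 1) / 2)
    refine ⟨_, mul_mem (inv_mem a') a, fun x => inv_mul_apply.2 ?_⟩
    have := h.two
    rw [b, b']
    simp only [map_add, map_smul, map_zero, smul_zero, cL_tmul, h.sp₁.alt, zero_smul, add_zero, LinearMap.smul_apply,
      tmul_smul]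
    match_scalars <;> field_simp; ring

variable [Finite F]

omit [FiniteDimensional F W] in
theorem ex₂ : ∃ u v a, Φ₂.B u u = 0 ∧ Φ₂.B v v = 0 ∧ Φ₂.B u v = 1 ∧ Φ₂.B u a = 0 ∧ Φ₂.B v a = 0 ∧ Φ₂.B a a ≠ 0 := by
  obtain ⟨u, -, v, -, hp⟩ := exists_pair h.hd.nd (nondeg_top h.hd.nd) (by simp [h.dU])
  obtain ⟨a, a0, a1, a2⟩ := exists_ker2 h.dU.ge (Φ₂.B u) (Φ₂.B v)
  refine ⟨u, v, a, hp.se.2, hp.sf.2, hp.ef, a1, a2, not_iso_three h.hd.nd h.dU.le hp.se hp.left_ne_zero a1 fun e => ?_⟩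
  obtain ⟨c, rfl⟩ := Submodule.mem_span_singleton.1 e
  simp [h.hd.sym v u, hp.ef] at a2
  simp [a2] at a0

/-- An element `1 + (w B(w, ·)) ⊗ ρ` with `ρ ≠ 0` killing a non-singular vector produces all transvections. -/
theorem win {w : W} (w0 : w ≠ 0) {ρ : End F U} (H : ZR Φ₁ X w ρ) {e : U} (e0 : Φ₂.B e e ≠ 0) (he : ρ e = 0)
    (r0 : ρ ≠ 0) : EG Φ ≤ X := by
  obtain ⟨θ, t0, t1⟩ := h.theta
  obtain ⟨r, hr⟩ := h.nd₁.exists_eq_one w0
  have hr' : Φ₁.B r w = -1 := by rw [h.sp₁.skew, hr]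
  have ad : ∀ x y, Φ₂.B (ρ x) y = Φ₂.B x (ρ y) := fun x y => by
    obtain ⟨g, hg, e⟩ := H
    have := (h.iso hg).1 (r ⊗ₜ x) (r ⊗ₜ y)
    simp [e, h.B, hr, hr', h.sp₁.alt] at this
    linear_combination this
  have s1 : ∀ z u, Φ₂.B u u = 0 → TT Φ X (z ⊗ₜ u) := fun z u hu => by
    rcases eq_or_ne z 0 with rfl | z0
    · rw [zero_tmul]; exact h.sp.tt_zero
    obtain ⟨a, ha, rfl⟩ := h.trans₁ w0 z0
    refine IsSp.tt_conj h.iso (v := w ⊗ₜ u) (fun t => ?_) (h.mem a ha 1 (one_mem _))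
    obtain ⟨g, hg, e⟩ := (h.zr w0).smul_mem (-t) (h.hd.rk1_mem h.two h.dU.ge t0 t1 (h.zr w0)
      (fun g hg ρ hρ => h.zr_conj hρ (one_mem _) hg) H ad e0 he r0 hu)
    exact ⟨g, hg, h.sp.sing _, by simp, by simp [h.sp.τ], by simp [h.sp.ε], fun x => by
      simp [e, h.Bl, smul_smul, tmul_neg]⟩
  obtain ⟨u, v, a, hu, hv, uv, ua, va, aa⟩ := h.ex₂
  have vu := (h.hd.sym v u).trans uv
  have au := (h.hd.sym a u).trans ua
  have av := (h.hd.sym a v).trans va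
  have s2 : ∀ z y, TT Φ X (z ⊗ₜ y) := fun z y => by
    by_cases hy : Φ₂.B y y = 0
    · exact s1 z y hy
    rcases eq_or_ne z 0 with rfl | z0
    · rw [zero_tmul]; exact h.sp.tt_zero
    obtain ⟨l, hl⟩ : ∃ l, Φ₂.B y y = 2 * l := ⟨_, (mul_div_cancel₀ _ h.two).symm⟩
    have l0 : l ≠ 0 := by rintro rfl; simp [hl] at hy
    obtain ⟨b, hb, rfl⟩ := h.hd.nd.witt_vec (u := u + l • v) (v := y) (fun e => by
      simpa [vu, hv] using congrArg (Φ₂.B v) e) (by rintro rfl; simp at hy) (by simp [hl, hu, hv, uv, vu]; ring)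
      (by rw [h.hd.Q, h.hd.Q])
    refine IsSp.tt_conj h.iso (v := z ⊗ₜ (u + l • v)) ?_ (h.mem 1 (one_mem _) b hb)
    obtain ⟨z', hz⟩ := h.nd₁.exists_eq_one z0
    have hz' : Φ₁.B z' z = -1 := by rw [h.sp₁.skew, hz]
    obtain ⟨t, t0, ht⟩ := exists_norm_ne t0 t1 (n := -(Φ₂.B a a / 2)) (by simp [aa, h.two]) l
    have := h.two
    rw [tmul_add]
    refine h.sp.tt_add h.iso (s1 _ _ hu) (s1 _ _ (by simp [hv]))
      (s1 z' (l • v + t • a - (t * t * Φ₂.B a a / (2 * l)) • u) ?_) ?_ ?_ ?_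
    · simp [hu, hv, uv, vu, ua, va, au, av]; field_simp; ring
    · simp [h.B, hz', hu, vu, au, l0]
    · simp [h.B, hz', hv, uv, av, l0, t0, aa, h.two]
    · rw [← tmul_add, h.B, hz']
      convert neg_ne_zero.2 ht using 1
      simp [hu, hv, uv, vu, au, av]; field_simp; ring
  refine TSP.EG_le_tt h.sp h.nondeg h.iso (U := LinearMap.range (TensorProduct.mk F W U w))
    (U' := LinearMap.range (TensorProduct.mk F W U r)) ⟨Submodule.disjoint_def.2 ?_, codisjoint_iff_le_sup.2 fun x _ => ?_⟩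
    ⟨?_, fun x _ => (h.sp.sing x).1⟩ ⟨?_, fun x _ => (h.sp.sing x).1⟩ ?_ ?_
  · rintro _ ⟨x, rfl⟩ ⟨y, e⟩
    obtain rfl : y = 0 := by simpa [hr, h.sp₁.alt] using congrArg (cL (Φ₁.B w)) e
    simpa using e.symm
  · rw [h.dec hr x]
    exact sub_mem (Submodule.mem_sup_right ⟨_, rfl⟩) (Submodule.mem_sup_left ⟨_, rfl⟩)
  · rintro _ ⟨x, rfl⟩ _ ⟨y, rfl⟩; simp [h.B, h.sp₁.alt]
  · rintro _ ⟨x, rfl⟩ _ ⟨y, rfl⟩; simp [h.B, h.sp₁.alt]
  · rintro _ ⟨x, rfl⟩; exact s2 _ _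
  · rintro _ ⟨x, rfl⟩; exact s2 _ _

end SO3

end Cfsg.Agent.Root.Mx
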