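import Cfsg.Agent.Low.Sp6d

/-! `Sp₂ ⊗ O₃` in `Sp₆`, II: the pointwise stabiliser of `W ⊗ e` lies in `1 ⊗ O₃` (`SO3.fix_eq`), the stabiliser of
`W ⊗ e` lies in `Sp₂ ⊗ O₃`, and the maximality `SO3.le`, `tensor_sp2_o3`. -/

set_option autoImplicit false

namespace Cfsg.Agent.Root.Mx

open Cfsg.Agent.Geom Cfsg.Agent.AutCl Module TensorProduct
open scoped commutatorElement

variable {F : Type*} [Field F] {W U : Type*} [AddCommGroup W] [Module F W] [AddCommGroup U] [Module F U]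
  {Φ₁ : Formed (RingHom.id F) W} {Φ₂ : Formed (RingHom.id F) U} {Φ : Formed (RingHom.id F) (W ⊗[F] U)}
  {X : Subgroup (W ⊗[F] U ≃ₗ[F] W ⊗[F] U)}

/-- The elements of `X` acting on `W ⊗ e` like elements of `A`. -/
def actS (X : Subgroup (W ⊗[F] U ≃ₗ[F] W ⊗[F] U)) (e : U) (A : Subgroup (W ≃ₗ[F] W)) :
    Subgroup (W ⊗[F] U ≃ₗ[F] W ⊗[F] U) where
  carrier := {g | g ∈ X ∧ ∃ a ∈ A, ∀ z, g (z ⊗ₜ e) = a z ⊗ₜ e}
  one_mem' := ⟨one_mem _, 1, one_mem _, fun _ => rfl⟩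
  mul_mem' := fun ⟨h, a, b, c⟩ ⟨h', a', b', c'⟩ => ⟨mul_mem h h', a * a', mul_mem b b', fun z => by simp [c, c']⟩
  inv_mem' := fun {g} ⟨h, a, b, c⟩ => ⟨inv_mem h, a⁻¹, inv_mem b, fun z => g.symm_apply_eq.2 (by simp [c])⟩

theorem mem_actS_bot {e : U} {g : W ⊗[F] U ≃ₗ[F] W ⊗[F] U} : g ∈ actS X e ⊥ ↔ g ∈ X ∧ ∀ z, g (z ⊗ₜ e) = z ⊗ₜ e :=
  and_congr_right fun _ => ⟨by rintro ⟨_, rfl, h⟩; exact h, fun h => ⟨1, rfl, h⟩⟩

theorem comm_actS {e : U} {A : Subgroup (W ≃ₗ[F] W)} (hA : ∀ a ∈ A, ∀ b ∈ A, a * b = b * a)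
    {g g' : W ⊗[F] U ≃ₗ[F] W ⊗[F] U} (h : g ∈ actS X e A) (h' : g' ∈ actS X e A) : ⁅g, g'⁆ ∈ actS X e ⊥ := by
  refine mem_actS_bot.2 ⟨mul_mem (mul_mem (mul_mem h.1 h'.1) (inv_mem h.1)) (inv_mem h'.1), fun z => ?_⟩
  obtain ⟨-, a, a1, a2⟩ := h
  obtain ⟨-, b, b1, b2⟩ := h'
  obtain ⟨z, rfl⟩ := (b * a).surjective z
  have e1 : (b * a) z ⊗ₜ e = (g' * g) (z ⊗ₜ[F] e) := by simp [a2, b2]
  have e2 : (b * a) z ⊗ₜ e = (g * g') (z ⊗ₜ[F] e) := by rw [← hA a a1 b b1]; simp [a2, b2]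
  nth_rewrite 1 [e1]
  rw [e2, ← LinearEquiv.mul_apply, commutatorElement_def]
  congr 1; group

/-- `g` maps `W ⊗ e` into itself. -/
def StM (g : W ⊗[F] U ≃ₗ[F] W ⊗[F] U) (e : U) : Prop := ∀ z, ∃ z', g (z ⊗ₜ e) = z' ⊗ₜ e

theorem tmul_inj' {u : U} (h : u ≠ 0) {w w' : W} (e : w ⊗ₜ[F] u = w' ⊗ₜ u) : w = w' := by
  obtain ⟨μ, m⟩ := exists_fun0 (F := F) h
  simpa [m] using congrArg (TensorProduct.rid F W ∘ μ.lTensor W) e

theorem cL_right {z : W ⊗[F] U ≃ₗ[F] W ⊗[F] U} {γ : End F U} (hz : ∀ w u, z (w ⊗ₜ u) = w ⊗ₜ γ u) (φ : Dual F W)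
    (x : W ⊗[F] U) : cL φ (z x) = γ (cL φ x) := by
  induction x with
  | zero => simp
  | tmul w u => simp [hz]
  | add x y a b => simp only [map_add, a, b]

theorem mem_span_three [FiniteDimensional F U] (hn : Φ₂.Nondeg) (h3 : finrank F U = 3) {u a b y : U} (u0 : u ≠ 0)
    (ha : a ≠ 0) (hb : b ∉ F ∙ a) (h1 : Φ₂.B a u = 0) (h2 : Φ₂.B b u = 0) (h1' : Φ₂.B a y = 0) (h2' : Φ₂.B b y = 0) :
    y ∈ F ∙ u := by
  have a1 := hn.finrank_add_finrank_perp ((F ∙ a) ⊔ F ∙ b)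
  have a4 := Submodule.finrank_lt_finrank_of_lt (show (F ∙ a) < (F ∙ a) ⊔ F ∙ b from
    lt_of_le_of_ne le_sup_left fun e => hb (e ▸ mem_sup_self _ _))
  rw [finrank_span_singleton ha] at a4
  rw [Submodule.eq_of_le_of_finrank_le (S₁ := F ∙ u) (S₂ := Φ₂.perp ((F ∙ a) ⊔ F ∙ b)) (by
    simp [Formed.perp_sup, Formed.mem_perp_span_singleton, h1, h2]) (by rw [finrank_span_singleton u0]; omega)]
  simp [Formed.perp_sup, Formed.mem_perp_span_singleton, h1', h2']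

theorem notMem_span_of_sing {u a : U} (hu : Φ₂.B u u = 0) (ha : Φ₂.B a a ≠ 0) : a ∉ F ∙ u := fun e => by
  obtain ⟨c, rfl⟩ := Submodule.mem_span_singleton.1 e
  simp [hu] at ha

/-- A `p`-element of `O₃` fixing a non-singular vector is trivial. -/
theorem HD.unip_eq_one [FiniteDimensional F U] (h : HD Φ₂) (h2 : (2 : F) ≠ 0) (h3 : finrank F U = 3) {β : U ≃ₗ[F] U}
    (hβ : β ∈ Φ₂.isom) {e : U} (e0 : Φ₂.B e e ≠ 0) (he : β e = e) {p k : ℕ} [Fact p.Prime] [CharP F p]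
    (hp : β ^ p ^ k = 1) : β = 1 := by
  have : Nontrivial U := Module.nontrivial_of_finrank_pos (R := F) (by omega)
  have : CharP (End F U) p := charP_of_injective_algebraMap (algebraMap F (End F U)).injective p
  have key : ∀ y, β (β y - y) = β y - y → β y - y = 0 := fun y hy => by_contra fun x0 => by
    have a1 : Φ₂.B (β y - y) (β y - y) = 0 := by
      have := hβ.1 y (β y - y)
      rw [hy] at this
      simp [-map_sub, map_sub Φ₂.B, this]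
    have a2 : Φ₂.B (β y - y) e = 0 := by
      have := hβ.1 y e
      rw [he] at this
      simp [this]
    have a3 : Φ₂.B (β y - y) y = 0 := by
      have := hβ.1 y y
      simp only [map_sub, LinearMap.sub_apply, h.sym y (β y)] at a1 ⊢
      exact mul_left_cancel₀ h2 (by linear_combination this - a1)
    obtain ⟨c, m⟩ := Submodule.mem_span_singleton.1 (mem_span_three h.nd h3 x0 x0 (notMem_span_of_sing a1 e0)
      (y := y - (Φ₂.B e y / Φ₂.B e e) • e) a1 (Φ₂.B_eq_zero_symm a2) (by rw [map_sub, map_smul, a2, a3]; simp)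
      (by simp [e0]))
    have := congrArg β m
    rw [map_smul, hy, m, map_sub, map_smul, he, sub_left_inj] at this
    exact x0 (by rw [← this, sub_self])
  let η : End F U := β.toLinearMap - 1
  have e1 : η ^ p ^ k = 0 := by
    rw [sub_pow_char_pow_of_commute _ _ (Commute.one_right _), one_pow, sub_eq_zero]
    exact (map_pow LinearEquiv.automorphismGroup.toLinearMapMonoidHom β _).symm.trans (by rw [hp, map_one])
  have : ∀ (n : ℕ) v, (η ^ n) v = 0 → η v = 0 := fun n => by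
    induction n with
    | zero => intro v hv; simp [show v = 0 from hv]
    | succ n ih => exact fun v hv => key v (sub_eq_zero.1 (ih (η v) (by rwa [pow_succ] at hv)))
  exact LinearEquiv.ext fun v => sub_eq_zero.1 (this _ v (by rw [e1]; rfl))

namespace SO3

variable [FiniteDimensional F W] [FiniteDimensional F U] [Finite F] (h : SO3 Φ₁ Φ₂ Φ X)
include h

omit [FiniteDimensional F U] [Finite F] in
theorem ex_tv (w : W) (κ : F) : ∃ r, IsE Φ₁ w 0 (-κ) r ∧ ∀ x, r x = x + (κ * Φ₁.B w x) • w :=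
  (h.sp₁.exists_tv h.nd₁ w (-κ)).imp fun r hr => ⟨hr, fun x => by simp [hr.app]⟩

omit [FiniteDimensional F W] [Finite F] in
theorem nontriv : Nontrivial U := Module.nontrivial_of_finrank_pos (R := F) (by rw [h.dU]; omega)

variable (hS : ¬ EG Φ ≤ X)
include hS

theorem cent_eq {e : U} (e0 : Φ₂.B e e ≠ 0) {g : W ⊗[F] U ≃ₗ[F] W ⊗[F] U} (hg : g ∈ actS X e ⊥) {w : W} (w0 : w ≠ 0)
    {s : W ≃ₗ[F] W} (hs : ∀ x, s x = x + (1 * Φ₁.B w x) • w) (c : Commute g (lT U s)) :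
    ∃ β ∈ Φ₂.isom, β e = e ∧ g = TensorProduct.congr 1 β := by
  obtain ⟨hg, fx⟩ := mem_actS_bot.1 hg
  obtain ⟨r, hr⟩ := h.nd₁.exists_eq_one w0
  obtain ⟨β, hβ⟩ := exists_beta w0 (comm_pt h.nd₁ w0 one_ne_zero hs hs c.eq)
  have a1 : ∀ x, cL (Φ₁.B w) (g x) = β (cL (Φ₁.B w) x) := fun x => tmul_inj (F := F) w0 (by
    have := LinearEquiv.congr_fun c.eq x
    rw [LinearEquiv.mul_apply, LinearEquiv.mul_apply, lT_rk1 hs, lT_rk1 hs, map_add, add_right_inj, one_smul, one_smul,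
      hβ] at this
    exact this.symm)
  have iβ : β ∈ Φ₂.isom := h.hd.mem_isom fun x y => by
    simpa [hβ, h.Bl, a1, hr] using (h.iso hg).1 (w ⊗ₜ x) (r ⊗ₜ y)
  have βe : β e = e := tmul_inj (F := F) w0 ((hβ e).symm.trans (fx w))
  refine ⟨β, iβ, βe, ?_⟩
  have m := h.mem 1 (one_mem _) β iβ
  have c1 : ∀ φ x, cL φ ((TensorProduct.congr (1 : W ≃ₗ[F] W) β)⁻¹ x) = β.symm (cL φ x) :=
    cL_right (γ := β.symm.toLinearMap) fun w u => rfl
  set g' := (TensorProduct.congr (1 : W ≃ₗ[F] W) β)⁻¹ * g with hg'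
  have b1 : ∀ u, g' (w ⊗ₜ u) = w ⊗ₜ u := fun u => inv_mul_apply.2 (hβ u)
  let ρ : End F U := -(cL (Φ₁.B r) ∘ₗ g'.toLinearMap ∘ₗ TensorProduct.mk F W U r)
  have b2 : ∀ u, g' (r ⊗ₜ u) = r ⊗ₜ u + w ⊗ₜ ρ u := fun u => by
    rw [h.dec hr (g' (r ⊗ₜ u)), show cL (Φ₁.B w) (g' (r ⊗ₜ u)) = u by
      rw [hg', LinearEquiv.mul_apply, c1, a1]; simp [hr]]
    simp [ρ, tmul_neg, sub_eq_add_neg]
  have b3 : ∀ x, g' x = x + w ⊗ₜ ρ (cL (Φ₁.B w) x) := fun x => by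
    conv_lhs => rw [h.dec hr x, map_sub, b1, b2]
    linear_combination (norm := abel) -h.dec hr x
  by_contra ne
  refine hS (h.win w0 ⟨g', mul_mem (inv_mem m) hg, b3⟩ e0 ?_ fun r0 => ne ?_)
  · have : g' (r ⊗ₜ e) = r ⊗ₜ e := inv_mul_apply.2 (by simp [fx, βe])
    simp [ρ, this, h.sp₁.alt]
  · exact (inv_mul_eq_one.1 (LinearEquiv.ext fun x => (b3 x).trans (by simp [r0]))).symm

theorem fix_ord {e : U} (e0 : Φ₂.B e e ≠ 0) {g : W ⊗[F] U ≃ₗ[F] W ⊗[F] U} (hg : g ∈ actS X e ⊥) :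
    ∃ m : ℕ, (m : F) ≠ 0 ∧ g ^ m = 1 := by
  have : Finite (W ⊗[F] U) := Module.finite_of_finite F
  have : Finite (W ⊗[F] U ≃ₗ[F] W ⊗[F] U) := Finite.of_injective _ DFunLike.coe_injective
  have : Fact (ringChar F).Prime := ⟨CharP.char_is_prime F _⟩
  refine ⟨orderOf g, fun e1 => ?_, pow_orderOf_eq_one g⟩
  obtain ⟨w, r, hr⟩ := h.ex₁
  obtain ⟨s, hs, es⟩ := h.ex_tv w 1
  have m := h.mem s hs.mem_isom 1 (one_mem _)
  obtain ⟨y, a, b, ⟨k, c⟩, d⟩ := exists_pelem_comm (p := ringChar F) (s := lT U s) (k := 2) (N := actS X e ⊥) (by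
    rw [congr_pow, hs.pow_char (ringChar F)]; exact (congrArg _ (one_pow _)).trans TensorProduct.congr_refl_refl)
    (fun n hn => mem_actS_bot.2 ⟨mul_mem (mul_mem m hn.1) (inv_mem m), fun z => by
      rw [← lT_inv]; simp [(mem_actS_bot.1 hn).2]⟩) hg ((ringChar.spec F _).1 e1)
  have w0 : w ≠ 0 := by rintro rfl; simp at hr
  obtain ⟨β, b1, b2, rfl⟩ := h.cent_eq hS e0 a w0 es d
  rw [congr_pow, one_pow] at c
  rw [h.hd.unip_eq_one h.two h.dU b1 e0 b2 (p := ringChar F) (k := k)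
    (LinearEquiv.ext fun u => tmul_inj (F := F) w0 (LinearEquiv.congr_fun c (w ⊗ₜ u)))] at b
  exact b TensorProduct.congr_refl_refl

theorem fix_eq {e : U} (e0 : Φ₂.B e e ≠ 0) {g : W ⊗[F] U ≃ₗ[F] W ⊗[F] U} (hg : g ∈ actS X e ⊥) :
    ∃ β ∈ Φ₂.isom, β e = e ∧ g = TensorProduct.congr 1 β := by
  obtain ⟨w, r, hr⟩ := h.ex₁
  have w0 : w ≠ 0 := by rintro rfl; simp at hr
  choose s hs es using h.ex_tv w
  have fx := (mem_actS_bot.1 hg).2
  have fx' : ∀ z, g⁻¹ (z ⊗ₜ e) = z ⊗ₜ e := (mem_actS_bot.1 (inv_mem hg)).2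
  let A : Subgroup (W ≃ₗ[F] W) :=
    { carrier := {a | ∃ κ, ∀ x, a x = x + (κ * Φ₁.B w x) • w}
      one_mem' := ⟨0, by simp⟩
      mul_mem' := fun ⟨k, a⟩ ⟨l, b⟩ => ⟨k + l, fun x => by simp [a, b, h.sp₁.alt]; module⟩
      inv_mem' := fun {a} ⟨k, b⟩ => ⟨-k, fun x => a.symm_apply_eq.2 (by simp [b, h.sp₁.alt])⟩ }
  have m : ∀ c, lT U (s c) ∈ X := fun c => h.mem _ (hs c).mem_isom 1 (one_mem _)
  have e1 := quad_eq h.two h.three (G := actS X e A) (N := actS X e ⊥) (α := tt w (Φ₁.B w) 1)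
    (β := g.symm.toLinearMap * tt w (Φ₁.B w) 1 * g.toLinearMap) (tt_mul_zero (h.sp₁.alt w))
    (LinearMap.ext fun x => by simp [h.sp₁.alt])
    (fun c => ⟨lT U (s c), ⟨m c, s c, ⟨c, es c⟩, fun _ => rfl⟩, LinearMap.ext fun x =>
      (lT_rk1 (es c) x).trans (by simp)⟩)
    (fun c => ⟨g⁻¹ * lT U (s c) * g, ⟨mul_mem (mul_mem (inv_mem hg.1) (m c)) hg.1, s c, ⟨c, es c⟩, fun z => by
      rw [LinearEquiv.mul_apply, fx, LinearEquiv.mul_apply]; exact fx' _⟩, LinearMap.ext fun x =>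
      (congrArg g.symm (lT_rk1 (es c) (g x))).trans (by simp)⟩)
    (fun a ha b hb => comm_actS (A := A) (fun _ ⟨k, a1⟩ _ ⟨l, b1⟩ => LinearEquiv.ext fun x => by
      simp [a1, b1, h.sp₁.alt]; module) ha hb)
    (fun g hg => h.fix_ord hS e0 hg) (g := (lT U (s 1))⁻¹ * (g⁻¹ * lT U (s 1) * g))
    (mem_actS_bot.2 ⟨mul_mem (inv_mem (m 1)) (mul_mem (mul_mem (inv_mem hg.1) (m 1)) hg.1), fun z => inv_mul_apply.2 (by
      rw [LinearEquiv.mul_apply, fx, LinearEquiv.mul_apply]; exact fx' _)⟩)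
    (LinearMap.ext fun x => inv_mul_apply.2 (by simp [lT_rk1 (es 1), h.sp₁.alt]))
  refine h.cent_eq hS e0 hg w0 (es 1) (LinearEquiv.ext fun x => ?_)
  have := congrArg g (LinearMap.congr_fun e1 x)
  simpa [lT_rk1 (es 1)] using this

theorem stM_eq {e : U} (e0 : Φ₂.B e e ≠ 0) {g : W ⊗[F] U ≃ₗ[F] W ⊗[F] U} (hg : g ∈ X) (H : StM g e) :
    ∃ a ∈ Φ₁.isom, ∃ β ∈ Φ₂.isom, β e = e ∧ g = TensorProduct.congr a β := by
  let a₀ : End F W := (Φ₂.B e e)⁻¹ • (TensorProduct.rid F W).toLinearMap ∘ₗ (Φ₂.B e).lTensor W ∘ₗ g.toLinearMap ∘ₗ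
    (TensorProduct.mk F W U).flip e
  have a1 : ∀ z, g (z ⊗ₜ e) = a₀ z ⊗ₜ e := fun z => by
    obtain ⟨z', e⟩ := H z
    simp [a₀, e, e0]
  have a2 : ∀ x y, Φ₁.B (a₀ x) (a₀ y) = Φ₁.B x y := fun x y => mul_right_cancel₀ e0 (by
    simpa only [a1, h.B] using (h.iso hg).1 (x ⊗ₜ e) (y ⊗ₜ e))
  let a := LinearEquiv.ofInjectiveEndo a₀ ((injective_iff_map_eq_zero _).2 fun x e => h.nd₁ x fun y => by
    rw [← a2, e]; simp)
  have ia : a ∈ Φ₁.isom := ⟨a2, fun x => by rw [(h.sp₁.sing _).1, (h.sp₁.sing _).1]⟩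
  obtain ⟨β, b1, b2, b3⟩ := h.fix_eq hS e0 (g := (lT U a)⁻¹ * g)
    (mem_actS_bot.2 ⟨mul_mem (inv_mem (h.mem a ia 1 (one_mem _))) hg, fun z => inv_mul_apply.2 (a1 z)⟩)
  refine ⟨a, ia, β, b1, b2, ?_⟩
  rw [inv_mul_eq_iff_eq_mul.1 b3]
  exact LinearEquiv.toLinearMap_injective (TensorProduct.ext' fun w u => rfl)

omit hS [FiniteDimensional F U] [Finite F] in
theorem stM_of_comm {z d : W ⊗[F] U ≃ₗ[F] W ⊗[F] U} {γ : End F U} (hz : ∀ w u, z (w ⊗ₜ u) = w ⊗ₜ γ u) {ε : F} {f : U}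
    (h1 : γ f = ε • f) (h2 : ∀ u, γ u = ε • u → u ∈ F ∙ f) (c : Commute d z) : StM d f := fun x => by
  obtain ⟨w, r, hr⟩ := h.ex₁
  have k : ∀ φ, ∃ c : F, c • f = cL φ (d (x ⊗ₜ f)) := fun φ => Submodule.mem_span_singleton.1 (h2 _ (by
    rw [← cL_right hz, ← LinearEquiv.mul_apply, ← c.eq, LinearEquiv.mul_apply, hz, h1, tmul_smul, map_smul, map_smul]))
  obtain ⟨a, ha⟩ := k (Φ₁.B w)
  obtain ⟨b, hb⟩ := k (Φ₁.B r)
  exact ⟨a • r - b • w, by rw [h.dec hr (d _), ← ha, ← hb, sub_tmul, smul_tmul, smul_tmul]⟩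

theorem inv_good {e : U} (e0 : Φ₂.B e e ≠ 0) {z : W ⊗[F] U ≃ₗ[F] W ⊗[F] U} (hz : z ∈ X) (H : StM z e) (zz : z * z = 1)
    (z1 : z ≠ 1) {x : W ⊗[F] U} (x0 : x ≠ 0) (hx : z x = x) :
    ∃ f, Φ₂.B f f ≠ 0 ∧ ∀ d, Commute d z → StM d f := by
  obtain ⟨a, ia, β, b1, b2, rfl⟩ := h.stM_eq hS e0 hz H
  obtain ⟨w, r, hr⟩ := h.ex₁
  have w0 : w ≠ 0 := by rintro rfl; simp at hr
  have aa : ∀ y, a (a y) = y := fun y => tmul_inj' (F := F) (u := e) (by rintro rfl; simp at e0) (by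
    simpa [b2] using LinearEquiv.congr_fun zz (y ⊗ₜ e))
  have a1 : ∀ y, Φ₁.B y (a y) = 0 := fun y => mul_left_cancel₀ h.two (by
    have := ia.1 y (a y)
    rw [aa, h.sp₁.skew] at this
    linear_combination -this)
  obtain ⟨k, hk⟩ : ∃ k : F, ∀ y, a y = k • y := by
    have e1 := h.decW hr (a w)
    have e2 := h.decW hr (a r)
    have e3 := a1 (w + r)
    simp only [map_add, LinearMap.add_apply, a1, zero_add, add_zero, zero_smul, zero_sub, sub_zero] at e1 e2 e3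
    refine ⟨Φ₁.B w (a r), fun y => ?_⟩
    rw [h.decW hr y, map_sub, map_smul, map_smul, e1, show Φ₁.B r (a w) = -Φ₁.B w (a r) by linear_combination e3]
    nth_rewrite 1 [e2]
    module
  let γ : End F U := k • β.toLinearMap
  have g1 : ∀ w u, TensorProduct.congr a β (w ⊗ₜ u) = w ⊗ₜ γ u := fun w u => by simp [γ, hk, smul_tmul]
  have g2 : ∀ u, γ (γ u) = u := fun u => tmul_inj (F := F) w0 (by
    rw [← g1, ← g1]; exact LinearEquiv.congr_fun zz (w ⊗ₜ u))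
  have g3 : ∀ u v, Φ₂.B (γ u) (γ v) = Φ₂.B u v := fun u v => by
    simpa only [g1, h.B, hr, one_mul] using (h.iso hz).1 (w ⊗ₜ u) (r ⊗ₜ v)
  have g4 : ∀ (ε : F) f, ε * ε = 1 → f ≠ 0 → γ f = ε • f → finrank F (LinearMap.ker (γ - ε • 1)) ≤ 1 →
      ∃ f, Φ₂.B f f ≠ 0 ∧ ∀ d, Commute d (TensorProduct.congr a β) → StM d f := fun ε f e1 f0 hf hd => by
    have s : ∀ u, γ u = ε • u → u ∈ F ∙ f := fun u hu => by
      rw [Submodule.eq_of_le_of_finrank_le (S₁ := F ∙ f) (S₂ := LinearMap.ker (γ - ε • 1)) (by simp [hf])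
        (by rwa [finrank_span_singleton f0])]
      simp [hu]
    refine ⟨f, fun n => f0 (h.hd.nd f fun u => mul_left_cancel₀ h.two ?_), fun d => h.stM_of_comm g1 hf s⟩
    obtain ⟨c, hc⟩ := Submodule.mem_span_singleton.1 (s (u + ε • γ u) (by
      simp only [map_add, map_smul, g2, smul_add, smul_smul, e1, one_smul]; abel))
    have t1 := congrArg (Φ₂.B f) hc
    have t2 := g3 f u
    simp [n, hf] at t1 t2
    linear_combination -t1 - t2
  obtain ⟨φ, hφ⟩ : ∃ φ, cL φ x ≠ 0 := by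
    by_contra! hc; exact x0 (eq_of_cL fun φ => by simp [hc])
  obtain ⟨u, hu⟩ : ∃ u, u - γ u ≠ 0 := by
    by_contra! hc
    exact z1 (LinearEquiv.toLinearMap_injective (TensorProduct.ext' fun w u =>
      (g1 w u).trans (by rw [← sub_eq_zero.1 (hc u)]; rfl)))
  have := Submodule.finrank_add_finrank_le_of_disjoint (s := LinearMap.ker (γ - (1 : F) • 1))
    (t := LinearMap.ker (γ - (-1 : F) • 1)) (Submodule.disjoint_def.2 fun y a b => smul_right_injective U h.two (by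
      simp only [LinearMap.mem_ker, LinearMap.sub_apply, LinearMap.smul_apply, End.one_apply] at a b
      simp only [smul_zero]
      linear_combination (norm := module) b - a))
  rw [h.dU] at this
  by_cases hd : finrank F (LinearMap.ker (γ - (1 : F) • 1)) ≤ 1
  · exact g4 1 _ (by simp) hφ (by rw [← cL_right g1, hx, one_smul]) hd
  · exact g4 (-1) _ (by simp) hu (by simp [g2]) (by omega)

omit hS [Finite F] in
theorem mem_of_pts {c : W ⊗[F] U ≃ₗ[F] W ⊗[F] U} (hc : c ∈ Φ.isom) (H : ∀ v ≠ 0, ∃ v', ∀ u, ∃ u', c (v ⊗ₜ u) = v' ⊗ₜ u') :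
    c ∈ tstab F W U := by
  have := h.nontriv
  obtain ⟨w, r, hr⟩ := h.ex₁
  have w0 : w ≠ 0 := by rintro rfl; simp at hr
  have r0 : r ≠ 0 := by rintro rfl; simp at hr
  have s0 : w + r ≠ 0 := fun e => by simpa [hr, h.sp₁.alt] using congrArg (Φ₁.B w) e
  obtain ⟨w', hw⟩ := H w w0
  obtain ⟨r', hr'⟩ := H r r0
  obtain ⟨s', hs⟩ := H _ s0
  obtain ⟨β₁, b1⟩ := exists_beta w0 hw
  obtain ⟨β₂, b2⟩ := exists_beta r0 hr'
  obtain ⟨β, b⟩ := exists_beta s0 hs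
  have n : Φ₁.B w' r' ≠ 0 := fun n => by
    obtain ⟨u, u0⟩ := exists_ne (0 : U)
    exact u0 (h.hd.nd u fun y => by simpa [b1, b2, h.B, hr, n] using (hc.1 (w ⊗ₜ u) (r ⊗ₜ y)).symm)
  have e : ∀ u, w' ⊗ₜ β₁ u + r' ⊗ₜ β₂ u = s' ⊗ₜ[F] β u := fun u => by rw [← b1, ← b2, ← b, add_tmul, map_add]
  have e1 : ∀ u, β₁ u = (-Φ₁.B r' s' / Φ₁.B w' r') • β u := fun u => by
    have := congrArg (cL (Φ₁.B r')) (e u)
    simp only [map_add, cL_tmul, h.sp₁.alt, h.sp₁.skew w' r'] at this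
    refine smul_right_injective U n ?_
    simp only [smul_smul, mul_div_cancel₀ _ n]
    linear_combination (norm := module) -this
  have e2 : ∀ u, β₂ u = (Φ₁.B w' s' / Φ₁.B w' r') • β u := fun u => by
    have := congrArg (cL (Φ₁.B w')) (e u)
    simp only [map_add, cL_tmul, h.sp₁.alt] at this
    refine smul_right_injective U n ?_
    simp only [smul_smul, mul_div_cancel₀ _ n]
    linear_combination (norm := module) this
  refine mem_tstab_of (β := β) fun z => ⟨Φ₁.B w z • (Φ₁.B w' s' / Φ₁.B w' r') • r' -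
    Φ₁.B r z • (-Φ₁.B r' s' / Φ₁.B w' r') • w', fun u => ?_⟩
  conv_lhs => rw [h.decW hr z]
  simp only [sub_tmul, ← smul_tmul', map_sub, map_smul, b1, b2, e1, e2, tmul_smul]

theorem mem_of_cent {f : U} {ρ : U ≃ₗ[F] U} (f0 : Φ₂.B f f ≠ 0) {c : W ⊗[F] U ≃ₗ[F] W ⊗[F] U} (hc : c ∈ X)
    (H : ∀ d, Commute d (c⁻¹ * TensorProduct.congr 1 ρ * c) → StM d f) : c ∈ tstab F W U := by
  have := h.nontriv
  have : Fact (ringChar F).Prime := ⟨CharP.char_is_prime F _⟩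
  refine inv_mem_iff.1 (h.mem_of_pts (h.iso (inv_mem hc)) fun v v0 => ?_)
  obtain ⟨s, hs, es⟩ := h.ex_tv v 1
  have m := h.mem s hs.mem_isom 1 (one_mem _)
  have cm : Commute (TensorProduct.congr s 1) (TensorProduct.congr 1 ρ) :=
    LinearEquiv.toLinearMap_injective (TensorProduct.ext' fun w u => rfl)
  obtain ⟨a, ia, β, b1, b2, e1⟩ := h.stM_eq hS f0 (mul_mem (mul_mem (inv_mem hc) m) hc) (H _ (by
    simpa using cm.map (MulAut.conj c⁻¹)))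
  have p1 : TensorProduct.congr a β ^ ringChar F ^ 2 = 1 := by
    rw [← e1, show c⁻¹ * TensorProduct.congr s 1 * c = MulAut.conj c⁻¹ (TensorProduct.congr s 1) by simp, ← map_pow,
      congr_pow, hs.pow_char (ringChar F), one_pow, ← map_one (MulAut.conj c⁻¹)]
    exact congrArg _ TensorProduct.congr_refl_refl
  rw [congr_pow] at p1
  have p2 : ∀ n : ℕ, (β ^ n) f = f := fun n => by
    induction n with
    | zero => rfl
    | succ n ih => rw [pow_succ, LinearEquiv.mul_apply, b2, ih]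
  have p3 : (a ^ ringChar F ^ 2) v = v := tmul_inj' (F := F) (u := f) (by rintro rfl; simp at f0) (by
    simpa [p2] using LinearEquiv.congr_fun p1 (v ⊗ₜ f))
  obtain rfl := h.hd.unip_eq_one h.two h.dU b1 f0 b2 (p := ringChar F) (k := 2) (LinearEquiv.ext fun u =>
    tmul_inj (F := F) v0 (by simpa [p3] using LinearEquiv.congr_fun p1 (v ⊗ₜ u)))
  obtain ⟨x, -, -, e4⟩ := rec1 h.nd₁ v0 one_ne_zero es e1
  exact ⟨_, e4⟩

omit hS [Finite F] in
theorem stM_rf {e : U} {ρ : U ≃ₗ[F] U} (hρ : IsRf Φ₂ e ρ) {d : W ⊗[F] U ≃ₗ[F] W ⊗[F] U}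
    (c : Commute d (TensorProduct.congr 1 ρ)) : StM d e :=
  h.stM_of_comm (γ := ρ.toLinearMap) (ε := -1) (fun _ _ => rfl) (by simp [hρ.self]) (fun u hu => by
    refine (Submodule.smul_mem_iff _ h.two).1 (Submodule.mem_span_singleton.2 ⟨-(-2 / Φ₂.B e e * Φ₂.B e u), ?_⟩)
    have := hρ.app u
    simp only [LinearEquiv.coe_coe] at hu
    linear_combination (norm := module) this - hu) c

theorem le : X ≤ tstab F W U := fun c hc => by
  have : Finite (W ⊗[F] U) := Module.finite_of_finite F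
  have : Finite (W ⊗[F] U ≃ₗ[F] W ⊗[F] U) := Finite.of_injective _ DFunLike.coe_injective
  obtain ⟨u, v, a, hu, hv, uv, ua, va, aa⟩ := h.ex₂
  have vu := (h.hd.sym v u).trans uv
  have au := (h.hd.sym a u).trans ua
  have av := (h.hd.sym a v).trans va
  have u0 : u ≠ 0 := by rintro rfl; simp at uv
  obtain ⟨w, r, hr⟩ := h.ex₁
  have w0 : w ≠ 0 := by rintro rfl; simp at hr
  obtain ⟨ν, hν⟩ := FiniteField.exists_nonsquare (ringChar_ne_two h.two)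
  obtain ⟨l, hl⟩ : ∃ l, ν = 2 * l * Φ₂.B a a := ⟨ν / (2 * Φ₂.B a a), by have := h.two; field_simp⟩
  have l0 : l ≠ 0 := by rintro rfl; simp [hl] at hν
  have e0 : Φ₂.B (u + l • v) (u + l • v) ≠ 0 := by simpa [hu, hv, uv, vu, ← two_mul, l0] using h.two
  obtain ⟨ρ, hρ⟩ := h.hd.exists_rf aa
  obtain ⟨ρ', hρ'⟩ := h.hd.exists_rf e0
  have sq : ∀ {e ρ}, IsRf Φ₂ e ρ → TensorProduct.congr (1 : W ≃ₗ[F] W) ρ * TensorProduct.congr 1 ρ = 1 := fun h =>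
    LinearEquiv.toLinearMap_injective (TensorProduct.ext' fun w u =>
      congrArg (w ⊗ₜ[F] ·) (LinearEquiv.congr_fun h.sq u))
  have m := h.mem 1 (one_mem _) ρ hρ.iso
  have m' := h.mem 1 (one_mem _) ρ' hρ'.iso
  have q := sq hρ
  have q' := sq hρ'
  have st := fun d => h.stM_rf (d := d) hρ'
  have mc := fun f f0 c hc => h.mem_of_cent hS (f := f) (ρ := ρ) f0 (c := c) hc
  obtain ⟨t, ht⟩ : ∃ t, t = TensorProduct.congr (1 : W ≃ₗ[F] W) ρ := ⟨_, rfl⟩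
  obtain ⟨t', ht'⟩ : ∃ t, t = TensorProduct.congr (1 : W ≃ₗ[F] W) ρ' := ⟨_, rfl⟩
  rw [← ht] at m q mc
  rw [← ht'] at m' q' st
  have md := mul_mem (mul_mem (inv_mem hc) m) hc
  have dd : c⁻¹ * t * c * (c⁻¹ * t * c) = 1 := by
    rw [show c⁻¹ * t * c * (c⁻¹ * t * c) = c⁻¹ * (t * t) * c by group, q]; simp
  rcases Nat.even_or_odd (orderOf (t' * (c⁻¹ * t * c))) with e | e
  · obtain ⟨z2, z3, z4⟩ := Invol.half_pow_spec q' dd e
    obtain ⟨x, hx, x0⟩ := (Submodule.ne_bot_iff _).1 (LinearMap.ker_ne_bot_of_finrank_lt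
      (f := (((Φ₂.B (u + l • v)) ∘ₗ cL (Φ₁.B w)).prod ((Φ₂.B (u + l • v)) ∘ₗ cL (Φ₁.B r))).prod
        (((Φ₂.B a ∘ₗ cL (Φ₁.B w)).prod (Φ₂.B a ∘ₗ cL (Φ₁.B r))) ∘ₗ c.toLinearMap)) (by simp [h.dW, h.dU]))
    replace hx : (Φ₂.B (u + l • v) (cL (Φ₁.B w) x) = 0 ∧ Φ₂.B (u + l • v) (cL (Φ₁.B r) x) = 0) ∧
        Φ₂.B a (cL (Φ₁.B w) (c x)) = 0 ∧ Φ₂.B a (cL (Φ₁.B r) (c x)) = 0 :=
      ⟨Prod.ext_iff.1 (Prod.ext_iff.1 hx).1, Prod.ext_iff.1 (Prod.ext_iff.1 hx).2⟩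
    have x1 : t' x = x := by rw [h.dec hr x]; simp [ht', hρ'.perp hx.1.1, hρ'.perp hx.1.2]
    have x2 : (c⁻¹ * t * c) x = x := by
      rw [mul_assoc]
      refine inv_mul_apply.2 ?_
      rw [LinearEquiv.mul_apply, h.dec hr (c x)]; simp [ht, hρ.perp hx.2.1, hρ.perp hx.2.2]
    have x3 : ∀ n : ℕ, ((t' * (c⁻¹ * t * c)) ^ n) x = x := fun n => by
      induction n with
      | zero => rfl
      | succ n ih => rw [pow_succ, LinearEquiv.mul_apply, LinearEquiv.mul_apply, x2, x1, ih]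
    obtain ⟨f, f0, hf⟩ := h.inv_good hS e0 (pow_mem (mul_mem m' md) _) (st _ z3) (Invol.mul_self_of z2)
      (Invol.ne_one_of z2) x0 (x3 _)
    obtain ⟨f, f0, hf⟩ := h.inv_good hS f0 md (hf _ z4.symm) dd (fun e => by
      have := LinearEquiv.congr_fun (show t = 1 by simpa [mul_assoc, inv_mul_eq_iff_eq_mul] using e) (w ⊗ₜ a)
      rw [ht] at this
      have := congrArg (Φ₂.B a) (tmul_inj (F := F) w0 (u := ρ a) (u' := a) this)
      rw [hρ.self, map_neg] at this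
      exact aa (mul_left_cancel₀ h.two (by linear_combination -this))) x0 x2
    exact mc f f0 c hc hf
  obtain ⟨k, hk⟩ := Invol.exists_conj_of_odd q' dd e
  have mk := zpow_mem (mul_mem m' md) k
  generalize (t' * (c⁻¹ * t * c)) ^ k = y at hk mk
  have e1 : (c * y)⁻¹ * t * (c * y) = t' := by
    rw [show (c * y)⁻¹ * t * (c * y) = y⁻¹ * (c⁻¹ * t * c) * y by group, ← hk]; group
  obtain ⟨p, b, e2⟩ := mc _ e0 _ (mul_mem hc mk) fun d hd => st d (e1 ▸ hd)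
  have iso := (h.iso (mul_mem hc mk)).1
  generalize c * y = c' at e1 e2 iso
  have s : ∀ x y, Φ₁.B (p w) (p r) * Φ₂.B (b x) (b y) = Φ₂.B x y := fun x y => by
    simpa [e2, h.B, hr] using iso (w ⊗ₜ x) (r ⊗ₜ y)
  have e3 : ρ (b (u + l • v)) = -b (u + l • v) := tmul_inj (F := F) (w := p w) (by simpa) (by
    have := LinearEquiv.congr_fun (show t * c' = c' * t' by rw [← e1]; group) (w ⊗ₜ (u + l • v))
    rwa [LinearEquiv.mul_apply, LinearEquiv.mul_apply, ht', TensorProduct.congr_tmul, hρ'.self, e2, e2, map_neg,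
      ht] at this)
  obtain ⟨y, rfl⟩ := b.surjective u
  have y1 : Φ₂.B y y = 0 := by rw [← s, hu, mul_zero]
  have y2 : Φ₂.B y (b y + l • v) = 0 := by
    have := hρ.iso.1 (b y) (b (b y + l • v))
    rw [hρ.perp au, e3, map_neg] at this
    rw [← s, show Φ₂.B (b y) (b (b y + l • v)) = 0 from mul_left_cancel₀ h.two (by linear_combination -this), mul_zero]
  obtain ⟨γ, e4⟩ := Submodule.mem_span_singleton.1 (mem_span_three h.hd.nd h.dU (u := a) (by rintro rfl; simp at aa) u0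
    (b := v) (fun e => by
      obtain ⟨c, rfl⟩ := Submodule.mem_span_singleton.1 e
      simp [hu] at uv) ua va (y := y - Φ₂.B v y • b y - Φ₂.B (b y) y • v) (by simp [hu, uv]) (by simp [hv, vu]))
  have y0 : y ≠ 0 := by simpa using u0
  generalize b y = u at *
  rw [map_add, map_smul, h.hd.sym y, h.hd.sym y] at y2
  have e5 : y = γ • a + Φ₂.B v y • u + Φ₂.B u y • v := by rw [e4]; abel
  generalize Φ₂.B v y = α at *
  generalize Φ₂.B u y = β at *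
  subst e5
  simp [hu, hv, uv, vu, ua, va, au, av] at y1 y2
  refine (hν ?_).elim
  by_cases a0 : α = 0
  · obtain rfl : β = 0 := by simpa [a0] using y2
    simp [a0, aa] at y1
    simp [a0, y1] at y0
  refine ⟨γ * Φ₂.B a a / α, ?_⟩
  field_simp
  linear_combination α * α * hl - Φ₂.B a a * y1 + 2 * α * Φ₂.B a a * y2

end SO3

theorem max_sp2_o3 [FiniteDimensional F W] [FiniteDimensional F U] [Finite F]
    (h : SO3 Φ₁ Φ₂ Φ (tstab F W U ⊓ EG Φ)) : Geo.IsMaximalIn (EG Φ) (tstab F W U ⊓ EG Φ) := by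
  refine max_crit inf_le_right ?_ fun X a1 a2 g hg hg' => by_contra fun hS => hg' ⟨SO3.le (X := X)
    { h with iso := a2.trans EG_le_isom, mem := fun a ha b hb => a1 (h.mem a ha b hb) } hS hg, a2 hg⟩
  obtain ⟨u, v, -, hu, -, uv, -⟩ := h.ex₂
  obtain ⟨w, r, hr⟩ := h.ex₁
  obtain ⟨g, hg⟩ := h.sp.exists_tv h.nondeg (w ⊗ₜ u) 1
  refine ⟨g, IsE_mem_EG hg, fun ⟨⟨a, b, e⟩, _⟩ => ?_⟩
  obtain ⟨c, hc⟩ := Submodule.mem_span_singleton.1 (mem_span_of_tmul (x := a r) (y := r) (u := b u) (u' := u)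
    (by rintro e; simp [show u = 0 by simpa using e] at uv) (by rw [← e, hg.app]; simp [h.B, hu]))
  have := congrArg (Φ₂.B v ∘ cL (Φ₁.B r)) ((e r v).symm.trans (hg.app _))
  simp [← hc, h.B, hr, uv, h.sp₁.alt, h.sp₁.skew w r, h.hd.sym v u] at this

theorem tensor_sp2_o3 [Fintype F] (h2 : (2 : F) ≠ 0) (h3 : Fintype.card F ≠ 3) {n : ℕ}
    {e : (Fin n ⊕ Fin n) ≃ Fin 2 × Fin 3} {P : GL (Fin n ⊕ Fin n) F} {f₁ : (Fin 2 → F) → (Fin 2 → F) → F}
    {f₂ : (Fin 3 → F) → (Fin 3 → F) → F} (hf₁ : Geo.IsSymplecticForm f₁) (hf₂ : Geo.IsSymmetricForm f₂)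
    (hT : Geo.IsTensorFormStructure id (sympForm n F) f₁ f₂ e P) :
    Geo.IsMaximalIn (spGL n F) (Geo.tensorProductSubgroup 2 3 e P ⊓ spGL n F) := by
  obtain ⟨c, hc, e1⟩ := tensor_eq (σ := RingHom.id F) hT (formOfGram_bilin hf₁.bilinear) (formOfGram_bilin hf₂.bilinear)
  obtain ⟨Φ₁, a1, a2⟩ := exists_symm' h2 hf₂ hc
  obtain ⟨Φ₂, b1, b2, b3, b4, b5, b6⟩ := exists_symp' hf₁ one_ne_zero
  refine isMaximalIn_tensorF (fun g => mem_spGL) (isMaximalIn_comm ?_)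
  have hB : ∀ u w u' w', (((sympFormed n F).comap ((kE F _ _).trans (Asch.tv e P)).toLinearMap).comap
      (TensorProduct.comm F _ _).toLinearMap).B (u ⊗ₜ w) (u' ⊗ₜ w') = Φ₂.B u u' * Φ₁.B w w' := fun u w u' w' => by
    rw [a2, b2, one_mul, mul_comm, ← e1]; exact sympFormed_B _ _ _ _
  exact max_sp2_o3 ⟨hB, ⟨fun _ => rfl, rfl, rfl⟩, ⟨fun _ => rfl, b3, b5⟩, b1, a1, by simp, by simp, h2, by simpa,
    inf_le_right.trans EG_le_isom, fun a ha b hb => ⟨⟨a, b, fun _ _ => rfl⟩, (mem_EG_comap _).2 ((mem_EG_comap _).2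
      ((EG_symp n).ge (mem_isom_comap _ (mem_isom_comap _ (congr_mem_isom hB (.inl h2) ha hb)))))⟩⟩

end Cfsg.Agent.Root.Mx
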