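import Cfsg.Agent.Ree.SL2Pres
import Cfsg.Agent.Root.SL2
import Cfsg.Agent.Root.Quasisimple
import Cfsg.Agent.Root.Special2

/-! Steinberg's theorem in rank one over a finite field: the relations (A) and (B') already imply
the torus relations (C), so they give a homomorphism from `SL(2, F)` (`StSys.exists_hom`).
Application: partners of prime order in a special rank one pair generate `(P)SL(2, p)`
(`special_psl2`). -/

set_option autoImplicit false

namespace Cfsg.Agent.Low.Stb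
open Cfsg Cfsg.Agent.Root _root_.Cfsg.Agent.Classical
open scoped MatrixGroups

variable {F J : Type*} [Field F] [Group J]

/-- The Weyl elements. -/
def nn (x y : F → J) (t : F) : J := x t * y (-t⁻¹) * x t

/-- Steinberg's relations (A), (B'). -/
structure StSys (x y : F → J) : Prop where
  hx : ∀ t u, x (t + u) = x t * x u
  hy : ∀ t u, y (t + u) = y t * y u
  h1 : ∀ t, t ≠ 0 → ∀ u, nn x y t * x u * (nn x y t)⁻¹ = y (-(t⁻¹ ^ 2 * u))

/-- `g` acts like the diagonal matrix with entries `l, l⁻¹`. -/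
def Act (x y : F → J) (g : J) (l : F) : Prop :=
  (∀ s, g * x s * g⁻¹ = x (l ^ 2 * s)) ∧ ∀ s, g * y s * g⁻¹ = y (l⁻¹ ^ 2 * s)

theorem Act.mul {x y : F → J} {g g' : J} {l l' : F} (h : Act x y g l) (h' : Act x y g' l') :
    Act x y (g * g') (l * l') := by
  refine ⟨fun s => ?_, fun s => ?_⟩
  · rw [show (l * l') ^ 2 * s = l ^ 2 * (l' ^ 2 * s) by ring, ← h.1, ← h'.1]; group
  · rw [show (l * l')⁻¹ ^ 2 * s = l⁻¹ ^ 2 * (l'⁻¹ ^ 2 * s) by ring, ← h.2, ← h'.2]; group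

theorem Act.one {x y : F → J} : Act x y 1 1 := ⟨fun s => by simp, fun s => by simp⟩

theorem Act.pow {x y : F → J} {g : J} {l : F} (h : Act x y g l) (k : ℕ) :
    Act x y (g ^ k) (l ^ k) := by
  induction k with
  | zero => simpa using Act.one
  | succ k ih => rw [pow_succ, pow_succ]; exact ih.mul h

theorem Act.inv {x y : F → J} {g : J} {l : F} (h : Act x y g l) (hl : l ≠ 0) :
    Act x y g⁻¹ l⁻¹ := by
  refine ⟨fun s => ?_, fun s => ?_⟩
  · have := h.1 (l⁻¹ ^ 2 * s)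
    rw [show l ^ 2 * (l⁻¹ ^ 2 * s) = s by field_simp] at this
    conv_lhs => rw [← this]
    group
  · have := h.2 (l⁻¹⁻¹ ^ 2 * s)
    rw [show l⁻¹ ^ 2 * (l⁻¹⁻¹ ^ 2 * s) = s by field_simp] at this
    conv_lhs => rw [← this]
    group

/-- The subgroup generated by the root elements. -/
def KK (x y : F → J) : Subgroup J := Subgroup.closure (Set.range x ∪ Set.range y)

theorem Act.comm {x y : F → J} {g : J} {l : F} (h : Act x y g l) (hl : l ^ 2 = 1) :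
    ∀ k ∈ KK x y, Commute g k := by
  intro k hk
  induction hk using Subgroup.closure_induction with
  | mem k hk =>
    rcases hk with ⟨s, rfl⟩ | ⟨s, rfl⟩
    · have := h.1 s
      rw [hl, one_mul] at this
      exact mul_inv_eq_iff_eq_mul.1 this
    · have := h.2 s
      rw [inv_pow, hl, inv_one, one_mul] at this
      exact mul_inv_eq_iff_eq_mul.1 this
  | one => exact Commute.one_right g
  | mul a b _ _ ha hb => exact ha.mul_right hb
  | inv a _ ha => exact ha.inv_right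

theorem nn_mem (x y : F → J) (t : F) : nn x y t ∈ KK x y :=
  Subgroup.mul_mem _ (Subgroup.mul_mem _ (Subgroup.subset_closure (Or.inl ⟨_, rfl⟩))
    (Subgroup.subset_closure (Or.inr ⟨_, rfl⟩))) (Subgroup.subset_closure (Or.inl ⟨_, rfl⟩))

namespace StSys
variable {x y : F → J} (S : StSys x y)
include S

theorem xneg (t : F) : x (-t) = (x t)⁻¹ := by
  have h0 : x 0 = 1 := by simpa using (S.hx 0 0).symm
  exact eq_inv_of_mul_eq_one_left (by rw [← S.hx, neg_add_cancel, h0])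

theorem yneg (t : F) : y (-t) = (y t)⁻¹ := by
  have h0 : y 0 = 1 := by simpa using (S.hy 0 0).symm
  exact eq_inv_of_mul_eq_one_left (by rw [← S.hy, neg_add_cancel, h0])

theorem n_neg (t : F) : nn x y (-t) = (nn x y t)⁻¹ := by
  simp only [nn, inv_neg, neg_neg, S.xneg, S.yneg]; group

theorem h2 {t : F} (ht : t ≠ 0) (u : F) :
    nn x y t * y u * (nn x y t)⁻¹ = x (-(t ^ 2 * u)) := by
  have := S.h1 (-t) (neg_ne_zero.2 ht) (-(t ^ 2 * u))
  rw [S.n_neg, show -((-t)⁻¹ ^ 2 * -(t ^ 2 * u)) = u by field_simp] at this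
  conv_lhs => rw [← this]
  group

theorem braid {t : F} (ht : t ≠ 0) : nn x y t = y (-t⁻¹) * x t * y (-t⁻¹) := by
  have e1 := S.h1 t ht t
  have e2 := S.h2 ht (-t⁻¹)
  rw [show -(t⁻¹ ^ 2 * t) = -t⁻¹ by field_simp] at e1
  rw [show -(t ^ 2 * -t⁻¹) = t by field_simp] at e2
  calc nn x y t = nn x y t * (x t * y (-t⁻¹) * x t) * (nn x y t)⁻¹ := by
        rw [show x t * y (-t⁻¹) * x t = nn x y t from rfl]; group
    _ = (nn x y t * x t * (nn x y t)⁻¹) * (nn x y t * y (-t⁻¹) * (nn x y t)⁻¹) *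
        (nn x y t * x t * (nn x y t)⁻¹) := by group
    _ = _ := by rw [e1, e2]

theorem conj_n {u t : F} (hu : u ≠ 0) (ht : t ≠ 0) :
    nn x y u * nn x y t * (nn x y u)⁻¹ = nn x y (u ^ 2 / t) := by
  have e1 := S.h1 u hu t
  have e2 := S.h2 hu (-t⁻¹)
  rw [S.braid (t := u ^ 2 / t) (by positivity), show -(u ^ 2 / t)⁻¹ = -(u⁻¹ ^ 2 * t) by field_simp,
    show u ^ 2 / t = -(u ^ 2 * -t⁻¹) by field_simp, ← e1, ← e2]
  rw [show nn x y t = x t * y (-t⁻¹) * x t from rfl]; group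

theorem act {a b : F} (ha : a ≠ 0) (hb : b ≠ 0) :
    Act x y (nn x y a * (nn x y b)⁻¹) (a / b) := by
  have hb' : -b ≠ 0 := neg_ne_zero.2 hb
  refine ⟨fun s => ?_, fun s => ?_⟩
  · rw [show (a / b) ^ 2 * s = -(a ^ 2 * -((-b)⁻¹ ^ 2 * s)) by field_simp, ← S.h2 ha, ← S.h1 _ hb',
      S.n_neg]; group
  · rw [show (a / b)⁻¹ ^ 2 * s = -(a⁻¹ ^ 2 * -((-b) ^ 2 * s)) by field_simp, ← S.h1 _ ha, ← S.h2 hb',
      S.n_neg]; group

theorem sq_comm {a : F} (ha : a ≠ 0) : ∀ k ∈ KK x y, Commute (nn x y a * nn x y a) k := by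
  have := S.act ha (neg_ne_zero.2 ha)
  rw [S.n_neg, inv_inv] at this
  exact this.comm (by field_simp)

/-- The three-term relation. -/
theorem three {s t : F} (hs : s ≠ 0) (ht : t ≠ 0) (hst : s + t ≠ 0) :
    nn x y (-(s ^ 2 / (s + t))) * nn x y s * nn x y t = nn x y (s * t / (s + t)) := by
  have ey : ∀ a : F, y (-a⁻¹) = x (-a) * nn x y a * x (-a) := fun a => by
    rw [S.xneg, nn]; group
  set r := -(s ^ 2 / (s + t)) with hr
  set w := s * t / (s + t) with hw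
  have e0 : y (-w⁻¹) = y (-s⁻¹) * y (-t⁻¹) := by
    rw [← S.hy]; congr 1; rw [hw]; field_simp; ring
  have e1 := S.h1 s hs (-s + -t)
  rw [show -(s⁻¹ ^ 2 * (-s + -t)) = -r⁻¹ by rw [hr]; field_simp; ring, ey, S.hx] at e1
  have e2 := ((S.act hs (neg_ne_zero.2 ht)).inv (by simp [hs, ht])).1 (-r)
  rw [S.n_neg, inv_inv] at e2
  have e3 : x (-w) = x (-s) * x (-r) := by
    rw [← S.hx]; congr 1; rw [hw, hr]; field_simp; ring
  have e4 : x (-w) = x ((s / -t)⁻¹ ^ 2 * -r) * x (-t) := by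
    rw [← S.hx]; congr 1; rw [hw, hr]; field_simp; ring
  rw [ey, ey, ey] at e0
  have e5 : x (-w) * nn x y w * x (-w) =
      x (-w) * (nn x y r * nn x y s * nn x y t) * x (-w) := by
    rw [e0]
    nth_rewrite 1 [e3]
    rw [e4, ← e2]
    have : x (-s) * nn x y s * x (-s) * (x (-t) * nn x y t * x (-t)) =
        x (-s) * (nn x y s * (x (-s) * x (-t)) * (nn x y s)⁻¹) * nn x y s * nn x y t * x (-t) := by
      group
    rw [this, e1]; group
  exact (mul_left_cancel (mul_right_cancel e5)).symm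

variable {ζ : F} (hζ0 : ζ ≠ 0) (hζ : ∀ a : F, a ≠ 0 → ∃ k : ℕ, ζ ^ k = a)
include hζ0 hζ

theorem comm {a b c d : F} (ha : a ≠ 0) (hb : b ≠ 0) (hc : c ≠ 0) (hd : d ≠ 0) :
    Commute (nn x y a * (nn x y b)⁻¹) (nn x y c * (nn x y d)⁻¹) := by
  have hη := S.act hζ0 one_ne_zero
  rw [div_one] at hη
  set η := nn x y ζ * (nn x y 1)⁻¹
  have mη : η ∈ KK x y := Subgroup.mul_mem _ (nn_mem _ _ _) (Subgroup.inv_mem _ (nn_mem _ _ _))
  have key : ∀ {a b : F}, a ≠ 0 → b ≠ 0 → ∃ k : ℕ, ∃ c, (∀ g ∈ KK x y, Commute c g) ∧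
      nn x y a * (nn x y b)⁻¹ = c * η ^ k := by
    intro a b ha hb
    obtain ⟨k, hk⟩ := hζ (a / b) (div_ne_zero ha hb)
    have := (S.act ha hb).mul ((hη.pow k).inv (pow_ne_zero _ hζ0))
    refine ⟨k, _, this.comm (by rw [hk]; field_simp), by group⟩
  obtain ⟨k, c₁, h₁, e₁⟩ := key ha hb
  obtain ⟨l, c₂, h₂, e₂⟩ := key hc hd
  rw [e₁]
  refine Commute.mul_left (h₁ _ (Subgroup.mul_mem _ (nn_mem _ _ _)
    (Subgroup.inv_mem _ (nn_mem _ _ _)))) ?_
  rw [e₂]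
  exact (h₂ _ (Subgroup.pow_mem _ mη k)).symm.mul_right ((Commute.refl η).pow_pow k l)

theorem shift {a b u : F} (ha : a ≠ 0) (hb : b ≠ 0) (hu : u ≠ 0) :
    nn x y (u ^ 2 * a) * (nn x y (u ^ 2 * b))⁻¹ = nn x y a * (nn x y b)⁻¹ := by
  have key : ∀ {a : F}, a ≠ 0 → (nn x y u * (nn x y 1)⁻¹) * nn x y a * (nn x y u * (nn x y 1)⁻¹)⁻¹ =
      nn x y (u ^ 2 * a) := by
    intro a ha
    have e1 := S.conj_n (neg_ne_zero.2 (one_ne_zero' F)) ha
    have e2 := S.conj_n hu (t := (-1) ^ 2 / a) (by simp [ha])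
    rw [show u ^ 2 / ((-1) ^ 2 / a) = u ^ 2 * a by field_simp, ← e1, S.n_neg] at e2
    rw [← e2]; group
  rw [← key ha, ← key hb]
  have := (S.comm hζ0 hζ hu one_ne_zero ha hb).eq
  calc _ = (nn x y u * (nn x y 1)⁻¹) * (nn x y a * (nn x y b)⁻¹) * (nn x y u * (nn x y 1)⁻¹)⁻¹ := by
        group
    _ = _ := by rw [this]; group

theorem tri {a u v : F} (ha : a ≠ 0) (hu : u ≠ 0) (hv : v ≠ 0) :
    nn x y a * (nn x y (u ^ 2))⁻¹ * nn x y (v ^ 2) = nn x y (a * v ^ 2 / u ^ 2) := by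
  have := S.shift hζ0 hζ ha (pow_ne_zero 2 hu) (div_ne_zero hv hu)
  rw [show (v / u) ^ 2 * u ^ 2 = v ^ 2 by field_simp,
    show (v / u) ^ 2 * a = a * v ^ 2 / u ^ 2 by field_simp] at this
  rw [← this]; group

theorem z_inv {u t : F} (hu : u ≠ 0) (ht : t ≠ 0) :
    nn x y (u ^ 2 / t) * nn x y (u ^ 2 / t) = nn x y t * nn x y t := by
  rw [← S.conj_n hu ht]
  have := (S.sq_comm ht _ (nn_mem x y u)).eq
  calc _ = nn x y u * (nn x y t * nn x y t) * (nn x y u)⁻¹ := by group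
    _ = _ := by rw [← this]; group

theorem z_eq (hsq : ∀ c : F, ∃ s t : F, s ^ 2 + t ^ 2 = c) {c : F} (hc : c ≠ 0) :
    nn x y c * nn x y c = nn x y 1 * nn x y 1 := by
  have sq : ∀ {s : F}, s ≠ 0 → nn x y (s ^ 2) * nn x y (s ^ 2) = nn x y 1 * nn x y 1 := by
    intro s hs
    simpa using S.z_inv hζ0 hζ hs one_ne_zero
  obtain ⟨s, t, rfl⟩ := hsq c
  by_cases hs : s = 0
  · subst hs
    simpa using sq (s := t) (by simpa using hc)
  by_cases ht : t = 0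
  · subst ht
    simpa using sq hs
  have e := S.three (pow_ne_zero 2 hs) (pow_ne_zero 2 ht) hc
  have hr : -((s ^ 2) ^ 2 / (s ^ 2 + t ^ 2)) ≠ 0 := by simp [hs, hc]
  have e' := S.tri hζ0 hζ hr hs ht
  rw [show -((s ^ 2) ^ 2 / (s ^ 2 + t ^ 2)) * t ^ 2 / s ^ 2 = -(s ^ 2 * t ^ 2 / (s ^ 2 + t ^ 2)) by
    field_simp, S.n_neg (s ^ 2 * t ^ 2 / (s ^ 2 + t ^ 2))] at e'
  rw [← S.z_inv hζ0 hζ (mul_ne_zero hs ht) hc, mul_pow, ← sq hs]
  set w := nn x y (s ^ 2 * t ^ 2 / (s ^ 2 + t ^ 2))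
  have c1 := (S.sq_comm (pow_ne_zero 2 hs) _ (nn_mem x y (-((s ^ 2) ^ 2 / (s ^ 2 + t ^ 2))))).eq
  have c2 := (S.sq_comm (pow_ne_zero 2 hs) _ (nn_mem x y (s ^ 2 * t ^ 2 / (s ^ 2 + t ^ 2)))).eq
  have : w = nn x y (s ^ 2) * nn x y (s ^ 2) * w⁻¹ := by
    rw [← e', ← mul_assoc, ← mul_assoc, c1, ← e]; group
  exact mul_inv_eq_iff_eq_mul.1 (by rw [mul_assoc, mul_inv_cancel, mul_one]) |>.trans
    (eq_mul_inv_iff_mul_eq.1 this)

theorem torus (hsq : ∀ c : F, ∃ s t : F, s ^ 2 + t ^ 2 = c) {a c : F} (ha : a ≠ 0) (hc : c ≠ 0) :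
    nn x y a * (nn x y 1)⁻¹ * (nn x y c * (nn x y 1)⁻¹) = nn x y (a * c) * (nn x y 1)⁻¹ := by
  have ev : ∀ {a v : F}, a ≠ 0 → v ≠ 0 → nn x y a * (nn x y 1)⁻¹ * (nn x y (v ^ 2) * (nn x y 1)⁻¹) =
      nn x y (a * v ^ 2) * (nn x y 1)⁻¹ := by
    intro a v ha hv
    have := S.tri hζ0 hζ ha one_ne_zero hv
    simp only [one_pow, div_one] at this
    rw [← this]; group
  have par : ∀ {a : F}, a ≠ 0 → ∃ v, v ≠ 0 ∧ (a = v ^ 2 ∨ a = ζ * v ^ 2) := by
    intro a ha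
    obtain ⟨k, rfl⟩ := hζ a ha
    obtain ⟨m, rfl | rfl⟩ := Nat.even_or_odd' k
    · exact ⟨ζ ^ m, pow_ne_zero _ hζ0, Or.inl (by ring)⟩
    · exact ⟨ζ ^ m, pow_ne_zero _ hζ0, Or.inr (by ring)⟩
  obtain ⟨v, hv, rfl | rfl⟩ := par hc
  · exact ev ha hv
  obtain ⟨u, hu, rfl | rfl⟩ := par ha
  · rw [(S.comm hζ0 hζ ha one_ne_zero hc one_ne_zero).eq, ev hc hu, mul_comm (u ^ 2)]
  have e0 : nn x y ζ * (nn x y 1)⁻¹ * (nn x y ζ * (nn x y 1)⁻¹) = nn x y (ζ ^ 2) * (nn x y 1)⁻¹ := by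
    have e1 := S.conj_n hζ0 one_ne_zero
    have e2 := S.z_eq hζ0 hζ hsq hζ0
    rw [div_one] at e1
    rw [← e1]
    have c := (S.sq_comm one_ne_zero _ (nn_mem x y ζ)).eq
    calc _ = nn x y ζ * (nn x y 1)⁻¹ * (nn x y ζ * nn x y ζ) * (nn x y ζ)⁻¹ * (nn x y 1)⁻¹ := by group
      _ = _ := by rw [e2]; group
  rw [← ev hζ0 hu, ← ev hζ0 hv, show ζ * u ^ 2 * (ζ * v ^ 2) = ζ ^ 2 * u ^ 2 * v ^ 2 by ring,
    ← ev (by positivity) hv, ← ev (by positivity) hu, ← e0]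
  have c := (S.comm hζ0 hζ (pow_ne_zero 2 hu) one_ne_zero hζ0 one_ne_zero).eq
  calc _ = nn x y ζ * (nn x y 1)⁻¹ * ((nn x y (u ^ 2) * (nn x y 1)⁻¹) * (nn x y ζ * (nn x y 1)⁻¹)) *
        (nn x y (v ^ 2) * (nn x y 1)⁻¹) := by group
    _ = _ := by rw [c]; group

theorem exists_hom (hsq : ∀ c : F, ∃ s t : F, s ^ 2 + t ^ 2 = c) :
    ∃ φ : SL(2, F) →* J, (∀ t, φ (uSL t) = x t) ∧ ∀ t, φ (lSL t) = y t :=
  Ree.exists_SL2_hom x y (nn x y) (fun t => nn x y t * nn x y (-1)) S.hx S.hy (fun _ => rfl)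
    (fun _ => rfl) S.h1 (fun t u ht hu => by
      simp only [S.n_neg]; exact S.torus hζ0 hζ hsq ht hu)

end StSys

theorem pow_val_mul {p : ℕ} [NeZero p] {a : J} (ha : a ^ p = 1) (s t : ZMod p) :
    a ^ (s * t).val = (a ^ s.val) ^ t.val := by
  rw [← pow_mul, ZMod.val_mul, ← pow_eq_pow_mod _ ha]

theorem pow_val_add {p : ℕ} [NeZero p] {a : J} (ha : a ^ p = 1) (s t : ZMod p) :
    a ^ (s + t).val = a ^ s.val * a ^ t.val := by
  rw [← pow_add, ZMod.val_add, ← pow_eq_pow_mod _ ha]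

theorem pow_val_ne {p : ℕ} [Fact p.Prime] {a : J} (ha : a ^ p = 1) (ha1 : a ≠ 1) {s : ZMod p}
    (hs : s ≠ 0) : a ^ s.val ≠ 1 := by
  intro h
  apply ha1
  have := pow_val_mul ha s s⁻¹
  rwa [mul_inv_cancel₀ hs, h, one_pow, ZMod.val_one, pow_one] at this

theorem special_hom {A B : Subgroup J} (hs : IsSpecialRankOnePair A B) {p : ℕ} [Fact p.Prime]
    {a b : J} (r : Rel A B a b) (ha : a ^ p = 1) :
    ∃ φ : SL(2, ZMod p) →* J, (∀ t, φ (uSL t) = a ^ t.val) ∧ ∀ t, φ (lSL t) = b ^ t.val := by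
  have hb : b ^ p = 1 := by
    have := Sp.weyl_conj_left hs r
    rw [← inv_eq_one, ← inv_pow, ← this, conj_pow, ha]; simp
  have rel : ∀ t : ZMod p, t ≠ 0 → Rel A B (a ^ t.val) (b ^ t⁻¹.val) := by
    intro t ht
    obtain ⟨c, rc⟩ := R1.ex_rel_left hs.1 (A.pow_mem r.ma t.val) (pow_val_ne ha r.na ht)
    have e := Sp.pow_rule t.val (Sp.symm hs) r.symm rc.symm
    have hc : c ^ p = 1 := by
      have := Sp.weyl_conj_left hs rc
      rw [← inv_eq_one, ← inv_pow, ← this, conj_pow, ← pow_mul, mul_comm t.val, pow_mul, ha]; simp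
    have : b ^ t⁻¹.val = c := by
      rw [← e, ← pow_val_mul hc, mul_inv_cancel₀ ht, ZMod.val_one, pow_one]
    rwa [this]
  have S0 : ∀ t : ZMod p, b ^ (-t).val = (b ^ t.val)⁻¹ := fun t =>
    eq_inv_of_mul_eq_one_left (by rw [← pow_val_add hb, neg_add_cancel, ZMod.val_zero, pow_zero])
  have S : StSys (fun t : ZMod p => a ^ t.val) (fun t => b ^ t.val) := by
    refine ⟨pow_val_add ha, pow_val_add hb, fun t ht u => ?_⟩
    have e := Sp.weyl_conj_left hs (rel t ht)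
    have en : nn (fun t : ZMod p => a ^ t.val) (fun t => b ^ t.val) t =
        weyl (a ^ t.val) (b ^ t⁻¹.val) := by
      simp only [nn, weyl, S0]
    rw [en, show u = t * (t⁻¹ * u) by field_simp, pow_val_mul ha, ← conj_pow, e, ← S0,
      ← pow_val_mul hb]
    congr 2
    field_simp
  obtain ⟨g, hg⟩ := IsCyclic.exists_monoid_generator (α := (ZMod p)ˣ)
  refine S.exists_hom (ζ := (g : ZMod p)) g.ne_zero (fun c hc => ?_) (ZMod.sq_add_sq p)
  obtain ⟨k, hk⟩ := hg (Units.mk0 c hc)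
  exact ⟨k, by simpa using congrArg Units.val hk⟩

theorem center_cases {k : Type*} [Field k] {N : Subgroup SL(2, k)} (hN : N ≤ Subgroup.center _) :
    N = ⊥ ∨ N = Subgroup.center _ := by
  have key : ∀ z ∈ Subgroup.center SL(2, k), z = 1 ∨ z = -1 := by
    intro z hz
    obtain ⟨c, hc, e⟩ := Matrix.SpecialLinearGroup.mem_center_iff.1 hz
    rw [Fintype.card_fin, sq, mul_self_eq_one_iff] at hc
    rcases hc with rfl | rfl
    · left; apply Subtype.ext; rw [← e]; simp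
    · right; apply Subtype.ext; rw [← e, map_neg, map_one]; rfl
  by_cases h : N = ⊥
  · exact Or.inl h
  right
  refine le_antisymm hN fun z hz => ?_
  obtain ⟨⟨w, hw⟩, hw1⟩ := (Subgroup.ne_bot_iff_exists_ne_one).1 h
  have hw1' : w ≠ 1 := fun e => hw1 (Subtype.ext e)
  rcases key z hz with rfl | rfl
  · exact N.one_mem
  · rw [← (key w (hN hw)).resolve_left hw1']; exact hw

/-- Partners of prime order generate `SL(2, p)` or `PSL(2, p)`. -/
theorem special_psl2 {A B : Subgroup J} (hs : IsSpecialRankOnePair A B) {p : ℕ} [Fact p.Prime]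
    {a b : J} (r : Rel A B a b) (ha : a ^ p = 1) :
    Nonempty (Subgroup.closure ({a, b} : Set J) ≃* SL(2, ZMod p)) ∨
    Nonempty (Subgroup.closure ({a, b} : Set J) ≃*
      Matrix.ProjectiveSpecialLinearGroup (Fin 2) (ZMod p)) := by
  obtain ⟨φ, hu, hl⟩ := special_hom hs r ha
  have hua : φ (uSL 1) = a := by rw [hu, ZMod.val_one, pow_one]
  have hlb : φ (lSL 1) = b := by rw [hl, ZMod.val_one, pow_one]
  have hr : φ.range = Subgroup.closure {a, b} := by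
    apply le_antisymm
    · rw [MonoidHom.range_eq_map, ← upper_sup_lower, Subgroup.map_le_iff_le_comap]
      refine sup_le (fun g hg => ?_) fun g hg => ?_
      · obtain ⟨t, rfl⟩ := mem_upper.1 hg
        rw [Subgroup.mem_comap, hu]
        exact Subgroup.pow_mem _ (Subgroup.subset_closure (by simp)) _
      · obtain ⟨t, rfl⟩ := mem_lower.1 hg
        rw [Subgroup.mem_comap, hl]
        exact Subgroup.pow_mem _ (Subgroup.subset_closure (by simp)) _
    · rw [Subgroup.closure_le]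
      rintro g (rfl | rfl)
      · exact ⟨_, hua⟩
      · exact ⟨_, hlb⟩
  have hker : φ.ker ≤ Subgroup.center _ := by
    refine (R1.normal_dichotomy_top ⟨upper_sup_lower, sl2_pair⟩ φ.ker inferInstance).resolve_left
      fun h => R1.not_mul_comm hs.1 r.ma r.na r.mb r.nb ?_
    have : lSL (1 : ZMod p) ∈ φ.ker ⊔ upperUnipotentSL2 (ZMod p) := h ▸ Subgroup.mem_top _
    obtain ⟨n, hn, u, hu', e⟩ := Subgroup.mem_sup_of_normal_left.1 this
    obtain ⟨t, rfl⟩ := mem_upper.1 hu'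
    rw [← hlb, ← e, map_mul, hn, one_mul, hu]
    exact (Commute.self_pow a _).eq
  rw [← hr]
  rcases center_cases hker with h | h
  · exact Or.inl ⟨(MonoidHom.ofInjective ((MonoidHom.ker_eq_bot_iff φ).1 h)).symm⟩
  · exact Or.inr ⟨(QuotientGroup.quotientKerEquivRange φ).symm.trans
      (QuotientGroup.quotientMulEquivOfEq h)⟩

end Cfsg.Agent.Low.Stb
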