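import Cfsg.Agent.Low.SubSp

/-! Subfield subgroups in dimension at least seven, I: the ring of parameters and the dichotomy
`RtN.le_or_small`. -/

set_option autoImplicit false

namespace Cfsg.Agent.Root.Mx

open Cfsg.Agent.Geom Cfsg.Agent.AutCl Module

variable {F₀ F : Type*} [Field F₀] [Field F] [Algebra F₀ F] {σ₀ : F₀ →+* F₀} {σ : F →+* F}
  {V₀ V : Type*} [AddCommGroup V₀] [Module F₀ V₀] [AddCommGroup V] [Module F V]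
  {Φ₀ : Formed σ₀ V₀} {Φ : Formed σ V} {j : V₀ →ₛₗ[algebraMap F₀ F] V} {X : Subgroup (V ≃ₗ[F] V)}

local notation "f" => algebraMap F₀ F

namespace RtN
variable [FiniteDimensional F V]

/-- `c` is a parameter at `p`. -/
def Par (Φ₀ : Formed σ₀ V₀) (Φ : Formed σ V) (j : V₀ →ₛₗ[algebraMap F₀ F] V)
    (X : Subgroup (V ≃ₗ[F] V)) (p : V₀) (c : F) : Prop :=
  ∀ w, Φ₀.B p w = 0 → ∃ d, HasE Φ X (j p) (c • j w) d

variable [Finite F₀]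

theorem par_of (h : RtN Φ₀ Φ j) (h7 : 7 ≤ finrank F₀ V₀) (hX : Ov Φ j X) {p w : V₀} {c d : F} (hp0 : p ≠ 0)
    (hw : w ∉ F₀ ∙ p) (hpw : Φ₀.B p w = 0) (he : HasE Φ X (j p) (c • j w) d) : Par Φ₀ Φ j X p c := by
  haveI := h.fin
  refine perp_le_of_inv h.hn₀ (by omega) hp0 (h.sing.1 he.sp)
    ((AE Φ X he.sp).comap ((DistribSMul.toAddMonoidHom V c).comp j.toAddMonoidHom))
    (fun y z d g hy hz hg a ha => ?_) ⟨d, he⟩ hpw hw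
  obtain ⟨s, hs⟩ := h.lift hg.sp hg.pa hg.hQ hg.hB
  have := map_mem_AE (hp := he.sp) (hX.rat _ _ _ _ hs) hs.mem_isom (by
    rw [h.app hs, Φ₀.B_eq_zero_symm hy, Φ₀.B_eq_zero_symm hz]; simp) ha
  change c • j (g a) ∈ AE Φ X he.sp
  rwa [hg.app, ← h.app hs, ← map_smul s c (j a)]

theorem par_step (h : RtN Φ₀ Φ j) (h7 : 7 ≤ finrank F₀ V₀) (hX : Ov Φ j X) {u p : V₀} {c c' : F} (hp0 : p ≠ 0)
    (hu : u ∉ F₀ ∙ p) (hpu : Φ₀.B p u = 0) (h1 : Par Φ₀ Φ j X u c) (h2 : Par Φ₀ Φ j X p c') :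
    Par Φ₀ Φ j X p (σ c * c') := by
  haveI := h.fin
  obtain ⟨w, hw, a, ha, e⟩ := exists_B_one h.hn₀ (W := ⊤ ⊓ pf Φ₀ ![u, p]) (by
    have := finrank_pf (Φ := Φ₀) ![u, p] ⊤; rw [finrank_top] at *; omega)
  have hw := mem_pf.1 hw.2
  have ha := mem_pf.1 ha.2
  obtain ⟨d, h1⟩ := h1 w (hw 0)
  obtain ⟨d', h2⟩ := h2 a (ha 1)
  refine h.par_of h7 hX hp0 hu hpu (d := 0) ((h1.move h2 (h.B_zero (Φ₀.B_eq_zero_symm hpu)) ?_ ?_).congr ?_ rfl)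
  · rw [Φ.B_smul_left, h.B_zero (Φ₀.B_eq_zero_symm (show Φ₀.B p w = 0 from hw 1)), mul_zero]
  · rw [Φ.B_smul_right, h.B_zero (show Φ₀.B u a = 0 from ha 0), mul_zero]
  · rw [Φ.B_smul_left, Φ.B_smul_right, h.B_one e, mul_one]

theorem par_rat (h : RtN Φ₀ Φ j) (hX : Ov Φ j X) {p : V₀} (hp : Φ₀.Sing p) (c : F₀) :
    Par Φ₀ Φ j X p (f c) := fun w hw => by
  obtain ⟨d, hd⟩ := h.hasE hX hp (a := c • w) (by simp [hw])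
  exact ⟨_, hd.congr (map_smulₛₗ j c w) rfl⟩

theorem par_σ (h : RtN Φ₀ Φ j) (h7 : 7 ≤ finrank F₀ V₀) (hX : Ov Φ j X) {u p : V₀} {c : F} (hp0 : p ≠ 0) (hp : Φ₀.Sing p)
    (hu : u ∉ F₀ ∙ p) (hpu : Φ₀.B p u = 0) (h1 : Par Φ₀ Φ j X u c) : Par Φ₀ Φ j X p (σ c) := by
  simpa using h.par_step h7 hX hp0 hu hpu h1 (h.par_rat hX hp 1)

theorem exists_nbr (h : RtN Φ₀ Φ j) (h7 : 7 ≤ finrank F₀ V₀) {u p : V₀} (hu0 : u ≠ 0) (hp0 : p ≠ 0) : ∃ z, z ≠ 0 ∧ Φ₀.Sing z ∧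
    Φ₀.B u z = 0 ∧ Φ₀.B p z = 0 ∧ z ∉ F₀ ∙ u ∧ z ∉ F₀ ∙ p ∧ u ∉ F₀ ∙ z ∧ p ∉ F₀ ∙ z := by
  haveI := h.fin
  obtain ⟨z, -, hz, hs, h1⟩ := exists_sing_pf Φ₀ ![u, p] (U := ⊤) (R := (F₀ ∙ u) ⊔ F₀ ∙ p) (by
    have := finrank_sup_one (F₀ ∙ u) p; have := finrank_span_one (F := F₀) u
    rw [finrank_top]; omega)
  have h2 : z ∉ F₀ ∙ u := fun e => hz (Submodule.mem_sup_left e)
  have h3 : z ∉ F₀ ∙ p := fun e => hz (Submodule.mem_sup_right e)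
  exact ⟨z, by rintro rfl; simp at hz, hs, h1 0, h1 1, h2, h3, notMem_symm h2 hu0, notMem_symm h3 hp0⟩

theorem par_all (h : RtN Φ₀ Φ j) (h7 : 7 ≤ finrank F₀ V₀) (hX : Ov Φ j X) {u p : V₀} {c : F} (hu0 : u ≠ 0) (hp0 : p ≠ 0)
    (hp : Φ₀.Sing p) (h1 : Par Φ₀ Φ j X u c) : Par Φ₀ Φ j X p c := by
  obtain ⟨z, hz0, hz, e1, e2, -, n2, n3, -⟩ := h.exists_nbr h7 hu0 hp0
  simpa [Φ.σσ] using h.par_σ h7 hX hp0 hp n2 e2 (h.par_σ h7 hX hz0 hz n3 (Φ₀.B_eq_zero_symm e1) h1)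

theorem exists_pl (h : RtN Φ₀ Φ j) (h7 : 7 ≤ finrank F₀ V₀) : ∃ u w, u ≠ 0 ∧ Φ₀.Sing u ∧ Φ₀.Sing w ∧ w ∉ F₀ ∙ u ∧ Φ₀.B u w = 0 := by
  haveI := h.fin
  obtain ⟨u, hu0, hu⟩ := exists_sing_top Φ₀ (by omega)
  obtain ⟨z, -, hz, e1, -, n1, -⟩ := h.exists_nbr h7 hu0 hu0
  exact ⟨u, z, hu0, hu, hz, n1, e1⟩

/-- The ring of parameters. -/
def parR (h : RtN Φ₀ Φ j) (h7 : 7 ≤ finrank F₀ V₀) (hX : Ov Φ j X) : Subring F where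
  carrier := {c | ∀ p, p ≠ 0 → Φ₀.Sing p → Par Φ₀ Φ j X p c}
  one_mem' := fun p _ hp => by simpa using h.par_rat hX hp 1
  zero_mem' := fun p _ hp => by simpa using h.par_rat hX hp 0
  add_mem' := fun ha hb p h0 hp w hw => by
    obtain ⟨_, h1⟩ := ha p h0 hp w hw
    obtain ⟨_, h2⟩ := hb p h0 hp w hw
    exact ⟨_, (h1.mul h2).congr (add_smul _ _ _).symm rfl⟩
  neg_mem' := fun ha p h0 hp w hw => by
    obtain ⟨_, h1⟩ := ha p h0 hp w hw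
    exact ⟨_, h1.inv.congr (neg_smul _ _).symm rfl⟩
  mul_mem' := fun ha hb p h0 hp => by
    obtain ⟨z, hz0, hz, e1, -, n1, -, n3, -⟩ := h.exists_nbr h7 h0 h0
    simpa [Φ.σσ] using h.par_step h7 hX h0 n1 e1
      (h.par_σ h7 hX hz0 hz n3 (Φ₀.B_eq_zero_symm e1) (ha p h0 hp)) (hb p h0 hp)

theorem mem_parR (h : RtN Φ₀ Φ j) (h7 : 7 ≤ finrank F₀ V₀) (hX : Ov Φ j X) {u : V₀} {c : F} (hu0 : u ≠ 0)
    (h1 : Par Φ₀ Φ j X u c) : c ∈ h.parR h7 hX := fun _ h0 hp => h.par_all h7 hX hu0 h0 hp h1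

theorem σ_mem_parR (h : RtN Φ₀ Φ j) (h7 : 7 ≤ finrank F₀ V₀) (hX : Ov Φ j X) {c : F} (hc : c ∈ h.parR h7 hX) : σ c ∈ h.parR h7 hX := by
  obtain ⟨u, w, h0, hu, hw, n, e⟩ := h.exists_pl h7
  exact h.mem_parR h7 hX h0 (h.par_σ h7 hX h0 hu n e (hc w (by rintro rfl; simp at n) hw))

theorem B_par (h : RtN Φ₀ Φ j) (h7 : 7 ≤ finrank F₀ V₀) (hX : Ov Φ j X) {u v : V₀} {a : V} {d : F}
    (hu0 : u ≠ 0) (ha : HasE Φ X (j u) a d) (hv : Φ₀.B u v = 0) : Φ.B a (j v) ∈ h.parR h7 hX := by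
  haveI := h.fin
  have hf : ∀ c, f c ∈ h.parR h7 hX := fun c _ _ hp => h.par_rat hX hp c
  refine perp_ind h.hn₀ (by omega) hu0 (h.sing.1 ha.sp) ((h.parR h7 hX).toAddSubgroup.comap
    ((Φ.B a).toAddMonoidHom.comp j.toAddMonoidHom)) (fun x e hx n => ?_) v hv
  change Φ.B a (j x) ∈ h.parR h7 hX
  obtain ⟨y, hy, y', hy', e1⟩ := exists_B_one h.hn₀ (W := ⊤ ⊓ pf Φ₀ ![u, x]) (by
    have := finrank_pf (Φ := Φ₀) ![u, x] ⊤; rw [finrank_top] at *; omega)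
  have hy := mem_pf.1 hy.2
  have hy' := mem_pf.1 hy'.2
  obtain ⟨d1, s, hs, i1⟩ := h.hasE hX hx (hy 1)
  obtain ⟨d2, s', hs', i2⟩ := h.hasE hX hx (hy' 1)
  have fx : ∀ {y d s}, IsE Φ (j x) (j y) d s → Φ₀.B u y = 0 → s (j u) = j u := fun i e' => by
    rw [i.app, h.B_zero (Φ₀.B_eq_zero_symm e), h.B_zero (Φ₀.B_eq_zero_symm e')]; simp
  have m : ∀ s ∈ X, s (j u) = j u → s a ∈ AE Φ X ha.sp := fun s hs e =>
    map_mem_AE hs (hX.isom hs) e ⟨d, ha⟩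
  obtain ⟨d', h1⟩ : s a + s' a - a - (s * s') a ∈ AE Φ X ha.sp := sub_mem (sub_mem (add_mem
    (m s hs (fx i1 (hy 0))) (m s' hs' (fx i2 (hy' 0)))) ⟨d, ha⟩) (m _ (mul_mem hs hs') (by
      rw [LinearEquiv.mul_apply, fx i2 (hy' 0), fx i1 (hy 0)]))
  have h2 := h.σ_mem_parR h7 hX (h.mem_parR h7 hX hu0 (h.par_of h7 hX hu0 n e
    (h1.congr (b := (Φ.ε * Φ.B (j x) a) • j x) (by
      rw [(i1.mul i2).app, i1.app, i2.app, h.B_one e1, Φ.B_add_left]; module) rfl)))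
  rwa [Φ.symm, ← Φ.σε, ← map_mul]

variable [Finite F]

theorem full_of_top (h : RtN Φ₀ Φ j) (h7 : 7 ≤ finrank F₀ V₀) (h2 : NotSp2 Φ) (hX : Ov Φ j X)
    (ht : h.parR h7 hX = ⊤) {u : V₀} (hu0 : u ≠ 0) (hu : Φ₀.Sing u) : Full Φ X (j u) := by
  haveI := h.fin
  have hA := h.mem_AE hu0 hu fun c w e => (ht.ge (Subring.mem_top c)) u hu0 hu w e
  obtain ⟨w, hw0, hw, e1, -, n1, -, n2, -⟩ := h.exists_nbr h7 hu0 hu0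
  obtain ⟨w', b3, b4⟩ := exists_dual1 h.hn₀ n1
  refine full_of_AE _ hA (fullT_of_comm _ h2 fun t => ⟨_, hA _ (h.B_zero e1), _, hA (t • j w') ?_, ?_⟩)
  · rw [Φ.B_smul_right, h.B_zero b4, mul_zero]
  · rw [Φ.B_smul_right, h.B_one b3, mul_one]

/-- Either `X` contains everything or its Eichler maps at rational points are rational. -/
theorem le_or_small (h : RtN Φ₀ Φ j) (h7 : 7 ≤ finrank F₀ V₀) (h2 : NotSp2 Φ) (hX : Ov Φ j X)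
    (hmax : ∀ R : Subring F, (∀ c, f c ∈ R) → R = ⊤ ∨ ∀ c ∈ R, c ∈ (f).fieldRange) :
    EG Φ ≤ X ∨ Small Φ₀ Φ j X := by
  rcases hmax (h.parR h7 hX) (fun c _ _ hp => h.par_rat hX hp c) with ht | ht
  · haveI := h.fin
    obtain ⟨u, hu0, hu⟩ := exists_sing_top Φ₀ (by omega)
    obtain ⟨r, hr⟩ := h.hn₀.exists_isPair hu0 hu
    exact Or.inl (EG_le_of_full h.hn (h.full_of_top h7 h2 hX ht hu0 hu)
      (h.full_of_top h7 h2 hX ht hr.right_ne_zero hr.sf) (by rw [h.B_one hr.ef]; exact one_ne_zero))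
  · exact Or.inr fun u a d h0 ha v hv => ht _ (h.B_par h7 hX h0 ha hv)

/-- Maximality of subfield subgroups. -/
theorem isMaximalIn [Finite V] (h : RtN Φ₀ Φ j) (h7 : 7 ≤ finrank F₀ V₀) (h2 : NotSp2 Φ)
    (hne : ∃ c, c ∉ (f).fieldRange)
    (hmax : ∀ R : Subring F, (∀ c, f c ∈ R) → R = ⊤ ∨ ∀ c ∈ R, c ∈ (f).fieldRange)
    (hc : ∀ X, Ov Φ j X → Small Φ₀ Φ j X → X ≤ ratG F (Set.range j)) :
    Geo.IsMaximalIn (EG Φ) (ratG F (Set.range j) ⊓ EG Φ) := by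
  haveI := h.fin
  refine max_crit inf_le_right ?_ fun X h1 h3 g hg hg' => (h.le_or_small h7 h2 (h.ov h1 h3) hmax).resolve_right
    fun hS => hg' ⟨hc X (h.ov h1 h3) hS hg, h3 hg⟩
  obtain ⟨c, hc⟩ := hne
  obtain ⟨u, w, h0, hu, hw, n, e⟩ := h.exists_pl h7
  obtain ⟨g, hg⟩ := exists_isE0 h.hn (h.sing.2 hu) ((h.sing.2 hw).smul c) (by simp [h.B_zero e])
  refine ⟨g, IsE_mem_EG hg, fun hm => hc ?_⟩
  obtain ⟨l, hl, hm⟩ := mem_ratG.1 hm.1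
  obtain ⟨t, t1, t2⟩ := exists_dual1 h.hn₀ n
  obtain ⟨u', hu'⟩ := hm _ ⟨u, rfl⟩
  obtain ⟨l, rfl⟩ := h.smul_rat h0 (by rw [hu', hg.apply_p])
  obtain ⟨t', ht'⟩ := hm _ ⟨t, rfl⟩
  refine h.σ_mem (h.smul_rat h0 (u' := l⁻¹ • t' - t) ?_)
  rw [map_sub, map_smulₛₗ, ht', map_inv₀, inv_smul_smul₀ hl, hg.apply_perp (h.B_zero t2), Φ.B_smul_left,
    h.B_one t1]
  simp

end RtN

end Cfsg.Agent.Root.Mx
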