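import Cfsg.Agent.Low.WS7

/-! In characteristic two the stabiliser of a tensor power of symplectic spaces of dimension 2 or 4 is not maximal in the
Eichler group: it normalises a Clifford subspace of endomorphisms (`SW0.notMax`, `not_max_wreathSp`). -/

set_option autoImplicit false

namespace Cfsg.Agent.Root.Wr

open Cfsg.Agent.Geom Cfsg.Agent.AutCl Module TensorProduct Mx Function

variable {F : Type*} [Field F] {V W U : Type*} [AddCommGroup V] [Module F V] [AddCommGroup W] [Module F W]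
  [AddCommGroup U] [Module F U] {ι : Type*} {Ψ : Formed (RingHom.id F) W} {Φ₂ : Formed (RingHom.id F) U}
  {Φ : Formed (RingHom.id F) V} {E : ι → W ⊗[F] U ≃ₗ[F] V}

/-- A Clifford generating set of endomorphisms of a symplectic space. -/
structure CN (Ψ : Formed (RingHom.id F) W) (N : Set (End F W)) (n₀ n₁ : End F W) : Prop where
  sa : ∀ n ∈ N, ∀ x y, Ψ.B (n x) y = Ψ.B x (n y)
  cl : ∀ n ∈ N, ∀ n' ∈ N, ∃ c : F, n * n' + n' * n = c • 1
  inv : ∀ (a : W ≃ₗ[F] W) (μ : F), (∀ x y, Ψ.B (a x) (a y) = μ * Ψ.B x y) → ∀ n ∈ N, ∃ c : F, ∃ n' ∈ N,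
    (a : End F W) * n * (a⁻¹ : W ≃ₗ[F] W) = c • n'
  gen : ∀ C : Subalgebra F (End F W), (∀ n ∈ N, n ∈ C) → ∀ a, a ∈ C
  m0 : n₀ ∈ N
  m1 : n₁ ∈ N
  s0 : n₀ * n₀ = 0
  s1 : n₁ * n₁ = 0
  e : n₀ * n₁ + n₁ * n₀ = 1

theorem conj_rb' [FiniteDimensional F W] (nd : Ψ.Nondeg) [Nontrivial W] {a : W ≃ₗ[F] W} {μ : F}
    (h : ∀ x y, Ψ.B (a x) (a y) = μ * Ψ.B x y) (x y : W) :
    (a : End F W) * rb Ψ y x * (a⁻¹ : W ≃ₗ[F] W) = μ⁻¹ • rb Ψ (a y) (a x) := by
  obtain ⟨p, p0⟩ := exists_ne (0 : W)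
  have m0 : μ ≠ 0 := fun e => p0 (a.injective ((nd _ fun z => by
    obtain ⟨z, rfl⟩ := a.surjective z; simp [h, e]).trans (map_zero a).symm))
  ext z
  obtain ⟨z, rfl⟩ := a.surjective z
  simp [h, smul_smul, m0]

namespace SpF
variable [FiniteDimensional F W] (s : SpF Ψ) (h2 : (2 : F) = 0)
include s h2

theorem cn2 (d : finrank F W = 2) : ∃ n₀ n₁, CN Ψ (Mt Ψ) n₀ n₁ := by
  have : Nontrivial W := Module.nontrivial_of_finrank_pos (R := F) (by omega)
  obtain ⟨p, p0⟩ := exists_ne (0 : W)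
  obtain ⟨r, hr⟩ := s.nd.exists_eq_one p0
  have k : ∀ u v, rb Ψ u u * rb Ψ v v + rb Ψ v v * rb Ψ u u = (Ψ.B u v * Ψ.B v u) • 1 := fun u v => by
    ext z
    have := s.jac' d u v z
    simp only [rb_mul, LinearMap.add_apply, LinearMap.smul_apply, LinearMap.smulRight_apply, Module.End.one_apply,
      mul_smul, ← this]
    rw [s.skew u v]; module
  refine ⟨rb Ψ p p, rb Ψ r r, ?_, ?_, ?_, fun C hC => s.top_of C.toSubmodule fun a b =>
    C.mul_mem (hC _ ⟨a, rfl⟩) (hC _ ⟨b, rfl⟩), ⟨p, rfl⟩, ⟨r, rfl⟩, s.sq p, s.sq r, ?_⟩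
  · rintro _ ⟨u, rfl⟩ x y
    simp only [LinearMap.smulRight_apply, map_smul, map_smulₛₗ, LinearMap.smul_apply, smul_eq_mul, RingHom.id_apply,
      s.skew u x]
    linear_combination (Ψ.B u x * Ψ.B u y) * h2
  · rintro _ ⟨u, rfl⟩ _ ⟨v, rfl⟩; exact ⟨_, k u v⟩
  · rintro a μ h _ ⟨u, rfl⟩; exact ⟨_, _, ⟨a u, rfl⟩, conj_rb' s.nd h u u⟩
  · rw [k, s.skew p r, hr, show (1 : F) * -1 = 1 by linear_combination -h2, one_smul]

omit h2 in
theorem pf4 (d : finrank F W = 4) : ∃ e₁ e₂ f₁ f₂, Ψ.B e₁ e₂ = 0 ∧ Ψ.B f₁ f₂ = 0 ∧ Ψ.B e₁ f₁ = 1 ∧ Ψ.B e₂ f₂ = 1 ∧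
    Ψ.B e₁ f₂ = 0 ∧ Ψ.B e₂ f₁ = 0 ∧ ∀ x y, Ψ.B x y =
      Ψ.B x f₁ * Ψ.B e₁ y + Ψ.B x f₂ * Ψ.B e₂ y - Ψ.B x e₁ * Ψ.B f₁ y - Ψ.B x e₂ * Ψ.B f₂ y := by
  obtain ⟨k, e, f, h, hk, ht⟩ := s.nd.exists_isHyp_top s.Q s.alt
  obtain rfl : k = 2 := by omega
  have a1 := h.ef 0 0
  have a2 := h.ef 1 1
  have a3 := h.ef 0 1
  have a4 := h.ef 1 0
  simp only [if_true, Fin.zero_ne_one, if_false, one_ne_zero] at a1 a2 a3 a4
  refine ⟨e 0, e 1, f 0, f 1, h.ee _ _, h.ff _ _, a1, a2, a3, a4, fun x y => ?_⟩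
  have hy : y ∈ Submodule.span F (Set.range (Sum.elim e f)) := ht ▸ Submodule.mem_top
  induction hy using Submodule.span_induction with
  | zero => simp
  | add a b _ _ p q => simp only [map_add]; linear_combination p + q
  | smul c a _ p => simp only [map_smul, smul_eq_mul]; linear_combination c * p
  | mem y hy =>
    obtain ⟨i | i, rfl⟩ := hy <;> fin_cases i <;>
      simp [h.ee, h.ff, a1, a2, a3, a4, s.skew (e _) (f _)]

theorem cn4 (d : finrank F W = 4) : ∃ n₀ n₁, CN Ψ (Ml Ψ) n₀ n₁ ∧ ∀ x, Ψ.B (n₀ x) x = 0 := by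
  have : Nontrivial W := Module.nontrivial_of_finrank_pos (R := F) (by omega)
  obtain ⟨e₁, e₂, f₁, f₂, a1, a2, a3, a4, a5, a6, hb⟩ := s.pf4 d
  have k : ∀ u v u' v', Ψ.B v u = 0 → Ψ.B v' u' = 0 → (rb Ψ u v - rb Ψ v u) * (rb Ψ u' v' - rb Ψ v' u') +
      (rb Ψ u' v' - rb Ψ v' u') * (rb Ψ u v - rb Ψ v u) = (Ψ.B u u' * Ψ.B v v' - Ψ.B u v' * Ψ.B v u') • 1 := by
    intro u v u' v' p q
    ext z
    refine s.nd.ext fun y => ?_
    simp only [mul_sub, sub_mul, rb_mul, LinearMap.add_apply, LinearMap.sub_apply, LinearMap.smul_apply,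
      LinearMap.smulRight_apply, Module.End.one_apply, map_add, map_sub, map_smulₛₗ, smul_eq_mul, RingHom.id_apply]
    rw [s.skew u u', s.skew u v', s.skew v u', s.skew v v']
    have b : ∀ x y, Ψ.B x y = -(Ψ.B f₁ x * Ψ.B e₁ y) - Ψ.B f₂ x * Ψ.B e₂ y + Ψ.B e₁ x * Ψ.B f₁ y + Ψ.B e₂ x * Ψ.B f₂ y :=
      fun x y => by rw [hb, s.skew f₁ x, s.skew f₂ x, s.skew e₁ x, s.skew e₂ x]; ring
    have key : Ψ.B u v * (Ψ.B u' v' * Ψ.B z y - Ψ.B u' z * Ψ.B v' y + Ψ.B u' y * Ψ.B v' z)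
        - Ψ.B u u' * (Ψ.B v v' * Ψ.B z y - Ψ.B v z * Ψ.B v' y + Ψ.B v y * Ψ.B v' z)
        + Ψ.B u v' * (Ψ.B v u' * Ψ.B z y - Ψ.B v z * Ψ.B u' y + Ψ.B v y * Ψ.B u' z)
        - Ψ.B u z * (Ψ.B v u' * Ψ.B v' y - Ψ.B v v' * Ψ.B u' y + Ψ.B v y * Ψ.B u' v')
        + Ψ.B u y * (Ψ.B v u' * Ψ.B v' z - Ψ.B v v' * Ψ.B u' z + Ψ.B v z * Ψ.B u' v') = 0 := by
      rw [b u v, b u u', b u v', b u z, b u y, b v u', b v v', b v z, b v y, b u' v', b u' z, b u' y, b v' z, b v' y, b z y]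
      ring
    rw [s.skew v u, s.skew v' u', p, q] at key
    linear_combination key
  have sq : ∀ u v, Ψ.B v u = 0 → (rb Ψ u v - rb Ψ v u) * (rb Ψ u v - rb Ψ v u) = 0 := fun u v p => by
    simp [mul_sub, sub_mul, rb_mul, p, s.alt, s.skew v u]
  have g : ∀ C : Subalgebra F (End F W), (∀ n ∈ Ml Ψ, n ∈ C) → ∀ a, rb Ψ a a ∈ C := fun C hC a => by
    rcases eq_or_ne a 0 with e | y0
    · rw [e, show rb Ψ 0 0 = 0 by ext; simp]; exact zero_mem _
    obtain ⟨m, p, m', q, e, -⟩ := s.exists_ml d.ge y0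
    exact e ▸ C.mul_mem (hC _ p) (hC _ q)
  refine ⟨rb Ψ e₂ e₁ - rb Ψ e₁ e₂, rb Ψ f₂ f₁ - rb Ψ f₁ f₂, ⟨?_, ?_, ?_, fun C hC => s.top_of C.toSubmodule fun a b =>
    C.mul_mem (?_ : _ ∈ C) (?_ : _ ∈ C), ⟨_, _, a1, rfl⟩, ⟨_, _, a2, rfl⟩, sq _ _ a1, sq _ _ a2, ?_⟩, fun x => ?_⟩
  · rintro _ ⟨u, v, -, rfl⟩ x y
    simp only [LinearMap.smulRight_apply, map_smul, map_smulₛₗ, LinearMap.smul_apply, smul_eq_mul, RingHom.id_apply,
      s.skew u x, s.skew v x, LinearMap.sub_apply, map_sub]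
    ring
  · rintro _ ⟨u, v, p, rfl⟩ _ ⟨u', v', q, rfl⟩; exact ⟨_, k _ _ _ _ p q⟩
  · rintro a μ h _ ⟨u, v, p, rfl⟩
    exact ⟨μ⁻¹, _, ⟨a u, a v, by simp [h, p], rfl⟩, by rw [mul_sub, sub_mul, conj_rb' s.nd h, conj_rb' s.nd h, smul_sub]⟩
  · exact g C hC a
  · exact g C hC b
  · rw [k _ _ _ _ a1 a2]; simp [a3, a4, a5, a6]
  · simp only [LinearMap.smulRight_apply, map_smulₛₗ, LinearMap.smul_apply, smul_eq_mul, RingHom.id_apply,
      LinearMap.sub_apply, map_sub]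
    ring

end SpF

/-- The span of the identity and the images of `N` in the factors. -/
def cspan (E : ι → W ⊗[F] U ≃ₗ[F] V) (N : Set (End F W)) : Submodule F (End F V) :=
  Submodule.span F {s | s = 1 ∨ ∃ i, ∃ n ∈ N, s = fa (E i) n}

/-- The normaliser of a space of endomorphisms. -/
def nrm (S : Submodule F (End F V)) : Subgroup (V ≃ₗ[F] V) where
  carrier := {g | (∀ s ∈ S, (g : End F V) * s * (g⁻¹ : V ≃ₗ[F] V) ∈ S) ∧
    ∀ s ∈ S, ((g⁻¹ : V ≃ₗ[F] V) : End F V) * s * g ∈ S}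
  one_mem' := ⟨fun s h => by simpa [← Module.End.one_eq_id] using h, fun s h => by simpa [← Module.End.one_eq_id] using h⟩
  mul_mem' := fun {a b} p q => ⟨fun s h => by simpa [mul_assoc] using p.1 _ (q.1 _ h),
    fun s h => by simpa [mul_assoc] using q.2 _ (p.2 _ h)⟩
  inv_mem' := fun p => ⟨by simpa using p.2, by simpa using p.1⟩

theorem scal_small [FiniteDimensional F V] {R : Submodule F V} (hR : finrank F R < finrank F V) {c : F}
    (h : ∀ x, c • x ∈ R) : c = 0 := by_contra fun e => by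
  rw [show R = ⊤ from eq_top_iff.2 fun x _ => (R.smul_mem_iff e).1 (h x), finrank_top] at hR
  exact hR.false

variable {N : Set (End F W)} {n₀ n₁ : End F W}

theorem fa_mem {i : ι} {n : End F W} (h : n ∈ N) : fa (E i) n ∈ cspan E N :=
  Submodule.subset_span (.inr ⟨i, n, h, rfl⟩)

theorem one_mem_cspan : (1 : End F V) ∈ cspan E N := Submodule.subset_span (.inl rfl)

theorem TW.cliff (t : TW E) (c : CN Ψ N n₀ n₁) {x y : End F V} (hx : x ∈ cspan E N) (hy : y ∈ cspan E N)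
    (h2 : (2 : F) = 0) : ∃ k : F, x * y + y * x = k • 1 := by
  have two : ∀ z : End F V, z + z = (0 : F) • 1 := fun z => by rw [← two_smul F, h2, zero_smul, zero_smul]
  induction hx using Submodule.span_induction with
  | zero => exact ⟨0, by simp⟩
  | add a b _ _ p q => exact let ⟨k, p⟩ := p; let ⟨l, q⟩ := q; ⟨k + l, by rw [add_smul, ← p, ← q]; noncomm_ring⟩
  | smul r a _ p => exact let ⟨k, p⟩ := p; ⟨r * k, by rw [mul_smul, ← p]; simp⟩
  | mem x hx =>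
  induction hy using Submodule.span_induction with
  | zero => exact ⟨0, by simp⟩
  | add a b _ _ p q => exact let ⟨k, p⟩ := p; let ⟨l, q⟩ := q; ⟨k + l, by rw [add_smul, ← p, ← q]; noncomm_ring⟩
  | smul r a _ p => exact let ⟨k, p⟩ := p; ⟨r * k, by rw [mul_smul, ← p]; simp⟩
  | mem y hy =>
  obtain rfl | ⟨i, n, hn, rfl⟩ := hx
  · exact ⟨0, by simpa using two y⟩
  obtain rfl | ⟨j, n', hn', rfl⟩ := hy
  · exact ⟨0, by simpa using two _⟩
  by_cases e : i = j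
  · obtain ⟨k, hk⟩ := c.cl n hn n' hn'
    exact ⟨k, by rw [e, ← map_mul, ← map_mul, ← map_add, hk, map_smul, map_one]⟩
  · exact ⟨0, by rw [(t.comm i j e n n').eq, two]⟩

theorem ring_calc {R : Type*} [Ring R] {A B D : R} (two : ∀ z : R, z + z = 0) (g1 : A * A = 0) (f2 : B * B = 0)
    (g2 : D * D = 0) (g3 : A * B + B * A = 1) (f4 : A * D = D * A) (f5 : B * D = D * B) :
    (1 + A + D) * (A + B) * (1 + A + D) * (A + B) * B * ((A + B) * ((1 + A + D) * ((A + B) * (1 + A + D)))) =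
      1 + A + B + D := by
  have q1 : (A + B) * B * (A + B) = A := by
    linear_combination (norm := noncomm_ring) A * g3 + A * f2 + f2 * (A + B) - g1 * B
  have q2 : (A + B) * A * (A + B) = B := by
    linear_combination (norm := noncomm_ring) B * g3 + B * g1 + g1 * (A + B) - f2 * A
  have q3 : (1 + A + D) * A * (1 + A + D) = A := by
    linear_combination (norm := noncomm_ring) (1 + A + D) * g1 + g1 * (1 + D) - f4 - f4 * D + A * g2 + two (A * D)
  have q4 : (1 + A + D) * B * (1 + A + D) = 1 + A + B + D := by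
    linear_combination (norm := noncomm_ring) g3 + A * g3 - g1 * B - f5 + two (B * D) - f5 * D + B * g2 - f5 * A
      - B * f4 + g3 * D
  generalize A + B = v at *
  generalize 1 + A + D = w at *
  rw [← q4, show w * v * w * v * B * (v * (w * (v * w))) = w * (v * (w * (v * B * v) * w) * v) * w by
    simp only [mul_assoc], q1, q3, q2]

namespace SW0
variable [FiniteDimensional F W] (h : SW0 Ψ Φ₂ Φ E) (c : CN Ψ N n₀ n₁)
include h c

theorem sa {x : End F V} (hx : x ∈ cspan E N) (u v : V) : Φ.B (x u) v = Φ.B u (x v) := by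
  induction hx using Submodule.span_induction with
  | zero => simp
  | add a b _ _ p q => simp [p, q]
  | smul r a _ p => simp [p]
  | mem x hx =>
  obtain rfl | ⟨i, n, hn, rfl⟩ := hx
  · rfl
  simpa using h.bil i (x := fa (E i) n) (y := 1) (x' := 1) (y' := fa (E i) n) (k := 1)
    (fun w u w' u' => by simp [h.B, c.sa n hn]) u v

theorem refl (h2 : (2 : F) = 0) {x : End F V} (hx : x ∈ cspan E N) (sq : x * x = 1) (i : ι)
    (hQ : ∀ w u, Φ.Q (x (E i (w ⊗ₜ u))) = 0) :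
    ∃ g ∈ Φ.isom ⊓ nrm (cspan E N), (g : End F V) = x ∧ ((g⁻¹ : V ≃ₗ[F] V) : End F V) = x := by
  have xx : ∀ v, x (x v) = v := fun v => LinearMap.congr_fun sq v
  have hB : ∀ u v, Φ.B (x u) (x v) = Φ.B u v := fun u v => by rw [h.sa c hx, xx]
  have hn : ∀ s ∈ cspan E N, x * s * x ∈ cspan E N := fun s hs => by
    obtain ⟨k, hk⟩ := h.toTW.cliff c hx hs h2
    rw [show x * s * x = k • x - s by
      rw [eq_sub_of_add_eq hk, sub_mul, mul_assoc, sq, mul_one, smul_mul_assoc, one_mul]]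
    exact sub_mem (Submodule.smul_mem _ _ hx) hs
  refine ⟨LinearEquiv.ofInvolutive x xx, ⟨⟨hB, fun v => ?_⟩, hn, hn⟩, rfl, rfl⟩
  obtain ⟨v, rfl⟩ := (E i).surjective v
  change Φ.Q (x _) = _
  induction v with
  | zero => simp
  | tmul w u => rw [hQ, h.Q]
  | add a b p q => rw [map_add, map_add, Φ.Q_add, Φ.Q_add, p, q, hB]

theorem le_nrm {g : V ≃ₗ[F] V} (hg : g ∈ wstab E ⊓ Φ.isom) : g ∈ nrm (cspan E N) := by
  have k : ∀ g ∈ wstab E ⊓ Φ.isom, ∀ s ∈ cspan E N, (g : End F V) * s * (g⁻¹ : V ≃ₗ[F] V) ∈ cspan E N := by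
    rintro g ⟨⟨π, hπ⟩, hg⟩ s hs
    induction hs using Submodule.span_induction with
    | zero => simp
    | add a b _ _ p q => rw [mul_add, add_mul]; exact add_mem p q
    | smul r a _ p => rw [mul_smul_comm, smul_mul_assoc]; exact Submodule.smul_mem _ _ p
    | mem x hx =>
    obtain rfl | ⟨i, n, hn, rfl⟩ := hx
    · rw [mul_one, coe_mul_inv]; exact one_mem_cspan
    obtain ⟨a, b, e⟩ := hπ i
    obtain ⟨μ, hμ⟩ := h.sim hg e
    obtain ⟨k, n', hn', e'⟩ := c.inv a μ hμ n hn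
    have := conj_fa e n 1
    rw [map_one, mul_one, mul_one, coe_mul_inv, map_one, mul_one, e', map_smul] at this
    exact this ▸ Submodule.smul_mem _ _ (fa_mem hn')
  exact ⟨k g hg, by simpa using k _ (inv_mem hg)⟩

theorem notMax [FiniteDimensional F V] [Nontrivial W] (h2 : (2 : F) = 0) (hC : CEG Φ) (h9 : 9 ≤ finrank F V)
    {i j : ι} (n : i ≠ j) (H : (∀ x, Ψ.B (n₀ x) x = 0) ∨ ∃ l, l ≠ i ∧ l ≠ j) :
    wstab E ⊓ EG Φ < nrm (cspan E N) ⊓ EG Φ ∧ nrm (cspan E N) ⊓ EG Φ < EG Φ := by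
  have := h.nt
  have s := h.sp
  have : Nontrivial (End F V) := by
    have : Nontrivial V := Module.nontrivial_of_finrank_pos (R := F) (by omega)
    infer_instance
  have two : ∀ z : End F V, z + z = 0 := fun z => by rw [← two_smul F, h2, zero_smul]
  refine ⟨lt_of_le_of_ne (fun g hg => ⟨h.le_nrm c ⟨hg.1, EG_le_isom hg.2⟩, hg.2⟩) fun e => ?_,
    lt_of_le_of_ne inf_le_right fun e => ?_⟩
  · have f1 : ∀ l, fa (E l) n₀ * fa (E l) n₀ = 0 := fun l => by rw [← map_mul, c.s0, map_zero]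
    have f2 : fa (E i) n₁ * fa (E i) n₁ = 0 := by rw [← map_mul, c.s1, map_zero]
    have f3 : ∀ l, fa (E l) n₀ * fa (E l) n₁ + fa (E l) n₁ * fa (E l) n₀ = 1 := fun l => by
      rw [← map_mul, ← map_mul, ← map_add, c.e, map_one]
    have f4 := (h.comm i j n n₀ n₀).eq
    have f5 := (h.comm i j n n₁ n₀).eq
    obtain ⟨v, hv, v1, v2⟩ := h.refl c h2 (add_mem (fa_mem (i := i) c.m0) (fa_mem (i := i) c.m1))
      (by rw [add_mul, mul_add, mul_add, f1, f2, zero_add, add_zero, f3]) i fun w u => by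
        rw [← map_add, fa_tmul, h.Q]
    obtain ⟨w, hw, w1, w2⟩ : ∃ g ∈ Φ.isom ⊓ nrm (cspan E N), (g : End F V) = 1 + fa (E i) n₀ + fa (E j) n₀ ∧
        ((g⁻¹ : V ≃ₗ[F] V) : End F V) = 1 + fa (E i) n₀ + fa (E j) n₀ := by
      have m := add_mem (add_mem (one_mem_cspan (E := E)) (fa_mem (i := i) c.m0)) (fa_mem (i := j) c.m0)
      have sq : (1 + fa (E i) n₀ + fa (E j) n₀) * (1 + fa (E i) n₀ + fa (E j) n₀) = 1 := by
        linear_combination (norm := noncomm_ring) f1 i + f1 j - f4 + two (fa (E i) n₀) + two (fa (E j) n₀) +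
          two (fa (E i) n₀ * fa (E j) n₀)
      rcases H with H | ⟨l, li, lj⟩
      · refine h.refl c h2 m sq i fun w u => ?_
        obtain ⟨b, hb⟩ := exists_fb (e := E i) (h.comm j i n.symm n₀)
        rw [hb, ← map_one (fa (E i)), ← map_add, LinearMap.add_apply, fa_tmul, fb_tmul, Φ.Q_add, h.Q, h.Q, h.B]
        simp [H, s.alt]
      · refine h.refl c h2 m sq l fun w u => ?_
        obtain ⟨b, hb⟩ := exists_fb (e := E l) (h.comm i l li.symm n₀)
        obtain ⟨b', hb'⟩ := exists_fb (e := E l) (h.comm j l lj.symm n₀)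
        rw [hb, hb', ← map_one (fb (E l)), ← map_add, ← map_add, fb_tmul, h.Q]
    have m : w * v * w⁻¹ * v⁻¹ ∈ nrm (cspan E N) ⊓ EG Φ :=
      ⟨(nrm _).mul_mem ((nrm _).mul_mem ((nrm _).mul_mem hw.2 hv.2) ((nrm _).inv_mem hw.2)) ((nrm _).inv_mem hv.2),
        hC _ hw.1 _ hv.1⟩
    obtain ⟨⟨π, hπ⟩, -⟩ := e ▸ m
    obtain ⟨a, b, e⟩ := hπ i
    have := conj_fa e n₁ 1
    rw [map_one, mul_one, mul_one, coe_mul_inv, map_one, mul_one] at this
    simp only [mul_inv_rev, inv_inv, LinearEquiv.coe_toLinearMap_mul, v1, v2, w1, w2] at this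
    generalize hA : fa (E i) n₀ = A at *
    generalize hB : fa (E i) n₁ = B at *
    generalize hD : fa (E j) n₀ = D at *
    have g1 := f1 i
    have g2 := f1 j
    have g3 := f3 i
    rw [hA] at g1; rw [hD] at g2; rw [hA, hB] at g3
    have q := (ring_calc two g1 f2 g2 g3 f4 f5).symm.trans this
    by_cases e' : π i = i
    · have := (q ▸ h.comm (π i) j (e'.symm ▸ n) _ n₁ : Commute (1 + A + B + D) (fa (E j) n₁)).eq
      have p1 := (h.comm i j n n₀ n₁).eq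
      have p2 := (h.comm i j n n₁ n₁).eq
      have p3 := f3 j
      rw [hA] at p1; rw [hB] at p2; rw [hD] at p3
      refine one_ne_zero (α := End F V) ?_
      linear_combination (norm := noncomm_ring) this - p1 - p2 - p3 + two (fa (E j) n₁ * D)
    · have := (q ▸ h.comm (π i) i e' _ n₀ : Commute (1 + A + B + D) (fa (E i) n₀)).eq
      rw [hA] at this
      refine one_ne_zero (α := End F V) ?_
      linear_combination (norm := noncomm_ring) this + f4 - g3 + two (A * B)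
  obtain ⟨w, w0⟩ := exists_ne (0 : W)
  obtain ⟨r, hr⟩ := s.nd.exists_eq_one w0
  obtain ⟨u, v, hu⟩ := h.ex
  have sg : ∀ u, Φ.Sing (E i (w ⊗ₜ u)) := fun u => ⟨h.Q _ _ _, by simp [h.B, s.alt]⟩
  obtain ⟨g, hg⟩ := exists_isE0 (h.nd i) (sg u) (sg v) (by simp [h.B, s.alt])
  have m : g ∈ nrm (cspan E N) ⊓ EG Φ := e.symm ▸ IsE_mem_EG hg
  obtain ⟨R, r2, hR⟩ : ∃ R : Submodule F V, finrank F R ≤ 2 ∧ ∀ x, g x - x ∈ R := by
    classical
    refine ⟨Submodule.span F {E i (w ⊗ₜ u), E i (w ⊗ₜ v)}, (finrank_span_le_card _).trans (by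
      rw [Set.toFinset_insert, Set.toFinset_singleton]; exact Finset.card_le_two), fun x => ?_⟩
    rw [hg.app, add_sub_assoc, add_sub_cancel_left]
    exact sub_mem (Submodule.smul_mem _ _ (Submodule.subset_span (by simp)))
      (Submodule.smul_mem _ _ (Submodule.subset_span (by simp)))
  have fr : ∀ (R : Submodule F V) (x : End F V), finrank F ↥(R ⊔ R.map x) ≤ 2 * finrank F R := fun R x =>
    (Submodule.finrank_add_le_finrank_add_finrank _ _).trans (by have := Submodule.finrank_map_le x R; omega)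
  have sc : ∀ d : End F V, (∀ x ∈ cspan E N, Commute d x) → ∃ k : F, d = k • 1 := fun d hd =>
    h.toTW.scal i fun l a => c.gen ((Subalgebra.centralizer F {d}).comap (fa (E l)))
      (fun n hn y hy => by rw [hy]; exact hd _ (fa_mem hn)) a d rfl
  obtain ⟨k, hk⟩ := sc g fun x hx => by
    have d1 := sub_mem (m.1.1 x hx) hx
    have d2 : ∀ y, ((g : End F V) * x * (g⁻¹ : V ≃ₗ[F] V) - x) y ∈ R ⊔ R.map x := fun y => by
      obtain ⟨y, rfl⟩ := g.surjective y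
      have := sub_mem (Submodule.mem_sup_left (T := R.map x) (hR (x y)))
        (Submodule.mem_sup_right (Submodule.mem_map_of_mem (f := x) (hR y)))
      convert this using 1
      simp
    have d3 := fr R x
    generalize hd : (g : End F V) * x * (g⁻¹ : V ≃ₗ[F] V) - x = d at d1 d2
    generalize R ⊔ R.map x = R' at d2 d3
    obtain ⟨k, rfl⟩ := sc d fun y hy => by
      obtain ⟨k, hk⟩ := h.toTW.cliff c d1 hy h2
      have d4 := fr R' y
      obtain rfl := scal_small (R := R' ⊔ R'.map y) (c := k) (by omega) fun z => by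
        have := add_mem (Submodule.mem_sup_left (T := R'.map y) (d2 (y z)))
          (Submodule.mem_sup_right (Submodule.mem_map_of_mem (f := y) (d2 z)))
        convert this using 1
        simpa using (LinearMap.congr_fun hk z).symm
      rw [zero_smul] at hk
      change d * y = y * d
      linear_combination (norm := noncomm_ring) hk - two (y * d)
    obtain rfl := scal_small (R := R') (c := k) (by omega) d2
    rw [zero_smul, sub_eq_zero] at hd
    have := congrArg (· * (g : End F V)) hd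
    simp only [mul_assoc, coe_inv_mul, mul_one] at this
    exact this
  have hk : ∀ x, g x = k • x := LinearMap.congr_fun hk
  have k1 := scal_small (R := R) (c := k - 1) (by omega) fun x => by simpa [hk, sub_smul] using hR x
  have := congrArg (Φ.B (E i (r ⊗ₜ u))) (hg.app (E i (r ⊗ₜ v)))
  simp [hk, sub_eq_zero.1 k1, h.B, hr, hu.ef, hu.sf.2, hu.se.2, Φ.ε_ne_zero, s.skew w r] at this

end SW0

section Std
open Matrix Asch

variable {m n : ℕ} {κ : Type} [Fintype κ] [DecidableEq κ] (P : GL κ F)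

theorem not_max_wreathSp [Fintype F] (e : κ ≃ (Fin (n + 1) → Fin m)) {Φ : Formed (RingHom.id F) (κ → F)}
    (nd : Φ.Nondeg) (ns : NotSp2 Φ) (hC : CEG Φ) {f₁ : (Fin m → F) → (Fin m → F) → F}
    (hf₁ : Geo.IsSymplecticForm f₁) (hT : Geo.IsTensorPowerFormStructure id (fun u v => Φ.B u v) f₁ e P)
    (hQ : ∀ x, Φ.Q (tv e P (pv x)) = 0) (hn : 1 ≤ n) (h2 : (2 : F) = 0) (h9 : 9 ≤ Fintype.card κ)
    (H : m = 4 ∨ m = 2 ∧ 2 ≤ n) {K : Subgroup (GL κ F)} (hK : ∀ g, g ∈ K ↔ glEquiv κ F g ∈ EG Φ) :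
    ∃ L, Geo.tensorWreathSubgroup m (n + 1) e P ⊓ K < L ∧ L < K := by
  have : Nonempty (Fin m) := ⟨⟨0, by omega⟩⟩
  have : Nontrivial (Fin m → F) := inferInstance
  obtain ⟨Ψ, a1, a2, a3, a4, a5, a6⟩ := exists_symp' hf₁ one_ne_zero
  have s : SpF Ψ := ⟨a1, a3, a4, a5, a6⟩
  obtain ⟨c, c0, hc⟩ := hT
  set G := Geo.gramMatrix f₁ with hG
  have b1 : ∀ u v, Ψ.B u v = u ⬝ᵥ G *ᵥ v := fun u v => by rw [a2, one_mul, ← formOfGram_bilin hf₁.bilinear, formOfGram_eq]; rfl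
  have b2 : ∀ x y, Φ.B (tv e P x) (tv e P y) = c * (x ⬝ᵥ ptens (fun _ => G) *ᵥ y) := fun x y =>
    (hc x y).trans (congrArg _ (formOfGram_eq id (ptens fun _ => G) x y))
  have hB : ∀ i w u w' u', Φ.B (pE e P i (w ⊗ₜ u)) (pE e P i (w' ⊗ₜ u')) =
      Ψ.B w w' * (c • Matrix.toBilin' (ptens fun _ : Fin n => G)) u u' := fun i w u w' u' => by
    simp only [pE, LinearEquiv.trans_apply, b2, ptens_sE, sE_dot, b1, LinearMap.smul_apply, toBilin'_apply', smul_eq_mul]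
    exact mul_left_comm _ _ _
  obtain ⟨Φ₂, d1, d2, d3⟩ := exists_F2 s nd _ (hB 0) fun S hS => pv_span S fun x => hS _ (by
    simp only [LinearMap.smul_apply, toBilin'_apply', ptens_mulVec_pv, pv_dot, ← b1]
    rw [Finset.prod_eq_zero (Finset.mem_univ (⟨0, hn⟩ : Fin n)) (a6 _), smul_zero])
  have h : SW0 Ψ Φ₂ Φ (pE e P) := ⟨tw_pE e P, s, d1 ▸ hB, fun i w u =>
    pv_span ⟨⟨⟨{u | Φ.Q (pE e P i (w ⊗ₜ u)) = 0}, fun {a b} (p : _ = _) (q : _ = _) => by
      simp [tmul_add, Φ.Q_add, p, q, hB, a6]⟩, by simp⟩, fun c x (p : _ = _) => by simp [Φ.Q_smul, p]⟩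
      (fun x => by simpa [pE, sE_pv] using hQ _) u, d2, d3, ns⟩
  obtain ⟨L, l1, l2⟩ : ∃ L, wstab (pE e P) ⊓ EG Φ < L ∧ L < EG Φ := by
    have ne : (⟨0, by omega⟩ : Fin (n + 1)) ≠ ⟨1, by omega⟩ := by simp
    rcases H with rfl | ⟨rfl, p⟩
    · obtain ⟨n₀, n₁, c, q⟩ := s.cn4 h2 (by simp)
      exact ⟨_, h.notMax c h2 hC (by simpa) ne (.inl q)⟩
    · obtain ⟨n₀, n₁, c⟩ := s.cn2 h2 (by simp)
      exact ⟨_, h.notMax c h2 hC (by simpa) ne (.inr ⟨⟨2, by omega⟩, by simp, by simp⟩)⟩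
  have k := fun {A B} => (Subgroup.comap_lt_comap_of_surjective (K := A) (L := B)
    (f := (glEquiv κ F).toMonoidHom) (glEquiv κ F).surjective).2
  refine ⟨L.comap (glEquiv κ F).toMonoidHom, ?_, ?_⟩
  · convert k l1 using 1
    ext g; exact and_congr (mem_wreath e P) (hK g)
  · convert k l2 using 1
    ext g; exact hK g

end Std

end Cfsg.Agent.Root.Wr
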