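import Cfsg.Agent.Low.WS1

/-! Subspaces of `End V` invariant under the symplectic transvections of the factors of a tensor-power frame (`IA`):
invariant algebras (`IA.alg`), commutative subspaces (`IA.comm_scal`) and Clifford subspaces (`IA.cliff`). -/

set_option autoImplicit false

namespace Cfsg.Agent.Root.Wr

open Cfsg.Agent.Geom Cfsg.Agent.AutCl Module TensorProduct Mx

variable {F : Type*} [Field F] {V W U : Type*} [AddCommGroup V] [Module F V] [AddCommGroup W] [Module F W]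
  [AddCommGroup U] [Module F U] {ι : Type*} {e : W ⊗[F] U ≃ₗ[F] V} {Ψ : Formed (RingHom.id F) W}

/-- A symplectic space. -/
structure SpF (Ψ : Formed (RingHom.id F) W) : Prop where
  nd : Ψ.Nondeg
  τ : Ψ.τ = 0
  Q : ∀ x, Ψ.Q x = 0
  ε : Ψ.ε = -1
  alt : ∀ x, Ψ.B x x = 0

/-- The rank one map `v ↦ B(x, v) y`. -/
abbrev rb (Ψ : Formed (RingHom.id F) W) (y x : W) : End F W := rk1 y (Ψ.B x)

theorem rb_mul (a b c d : W) : rb Ψ a b * rb Ψ c d = Ψ.B b c • rb Ψ a d := by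
  ext v; simp [smul_smul, mul_comm]

namespace SpF
variable (s : SpF Ψ)
include s

theorem skew (x y : W) : Ψ.B y x = -Ψ.B x y := by simp [Ψ.symm x y, s.ε]

theorem sing (x : W) : Ψ.Sing x := ⟨s.Q x, s.alt x⟩

theorem sq (x : W) : rb Ψ x x * rb Ψ x x = 0 := by simp [rb_mul, s.alt]

variable [FiniteDimensional F W]

theorem rb_ne {x y : W} (x0 : x ≠ 0) (y0 : y ≠ 0) : rb Ψ x y ≠ 0 := fun e => by
  obtain ⟨r, hr⟩ := s.nd.exists_eq_one y0
  simpa [hr, x0] using LinearMap.congr_fun e r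

theorem top_of (S : Submodule F (End F W)) (h : ∀ a b, rb Ψ a a * rb Ψ b b ∈ S) (m : End F W) : m ∈ S :=
  mem_of_rk1 (fun y κ => by
    obtain ⟨b, rfl⟩ := s.nd.exists_eq_B κ
    have k : ∀ b, Ψ.B y b ≠ 0 → rb Ψ y b ∈ S := fun b e => by simpa [rb_mul, S.smul_mem_iff e] using h y b
    by_cases y0 : y = 0
    · rw [show rk1 y (Ψ.B b) = 0 by ext; simp [y0]]; exact zero_mem _
    by_cases e : Ψ.B y b = 0
    · obtain ⟨r, hr⟩ := s.nd.exists_eq_one y0
      convert sub_mem (k (b + r) (by simp [e, hr])) (k r (by simp [hr])) using 1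
      ext; simp [add_smul]
    · exact k b e) m

theorem exists_one {x z : W} (hz : z ∉ F ∙ x) : ∃ y, Ψ.B x y = 0 ∧ Ψ.B y z = 1 := by
  obtain ⟨y, -, y1, y2⟩ := sep s.nd (nondeg_top s.nd) le_top trivial hz
  exact ⟨-y, by simpa using Ψ.mem_perp_span_singleton.1 y1, by simp [s.skew z y, y2]⟩

theorem exists_perp (h4 : 4 ≤ finrank F W) (x y z : W) : ∃ v, Ψ.B x v = 0 ∧ Ψ.B y v = 0 ∧ v ∉ F ∙ z := by
  have := finrank_pf (Φ := Ψ) ![x, y] ⊤
  obtain ⟨v, hv, v1⟩ := exists_notMem_of_lt (U := ⊤ ⊓ pf Ψ ![x, y]) (R := F ∙ z) (by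
    have := finrank_span_one (F := F) z; rw [finrank_top] at *; omega)
  exact ⟨v, mem_pf.1 hv.2 0, mem_pf.1 hv.2 1, v1⟩

theorem exists_perp2 (h4 : 4 ≤ finrank F W) (x y : W) :
    ∃ v, Ψ.B x v = 0 ∧ Ψ.B y v = 0 ∧ v ∉ F ∙ x ∧ v ∉ F ∙ y := by
  obtain ⟨a, a1, a2, a3⟩ := s.exists_perp h4 x y x
  obtain ⟨b, b1, b2, b3⟩ := s.exists_perp h4 x y y
  by_cases h : a ∈ F ∙ y
  · by_cases h' : b ∈ F ∙ x
    · exact ⟨a + b, by simp [a1, b1], by simp [a2, b2], by rwa [add_mem_cancel_right h'], by rwa [add_mem_cancel_left h]⟩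
    · exact ⟨b, b1, b2, h', b3⟩
  · exact ⟨a, a1, a2, a3, h⟩

theorem perp_two (h4 : 4 ≤ finrank F W) {y : W} (y0 : y ≠ 0) : ∃ a b, Ψ.B y a = 0 ∧ Ψ.B y b = 0 ∧ Ψ.B a b = 1 := by
  obtain ⟨b, b1, -, b2⟩ := s.exists_perp h4 y y y
  obtain ⟨a, a1, a2⟩ := s.exists_one b2
  exact ⟨a, b, a1, b1, a2⟩

end SpF

/-- `R` is invariant under the transvections of the first factor of `e`. -/
def Iv (Ψ : Formed (RingHom.id F) W) (e : W ⊗[F] U ≃ₗ[F] V) (R : Submodule F (End F V)) : Prop :=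
  ∀ ρ ∈ R, ∀ (c : F) x, fa e (1 + c • rb Ψ x x) * ρ * fa e (1 - c • rb Ψ x x) ∈ R

/-- The elements obtained by two commutators. -/
noncomputable def mu (Ψ : Formed (RingHom.id F) W) (e : W ⊗[F] U ≃ₗ[F] V) (b b' : End F U) (x y : W) : End F V :=
  fa e (rb Ψ y x) * fb e b + fa e (rb Ψ x y) * fb e b'

theorem mu_swap (b b' : End F U) (x y : W) : mu Ψ e b b' x y = mu Ψ e b' b y x := add_comm _ _

theorem blk_add (ρ : End F V) (ψ χ : Dual F W) (x : W) : blk e ρ (ψ + χ) x = blk e ρ ψ x + blk e ρ χ x := by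
  ext u; simp [blk]

variable [FiniteDimensional F W] {R : Submodule F (End F V)}

theorem Iv.step (s : SpF Ψ) (h : Iv Ψ e R) {b b' : End F U} {x z : W} (hz : z ∉ F ∙ x) (xz : Ψ.B x z = 0)
    (H : mu Ψ e b b' x z ∈ R) (y : W) (xy : Ψ.B x y = 0) : mu Ψ e b b' x y ∈ R := by
  have k : ∀ y, Ψ.B x y = 0 → Ψ.B y z ≠ 0 → mu Ψ e b b' x y ∈ R := fun y xy n => by
    rw [← R.smul_mem_iff n]
    convert sub_mem (h _ H 1 y) H using 1
    refine ext_e e fun w u => ?_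
    simp [mu, add_tmul, sub_tmul, ← smul_tmul', xy, s.skew x y, s.skew y z, s.alt, smul_smul, neg_tmul]
    module
  by_cases n : Ψ.B y z = 0
  · obtain ⟨r, r1, r2⟩ := s.exists_one hz
    convert sub_mem (k (y + r) (by simp [xy, r1]) (by simp [n, r2])) (k r r1 (by simp [r2])) using 1
    exact ext_e e fun w u => by simp [mu, add_tmul, ← smul_tmul', add_smul]; abel
  · exact k y xy n

theorem Iv.ext (s : SpF Ψ) (h4 : 4 ≤ finrank F W) (h : Iv Ψ e R) {ρ : End F V} (hρ : ρ ∈ R)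
    (n : ¬ ∀ a, Commute ρ (fa e a)) : ∃ b ≠ 0, ∃ b', ∀ x y, Ψ.B x y = 0 → mu Ψ e b b' x y ∈ R := by
  obtain ⟨x, z, p, z1, b0⟩ : ∃ x z, Ψ.B x z = 0 ∧ z ∉ F ∙ x ∧ blk e ρ (Ψ.B z) x ≠ 0 := by
    by_contra! hc
    refine n (comm_of_blk fun x ψ p => ?_)
    obtain ⟨z, rfl⟩ := s.nd.exists_eq_B ψ
    replace p := Ψ.B_eq_zero_symm p
    by_cases hz : z ∈ F ∙ x
    · obtain ⟨v, v1, -, v2⟩ := s.exists_perp h4 x x x
      simpa [blk_add, hc x v v1 v2] using hc x (z + v) (by simp [p, v1]) (by rwa [add_mem_cancel_left hz])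
    · exact hc x z p hz
  have x0 : x ≠ 0 := by rintro rfl; exact b0 (LinearMap.ext fun u => by simp [blk])
  have H : mu Ψ e (blk e ρ (Ψ.B z) x) (blk e ρ (Ψ.B x) z) x z ∈ R := by
    have H1 := sub_mem (h ρ hρ 1 x) hρ
    have e1 : fa e (rb Ψ x x) * fa e (rb Ψ z z) = 0 := by rw [← map_mul, rb_mul, p, zero_smul, map_zero]
    have e2 : fa e (rb Ψ z z) * fa e (rb Ψ x x) = 0 := by
      rw [← map_mul, rb_mul, Ψ.B_eq_zero_symm p, zero_smul, map_zero]
    convert sub_mem H1 (h _ H1 1 z) using 1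
    rw [mu, ← fa_mul_fa, ← fa_mul_fa]
    simp only [map_add, map_sub, map_one, one_smul]
    generalize fa e (rb Ψ x x) = A at *
    generalize fa e (rb Ψ z z) = B at *
    linear_combination (norm := noncomm_ring) e2 * ρ - e2 * ρ * A - e2 * ρ * B + e2 * ρ * A * B + ρ * e1 + A * ρ * e1 +
      B * ρ * e1
  refine ⟨_, b0, blk e ρ (Ψ.B x) z, fun x' y' p' => ?_⟩
  obtain ⟨v, v1, v2, v3, v4⟩ := s.exists_perp2 h4 x x'
  refine h.step s v4 v2 ?_ y' p'
  rw [mu_swap]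
  exact h.step s (notMem_symm v3 x0) (Ψ.B_eq_zero_symm v1) (mu_swap (e := e) _ _ x v ▸ h.step s z1 p H v v1) x'
    (Ψ.B_eq_zero_symm v2)

variable {E : ι → W ⊗[F] U ≃ₗ[F] V} {J : Finset ι} {j : ι}

/-- `R` commutes with the factors outside `J` and is invariant under the factors in `J`. -/
structure IA (Ψ : Formed (RingHom.id F) W) (E : ι → W ⊗[F] U ≃ₗ[F] V) (J : Finset ι) (R : Submodule F (End F V)) :
    Prop where
  out : ∀ ρ ∈ R, ∀ l ∉ J, ∀ a, Commute ρ (fa (E l) a)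
  inv : ∀ j ∈ J, Iv Ψ (E j) R

/-- The cofactors of the maps in `M` at `j`. -/
def RM [DecidableEq ι] (E : ι → W ⊗[F] U ≃ₗ[F] V) (J : Finset ι) (j : ι) (R : Submodule F (End F V)) (M : Set (End F W)) :
    Submodule F (End F V) where
  carrier := {ρ | (∀ l ∉ J.erase j, ∀ a, Commute ρ (fa (E l) a)) ∧ ∀ m ∈ M, fa (E j) m * ρ ∈ R}
  zero_mem' := by simp
  add_mem' := fun p q => ⟨fun l hl a => (p.1 l hl a).add_left (q.1 l hl a), fun m e => by
    rw [mul_add]; exact add_mem (p.2 m e) (q.2 m e)⟩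
  smul_mem' := fun k _ p => ⟨fun l hl a => (p.1 l hl a).smul_left k, fun m e => by
    rw [mul_smul_comm]; exact R.smul_mem k (p.2 m e)⟩

/-- The transvection maps. -/
def Mt (Ψ : Formed (RingHom.id F) W) : Set (End F W) := {m | ∃ x, m = rb Ψ x x}

/-- The self-adjoint maps of rank two. -/
def Ml (Ψ : Formed (RingHom.id F) W) : Set (End F W) := {m | ∃ x y, Ψ.B x y = 0 ∧ m = rb Ψ y x - rb Ψ x y}

omit [FiniteDimensional F W] in
theorem TW.cm (h : TW E) {l : ι} (n : l ≠ j) {m : End F W} (m0 : m ≠ 0) {z : End F V} (hz : ∀ a, Commute z (fa (E j) a))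
    {a : End F W} (H : Commute (fa (E j) m * z) (fa (E l) a)) : Commute z (fa (E l) a) := by
  have c := h.comm l j n a
  refine sub_eq_zero.1 (indep (e := E j) m0 (fun a' => ((hz a').mul_left (c a')).sub_left ((c a').mul_left (hz a'))) ?_)
  rw [mul_sub, ← mul_assoc, H.eq, ← mul_assoc, ← mul_assoc, (c _).eq, sub_self]

omit [FiniteDimensional F W] in
theorem TW.scal [Nontrivial W] [Nontrivial U] (h : TW E) (i : ι) {ρ : End F V} (H : ∀ j a, Commute ρ (fa (E j) a)) :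
    ∃ k : F, ρ = k • 1 := by
  obtain ⟨a, rfl⟩ := h.fa_of (i := i) fun j _ => H j
  obtain ⟨k, rfl⟩ := scal_of_fa (H i)
  exact ⟨k, by simp⟩

theorem SpF.exists_ml (s : SpF Ψ) (h4 : 4 ≤ finrank F W) {y : W} (y0 : y ≠ 0) :
    ∃ m ∈ Ml Ψ, ∃ m' ∈ Ml Ψ, m * m' = rb Ψ y y ∧ m' * m = -rb Ψ y y := by
  obtain ⟨a, b, a1, b1, e⟩ := s.perp_two h4 y0
  refine ⟨_, ⟨a, y, Ψ.B_eq_zero_symm a1, rfl⟩, _, ⟨y, b, b1, rfl⟩, ?_, ?_⟩ <;>
    simp [mul_sub, sub_mul, rb_mul, a1, b1, e, s.alt, s.skew y a, s.skew a b, s.skew y b]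

namespace IA
variable [DecidableEq ι] (h : IA Ψ E J R) (t : TW E)
include h t

omit [FiniteDimensional F W] in
theorem rm (M : Set (End F W)) : IA Ψ E (J.erase j) (RM E J j R M) := ⟨fun _ p => p.1, fun l hl p hp c x =>
  ⟨fun l' hl' a => by
    have c := t.comm l l' (by rintro rfl; exact hl' hl)
    exact ((c _ a).mul_left (hp.1 l' hl' a)).mul_left (c _ a), fun m hm => by
    convert h.inv l (Finset.mem_of_mem_erase hl) _ (hp.2 m hm) c x using 1
    simp only [← mul_assoc, (t.comm l j (Finset.ne_of_mem_erase hl) _ _).eq]⟩⟩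

omit [FiniteDimensional F W] in
theorem mem_rm {M : Set (End F W)} {m : End F W} (hm : m ∈ M) (m0 : m ≠ 0) {b : End F U}
    (H : ∀ m ∈ M, fa (E j) m * fb (E j) b ∈ R) : fb (E j) b ∈ RM E J j R M := ⟨fun l hl a => by
  by_cases e : l = j
  · exact e ▸ (fa_fb _ _).symm
  · exact t.cm e m0 (fun a => (fa_fb _ _).symm) (h.out _ (H m hm) l (by simpa [e] using hl) a), H⟩

variable (s : SpF Ψ) (h4 : 4 ≤ finrank F W)
include s h4

theorem ext (hj : j ∈ J) {ρ : End F V} (hρ : ρ ∈ R) (n : ¬ ∀ a, Commute ρ (fa (E j) a)) :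
    (∃ γ ≠ 0, γ ∈ RM E J j R (Mt Ψ)) ∨ ∃ γ ≠ 0, γ ∈ RM E J j R (Ml Ψ) := by
  have : Nontrivial W := nontrivial_of_finrank_pos (R := F) (by omega)
  obtain ⟨b, b0, b', H⟩ := (h.inv j hj).ext s h4 hρ n
  obtain ⟨y, y0⟩ := exists_ne (0 : W)
  have inj : ∀ {b : End F U}, b ≠ 0 → fb (E j) b ≠ 0 := fun b0 e =>
    b0 (LinearMap.ext fun u => tmul_inj (F := F) y0 (by simpa using LinearMap.congr_fun e (E j (y ⊗ₜ u))))
  by_cases e : b + b' = 0
  · obtain ⟨m, hm, m', -, e1, -⟩ := s.exists_ml h4 y0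
    refine .inr ⟨_, inj b0, h.mem_rm t hm (by rintro rfl; exact s.rb_ne y0 y0 (by simpa using e1.symm)) ?_⟩
    rintro _ ⟨x, y, p, rfl⟩
    simpa [mu, eq_neg_of_add_eq_zero_right e, sub_mul, sub_eq_add_neg, add_mul] using H x y p
  · refine .inl ⟨_, inj e, h.mem_rm t (M := Mt Ψ) ⟨y, rfl⟩ (s.rb_ne y0 y0) ?_⟩
    rintro _ ⟨x, rfl⟩
    simpa [mu, mul_add] using H x x (s.alt x)

omit h t s h4 [FiniteDimensional F W] in
theorem mul_rm (hm : ∀ a ∈ R, ∀ b ∈ R, a * b ∈ R) {M : Set (End F W)} {p q : End F V} (hp : p ∈ RM E J j R M)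
    (hq : q ∈ RM E J j R M) {m m' : End F W} (a : m ∈ M) (b : m' ∈ M) : fa (E j) (m * m') * (p * q) ∈ R := by
  convert hm _ (hp.2 m a) _ (hq.2 m' b) using 1
  rw [mul_assoc, ← mul_assoc p, (hp.1 j (by simp) _).eq, map_mul]; simp only [mul_assoc]

/-- A non-zero invariant algebra consists of scalars or contains a factor. -/
theorem alg [Nontrivial U] (i : ι) (hm : ∀ a ∈ R, ∀ b ∈ R, a * b ∈ R) {ρ : End F V} (hρ : ρ ∈ R) :
    (∃ k : F, ρ = k • 1) ∨ ∃ j ∈ J, ∀ a, fa (E j) a ∈ R := by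
  have : Nontrivial W := nontrivial_of_finrank_pos (R := F) (by omega)
  induction J using Finset.strongInduction generalizing R ρ with | _ J ih =>
  by_cases H : ∀ j ∈ J, ∀ a, Commute ρ (fa (E j) a)
  · exact .inl (t.scal i fun j => by
      by_cases hj : j ∈ J
      exacts [H j hj, h.out ρ hρ j hj])
  obtain ⟨j, hj, n⟩ : ∃ j ∈ J, ¬ ∀ a, Commute ρ (fa (E j) a) := by simpa using H
  have one : ∀ M, (∀ a ∈ RM E J j R M, ∀ b ∈ RM E J j R M, a * b ∈ RM E J j R M) → ∀ γ ≠ 0, γ ∈ RM E J j R M →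
      1 ∈ RM E J j R M := fun M hM γ g0 hγ =>
    (ih _ (Finset.erase_ssubset hj) (h.rm t M) hM hγ).elim (fun ⟨k, e⟩ => by
      have k0 : k ≠ 0 := by rintro rfl; exact g0 (by simpa using e)
      simpa [e, k0] using (RM E J j R M).smul_mem k⁻¹ hγ) fun ⟨l, _, e⟩ => by simpa using e 1
  have all : ∀ p ∈ RM E J j R (Mt Ψ), ∀ q ∈ RM E J j R (Mt Ψ), ∀ m, fa (E j) m * (p * q) ∈ R := fun p hp q hq =>
    s.top_of (R.comap ((LinearMap.mulRight F (p * q)) ∘ₗ (fa (E j)).toLinearMap)) fun a b =>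
      mul_rm hm hp hq ⟨a, rfl⟩ ⟨b, rfl⟩
  have fin : ∀ γ ≠ 0, γ ∈ RM E J j R (Mt Ψ) → ∃ j ∈ J, ∀ a, fa (E j) a ∈ R := fun γ g0 hγ => by
    have := one _ (fun p hp q hq => ⟨fun l hl a => (hp.1 l hl a).mul_left (hq.1 l hl a), fun m _ => all p hp q hq m⟩) γ g0 hγ
    exact ⟨j, hj, fun a => by simpa using all 1 this 1 this a⟩
  refine .inr ((h.ext t s h4 hj hρ n).elim (fun ⟨γ, g0, hγ⟩ => fin γ g0 hγ) fun ⟨γ, g0, hγ⟩ => ?_)
  by_cases e : ∀ p ∈ RM E J j R (Ml Ψ), ∀ q ∈ RM E J j R (Ml Ψ), p * q = 0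
  · have := one _ (fun p hp q hq => e p hp q hq ▸ zero_mem _) γ g0 hγ
    exact (g0 (by simpa using e 1 this γ hγ)).elim
  push Not at e
  obtain ⟨p, hp, q, hq, e⟩ := e
  refine fin _ e ⟨fun l hl a => (hp.1 l hl a).mul_left (hq.1 l hl a), ?_⟩
  rintro _ ⟨y, rfl⟩
  by_cases y0 : y = 0
  · simp [show rb Ψ y y = 0 by ext; simp [y0]]
  obtain ⟨m, a, m', b, e1, -⟩ := s.exists_ml h4 y0
  exact e1 ▸ mul_rm hm hp hq a b

/-- A commutative invariant subspace consists of scalars. -/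
theorem comm_scal [Nontrivial U] (i : ι) (hc : ∀ a ∈ R, ∀ b ∈ R, Commute a b) {ρ : End F V} (hρ : ρ ∈ R) :
    ∃ k : F, ρ = k • 1 := by
  induction J using Finset.strongInduction with | _ J ih =>
  let C : Submodule F (End F V) :=
    { carrier := {z | (∀ l ∉ J, ∀ a, Commute z (fa (E l) a)) ∧ ∀ b ∈ R, Commute z b}
      zero_mem' := by simp
      add_mem' := fun p q => ⟨fun l hl a => (p.1 l hl a).add_left (q.1 l hl a), fun m e => (p.2 m e).add_left (q.2 m e)⟩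
      smul_mem' := fun k _ p => ⟨fun l hl a => (p.1 l hl a).smul_left k, fun m e => (p.2 m e).smul_left k⟩ }
  have hC : IA Ψ E J C := ⟨fun _ p => p.1, fun j hj p hp c x => ⟨fun l hl a => by
    have c := t.comm j l (by rintro rfl; exact hl hj)
    exact ((c _ a).mul_left (hp.1 l hl a)).mul_left (c _ a), fun b hb => by
      have e1 := (hp.2 _ (h.inv j hj b hb (-c) x)).eq
      have e2 : fa (E j) (c • rb Ψ x x) * fa (E j) (c • rb Ψ x x) = 0 := by simp [← map_mul, s.sq]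
      simp only [neg_smul, map_add, map_sub, map_neg, map_one] at e1 ⊢
      generalize fa (E j) (c • rb Ψ x x) = A at *
      change _ = _
      linear_combination (norm := noncomm_ring) (1 + A) * e1 * (1 - A) + (1 + A) * p * (1 - A) * b * e2 -
        e2 * b * (1 + A) * p * (1 - A)⟩⟩
  refine (hC.alg t s h4 i (fun p hp q hq => ⟨fun l hl a => (hp.1 l hl a).mul_left (hq.1 l hl a),
    fun b hb => (hp.2 b hb).mul_left (hq.2 b hb)⟩) ⟨h.out ρ hρ, hc ρ hρ⟩).elim id fun ⟨j, hj, H⟩ => ?_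
  refine ih _ (Finset.erase_ssubset hj) ⟨fun b hb l hl a => ?_, fun l hl => h.inv l (Finset.mem_of_mem_erase hl)⟩
  by_cases e : l = j
  · exact e ▸ ((H a).2 b hb).symm
  · exact h.out b hb l (by simpa [e] using hl) a

/-- An invariant subspace of skew maps with scalar anticommutators vanishes. -/
theorem cliff [Nontrivial U] (i : ι) (h2 : (2 : F) ≠ 0) {Φ : Formed (RingHom.id F) V} (nd : Φ.Nondeg)
    (ad : ∀ j x y u v, Φ.B (fa (E j) (rb Ψ y x) u) v = -Φ.B u (fa (E j) (rb Ψ x y) v))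
    (sk : ∀ ρ ∈ R, ∀ u v, Φ.B (ρ u) v = -Φ.B u (ρ v)) (an : ∀ a ∈ R, ∀ b ∈ R, ∃ k : F, a * b + b * a = k • 1)
    {ρ : End F V} (hρ : ρ ∈ R) : ρ = 0 := by
  have : Nontrivial W := nontrivial_of_finrank_pos (R := F) (by omega)
  have sa : ∀ ρ ∈ R, (∀ u v, Φ.B (ρ u) v = Φ.B u (ρ v)) → ρ = 0 := fun ρ hρ e => LinearMap.ext fun u => nd _ fun v =>
    eq_zero_of_neg h2 ((sk ρ hρ u v).trans (by rw [e]))
  by_cases H : ∀ j ∈ J, ∀ a, Commute ρ (fa (E j) a)
  · obtain ⟨k, rfl⟩ := t.scal i (ρ := ρ) fun j => by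
      by_cases hj : j ∈ J
      exacts [H j hj, h.out ρ hρ j hj]
    exact sa _ hρ (by simp)
  obtain ⟨j, hj, n⟩ : ∃ j ∈ J, ¬ ∀ a, Commute ρ (fa (E j) a) := by simpa using H
  have key : ∀ M, ∀ p ∈ RM E J j R M, ∀ q ∈ RM E J j R M, ∀ m ∈ M, ∀ m' ∈ M, ∃ k : F,
      fa (E j) (m * m') * (p * q) + fa (E j) (m' * m) * (q * p) = k • 1 := fun M p hp q hq m a m' b =>
    (an _ (hp.2 m a) _ (hq.2 m' b)).imp fun k e => by
      rw [← e, map_mul, map_mul]
      linear_combination (norm := noncomm_ring) -fa (E j) m * (hp.1 j (by simp) m').eq * q -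
        fa (E j) m' * (hq.1 j (by simp) m).eq * p
  have kill : ∀ {a : End F W} {k : F}, a ≠ 0 → fa (E j) a * k • 1 = 0 → k = 0 := fun a0 e =>
    by_contra fun k0 => a0 (fa_inj (e := E j) (by simpa [k0] using e))
  obtain ⟨y, y0⟩ := exists_ne (0 : W)
  rcases h.ext t s h4 hj hρ n with ⟨γ, g0, hγ⟩ | ⟨γ, g0, hγ⟩ <;> refine (g0 ?_).elim
  · obtain ⟨r, hr⟩ := s.nd.exists_eq_one y0
    obtain ⟨a, a0, a1, a2⟩ := exists_rk1_kill (by omega : 3 ≤ finrank F W) y r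
    have z : ∀ p ∈ RM E J j R (Mt Ψ), ∀ q ∈ RM E J j R (Mt Ψ), q * p = 0 := fun p hp q hq => by
      obtain ⟨k, e⟩ := key _ p hp q hq _ ⟨y, rfl⟩ _ ⟨r, rfl⟩
      obtain rfl : k = 0 := kill a0 (by
        rw [← e, mul_add, ← mul_assoc, ← mul_assoc _ _ (q * p), ← map_mul, ← map_mul,
          show a * (rb Ψ y y * rb Ψ r r) = 0 by ext; simp [a1], show a * (rb Ψ r r * rb Ψ y y) = 0 by ext; simp [a2]]
        simp)
      refine indep (e := E j) (s.rb_ne y0 y0) (fun a => (hq.1 j (by simp) a).mul_left (hp.1 j (by simp) a)) ?_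
      have := congrArg (fa (E j) (rb Ψ y y) * ·) e
      simp only [mul_add] at this
      rw [← mul_assoc, ← mul_assoc _ _ (q * p), ← map_mul, ← map_mul,
        show rb Ψ y y * (rb Ψ y y * rb Ψ r r) = 0 by rw [← mul_assoc, s.sq, zero_mul],
        show rb Ψ y y * (rb Ψ r r * rb Ψ y y) = -rb Ψ y y by simp [rb_mul, hr, s.skew y r]] at this
      simpa using this
    obtain ⟨k, rfl⟩ := (h.rm t _).comm_scal t s h4 i (fun p hp q hq => (z q hq p hp).trans (z p hp q hq).symm) hγ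
    by_cases k0 : k = 0
    · simp [k0]
    · simpa [k0] using z _ hγ _ hγ
  obtain ⟨m, a, m', b, e1, e2⟩ := s.exists_ml h4 y0
  obtain ⟨k, rfl⟩ := (h.rm t _).comm_scal t s h4 i (fun p hp q hq => by
    obtain ⟨k, e⟩ := key _ p hp q hq m a m' b
    rw [e1, e2, map_neg, neg_mul, ← sub_eq_add_neg, ← mul_sub] at e
    obtain rfl : k = 0 := kill (s.rb_ne y0 y0) (by rw [← e, ← mul_assoc, ← map_mul, s.sq]; simp)
    exact sub_eq_zero.1 (indep (e := E j) (s.rb_ne y0 y0) (fun a => ((hp.1 j (by simp) a).mul_left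
      (hq.1 j (by simp) a)).sub_left ((hq.1 j (by simp) a).mul_left (hp.1 j (by simp) a))) (by simpa using e))) hγ
  by_contra k0
  have e3 := sa _ (hγ.2 m a) (by
    obtain ⟨x, z, -, rfl⟩ := a
    intro u v
    simp [ad j x z, ad j z x, mul_sub]; ring)
  obtain rfl : m = 0 := fa_inj (e := E j) (by simpa [left_ne_zero_of_smul k0] using e3)
  exact s.rb_ne y0 y0 (by simpa using e1.symm)

end IA

end Cfsg.Agent.Root.Wr
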