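import Cfsg.Agent.Low.WS2

/-! Groups of isometries containing the symplectic groups of all factors of a tensor-power frame (`SW`): for factors of
dimension `≥ 4` they contain the Eichler group or permute the factors (`SW.le_wstab`). -/

set_option autoImplicit false

namespace Cfsg.Agent.Root.Wr

open Cfsg.Agent.Geom Cfsg.Agent.AutCl Module TensorProduct Mx

variable {F : Type*} [Field F] {V W U : Type*} [AddCommGroup V] [Module F V] [AddCommGroup W] [Module F W]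
  [AddCommGroup U] [Module F U] {ι : Type*} {Ψ : Formed (RingHom.id F) W} {Φ₂ : Formed (RingHom.id F) U}
  {Φ : Formed (RingHom.id F) V} {E : ι → W ⊗[F] U ≃ₗ[F] V} {X : Subgroup (V ≃ₗ[F] V)}

/-- A tensor power of a symplectic space. -/
structure SW0 (Ψ : Formed (RingHom.id F) W) (Φ₂ : Formed (RingHom.id F) U) (Φ : Formed (RingHom.id F) V)
    (E : ι → W ⊗[F] U ≃ₗ[F] V) : Prop extends TW E where
  sp : SpF Ψ
  B : ∀ i w u w' u', Φ.B (E i (w ⊗ₜ u)) (E i (w' ⊗ₜ u')) = Ψ.B w w' * Φ₂.B u u'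
  Q : ∀ i w u, Φ.Q (E i (w ⊗ₜ u)) = 0
  nd₂ : Φ₂.Nondeg
  ex : ∃ u v, Φ₂.IsPair u v
  ns : NotSp2 Φ

/-- A group of isometries containing the symplectic groups of the factors and enough permutations of the factors. -/
structure SW (Ψ : Formed (RingHom.id F) W) (Φ₂ : Formed (RingHom.id F) U) (Φ : Formed (RingHom.id F) V)
    (E : ι → W ⊗[F] U ≃ₗ[F] V) (X : Subgroup (V ≃ₗ[F] V)) : Prop extends SW0 Ψ Φ₂ Φ E where
  iso : X ≤ Φ.isom
  l : ∀ i p a d g, IsE Ψ p a d g → lf (E i) g ∈ X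
  sw : ∀ i j l, j ≠ i → l ≠ i → ∃ τ ∈ X, (∀ a, (τ : End F V) * fa (E j) a = fa (E l) a * τ) ∧
    ∀ a, (τ : End F V) * fa (E i) a = fa (E i) a * τ

/-- The symplectic transvections. -/
def TSp (Ψ : Formed (RingHom.id F) W) : Set (W ≃ₗ[F] W) :=
  {r | ∃ w, w ≠ 0 ∧ ∃ c : F, c ≠ 0 ∧ ∀ x, r x = x + (c * Ψ.B w x) • w}

theorem coe_mul_inv (g : V ≃ₗ[F] V) : (g : End F V) * (g⁻¹ : V ≃ₗ[F] V) = 1 :=
  congrArg LinearEquiv.toLinearMap (mul_inv_cancel g)

theorem coe_inv_mul (g : V ≃ₗ[F] V) : ((g⁻¹ : V ≃ₗ[F] V) : End F V) * g = 1 :=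
  congrArg LinearEquiv.toLinearMap (inv_mul_cancel g)

theorem fb_inj [Nontrivial W] {e : W ⊗[F] U ≃ₗ[F] V} {b b' : End F U} (h : fb e b = fb e b') : b = b' :=
  let ⟨y, y0⟩ := exists_ne (0 : W)
  LinearMap.ext fun u => tmul_inj (F := F) y0 (e.injective (by simpa using LinearMap.congr_fun h (e (y ⊗ₜ u))))

variable [FiniteDimensional F W]

theorem SpF.isE (s : SpF Ψ) (x : W) (c : F) : ∃ g, IsE Ψ x 0 (-c) g ∧ ∀ v, g v = v + (c * Ψ.B x v) • x := by
  obtain ⟨g, hg⟩ := exists_isE s.nd (p := x) (a := 0) (d := -c) (s.sing x) (by simp) (by simp [s.τ, s.Q]) (by simp [s.ε])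
  exact ⟨g, hg, fun v => by simp [hg.app]⟩

theorem SpF.tv (s : SpF Ψ) {x : W} (x0 : x ≠ 0) {c : F} (c0 : c ≠ 0) : ∃ g ∈ TSp Ψ, ∀ v, g v = v + (c * Ψ.B x v) • x :=
  let ⟨g, _, e⟩ := s.isE x c; ⟨g, ⟨x, x0, c, c0, e⟩, e⟩

namespace SW0
variable (h : SW0 Ψ Φ₂ Φ E)
include h

omit [FiniteDimensional F W] in
theorem nt : Nontrivial U := let ⟨_, _, e⟩ := h.ex; nontrivial_of_ne _ _ e.left_ne_zero

omit [FiniteDimensional F W] in
theorem bil (i : ι) {x y x' y' : End F V} {k : F} (H : ∀ w u w' u', Φ.B (x (E i (w ⊗ₜ u))) (y (E i (w' ⊗ₜ u'))) =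
    k * Φ.B (x' (E i (w ⊗ₜ u))) (y' (E i (w' ⊗ₜ u')))) (u v : V) : Φ.B (x u) (y v) = k * Φ.B (x' u) (y' v) := by
  obtain ⟨u, rfl⟩ := (E i).surjective u
  obtain ⟨v, rfl⟩ := (E i).surjective v
  induction u with
  | zero => simp
  | add x x' p q => simp only [map_add, LinearMap.add_apply, p, q, mul_add]
  | tmul w u =>
    induction v with
    | zero => simp
    | add x x' p q => simp only [map_add, p, q, mul_add]
    | tmul w' u' => exact H _ _ _ _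

omit [FiniteDimensional F W] in
theorem ad (j : ι) (x y : W) (u v : V) : Φ.B (fa (E j) (rb Ψ y x) u) v = -Φ.B u (fa (E j) (rb Ψ x y) v) := by
  simpa using h.bil j (x := fa (E j) (rb Ψ y x)) (y := 1) (x' := 1) (y' := fa (E j) (rb Ψ x y)) (k := -1)
    (fun w u w' u' => by simp [h.B, h.sp.skew w x, ← smul_tmul']; ring) u v

theorem nd (i : ι) : Φ.Nondeg := fun x e => by
  obtain ⟨x, rfl⟩ := (E i).surjective x
  rw [show x = 0 from eq_of_cL fun φ => ?_, map_zero]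
  obtain ⟨w, rfl⟩ := h.sp.nd.exists_eq_B φ
  refine h.nd₂.ext fun u => ?_
  have : ∀ x, Φ.B (E i x) (E i (w ⊗ₜ u)) = -Φ₂.B (cL (Ψ.B w) x) u := fun x => by
    induction x with
    | zero => simp
    | tmul w' u => simp [h.B, h.sp.skew w w']
    | add x y a b => simp only [map_add, LinearMap.add_apply, a, b, neg_add]
  simpa [this] using e (E i (w ⊗ₜ u))

omit [FiniteDimensional F W] in
theorem sim {c : V ≃ₗ[F] V} (hc : c ∈ Φ.isom) {i j : ι} {a : W ≃ₗ[F] W} {b : U ≃ₗ[F] U}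
    (e : ∀ w u, c (E i (w ⊗ₜ u)) = E j (a w ⊗ₜ b u)) : ∃ μ, ∀ x y, Ψ.B (a x) (a y) = μ * Ψ.B x y := by
  obtain ⟨u, v, hu⟩ := h.ex
  exact ⟨Φ₂.B (b.symm u) (b.symm v), fun x y => by
    simpa [e, h.B, hu.ef, mul_comm] using hc.1 (E i (x ⊗ₜ b.symm u)) (E i (y ⊗ₜ b.symm v))⟩

end SW0

namespace SW
variable (h : SW Ψ Φ₂ Φ E X)
include h

theorem tvx (j : ι) (c : F) (x : W) : ∃ g ∈ X, (g : End F V) = fa (E j) (1 + c • rb Ψ x x) ∧
    (g⁻¹ : V ≃ₗ[F] V) = fa (E j) (1 - c • rb Ψ x x) := by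
  obtain ⟨g, hg, e⟩ := h.sp.isE x c
  refine ⟨_, h.l j _ _ _ _ hg, by rw [coe_lf]; congr 1; ext v; simp [e, smul_smul], ?_⟩
  rw [← map_inv, coe_lf]; congr 1
  exact LinearMap.ext fun v => g.symm_apply_eq.2 (by simp [e, h.sp.alt, smul_smul])

theorem fs (h4 : 4 ≤ finrank F W) (i : ι) :
    FS Ψ Φ₂ (Φ.comap (E i).toLinearMap) (X.comap (autCongr (E i)).toMonoidHom) :=
  ⟨h.B i, fun w u _ => h.Q i w u, h.sp.τ, h.sp.Q, h.sp.nd, h4, fun T R e => by
    obtain ⟨x, a, b⟩ := exists_notMem_of_lt (U := T) (R := R) (by omega)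
    exact ⟨x, a, b, h.sp.sing x⟩, ⟨1, one_ne_zero, by simp [h.sp.τ], by simp [h.sp.ε]⟩, h.nd₂, h.ex,
    fun g hg => ⟨fun x y => by simpa using (h.iso hg).1 (E i x) (E i y), fun x => by simpa using (h.iso hg).2 (E i x)⟩,
    h.l i, h.ns⟩

variable [Finite F] [FiniteDimensional F U] [Finite ι] (h4 : 4 ≤ finrank F W) (hq : (2 : F) ≠ 0 ∨ 5 ≤ finrank F W)
  (hS : ¬ EG Φ ≤ X)
include h4 hq hS

theorem scal (i : ι) (ρ : End F U) (hρ : RF Ψ (X.comap (autCongr (E i)).toMonoidHom) ρ) : ∃ k : F, ρ = k • 1 := by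
  classical
  have := Fintype.ofFinite ι
  have : Nontrivial W := nontrivial_of_finrank_pos (R := F) (by omega)
  have := h.nt
  have f := h.fs h4 i
  let R := f.rfS.map (fb (E i)).toLinearMap
  have cj : ∀ g ∈ X, (∀ a, (g : End F V) * fa (E i) a = fa (E i) a * g) → ∀ z ∈ R,
      (g : End F V) * z * (g⁻¹ : V ≃ₗ[F] V) ∈ R := by
    rintro g hg e _ ⟨p, hp, rfl⟩
    obtain ⟨b, e⟩ := tst_of_conj e
    refine ⟨_, FS.rf_conj hp (g := b) ?_, ext_e (E i) fun w u => ?_⟩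
    · change autCongr (E i) _ ∈ X
      rwa [show autCongr (E i) (TensorProduct.congr (.refl F W) b) = g from ext_e' (E i) fun w u => by simp [e]]
    · simp [tst_inv (a := 1) e, e]
  have out : ∀ z ∈ R, ∀ a, Commute z (fa (E i) a) := by rintro _ ⟨p, -, rfl⟩ a; exact (fa_fb _ _).symm
  let A : Subalgebra F (End F V) :=
    { carrier := {z | (∀ a, Commute z (fa (E i) a)) ∧ ∀ ρ ∈ R, z * ρ ∈ R}
      add_mem' := fun hp hq => ⟨fun a => (hp.1 a).add_left (hq.1 a), fun ρ e => by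
        rw [add_mul]; exact add_mem (hp.2 ρ e) (hq.2 ρ e)⟩
      algebraMap_mem' := fun k => ⟨fun a => Algebra.commute_algebraMap_left _ _, fun ρ e => by
        simpa [Algebra.algebraMap_eq_smul_one] using R.smul_mem k e⟩
      mul_mem' := fun hp hq => ⟨fun a => (hp.1 a).mul_left (hq.1 a), fun ρ e => by
        rw [mul_assoc]; exact hp.2 _ (hq.2 ρ e)⟩ }
  have cA : ∀ g ∈ X, (∀ a, (g : End F V) * fa (E i) a = fa (E i) a * g) → ∀ z ∈ A,
      (g : End F V) * z * (g⁻¹ : V ≃ₗ[F] V) ∈ A := fun g hg e z hz => by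
    have e' : ∀ a, ((g⁻¹ : V ≃ₗ[F] V) : End F V) * fa (E i) a = fa (E i) a * (g⁻¹ : V ≃ₗ[F] V) := fun a => by
      linear_combination (norm := noncomm_ring) -(g⁻¹ : V ≃ₗ[F] V).toLinearMap * e a * (g⁻¹ : V ≃ₗ[F] V).toLinearMap +
        coe_inv_mul g * fa (E i) a * (g⁻¹ : V ≃ₗ[F] V).toLinearMap -
        (g⁻¹ : V ≃ₗ[F] V).toLinearMap * fa (E i) a * coe_mul_inv g
    refine ⟨fun a => (Commute.mul_left (e a) (hz.1 a)).mul_left (e' a), fun ρ hρ => ?_⟩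
    convert cj g hg e _ (hz.2 _ (cj _ (inv_mem hg) e' ρ hρ)) using 1
    rw [inv_inv]
    linear_combination (norm := noncomm_ring) -g.toLinearMap * z * (g⁻¹ : V ≃ₗ[F] V).toLinearMap * ρ * coe_mul_inv g
  have ia : ∀ S : Submodule F (End F V), (∀ z ∈ S, ∀ a, Commute z (fa (E i) a)) → (∀ g ∈ X,
      (∀ a, (g : End F V) * fa (E i) a = fa (E i) a * g) → ∀ z ∈ S, (g : End F V) * z * (g⁻¹ : V ≃ₗ[F] V) ∈ S) →
      IA Ψ E (Finset.univ.erase i) S := fun S a b => ⟨fun z hz l hl => by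
    rw [show l = i by simpa using hl]; exact a z hz, fun j hj z hz c x => by
    obtain ⟨g, hg, e1, e2⟩ := h.tvx j c x
    rw [← e1, ← e2]
    exact b g hg (fun a => e1 ▸ (h.comm j i (Finset.ne_of_mem_erase hj) _ a).eq) z hz⟩
  have hA : ∀ z ∈ A, ∃ k : F, z = k • 1 := fun z hz =>
    ((ia A.toSubmodule (fun _ p => p.1) cA).alg h.toTW h.sp h4 i (fun _ p _ q => A.mul_mem p q) hz).resolve_right
    fun ⟨j, hj, e1⟩ => hS fun g hg => by
    have all := h.gen i A fun l hl a => by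
      obtain ⟨τ, hτ, e2, e3⟩ := h.sw i j l (Finset.ne_of_mem_erase hj) hl
      convert cA τ hτ e3 _ (e1 a) using 1
      rw [e2, mul_assoc, coe_mul_inv, mul_one]
    simpa using f.win (fun y φ => by
      obtain ⟨p, hp, e⟩ := (all (rk1 y φ)).2 _ ⟨1, f.rf_one, rfl⟩
      exact (fb_inj (e := E i) (e.trans (by simp)) : p = rk1 y φ) ▸ hp) (x := (autCongr (E i)).symm g)
      ((mem_EG_comap _).2 (by simpa))
  have hA' : ∀ z, (∀ ρ ∈ f.rfS, z * ρ ∈ f.rfS) → ∃ k : F, z = k • 1 := fun z hz =>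
    (hA (fb (E i) z) ⟨fun a => (fa_fb _ _).symm, by
      rintro _ ⟨p, hp, rfl⟩; exact ⟨_, hz p hp, map_mul (fb (E i)) z p⟩⟩).imp fun k e => fb_inj (e.trans (by simp))
  rcases hq with h2 | h5
  swap
  · exact hA' ρ fun _ => f.rf_mul' h5 hρ
  have weak : ∀ {a b a' b'}, a ∈ f.rfS → b ∈ f.rfS → IsAdj Φ₂ a a' → IsAdj Φ₂ b b' → ∃ k : F, a' * b + b' * a = k • 1 :=
    fun ha hb e1 e2 => hA' _ fun ρ hρ => by
      change RF _ _ _
      simpa [h.sp.ε] using f.rf_weak ha hb e1 e2 1 hρ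
  let K : Submodule F (End F V) :=
    { carrier := {z | ∀ u v, Φ.B (z u) v = -Φ.B u (z v)}
      zero_mem' := by simp
      add_mem' := fun p q u v => by simp [p u v, q u v, add_comm]
      smul_mem' := fun k _ p u v => by simp [p u v] }
  obtain ⟨w, r, hw⟩ := f.exists_pair₁
  have sk : ∀ {a}, fb (E i) a ∈ K ↔ IsAdj Φ₂ a (-a) := ⟨fun H u v => by
    simpa [h.B, hw.ef, neg_eq_iff_eq_neg] using H (E i (w ⊗ₜ u)) (E i (r ⊗ₜ v)), fun H u v => by
    simpa using h.bil i (x := fb (E i) _) (y := 1) (x' := 1) (y' := fb (E i) _) (k := -1)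
      (fun w u w' u' => by simp [h.B, ← H u u']) u v⟩
  obtain ⟨ρ', e1⟩ := exists_isAdj h.nd₂ ρ
  obtain ⟨k, e2⟩ := weak hρ f.rf_one e1 (b' := 1) fun _ _ => rfl
  refine ⟨k / 2, sub_eq_zero.1 (fb_inj (e := E i) ((ia (R ⊓ K) (fun z p => out z p.1) fun g hg e z hz =>
    ⟨cj g hg e z hz.1, fun u v => ?_⟩).cliff h.toTW h.sp h4 i h2 (h.nd i) h.ad (fun _ p => p.2) ?_
    ⟨⟨_, sub_mem hρ (f.rfS.smul_mem _ f.rf_one), rfl⟩, sk.2 fun u v => ?_⟩ |>.trans (map_zero _).symm))⟩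
  · obtain ⟨u, rfl⟩ := g.surjective u
    obtain ⟨v, rfl⟩ := g.surjective v
    simpa [(h.iso hg).1] using hz.2 u v
  · rintro _ ⟨⟨a, ha, rfl⟩, a1⟩ _ ⟨⟨b, hb, rfl⟩, b1⟩
    obtain ⟨k, e⟩ := weak ha hb (sk.1 a1) (sk.1 b1)
    refine ⟨-k, ?_⟩
    have := congrArg (fb (E i)) e
    simp only [map_add, map_mul, map_neg, map_smul, map_one] at this
    linear_combination (norm := (simp only [AlgHom.toLinearMap_apply, neg_smul]; noncomm_ring)) -this
  · have := congrArg (Φ₂.B · v) (LinearMap.congr_fun e2 u)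
    simp [e1 u v] at this ⊢
    field_simp
    linear_combination (-2) * this

theorem tg : TG E X (TSp Ψ) Set.univ := by
  refine ⟨h.toTW, by omega, h.nt, fun i r ⟨w, _, c, _, e⟩ => ?_, fun r ⟨w, a, c, b, e⟩ => ⟨w, trivial, a, c • Ψ.B w,
    fun e => a (h.sp.nd _ fun y => by simpa [b] using LinearMap.congr_fun e y), e⟩, fun S hS => ?_,
    fun c hc i j w _ w0 w' H => ?_, fun c hc i j a b e r ⟨w, p, k, q, t⟩ => ?_⟩
  · obtain ⟨g, hg, e'⟩ := h.sp.isE w c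
    exact (LinearEquiv.ext fun x => (e' x).trans (e x).symm : g = r) ▸ h.l i _ _ _ _ hg
  · have : ∀ x, rb Ψ x x ∈ S := fun x => by
      by_cases x0 : x = 0
      · rw [show rb Ψ x x = 0 by ext; simp [x0]]; exact zero_mem _
      obtain ⟨g, hg, e⟩ := h.sp.tv x0 one_ne_zero
      convert S.sub_mem (hS g hg) S.one_mem using 1
      ext v; simp [e]
    exact eq_top_iff.2 fun a _ => h.sp.top_of S.toSubmodule (fun a b => S.mul_mem (this a) (this b)) a
  · refine ((h.fs h4 j).par (h.scal h4 hq hS j) (h.fs h4 i) (c := (E i).trans (c.trans (E j).symm))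
      (fun x y => by simpa using (h.iso hc).1 (E i x) (E i y)) (fun g hg => ?_) (h.sp.sing w) w0 (w' := w')
      fun u => (H u).imp fun u' e => by simp [e]).imp fun a ⟨b, e⟩ => ⟨b, fun w u => by rw [← e]; simp⟩
    change autCongr (E j) _ ∈ X
    convert mul_mem (mul_mem hc hg) (inv_mem hc) using 1
    ext v
    simp only [autCongr_apply, LinearEquiv.mul_apply, LinearEquiv.coe_inv]
    simp
  obtain ⟨μ, m⟩ := h.sim (h.iso hc) e
  have m0 : μ ≠ 0 := by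
    rintro rfl
    exact p (a.map_eq_zero_iff.1 (h.sp.nd _ fun y => by simpa using m w (a.symm y)))
  refine ⟨a w, by simpa, k / μ, by simp [q, m0], fun x => ?_⟩
  obtain ⟨x, rfl⟩ := a.surjective x
  simp [t, m, ← mul_assoc, m0]

theorem le_wstab [FiniteDimensional F V] : X ≤ wstab E := by
  have : Finite V := Module.finite_of_finite F
  have : Finite (V ≃ₗ[F] V) := Finite.of_injective _ DFunLike.coe_injective
  have k := h.tg h4 hq hS
  have s := h.sp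
  by_cases h2 : (2 : F) = 0
  swap
  · exact k.le_odd h2 (fun r ⟨w, _, c, _, q⟩ x => by simp [q, s.alt]) fun S hS => by
      obtain ⟨x, hx, x0⟩ := exists_notMem_of_lt (U := S) (R := ⊥) (by simp; omega)
      exact ⟨x, hx, trivial, x0⟩
  have h5 := hq.resolve_left (not_not.2 h2)
  have sq : ∀ r ∈ TSp Ψ, r * r = 1 := fun r ⟨w, _, c, _, q⟩ => LinearEquiv.ext fun x => by
    simp [q, s.alt, add_assoc, ← two_smul F, h2]
  have inv : ∀ a : W ≃ₗ[F] W, (∀ x y, Ψ.B (a x) (a y) = Ψ.B x y) → a * a = 1 → a ≠ 1 → ∃ q ∈ TSp Ψ, Commute q a ∧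
      ∃ θ : End F W, (q : End F W) = 1 + ((a : End F W) - 1) * θ * ((a : End F W) - 1) := fun a ha e n => by
    obtain ⟨x, hx⟩ : ∃ x, a x - x ≠ 0 := by
      by_contra! hc; exact n (LinearEquiv.ext fun x => sub_eq_zero.1 (hc x))
    have aa : ∀ y, a (a y) = y := LinearEquiv.congr_fun e
    have e1 : a (a x - x) = a x - x := by
      rw [map_sub, aa, ← neg_sub, neg_eq_iff_add_eq_zero, ← two_smul F, h2, zero_smul]
    have e2 : ∀ y, Ψ.B (a x - x) y = Ψ.B x (a y - y) := fun y => by simp [← ha x (a y), aa]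
    obtain ⟨q, hq, e3⟩ := s.tv hx one_ne_zero
    exact ⟨q, hq, LinearEquiv.ext fun y => by
      simp only [LinearEquiv.mul_apply, e3, map_add, map_smul, e1]; rw [← ha (a x - x) y, e1], rb Ψ x x,
      LinearMap.ext fun y => by simp [e3, e2, -map_sub, smul_sub]⟩
  have iso : ∀ r ∈ TSp Ψ, ∀ x y, Ψ.B (r x) (r y) = Ψ.B x y := fun r ⟨w, _, c, _, q⟩ x y => by
    simp [q, s.alt, s.skew w x]; ring
  obtain ⟨w, w0, -⟩ := exists_ker2 (by omega : 3 ≤ finrank F W) 0 0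
  refine k.le_even h2 sq (fun r hr t ht n c => ?_) (fun r ⟨w, w0, c, c0, q⟩ => ?_) (fun c hc l a b e e' => ?_) ?_
  · refine (inv _ (fun x y => by simp [iso r hr, iso t ht]) ?_ fun e => n ?_).imp fun q H => ⟨H.1, H.2.2⟩
    · rw [mul_assoc, ← mul_assoc t, ← c.eq, mul_assoc, sq t ht, mul_one, sq r hr]
    · rw [← inv_eq_of_mul_eq_one_right e, inv_eq_of_mul_eq_one_right (sq r hr)]
  · obtain ⟨y, y1, -, y2⟩ := s.exists_perp h4 w w w
    obtain ⟨z, z1, z2⟩ := s.exists_one y2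
    obtain ⟨x, hx, e⟩ := s.tv (x := y) (by rintro rfl; simp at y2) one_ne_zero
    exact ⟨x, hx, fun e' => by
      simpa [e, q, z1, s.skew z y, z2, show y ≠ 0 by rintro rfl; simp at y2] using LinearEquiv.congr_fun e' z,
      LinearEquiv.ext fun v => by simp [q, e, y1, s.skew w y, add_right_comm]⟩
  · by_cases n : a = 1
    · obtain ⟨r, hr, -⟩ := s.tv w0 one_ne_zero
      exact ⟨r, hr, n ▸ Commute.one_right _⟩
    obtain ⟨μ, m⟩ := h.sim (h.iso hc) e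
    obtain ⟨r, hr⟩ := s.nd.exists_eq_one w0
    have m1 : μ = 1 := by
      have := m (a w) (a r)
      rw [show a (a w) = w from LinearEquiv.congr_fun e' w, show a (a r) = r from LinearEquiv.congr_fun e' r, m, hr] at this
      exact sub_eq_zero.1 (pow_eq_zero_iff two_ne_zero |>.1 (by linear_combination (1 - μ) * h2 - this))
    exact (inv a (by simpa [m1] using m) e' n).imp fun q H => ⟨H.1, H.2.1⟩
  obtain ⟨y, y1, -, y2⟩ := s.exists_perp h4 w w w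
  have := finrank_pf (Φ := Ψ) ![w, y] ⊤
  have ev : Even (finrank F W) := by
    obtain ⟨k, -, -, -, e, -⟩ := s.nd.exists_isHyp_top s.Q s.alt
    exact ⟨k, by omega⟩
  obtain ⟨z, hz, z1⟩ := exists_notMem_of_lt (U := ⊤ ⊓ pf Ψ ![w, y]) (R := (F ∙ w) ⊔ F ∙ y) (by
    have := finrank_sup_one (F ∙ w) y; have := finrank_span_one (F := F) w; obtain ⟨k, e⟩ := ev
    rw [finrank_top] at *; omega)
  have z2 : Ψ.B w z = 0 := mem_pf.1 hz.2 0
  have z3 : Ψ.B y z = 0 := mem_pf.1 hz.2 1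
  have nz : ∀ a b c : F, a • w + b • y + c • z = 0 → a = 0 ∧ b = 0 ∧ c = 0 := fun a b c e => by
    obtain rfl : c = 0 := eq_zero_of_smul_mem z1 (eq_neg_of_add_eq_zero_right e ▸ neg_mem (add_mem
      (Submodule.mem_sup_left (Submodule.smul_mem _ _ (Submodule.mem_span_singleton_self _)))
      (Submodule.smul_mem _ _ (mem_sup_self _ _))))
    rw [zero_smul, add_zero] at e
    obtain rfl : b = 0 := eq_zero_of_smul_mem y2 (eq_neg_of_add_eq_zero_right e ▸ neg_mem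
      (Submodule.smul_mem _ _ (Submodule.mem_span_singleton_self _)))
    simpa [w0] using e
  have tv := fun a b c (n : ¬ (a = 0 ∧ b = 0 ∧ c = 0)) => s.tv (fun e => n (nz a b c e)) one_ne_zero
  obtain ⟨t1, a1, b1⟩ := tv 1 0 0 (by simp)
  obtain ⟨t2, a2, b2⟩ := tv 0 1 0 (by simp)
  obtain ⟨t3, a3, b3⟩ := tv 0 0 1 (by simp)
  obtain ⟨t4, a4, b4⟩ := tv 1 1 0 (by simp)
  obtain ⟨t5, a5, b5⟩ := tv 1 0 1 (by simp)
  obtain ⟨t6, a6, b6⟩ := tv 0 1 1 (by simp)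
  obtain ⟨t7, a7, b7⟩ := tv 1 1 1 (by simp)
  refine ⟨[t1, t2, t3, t4, t5, t6, t7], ⟨3, rfl⟩, by simp [*], LinearEquiv.ext fun x => ?_⟩
  simp [b1, b2, b3, b4, b5, b6, b7, y1, z2, z3, s.alt, s.skew w y, s.skew w z, s.skew y z]
  linear_combination (norm := module) (h2 * (2 * Ψ.B w x + Ψ.B y x + Ψ.B z x)) • w +
    (h2 * (Ψ.B w x + 2 * Ψ.B y x + Ψ.B z x)) • y + (h2 * (Ψ.B w x + Ψ.B y x + 2 * Ψ.B z x)) • z

end SW

end Cfsg.Agent.Root.Wr
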