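import Cfsg.Agent.Low.WS3
import Cfsg.Agent.Root.Quad4

/-! Products `Mg` over sets of factors of a tensor-power frame; extraction of products of transvection maps from invariant
subspaces for factors of dimension two (`IA.ext2`); Siegel elements at neighbouring pure tensors generate the Eichler
group (`SW2.EG_le`). -/

set_option autoImplicit false

namespace Cfsg.Agent.Root.Wr

open Cfsg.Agent.Geom Cfsg.Agent.AutCl Module TensorProduct Mx Function

variable {F : Type*} [Field F] {V W U : Type*} [AddCommGroup V] [Module F V] [AddCommGroup W] [Module F W]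
  [AddCommGroup U] [Module F U] {ι : Type*} {Ψ : Formed (RingHom.id F) W} {Φ₂ : Formed (RingHom.id F) U}
  {Φ : Formed (RingHom.id F) V} {E : ι → W ⊗[F] U ≃ₗ[F] V} {X : Subgroup (V ≃ₗ[F] V)} {e : W ⊗[F] U ≃ₗ[F] V}

/-- The product of the maps `m j` on the factors in `S`. -/
noncomputable def Mg (t : TW E) (S : Finset ι) (m : ι → End F W) : End F V :=
  S.noncommProd (fun j => fa (E j) (m j)) fun i _ j _ n => t.comm i j n _ _

section
variable [DecidableEq ι] (t : TW E) {S : Finset ι} {j : ι}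

omit [DecidableEq ι] in
@[simp] theorem Mg_empty (m : ι → End F W) : Mg t ∅ m = 1 := rfl

theorem Mg_insert (h : j ∉ S) (m : ι → End F W) : Mg t (insert j S) m = fa (E j) (m j) * Mg t S m :=
  Finset.noncommProd_insert_of_notMem _ _ _ _ h

omit [DecidableEq ι] in
theorem Mg_comm (h : j ∉ S) (m : ι → End F W) (a : End F W) : Commute (Mg t S m) (fa (E j) a) :=
  (Finset.noncommProd_commute _ _ _ _ fun l hl => t.comm j l (by rintro rfl; exact h hl) _ _).symm

omit [DecidableEq ι] in
theorem Mg_congr {m m' : ι → End F W} (h : ∀ j ∈ S, m j = m' j) : Mg t S m = Mg t S m' :=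
  Finset.noncommProd_congr rfl (fun j hj => by rw [h j hj]) _

theorem Mg_mul (S : Finset ι) (m m' : ι → End F W) : Mg t S m * Mg t S m' = Mg t S (m * m') := by
  induction S using Finset.induction_on with
  | empty => simp
  | insert j S h ih =>
    simp only [Mg_insert t h, ← ih, Pi.mul_apply, map_mul, mul_assoc]
    rw [← mul_assoc (Mg t S m), (Mg_comm t h m _).eq, mul_assoc]

theorem Mg_neg (S : Finset ι) (m : ι → End F W) : Mg t S (-m) = (-1 : F) ^ S.card • Mg t S m := by
  induction S using Finset.induction_on with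
  | empty => simp
  | insert j S h ih => simp [Mg_insert t h, ih, Finset.card_insert_of_notMem h, pow_succ]

theorem Mg_zero {m : ι → End F W} (h : j ∈ S) (e : m j = 0) : Mg t S m = 0 := by
  rw [← Finset.insert_erase h, Mg_insert t (by simp), e, map_zero, zero_mul]

theorem Mg_ne [Nontrivial V] {m : ι → End F W} (h : ∀ j ∈ S, m j ≠ 0) : Mg t S m ≠ 0 := by
  induction S using Finset.induction_on with
  | empty => simp
  | insert j S n ih =>
    exact fun e => ih (fun l hl => h l (by simp [hl])) (indep (h j (by simp)) (Mg_comm t n m) (Mg_insert t n m ▸ e))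

theorem Mg_conj {g : End F V} {π : Equiv.Perm ι} (h : ∀ i a, g * fa (E i) a = fa (E (π i)) a * g) (S : Finset ι)
    (m : ι → End F W) : g * Mg t S (m ∘ π) = Mg t (S.map π.toEmbedding) m * g := by
  induction S using Finset.induction_on with
  | empty => simp
  | insert j S n ih =>
    rw [Finset.map_insert, Mg_insert t n, Mg_insert t (by simpa), ← mul_assoc, h, mul_assoc, ih, mul_assoc]; rfl

theorem Mg_ad (h : SW0 Ψ Φ₂ Φ E) (S : Finset ι) (x : ι → W) (u v : V) : Φ.B (Mg t S (fun j => rb Ψ (x j) (x j)) u) v =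
    (-1) ^ S.card * Φ.B u (Mg t S (fun j => rb Ψ (x j) (x j)) v) := by
  induction S using Finset.induction_on generalizing v with
  | empty => simp
  | insert j S n ih =>
    rw [Mg_insert t n, End.mul_apply, h.ad, ih, ← (Mg_comm t n _ _).eq, Finset.card_insert_of_notMem n, pow_succ]; simp

theorem Mg_pv {pv : MultilinearMap F (fun _ : ι => W) V} (h : ∀ j a x, fa (E j) a (pv x) = pv (update x j (a (x j))))
    (S : Finset ι) (x v : ι → W) :
    Mg t S (fun j => rb Ψ (x j) (x j)) (pv v) = (∏ j ∈ S, Ψ.B (x j) (v j)) • pv (S.piecewise x v) := by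
  induction S using Finset.induction_on with
  | empty => simp
  | insert j S n ih =>
    rw [Mg_insert t n, End.mul_apply, ih, map_smul, h, Finset.prod_insert n, Finset.piecewise_insert,
      Finset.piecewise_eq_of_notMem _ _ _ n]
    simp [smul_smul, mul_comm]

end

variable [FiniteDimensional F W]

namespace SpF
variable (s : SpF Ψ)
include s

theorem trans {P : W → Prop} (h0 : P 0) (hP : ∀ (c : F) z x, P x → P (x + (c * Ψ.B z x) • z)) {y : W} (y0 : y ≠ 0)
    (H : P y) (x : W) : P x := by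
  have k : ∀ y x, Ψ.B x y ≠ 0 → P y → P x := fun y x n H => by
    simpa [s.alt, n] using hP (Ψ.B x y)⁻¹ (x - y) y H
  by_cases x0 : x = 0
  · exact x0 ▸ h0
  obtain ⟨a, ha⟩ := s.nd.exists_eq_one x0
  obtain ⟨b, hb⟩ := s.nd.exists_eq_one y0
  have f : ∀ r, Ψ.B x r ≠ 0 → Ψ.B y r ≠ 0 → P x := fun r p q => k r x p (k y r (by rwa [s.skew, neg_ne_zero]) H)
  by_cases e : Ψ.B y a = 0
  · by_cases e' : Ψ.B x b = 0
    · exact f (a + b) (by simp [ha, e']) (by simp [hb, e])
    · exact f b e' (by simp [hb])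
  · exact f a (by simp [ha]) e

theorem conj_rb (c : F) (z x : W) : (1 + c • rb Ψ z z) * rb Ψ x x * (1 - c • rb Ψ z z) =
    rb Ψ (x + (c * Ψ.B z x) • z) (x + (c * Ψ.B z x) • z) := by
  ext v; simp [s.skew z x]; module

variable (h2 : finrank F W = 2)
include h2

theorem jac {a b : W} (e : Ψ.B a b = 1) (v : W) : v = Ψ.B v b • a + Ψ.B a v • b := by
  have hp : Ψ.IsPair a b := ⟨s.sing a, s.sing b, e⟩
  have := hp.finrank_pairPerp s.nd
  have := (Submodule.finrank_eq_zero.1 (show finrank F (Ψ.pairPerp a b) = 0 by omega)).le (hp.sub_mem_pairPerp v)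
  rw [Submodule.mem_bot, sub_eq_zero] at this
  simpa [s.ε, s.skew v b, sub_eq_iff_eq_add, add_comm] using this

theorem jac' (a b v : W) : Ψ.B b v • a - Ψ.B a v • b = Ψ.B b a • v := by
  by_cases a0 : a = 0
  · simp [a0]
  obtain ⟨r, hr⟩ := s.nd.exists_eq_one a0
  rw [s.jac h2 hr b, s.jac h2 hr v]
  simp [s.alt, hr, s.skew a r]; module

theorem blk_ne {ρ : End F V} (n : ¬ ∀ a, Commute ρ (fa e a)) : ∃ y, y ≠ 0 ∧ blk e ρ (Ψ.B y) y ≠ 0 := by
  by_contra! hc
  refine n (comm_of_blk fun x ψ p => ?_)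
  by_cases x0 : x = 0
  · ext; simp [blk, x0]
  obtain ⟨z, rfl⟩ := s.nd.exists_eq_B ψ
  obtain ⟨r, hr⟩ := s.nd.exists_eq_one x0
  rw [s.jac h2 hr z, s.skew z x, p]
  ext u; simpa [blk] using .inr (LinearMap.congr_fun (hc x x0) u)

end SpF

omit [FiniteDimensional F W] in
theorem Iv.nn {R : Submodule F (End F V)} (h : Iv Ψ e R) (h2 : (2 : F) ≠ 0) {ρ : End F V} (hρ : ρ ∈ R) (x : W) :
    fa e (rb Ψ x x) * ρ * fa e (rb Ψ x x) ∈ R := by
  rw [← R.smul_mem_iff h2]
  convert sub_mem (add_mem hρ hρ) (add_mem (h ρ hρ 1 x) (h ρ hρ (-1) x)) using 1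
  simp only [two_smul, one_smul, neg_smul, map_add, map_sub, map_neg, map_one]; noncomm_ring

theorem Iv.spread {R : Submodule F (End F V)} (h : Iv Ψ e R) (s : SpF Ψ) {b : End F U} {y : W} (y0 : y ≠ 0)
    (H : fa e (rb Ψ y y) * fb e b ∈ R) (x : W) : fa e (rb Ψ x x) * fb e b ∈ R :=
  s.trans (P := fun x => fa e (rb Ψ x x) * fb e b ∈ R) (by simp [show rb Ψ 0 0 = 0 by ext; simp]) (fun c z x H => by
    convert h _ H c z using 1
    rw [← s.conj_rb, map_mul, map_mul, mul_assoc _ _ (fb e b), (fa_fb _ _).eq]; simp only [mul_assoc]) y0 H x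

theorem IA.ext2 [DecidableEq ι] [Nontrivial U] {J : Finset ι} {R : Submodule F (End F V)} (h : IA Ψ E J R) (t : TW E)
    (s : SpF Ψ) (two : finrank F W = 2) (h2 : (2 : F) ≠ 0) (i : ι) {ρ : End F V} (hρ : ρ ∈ R) (r0 : ρ ≠ 0) :
    ∃ S ⊆ J, (∀ x : ι → W, Mg t S (fun j => rb Ψ (x j) (x j)) ∈ R) ∧ (S = ∅ → ∃ k : F, ρ = k • 1) := by
  have : Nontrivial W := nontrivial_of_finrank_pos (R := F) (by omega)
  induction J using Finset.strongInduction generalizing R ρ with | _ J ih =>
  by_cases H : ∀ j ∈ J, ∀ a, Commute ρ (fa (E j) a)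
  · obtain ⟨k, rfl⟩ := t.scal i (ρ := ρ) fun j => by
      by_cases hj : j ∈ J
      exacts [H j hj, h.out ρ hρ j hj]
    exact ⟨∅, by simp, fun _ => (R.smul_mem_iff (left_ne_zero_of_smul r0)).1 hρ, fun _ => ⟨k, rfl⟩⟩
  obtain ⟨j, hj, n⟩ : ∃ j ∈ J, ¬ ∀ a, Commute ρ (fa (E j) a) := by simpa using H
  obtain ⟨y, y0, b0⟩ := s.blk_ne two n
  obtain ⟨S, a, b, -⟩ := ih _ (Finset.erase_ssubset hj) (h.rm t (Mt Ψ)) (h.mem_rm t (M := Mt Ψ) (b := blk (E j) ρ (Ψ.B y) y) ⟨y, rfl⟩ (s.rb_ne y0 y0) (by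
    rintro _ ⟨x, rfl⟩
    exact (h.inv j hj).spread s y0 (by rw [← fa_mul_fa]; exact (h.inv j hj).nn h2 hρ y) x)) fun e => b0 (fb_inj (e := E j) (by simpa))
  exact ⟨insert j S, Finset.insert_subset hj (a.trans (Finset.erase_subset _ _)), fun x => by
    rw [Mg_insert t fun e => by simpa using a e]; exact (b x).2 _ ⟨_, rfl⟩, by simp⟩

/-- The case of factors of dimension two. -/
structure SW2 [Fintype ι] [DecidableEq ι] (Ψ : Formed (RingHom.id F) W) (Φ₂ : Formed (RingHom.id F) U)
    (Φ : Formed (RingHom.id F) V) (E : ι → W ⊗[F] U ≃ₗ[F] V) (X : Subgroup (V ≃ₗ[F] V))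
    (pv : MultilinearMap F (fun _ : ι => W) V) (κ : F) : Prop extends SW Ψ Φ₂ Φ E X where
  two : finrank F W = 2
  h2 : (2 : F) ≠ 0
  four : 4 ≤ Fintype.card ι
  span : ∀ A : Submodule F V, (∀ x, pv x ∈ A) → ∀ v, v ∈ A
  pB : ∀ x y, Φ.B (pv x) (pv y) = κ * ∏ j, Ψ.B (x j) (y j)
  κ0 : κ ≠ 0
  pf : ∀ j a x, fa (E j) a (pv x) = pv (update x j (a (x j)))
  ev : ∀ a b c d, a ≠ b → c ≠ d → ∃ g ∈ X, ∀ i m, (g : End F V) * fa (E i) m =
    fa (E ((Equiv.swap a b * Equiv.swap c d : Equiv.Perm ι) i)) m * g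

namespace SW2
variable [Fintype ι] [DecidableEq ι] {pv : MultilinearMap F (fun _ : ι => W) V} {κ : F} (h : SW2 Ψ Φ₂ Φ E X pv κ)
include h

omit [FiniteDimensional F W] in
theorem pB0 {x y : ι → W} (j : ι) (e : Ψ.B (x j) (y j) = 0) : Φ.B (pv x) (pv y) = 0 := by
  rw [h.pB, Finset.prod_eq_zero (Finset.mem_univ j) e, mul_zero]

omit [FiniteDimensional F W] in
theorem ne : Nonempty ι := Fintype.card_pos_iff.1 (by have := h.four; omega)

omit [FiniteDimensional F W] in
theorem sing (x : ι → W) : Φ.Sing (pv x) := by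
  obtain ⟨j⟩ := h.ne
  have e := h.pB0 (x := x) (y := x) j (h.sp.alt _)
  have := Φ.Q_add (pv x) (pv x)
  rw [← two_smul F (pv x), Φ.Q_smul, e] at this
  exact ⟨mul_left_cancel₀ h.h2 (by linear_combination this), e⟩

theorem full [FiniteDimensional F V] (h3 : 3 ≤ finrank F V)
    (H : ∀ l x a b, HasE Φ X (pv (update x l a)) (pv (update x l b)) 0) {e f : W} (ef : Ψ.B e f = 1) :
    Full Φ X (pv fun _ => e) := by
  have s := h.sp
  have fe : Ψ.B f e = -1 := by rw [s.skew, ef]
  let A : Submodule F V :=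
    { carrier := {v | ∀ c : F, c • v ∈ AE Φ X (h.sing fun _ => e)}
      zero_mem' := by simp
      add_mem' := fun p q c => by rw [smul_add]; exact add_mem (p c) (q c)
      smul_mem' := fun k _ p c => by rw [smul_smul]; exact p _ }
  have ml : ∀ (D : Finset ι) (z : ι → W), (∀ y, (∀ m ∈ D, y m = z m) → (∀ m ∉ D, Ψ.B (y m) e ≠ 0) → pv y ∈ A) →
      ∀ y, (∀ m ∈ D, y m = z m) → pv y ∈ A := fun D z hD => by
    have : ∀ S : Finset ι, ∀ y, (∀ m ∈ D, y m = z m) → (∀ m ∉ D, m ∉ S → Ψ.B (y m) e ≠ 0) → pv y ∈ A := fun S => by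
      induction S using Finset.induction_on with
      | empty => exact fun y a b => hD y a fun m hm => b m hm (by simp)
      | insert l S n ih =>
        intro y a b
        by_cases e1 : l ∈ D ∨ Ψ.B (y l) e ≠ 0
        · refine ih y a fun m p q => ?_
          by_cases e2 : m = l
          · subst e2; exact e1.resolve_left p
          · exact b m p (by simp [e2, q])
        push Not at e1
        have k : ∀ w, Ψ.B w e ≠ 0 → pv (update y l w) ∈ A := fun w hw => ih _ (fun m hm => by
          rw [update_of_ne (by rintro rfl; exact e1.1 hm), a m hm]) fun m p q => by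
          by_cases e2 : m = l
          · subst e2; simpa
          · rw [update_of_ne e2]; exact b m p (by simp [e2, q])
        simpa [pv.map_update_add] using sub_mem (k (y l + f) (by simp [e1.2, fe])) (k f (by simp [fe]))
    exact fun y a => this Finset.univ y a (by simp)
  have st : ∀ j l, j ≠ l → ∀ z, z ≠ 0 → pv (update (update (fun _ => e) j f) l z) ∈ A → ∀ y, y j = e → y l = z →
      pv y ∈ A := fun j l n z z0 ha y y1 y2 => ml {j, l} y (fun y p q c => by
    obtain ⟨z', hz⟩ := s.nd.exists_eq_one z0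
    have p1 : y j = e := (p j (by simp)).trans y1
    have p2 : y l = z := (p l (by simp)).trans y2
    obtain ⟨d, hd⟩ := ha 1
    rw [one_smul] at hd
    have n0 : Φ.B (pv (update y l z')) (pv (update (update (fun _ => e) j f) l z)) ≠ 0 := by
      rw [h.pB]
      refine mul_ne_zero h.κ0 (Finset.prod_ne_zero_iff.2 fun m _ => ?_)
      by_cases a : m = l
      · simp [a, s.skew z z', hz]
      by_cases b : m = j
      · simp [b, n, p1, ef]
      · simpa [a, b] using q m (by simp [a, b])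
    have := (H l y ((c / Φ.B (pv (update y l z')) (pv (update (update (fun _ => e) j f) l z))) • z) z').move hd
      (h.pB0 j (by simp [n, p1, s.alt])) (h.pB0 j (by simp [n, p1, s.alt])) (h.pB0 l (by simp [s.alt]))
    rw [pv.map_update_smul, smul_smul, mul_div_cancel₀ _ n0, ← p2, update_eq_self] at this
    exact ⟨0, this⟩) y fun _ _ => rfl
  have e0 : e ≠ 0 := by rintro rfl; simp at ef
  have f0 : f ≠ 0 := by rintro rfl; simp at ef
  have s1 : ∀ j l, j ≠ l → ∀ y, y j = e → y l = e → pv y ∈ A := fun j l n => st j l n e e0 fun c => ⟨0, by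
    have := H j (fun _ => e) e (c • f)
    rw [update_eq_self, pv.map_update_smul] at this
    rwa [show update (update (fun _ => e) j f) l e = update (fun _ => e) j f by
      rw [update_eq_self_iff, update_of_ne n.symm]]⟩
  have s2 : ∀ j y, y j = e → pv y ∈ A := fun j y y1 => by
    obtain ⟨l, -, hl⟩ := Finset.exists_mem_notMem_of_card_lt_card (s := {j}) (t := Finset.univ) (by have := h.four; simp; omega)
    obtain ⟨a, -, ha⟩ := Finset.exists_mem_notMem_of_card_lt_card (s := {j, l}) (t := Finset.univ) (by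
      have := h.four; have := Finset.card_le_two (a := j) (b := l); simp; omega)
    obtain ⟨b, -, hb⟩ := Finset.exists_mem_notMem_of_card_lt_card (s := {j, l, a}) (t := Finset.univ) (by
      have := h.four; have := Finset.card_le_three (a := j) (b := l) (c := a); simp; omega)
    simp only [Finset.mem_insert, Finset.mem_singleton, not_or] at hl ha hb
    have n : j ≠ l := Ne.symm hl
    rw [← update_eq_self l y, s.jac h.two ef (y l), pv.map_update_add, pv.map_update_smul, pv.map_update_smul]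
    exact add_mem (A.smul_mem _ (s1 j l n _ (by simp [n, y1]) (by simp))) (A.smul_mem _ (st j l n f f0
      (s1 a b (Ne.symm hb.2.2) _ (by simp [ha]) (by simp [hb])) _ (by simp [n, y1]) (by simp)))
  have pp : Φ.B (pv fun _ => e) (pv fun _ => f) = κ := by simp [h.pB, ef]
  obtain ⟨i⟩ := h.ne
  refine full_of_AE' (h.nd i) h3 h.ns (fun e => h.κ0 (by simpa [e] using pp.symm)) (h.sing _) fun v hv => ?_
  have := h.span (A.comap (1 - rk1 (κ⁻¹ • pv fun _ => f) (Φ.B (pv fun _ => e)))) (fun y => ?_) v 1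
  · simpa [hv] using this
  have : y = (fun j => Ψ.B (y j) f • e) + fun j => Ψ.B e (y j) • f := funext fun j => s.jac h.two ef (y j)
  rw [this, pv.map_add_univ]
  refine sum_mem fun S _ => ?_
  rcases S.eq_empty_or_nonempty with rfl | ⟨j, hj⟩
  · simp [pv.map_smul_univ, pp, h.κ0, smul_smul]
  have e1 : S.piecewise (fun j => Ψ.B (y j) f • e) (fun j => Ψ.B e (y j) • f) j = Ψ.B (y j) f • e := by simp [hj]
  generalize S.piecewise _ _ = z at e1
  rw [Submodule.mem_comap, LinearMap.sub_apply, LinearMap.smulRight_apply, h.pB0 j (by simp [e1, s.alt]),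
    ← update_eq_self j z, e1, pv.map_update_smul]
  simpa using A.smul_mem _ (s2 j _ (by simp))

theorem EG_le [FiniteDimensional F V] (h3 : 3 ≤ finrank F V)
    (H : ∀ l x a b, HasE Φ X (pv (update x l a)) (pv (update x l b)) 0) : EG Φ ≤ X := by
  have : Nontrivial W := nontrivial_of_finrank_pos (R := F) (by have := h.two; omega)
  obtain ⟨e, e0⟩ := exists_ne (0 : W)
  obtain ⟨f, ef⟩ := h.sp.nd.exists_eq_one e0
  obtain ⟨i⟩ := h.ne
  exact EG_le_of_full (h.nd i) (h.full h3 H ef) (h.full h3 H (e := f) (f := -e) (by simp [h.sp.skew e f, ef]))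
    (by simp [h.pB, ef, h.κ0])

end SW2

end Cfsg.Agent.Root.Wr
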