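import Cfsg.Agent.Low.WS4

/-! Factors of dimension two: the unipotent radical of a point stabiliser meets `X` in the root group (`SW2.scalZ`), the
root elements are minimal quadratic elements, and `X` permutes the factors (`SW2.le_wstab`). -/

set_option autoImplicit false

namespace Cfsg.Agent.Root.Wr

open Cfsg.Agent.Geom Cfsg.Agent.AutCl Module TensorProduct Mx Function

variable {F : Type*} [Field F] {V W U : Type*} [AddCommGroup V] [Module F V] [AddCommGroup W] [Module F W]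
  [AddCommGroup U] [Module F U] {ι : Type*} {Ψ : Formed (RingHom.id F) W} {Φ₂ : Formed (RingHom.id F) U}
  {Φ : Formed (RingHom.id F) V} {E : ι → W ⊗[F] U ≃ₗ[F] V} {X : Subgroup (V ≃ₗ[F] V)} {e e' : W ⊗[F] U ≃ₗ[F] V}

/-- `X` as a group of units. -/
def gX (X : Subgroup (V ≃ₗ[F] V)) : Subgroup (GLM F V) :=
  X.comap (LinearMap.GeneralLinearGroup.generalLinearEquiv F V).toMonoidHom

theorem hasL_gX {α : End F V} : (∃ g ∈ gX X, (g : End F V) = 1 + α) ↔ HasL X α :=
  ⟨fun ⟨_, a, b⟩ => ⟨_, a, b⟩, fun ⟨g, a, b⟩ => ⟨.ofLinearEquiv g, a, b⟩⟩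

theorem qd_iff {α : End F V} : Qd (gX X) α ↔ α * α = 0 ∧ ∀ c : F, HasL X (c • α) :=
  ⟨fun h => ⟨h.sq, fun c => hasL_gX.1 (h.mem c)⟩, fun h => ⟨h.1, fun c => hasL_gX.2 (h.2 c)⟩⟩

theorem hasL_conj {α β : End F V} (h : HasL X α) {g : V ≃ₗ[F] V} (hg : g ∈ X) (e : (g : End F V) * α = β * g) :
    HasL X β := h.conj hg fun v => (LinearMap.congr_fun e v).symm

theorem nil3 {R : Type*} [Ring R] {N p q : R} (h : N * N = 0) (a : Commute N p) (b : Commute N q) :
    N * p * q * (N * p) = 0 := by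
  rw [← mul_assoc, mul_assoc _ q, ← b.eq, ← mul_assoc, mul_assoc N p, ← a.eq, ← mul_assoc, h]; simp

theorem tst_of_range [FiniteDimensional F W] [FiniteDimensional F U] [Nontrivial W] [Nontrivial U] {c : V ≃ₗ[F] V}
    (h : ∀ a, ∃ a', (c : End F V) * fa e a * (c⁻¹ : V ≃ₗ[F] V) = fa e' a') : tst e e' c := by
  have inj : Injective (fa e') := fun a b H => sub_eq_zero.1 (fa_inj (e := e') (by rw [map_sub, H, sub_self]))
  let φ : End F W →ₐ[F] End F W := (AlgEquiv.ofInjective _ inj).symm.toAlgHom.comp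
    (((c.conjAlgEquiv F).toAlgHom.comp (fa e)).codRestrict _ fun a => let ⟨a', H⟩ := h a; ⟨a', H.symm⟩)
  have e1 : ∀ a, fa e' (φ a) = (c : End F V) * fa e a * (c⁻¹ : V ≃ₗ[F] V) := fun a =>
    congrArg Subtype.val ((AlgEquiv.ofInjective _ inj).apply_symm_apply _)
  have i1 : Injective φ := (injective_iff_map_eq_zero _).2 fun a H => fa_inj (e := e) (by
    have := e1 a
    rw [H, map_zero] at this
    linear_combination (norm := noncomm_ring) -(c⁻¹ : V ≃ₗ[F] V).toLinearMap * this * c.toLinearMap -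
      coe_inv_mul c * fa e a * (c⁻¹ : V ≃ₗ[F] V).toLinearMap * c.toLinearMap - fa e a * coe_inv_mul c)
  obtain ⟨T, hT⟩ := (AlgEquiv.ofBijective φ ⟨i1, (LinearMap.injective_iff_surjective (f := φ.toLinearMap)).1 i1⟩
    ).eq_linearEquivConjAlgEquiv
  have e2 : ∀ a, φ a = T * a * (T⁻¹ : W ≃ₗ[F] W) := fun a => AlgEquiv.congr_fun hT a
  obtain ⟨b, hb⟩ := tst_of_conj (e := e) (e' := e') (g := lf e' T⁻¹ * c) fun a => by
    have := e1 a
    rw [e2, map_mul, map_mul, ← coe_lf, ← coe_lf, map_inv] at this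
    rw [LinearEquiv.coe_toLinearMap_mul, map_inv]
    generalize lf e' T = g at *
    linear_combination (norm := noncomm_ring) -(g⁻¹ : V ≃ₗ[F] V).toLinearMap * this * c.toLinearMap -
      (g⁻¹ : V ≃ₗ[F] V).toLinearMap * c.toLinearMap * fa e a * coe_inv_mul c +
      coe_inv_mul g * fa e' a * (g⁻¹ : V ≃ₗ[F] V).toLinearMap * c.toLinearMap
  exact ⟨T, b, fun w u => by simpa using congrArg (lf e' T) (hb w u)⟩

theorem rk_fa [FiniteDimensional F W] (s : SpF Ψ) {x : W} (x0 : x ≠ 0) : rk (fa e (rb Ψ x x)) = finrank F U := by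
  obtain ⟨r, hr⟩ := s.nd.exists_eq_one x0
  rw [rk, show LinearMap.range (fa e (rb Ψ x x)) = LinearMap.range (e.toLinearMap ∘ₗ TensorProduct.mk F W U x) from
    le_antisymm (by rintro _ ⟨v, rfl⟩; exact ⟨_, (fa_rk1 _ _ _).symm⟩) (by rintro _ ⟨u, rfl⟩; exact ⟨e (r ⊗ₜ u), by simp [hr]⟩),
    LinearMap.finrank_range_of_inj fun u u' h => tmul_inj x0 (e.injective h)]

theorem IA.nn [DecidableEq ι] {J D : Finset ι} {R : Submodule F (End F V)} (h : IA Ψ E J R) (t : TW E) (h2 : (2 : F) ≠ 0)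
    (hD : D ⊆ J) (x : ι → W) {ρ : End F V} (hρ : ρ ∈ R) :
    Mg t D (fun j => rb Ψ (x j) (x j)) * ρ * Mg t D (fun j => rb Ψ (x j) (x j)) ∈ R := by
  induction D using Finset.induction_on with
  | empty => simpa
  | insert j S n ih =>
    convert (h.inv j (hD (by simp))).nn h2 (ih fun l hl => hD (by simp [hl])) (x j) using 1
    rw [Mg_insert t n]; nth_rw 2 [← (Mg_comm t n _ _).eq]; simp only [mul_assoc]

theorem nil2 (s : SpF Ψ) (x : W) {p : End F V} (q : End F V) (h : ∀ a, Commute p (fa e a)) :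
    fa e (rb Ψ x x) * p * (fa e (rb Ψ x x) * q) = 0 := by
  rw [mul_assoc, ← mul_assoc p, (h _).eq, mul_assoc, ← mul_assoc, ← map_mul, s.sq]; simp

/-- The elements of the unipotent radical at the factor `e`. -/
def ZS (s : SpF Ψ) (h2 : (2 : F) ≠ 0) (e : W ⊗[F] U ≃ₗ[F] V) (X : Subgroup (V ≃ₗ[F] V)) : Submodule F (End F V) where
  carrier := {z | (∀ a, Commute z (fa e a)) ∧ ∀ x, HasL X (fa e (rb Ψ x x) * z)}
  zero_mem' := by simpa using HasL.zero
  add_mem' := fun p q => ⟨fun a => (p.1 a).add_left (q.1 a), fun x => by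
    rw [mul_add]; exact (p.2 x).add (q.2 x) (nil2 s x _ p.1)⟩
  smul_mem' := fun c z p => ⟨fun a => (p.1 a).smul_left c, fun x => by
    have k : ∀ a : F, HasL X ((a * a) • (fa e (rb Ψ x x) * z)) := fun a => by
      simpa [show rb Ψ (a • x) (a • x) = (a * a) • rb Ψ x x by ext; simp [smul_smul]; ring_nf] using
        p.2 (a • x)
    convert (k ((c + 1) / 2)).add ((k ((c - 1) / 2)).neg (by simp [nil2 s x _ p.1])) (by simp [nil2 s x _ p.1]) using 1
    rw [mul_smul_comm, ← neg_smul, ← add_smul]; congr 1; field_simp; ring⟩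

/-- All multiples of the products of transvection maps over `S` occur. -/
def PS (Ψ : Formed (RingHom.id F) W) (t : TW E) (X : Subgroup (V ≃ₗ[F] V)) (S : Finset ι) : Prop :=
  ∀ (x : ι → W) (c : F), HasL X (c • Mg t S fun j => rb Ψ (x j) (x j))

namespace SW2
variable [FiniteDimensional F W] [Fintype ι] [DecidableEq ι] {pv : MultilinearMap F (fun _ : ι => W) V} {κ : F}
  (h : SW2 Ψ Φ₂ Φ E X pv κ)
include h

theorem ntW : Nontrivial W := nontrivial_of_finrank_pos (R := F) (by have := h.two; omega)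

theorem ntV : Nontrivial V := by
  obtain ⟨i⟩ := h.ne
  obtain ⟨w, w0⟩ := @exists_ne W h.ntW 0
  obtain ⟨u, u0⟩ := @exists_ne U h.nt 0
  exact ⟨⟨E i (w ⊗ₜ u), 0, fun e => u0 (tmul_inj (F := F) w0 (by simpa using e))⟩⟩

theorem ia (i : ι) : IA Ψ E (Finset.univ.erase i) (ZS h.sp h.h2 (E i) X) := ⟨fun z hz l hl => by
  rw [show l = i by simpa using hl]; exact hz.1, fun j hj z hz c x => by
  obtain ⟨g, hg, e1, e2⟩ := h.tvx j c x
  have c := h.comm j i (Finset.ne_of_mem_erase hj)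
  refine ⟨fun a => ((c _ a).mul_left (hz.1 a)).mul_left (c _ a), fun y => hasL_conj (hz.2 y) hg ?_⟩
  rw [← e2, mul_assoc _ _ (g : End F V), mul_assoc _ _ (g : End F V), coe_inv_mul, mul_one, e1, ← mul_assoc, (c _ _).eq,
    mul_assoc]⟩

omit [FiniteDimensional F W] in
theorem ps_of {i : ι} {S : Finset ι} (n : i ∉ S)
    (H : ∀ x : ι → W, Mg h.toTW S (fun j => rb Ψ (x j) (x j)) ∈ ZS h.sp h.h2 (E i) X) : PS Ψ h.toTW X (insert i S) :=
  fun x c => by simpa [Mg_insert _ n] using ((ZS h.sp h.h2 (E i) X).smul_mem c (H x)).2 (x i)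

omit [FiniteDimensional F W] in
theorem sq {S : Finset ι} (n : S.Nonempty) (x : ι → W) :
    Mg h.toTW S (fun j => rb Ψ (x j) (x j)) * Mg h.toTW S (fun j => rb Ψ (x j) (x j)) = 0 :=
  let ⟨_, hj⟩ := n; (Mg_mul _ _ _ _).trans (Mg_zero _ hj (h.sp.sq _))

theorem odd {S : Finset ι} (n : S.Nonempty) (H : PS Ψ h.toTW X S) : Odd S.card := by
  obtain ⟨w, w0⟩ := @exists_ne W h.ntW 0
  obtain ⟨i⟩ := h.ne
  have := h.ntV
  refine Nat.not_even_iff_odd.1 fun e => Mg_ne h.toTW (S := S) (fun _ _ => h.sp.rb_ne w0 w0) (LinearMap.ext fun u =>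
    h.nd i _ fun v => ?_)
  obtain ⟨g, hg, e1⟩ := (H (fun _ => w) 1).exists_apply
  have e2 := (h.iso hg).1 u v
  have e3 := fun u v => Mg_ad h.toTW h.toSW0 S (fun _ => w) u v
  have e4 := LinearMap.congr_fun (h.sq n fun _ => w) v
  simp only [e.neg_one_pow, one_mul, End.mul_apply] at e3 e4
  simp [e1, e3, e4] at e2 ⊢
  exact mul_left_cancel₀ h.h2 (by linear_combination e2)

theorem grow {D : Finset ι} {a a' b b' : ι} (ha : a ∉ insert a' (insert b (insert b' D))) (ha' : a' ∉ insert b (insert b' D))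
    (hb : b ∉ insert b' D) (hb' : b' ∉ D) (o : Odd D.card) (H : PS Ψ h.toTW X (insert a (insert a' D))) :
    PS Ψ h.toTW X (insert a (insert a' (insert b (insert b' D)))) := by
  refine h.ps_of ha fun w => ?_
  have s := h.sp
  have n1 := ha
  have n2 := ha'
  have n3 := hb
  simp only [Finset.mem_insert, not_or] at n1 n2 n3
  have : ∀ j, ∃ r, rb Ψ (w j) (w j) * rb Ψ r r * rb Ψ (r + w j) (r + w j) * rb Ψ (w j) (w j) = rb Ψ (w j) (w j) ∧
      rb Ψ (w j) (w j) * rb Ψ (r + w j) (r + w j) * rb Ψ r r * rb Ψ (w j) (w j) = -rb Ψ (w j) (w j) := fun j => by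
    by_cases w0 : w j = 0
    · exact ⟨0, by simp [show rb Ψ (w j) (w j) = 0 by ext; simp [w0]]⟩
    obtain ⟨r, hr⟩ := s.nd.exists_eq_one w0
    exact ⟨r, by simp only [rb_mul, smul_mul_assoc]; simp [hr, s.alt, s.skew (w j) r], by simp [rb_mul, hr, s.alt, s.skew (w j) r]⟩
  choose r r1 r2 using this
  have q : ∀ (y : ι → W) x x', Qd (gX X) (fa (E a) (rb Ψ x x) * (fa (E a') (rb Ψ x' x') *
      Mg h.toTW D fun j => rb Ψ (y j) (y j))) := fun y x x' => by
    have e1 : Mg h.toTW (insert a (insert a' D)) (fun j => rb Ψ (update (update y a' x') a x j)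
        (update (update y a' x') a x j)) = fa (E a) (rb Ψ x x) * (fa (E a') (rb Ψ x' x') *
        Mg h.toTW D fun j => rb Ψ (y j) (y j)) := by
      rw [Mg_insert _ (by simp [n1]), Mg_insert _ n2.2.2, Mg_congr _ (m' := fun j => rb Ψ (y j) (y j)) fun j hj => by
        rw [update_of_ne (by rintro rfl; exact n1.2.2.2 hj), update_of_ne (by rintro rfl; exact n2.2.2 hj)]]
      simp only [update_self, update_of_ne (Ne.symm n1.1)]
    exact e1 ▸ qd_iff.2 ⟨h.sq (by simp) _, H _⟩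
  have q' : Qd (gX X) (fa (E b) (rb Ψ (w b) (w b)) * (fa (E b') (rb Ψ (w b') (w b')) *
      Mg h.toTW D fun j => rb Ψ (r j + w j) (r j + w j))) := by
    obtain ⟨g, hg, e⟩ := h.ev a b a' b' n1.2.1 n2.2.1
    refine qd_iff.2 ⟨nil2 s _ _ fun m => (h.comm b' b (Ne.symm n3.1) _ m).mul_left (Mg_comm _ n3.2 _ m), fun c =>
      hasL_conj ((qd_iff.1 (q (r + w) (w b) (w b'))).2 c) hg ?_⟩
    have e1 := e a (rb Ψ (w b) (w b))
    have e2 := e a' (rb Ψ (w b') (w b'))
    have e3 : Commute (g : End F V) (Mg h.toTW D fun j => rb Ψ (r j + w j) (r j + w j)) :=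
      Finset.noncommProd_commute _ _ _ _ fun l hl => by
        change _ = _
        simpa [Equiv.swap_apply_of_ne_of_ne (show l ≠ a' by rintro rfl; exact n2.2.2 hl)
          (show l ≠ b' by rintro rfl; exact hb' hl), Equiv.swap_apply_of_ne_of_ne (show l ≠ a by rintro rfl; exact n1.2.2.2 hl)
          (show l ≠ b by rintro rfl; exact n3.2 hl)] using e l _
    simp only [Equiv.Perm.mul_apply, Equiv.swap_apply_of_ne_of_ne n1.1 n1.2.2.1, Equiv.swap_apply_left,
      Equiv.swap_apply_of_ne_of_ne (Ne.symm n1.2.2.1) (Ne.symm n3.1)] at e1 e2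
    rw [mul_smul_comm, smul_mul_assoc, ← mul_assoc, e1, mul_assoc, ← mul_assoc g.toLinearMap, e2, mul_assoc]
    exact congrArg _ (by simp only [mul_assoc, ← e3.eq]; rfl)
  have m1 := Mg_mul h.toTW D
  have c1 := fun m l (n : l ∉ D) => Mg_comm h.toTW n m
  have m := (h.ia a).nn h.toTW h.h2 (D := D) (fun l hl => by simpa using (by rintro rfl; exact n1.2.2.2 hl)) w
    (ρ := fa (E a') (rb Ψ (w a') (w a')) * Mg h.toTW D (fun j => rb Ψ (r j) (r j)) *
      (fa (E b) (rb Ψ (w b) (w b)) * (fa (E b') (rb Ψ (w b') (w b')) * Mg h.toTW D fun j => rb Ψ (r j + w j) (r j + w j))) -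
      fa (E b) (rb Ψ (w b) (w b)) * (fa (E b') (rb Ψ (w b') (w b')) * Mg h.toTW D fun j => rb Ψ (r j + w j) (r j + w j)) *
      (fa (E a') (rb Ψ (w a') (w a')) * Mg h.toTW D fun j => rb Ψ (r j) (r j))) (by
    have d1 := fun m => (h.comm a' a (Ne.symm n1.1) (rb Ψ (w a') (w a')) m).mul_left (c1 (fun j => rb Ψ (r j) (r j)) a
      n1.2.2.2 m)
    have d2 := fun m => (h.comm b a (Ne.symm n1.2.1) (rb Ψ (w b) (w b)) m).mul_left ((h.comm b' a (Ne.symm n1.2.2.1)
      (rb Ψ (w b') (w b')) m).mul_left (c1 (fun j => rb Ψ (r j + w j) (r j + w j)) a n1.2.2.2 m))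
    refine ⟨fun m => ((d1 m).mul_left (d2 m)).sub_left ((d2 m).mul_left (d1 m)), fun x => ?_⟩
    have := (qd_iff.1 ((q r x (w a')).bracket q' (nil3 (by rw [← map_mul, s.sq, map_zero]) (d1 _).symm (d2 _).symm)
      (nil3 (by rw [← map_mul, s.sq, map_zero]) ((h.comm b b' n3.1 _ _).mul_right (c1 _ b n3.2 _).symm)
      ((h.comm b a (Ne.symm n1.2.1) _ _).mul_right ((h.comm b a' (Ne.symm n2.1) _ _).mul_right
      (c1 _ b n3.2 _).symm))))).2 1
    rwa [one_smul, ← mul_assoc _ (fa (E a) _), (d2 _).eq, mul_assoc, mul_assoc (fa (E a) _), ← mul_sub] at this)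
  rw [← (ZS h.sp h.h2 (E a) X).smul_mem_iff h.h2]
  convert m using 1
  have e1 : Mg h.toTW D (fun j => rb Ψ (w j) (w j)) * Mg h.toTW D (fun j => rb Ψ (r j) (r j)) *
      Mg h.toTW D (fun j => rb Ψ (r j + w j) (r j + w j)) * Mg h.toTW D (fun j => rb Ψ (w j) (w j)) =
      Mg h.toTW D (fun j => rb Ψ (w j) (w j)) := by rw [m1, m1, m1]; exact congrArg (Mg h.toTW D) (funext r1)
  have e2 : Mg h.toTW D (fun j => rb Ψ (w j) (w j)) * Mg h.toTW D (fun j => rb Ψ (r j + w j) (r j + w j)) *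
      Mg h.toTW D (fun j => rb Ψ (r j) (r j)) * Mg h.toTW D (fun j => rb Ψ (w j) (w j)) =
      -Mg h.toTW D (fun j => rb Ψ (w j) (w j)) := by
    rw [m1, m1, m1]
    exact (congrArg (Mg h.toTW D) (funext r2)).trans ((Mg_neg _ _ _).trans (by simp [o.neg_one_pow]))
  have c2 := fun m => (c1 m b n3.2 (rb Ψ (w b) (w b))).mul_right (c1 m b' hb' (rb Ψ (w b') (w b')))
  have c3 := fun m => c1 m a' n2.2.2 (rb Ψ (w a') (w a'))
  have c4 := ((h.comm a' b n2.1 (rb Ψ (w a') (w a')) (rb Ψ (w b) (w b))).mul_right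
    (h.comm a' b' n2.2.1 _ (rb Ψ (w b') (w b')))).eq
  have c5 := (c2 fun j => rb Ψ (r j) (r j)).eq
  have c6 := (c3 fun j => rb Ψ (r j + w j) (r j + w j)).eq
  have c7 := ((c3 fun j => rb Ψ (w j) (w j)).mul_right (c2 _)).eq
  rw [Mg_insert _ ha', Mg_insert _ hb, Mg_insert _ hb', two_smul]
  generalize Mg h.toTW D (fun j => rb Ψ (w j) (w j)) = P at *
  generalize Mg h.toTW D (fun j => rb Ψ (r j) (r j)) = Q at *
  generalize Mg h.toTW D (fun j => rb Ψ (r j + w j) (r j + w j)) = R at *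
  generalize fa (E a') (rb Ψ (w a') (w a')) = A at *
  generalize fa (E b) (rb Ψ (w b) (w b)) = B at *
  generalize fa (E b') (rb Ψ (w b') (w b')) = C at *
  linear_combination (norm := noncomm_ring) -A * B * C * e1 + A * B * C * e2 - c7 * Q * R * P + c7 * R * Q * P -
    P * A * c5 * R * P + P * B * C * c6 * Q * P - P * c4 * R * Q * P

theorem eps : Φ.ε = (-1) ^ Fintype.card ι := by
  obtain ⟨e, e0⟩ := @exists_ne W h.ntW 0
  obtain ⟨f, ef⟩ := h.sp.nd.exists_eq_one e0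
  simpa [h.pB, ef, h.sp.skew e f, h.κ0, mul_comm, eq_comm] using Φ.symm (pv fun _ => e) (pv fun _ => f)

omit [FiniteDimensional F W] in
theorem hasE {l j : ι} (n : j ≠ l) {x : ι → W} {a b : W} (H : HasL X (rk1 (pv (update x l a)) (Φ.B (pv (update x l b))) -
    Φ.ε • rk1 (pv (update x l b)) (Φ.B (pv (update x l a))))) : HasE Φ X (pv (update x l a)) (pv (update x l b)) 0 := by
  obtain ⟨g, hg, e⟩ := H.exists_apply
  exact ⟨g, hg, h.sing _, h.pB0 j (by simp [n, h.sp.alt]), by simp [(h.sing _).1], by simp [(h.sing _).2],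
    fun v => by simp [e, smul_smul, add_sub_assoc]⟩

omit [FiniteDimensional F W] in
theorem pext {α β : End F V} (H : ∀ y, α (pv y) = β (pv y)) (v : V) : α v = β v := h.span (LinearMap.eqLocus α β) H v

theorem fin1 (H : PS Ψ h.toTW X Finset.univ) (l : ι) (x : ι → W) (a b : W) :
    HasE Φ X (pv (update x l a)) (pv (update x l b)) 0 := by
  obtain ⟨j, n⟩ := Fintype.exists_ne_of_one_lt_card (by have := h.four; omega) l
  have := h.ne
  have e : Φ.ε = -1 := by rw [h.eps]; exact (h.odd Finset.univ_nonempty H).neg_one_pow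
  have k : ∀ x (c : F), HasL X (c • rk1 (pv x) (Φ.B (pv x))) := fun x c => (H x (c * κ)).congr
    (h.pext fun y => by simp [Mg_pv _ h.pf, h.pB, smul_smul, mul_assoc])
  have z : ∀ a b, Φ.B (pv (update x l a)) (pv (update x l b)) = 0 := fun a b => h.pB0 j (by simp [n, h.sp.alt])
  refine h.hasE n ((((k (update x l (a + b)) 1).add (k (update x l a) (-1)) ?_).add (k (update x l b) (-1)) ?_).congr
    fun v => by simp [e, add_smul]; abel) <;> ext v <;> simp [z]

theorem fin2 {l₀ : ι} (H : PS Ψ h.toTW X (Finset.univ.erase l₀)) (l : ι) (x : ι → W) (a b : W) :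
    HasE Φ X (pv (update x l a)) (pv (update x l b)) 0 := by
  obtain ⟨j, n⟩ := Fintype.exists_ne_of_one_lt_card (by have := h.four; omega) l₀
  have e : Φ.ε = 1 := by
    have := h.odd ⟨j, by simp [n]⟩ H
    rw [Finset.card_erase_of_mem (by simp), Finset.card_univ] at this
    rw [h.eps]; exact (show Even _ by have := h.four; grind).neg_one_pow
  replace H : PS Ψ h.toTW X (Finset.univ.erase l) := by
    by_cases e : l₀ = l
    · exact e ▸ H
    obtain ⟨c, -, hc⟩ := Finset.exists_mem_notMem_of_card_lt_card (s := {l₀, l}) (t := Finset.univ) (by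
      have := h.four; have := Finset.card_le_two (a := l₀) (b := l); simp; omega)
    obtain ⟨d, -, hd⟩ := Finset.exists_mem_notMem_of_card_lt_card (s := {l₀, l, c}) (t := Finset.univ) (by
      have := h.four; have := Finset.card_le_three (a := l₀) (b := l) (c := c); simp; omega)
    simp only [Finset.mem_insert, Finset.mem_singleton, not_or] at hc hd
    obtain ⟨g, hg, e1⟩ := h.ev l₀ l c d e (Ne.symm hd.2.2)
    refine fun x k => hasL_conj (H (x ∘ (Equiv.swap l₀ l * Equiv.swap c d : Equiv.Perm ι)) k) hg ?_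
    have := Mg_conj h.toTW e1 (Finset.univ.erase l₀) fun j => rb Ψ (x j) (x j)
    rw [Finset.map_erase, Finset.map_univ_equiv] at this
    simp only [Equiv.coe_toEmbedding, Equiv.Perm.mul_apply, Equiv.swap_apply_of_ne_of_ne (Ne.symm hc.1) (Ne.symm hd.1),
      Equiv.swap_apply_left] at this
    rw [mul_smul_comm, smul_mul_assoc]; exact congrArg _ this
  obtain ⟨j, n⟩ := Fintype.exists_ne_of_one_lt_card (by have := h.four; omega) l
  refine h.hasE n ((H x (κ * Ψ.B b a)).congr (h.pext fun y => ?_))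
  have p : ∀ a, Φ.B (pv (update x l a)) (pv y) = κ * (Ψ.B a (y l) * ∏ j ∈ Finset.univ.erase l, Ψ.B (x j) (y j)) := fun a => by
    rw [h.pB, ← Finset.mul_prod_erase _ _ (Finset.mem_univ l), update_self,
      Finset.prod_congr rfl fun j hj => by rw [update_of_ne (Finset.ne_of_mem_erase hj)]]
  have := congrArg (fun z => pv (update x l z)) (h.sp.jac' h.two a b (y l))
  simp only [pv.map_update_sub, pv.map_update_smul] at this
  rw [LinearMap.smul_apply, Mg_pv _ h.pf,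
    show (Finset.univ.erase l).piecewise x y = update x l (y l) from funext fun j => by
      by_cases e : j = l <;> simp [e]]
  simp only [LinearMap.sub_apply, LinearMap.smul_apply, LinearMap.smulRight_apply, p, e]
  linear_combination (norm := module) -(κ * ∏ j ∈ Finset.univ.erase l, Ψ.B (x j) (y j)) • this

variable [FiniteDimensional F V] (h3 : 3 ≤ finrank F V)
include h3

theorem win {S : Finset ι} (h1 : 2 ≤ S.card) (H : PS Ψ h.toTW X S) : EG Φ ≤ X := by
  induction hn : Sᶜ.card using Nat.strong_induction_on generalizing S with | _ n ih =>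
  by_cases e : 1 < Sᶜ.card
  · obtain ⟨b, hb, b', hb', n1⟩ := Finset.one_lt_card.1 e
    obtain ⟨a, ha, a', ha', n2⟩ := Finset.one_lt_card.1 (show 1 < S.card by omega)
    have o := h.odd ⟨a, ha⟩ H
    have e1 : insert a (insert a' ((S.erase a).erase a')) = S := by
      rw [Finset.insert_erase (by simp [ha', n2.symm]), Finset.insert_erase ha]
    have c1 : ((S.erase a).erase a').card + 2 = S.card := by
      rw [Finset.card_erase_of_mem (by simp [ha', n2.symm]), Finset.card_erase_of_mem ha]; omega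
    simp only [Finset.mem_compl] at hb hb'
    have m1 : a ∉ insert a' (insert b (insert b' ((S.erase a).erase a'))) := by
      simp [n2, ne_of_mem_of_not_mem ha hb, ne_of_mem_of_not_mem ha hb']
    have m2 : a' ∉ insert b (insert b' ((S.erase a).erase a')) := by
      simp [ne_of_mem_of_not_mem ha' hb, ne_of_mem_of_not_mem ha' hb']
    have m3 : b ∉ insert b' ((S.erase a).erase a') := by simp [n1, hb]
    have m4 : b' ∉ (S.erase a).erase a' := by simp [hb']
    have := h.grow m1 m2 m3 m4 (by grind) (e1.symm ▸ H)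
    have c2 := Finset.card_insert_of_notMem m1
    rw [Finset.card_insert_of_notMem m2, Finset.card_insert_of_notMem m3, Finset.card_insert_of_notMem m4] at c2
    refine ih _ ?_ (by omega) this rfl
    have := Finset.card_compl S
    rw [Finset.card_compl]; omega
  rcases Sᶜ.eq_empty_or_nonempty with e1 | ⟨l, hl⟩
  · exact h.EG_le h3 (h.fin1 ((Finset.compl_eq_empty_iff _).1 e1 ▸ H))
  refine h.EG_le h3 (h.fin2 (l₀ := l) ((show S = Finset.univ.erase l from Finset.ext fun j => ?_) ▸ H))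
  simp only [Finset.mem_erase, Finset.mem_univ, and_true]
  exact ⟨fun a => ne_of_mem_of_not_mem a (by simpa using hl), fun a => by_contra fun b =>
    a (Finset.card_le_one.1 (not_lt.1 e) j (by simpa) l hl)⟩

variable (hS : ¬ EG Φ ≤ X)
include hS

theorem scalZ {j : ι} {x : W} (x0 : x ≠ 0) {ζ : End F U} (H : HasL X (fa (E j) (rb Ψ x x) * fb (E j) ζ)) :
    ∃ k : F, fb (E j) ζ = k • 1 := by
  have := h.nt
  by_cases z0 : fb (E j) ζ = 0
  · exact ⟨0, by simpa⟩
  obtain ⟨S, a, b, c⟩ := (h.ia j).ext2 h.toTW h.sp h.two h.h2 j (ρ := fb (E j) ζ) ⟨fun a => (fa_fb _ _).symm,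
    h.sp.trans (P := fun x => HasL X (fa (E j) (rb Ψ x x) * fb (E j) ζ))
      (by simpa [show rb Ψ 0 0 = 0 by ext; simp] using HasL.zero) (fun c z x H => by
      obtain ⟨g, hg, e1, e2⟩ := h.tvx j c z
      refine hasL_conj H hg ?_
      rw [← h.sp.conj_rb, map_mul, map_mul, ← e1, ← e2, mul_assoc, mul_assoc, e1, ← (fa_fb _ _).eq, ← e1,
        ← mul_assoc _ g.toLinearMap, coe_inv_mul, one_mul, mul_assoc]) x0 H⟩ z0
  refine c (by_contra fun n => hS (h.win h3 ?_ (h.ps_of (fun e => by simpa using a e) b)))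
  rw [Finset.card_insert_of_notMem fun e => by simpa using a e]
  have := Finset.card_pos.2 (Finset.nonempty_iff_ne_empty.2 n); omega

omit [FiniteDimensional F V] h3 hS in
theorem qdN (j : ι) (x : W) : Qd (gX X) (fa (E j) (rb Ψ x x)) :=
  qd_iff.2 ⟨by rw [← map_mul, h.sp.sq, map_zero], fun c => let ⟨g, hg, e, _⟩ := h.tvx j c x; ⟨g, hg, by simp [e]⟩⟩

theorem cl_scal {j : ι} {x : W} (x0 : x ≠ 0) {β : End F V} (H : β ∈ cl (gX X) (fa (E j) (rb Ψ x x))) :
    ∃ k : F, β = k • fa (E j) (rb Ψ x x) := by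
  obtain ⟨r, hr⟩ := h.sp.nd.exists_eq_one x0
  have e : fa (E j) (rb Ψ x x) * fa (E j) (rb Ψ r r) * fa (E j) (rb Ψ x x) = -fa (E j) (rb Ψ x x) := by
    simp [← map_mul, ← map_neg, rb_mul, hr, h.sp.skew x r]
  have e1 := cl_left H (y := 1 + fa (E j) (rb Ψ r r) * fa (E j) (rb Ψ x x)) (by rw [mul_add, ← mul_assoc, e]; simp)
  have e2 := cl_right H (x := 1 + fa (E j) (rb Ψ x x) * fa (E j) (rb Ψ r r)) (by rw [add_mul, e]; simp)
  have e3 : β = fa (E j) (rb Ψ x x) * (fa (E j) (rb Ψ r r) * β * fa (E j) (rb Ψ r r)) * fa (E j) (rb Ψ x x) := by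
    linear_combination (norm := noncomm_ring) e2 - fa (E j) (rb Ψ x x) * fa (E j) (rb Ψ r r) * e1
  rw [fa_mul_fa] at e3
  obtain ⟨k, hk⟩ := h.scalZ h3 hS x0 (e3 ▸ one_smul F β ▸ (qd_iff.1 H.1).2 1)
  exact ⟨k, by rw [e3, hk]; simp⟩

omit [FiniteDimensional F V] h3 hS in
theorem exists_nn {γ : End F V} (g2 : γ * γ = 0) (g0 : γ ≠ 0) : ∃ j x, x ≠ 0 ∧
    fa (E j) (rb Ψ x x) * γ * fa (E j) (rb Ψ x x) ≠ 0 := by
  have := h.nt
  have := h.ntW
  have := h.ntV
  obtain ⟨i⟩ := h.ne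
  obtain ⟨j, n⟩ : ∃ j, ¬ ∀ a, Commute γ (fa (E j) a) := not_forall.1 fun H => by
    obtain ⟨k, rfl⟩ := h.toTW.scal i H
    simp [left_ne_zero_of_smul g0] at g2
  obtain ⟨y, y0, b0⟩ := h.sp.blk_ne h.two n
  exact ⟨j, y, y0, fun e => b0 (fb_inj (e := E j) ((indep (h.sp.rb_ne y0 y0) (fun a => (fa_fb _ _).symm)
    (by rw [← fa_mul_fa]; exact e)).trans (map_zero _).symm))⟩

variable (q3 : Nat.card F ≠ 3)
include q3

theorem minN (j : ι) {x : W} (x0 : x ≠ 0) : Min (gX X) (fa (E j) (rb Ψ x x)) := by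
  have := h.nt
  have n0 : ∀ j {x}, x ≠ 0 → fa (E j) (rb Ψ x x) ≠ 0 := fun j x x0 e => h.sp.rb_ne x0 x0 (fa_inj e)
  obtain ⟨δ, ⟨a, b⟩, c⟩ := (InvImage.wf (rk (k := F) (M := V)) Nat.lt_wfRel.wf).has_min {γ | Qd (gX X) γ ∧ γ ≠ 0}
    ⟨_, h.qdN j x, n0 j x0⟩
  have m : Min (gX X) δ := ⟨a, b, fun γ p q => not_lt.1 (c γ ⟨p, q⟩)⟩
  obtain ⟨l, y, y0, e⟩ := h.exists_nn a.sq b
  have q := h.qdN l y
  obtain ⟨β, m', hβ⟩ : ∃ β, Min (gX X) β ∧ β ∈ cl (gX X) (fa (E l) (rb Ψ y y)) := by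
    generalize fa (E l) (rb Ψ y y) = N at *
    by_cases e1 : δ * N * δ = 0
    swap
    · obtain ⟨p, u, -, -, -, -, -, -, m', -⟩ := m.split_aux h.h2 q3 q e1
      exact ⟨_, m', ev_mul_mem_cl_right q m'.qd⟩
    have q1 := ((((a.conj_quad q).add (a.conj_quad q.neg)
      (by linear_combination (norm := noncomm_ring) (1 + N) * (a.sq - e1 - e1 + δ * q.sq * δ) * (1 + N))
      (by linear_combination (norm := noncomm_ring) (1 - N) * (a.sq + e1 + e1 + δ * q.sq * δ) * (1 - N))).sub a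
      (by linear_combination (norm := noncomm_ring) (1 + N) * (a.sq - e1) + (1 - N) * (a.sq + e1))
      (by linear_combination (norm := noncomm_ring) (a.sq + e1) * (1 - N) + (a.sq - e1) * (1 + N))).sub a
      (by linear_combination (norm := noncomm_ring) (1 + N) * (a.sq - e1) + (1 - N) * (a.sq + e1) - a.sq)
      (by linear_combination (norm := noncomm_ring) (a.sq + e1) * (1 - N) + (a.sq - e1) * (1 + N) - a.sq)).smul (-2⁻¹)
    rw [show (1 + N) * δ * (1 - N) + (1 + -N) * δ * (1 - -N) - δ - δ = (-2 : F) • (N * δ * N) by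
      rw [neg_smul, two_smul]; noncomm_ring, smul_smul, neg_mul_neg, inv_mul_cancel₀ h.h2, one_smul] at q1
    exact ⟨_, m.of_le q1 e ((Submodule.finrank_mono (range_mul_le _ _)).trans (rk_le_of_ker (ker_le_ker_mul _ _))),
      (mem_cl q.sq).2 ⟨q1, ker_le_ker_mul _ _, by rw [mul_assoc]; exact range_mul_le _ _⟩⟩
  obtain ⟨k, rfl⟩ := h.cl_scal h3 hS y0 hβ
  refine m'.of_le (h.qdN j x) (n0 j x0) ?_
  rw [rk_fa h.sp x0, ← rk_fa (e := E l) h.sp y0, rk, rk, LinearMap.range_smul _ _ (left_ne_zero_of_smul m'.ne)]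

theorem key {c : V ≃ₗ[F] V} (hc : c ∈ X) (i : ι) {w : W} (w0 : w ≠ 0) :
    ∃ j m, (c : End F V) * fa (E i) (rb Ψ w w) * (c⁻¹ : V ≃ₗ[F] V) = fa (E j) m := by
  have hc' : LinearMap.GeneralLinearGroup.ofLinearEquiv c ∈ gX X := hc
  have m := (h.minN h3 hS q3 i w0).conj hc'
  obtain ⟨j, x, x0, n⟩ := h.exists_nn m.qd.sq m.ne
  obtain ⟨f, hf, e1, e2⟩ := (h.minN h3 hS q3 j x0).exists_partner h.h2 q3 m n
  obtain ⟨k, hk⟩ := h.cl_scal h3 hS w0 (by simpa using cj_mem_cl (conjBy_of_mem (inv_mem hc')) hf)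
  replace hk := congrArg (cj (.ofLinearEquiv c)) hk
  rw [cj_cj, mul_inv_cancel, cj_one_left, cj_smul] at hk
  have k0 : k ≠ 0 := by
    rintro rfl
    exact (h.minN h3 hS q3 j x0).ne (by simpa [hk] using e1.symm)
  suffices H : ∃ m, f = fa (E j) m from H.elim fun m e =>
    ⟨j, k⁻¹ • m, by rw [map_smul, ← e, hk, smul_smul, inv_mul_cancel₀ k0, one_smul]; rfl⟩
  obtain ⟨r, hr⟩ := h.sp.nd.exists_eq_one x0
  have qa := h.qdN j x
  have qb := (h.qdN j r).neg
  have qf := hf.1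
  have e3 : fa (E j) (rb Ψ x x) * -fa (E j) (rb Ψ r r) + -fa (E j) (rb Ψ r r) * fa (E j) (rb Ψ x x) = 1 := by
    rw [← map_neg, ← map_mul, ← map_mul, ← map_add, ← map_one (fa (E j))]
    congr 1; ext v
    simpa [hr, h.sp.skew x r, h.sp.skew v r] using (h.sp.jac h.two hr v).symm
  have nz : ∀ g ∈ gX X, ∀ (s : F) y, (g : End F V) = 1 + s • (fa (E j) (rb Ψ x x) * y * fa (E j) (rb Ψ x x)) → s ≠ 0 →
      ∃ t : F, fa (E j) (rb Ψ x x) * y * fa (E j) (rb Ψ x x) = t • fa (E j) (rb Ψ x x) := fun g hg s y e s0 => by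
    rw [fa_mul_fa] at e ⊢
    obtain ⟨t, ht⟩ := h.scalZ h3 hS x0 (ζ := s • blk (E j) y (Ψ.B x) x) (hasL_gX.1 ⟨g, hg, by simpa using e⟩)
    exact ⟨s⁻¹ * t, by rw [← inv_smul_smul₀ s0 (fb _ _), ← map_smul, ht]; simp [smul_smul]⟩
  have rg : ∀ s : F, ∃ m, -fa (E j) (rb Ψ r r) + s • (-fa (E j) (rb Ψ r r) * fa (E j) (rb Ψ x x)) -
      s • (fa (E j) (rb Ψ x x) * -fa (E j) (rb Ψ r r)) - (s * s) • fa (E j) (rb Ψ x x) = fa (E j) m := fun s =>
    ⟨-rb Ψ r r + s • (-rb Ψ r r * rb Ψ x x) - s • (rb Ψ x x * -rb Ψ r r) - (s * s) • rb Ψ x x, by simp⟩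
  generalize -fa (E j) (rb Ψ r r) = β at *
  generalize fa (E j) (rb Ψ x x) = α at *
  have aa := qa.sq
  have bb := qb.sq
  have ff := qf.sq
  have e4 : α * f + f * α = 1 := by
    have p1 : α * (1 - α * f - f * α) = 0 := by linear_combination (norm := noncomm_ring) -e1 - aa * f
    have p2 : (1 - α * f - f * α) * α = 0 := by linear_combination (norm := noncomm_ring) -e1 - f * aa
    have p3 : f * (1 - α * f - f * α) = 0 := by linear_combination (norm := noncomm_ring) -e2 - ff * α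
    linear_combination (norm := noncomm_ring) (1 - α * f - f * α) * e3 * (1 - α * f - f * α) - p2 * β * (1 - α * f - f * α) -
      (1 - α * f - f * α) * β * p1 - α * p3 - f * p1
  have wy : ∀ γ, Qd (gX X) γ → α * γ + γ * α = 1 → ∀ a : F, a ≠ 0 → ∃ g ∈ gX X, (g : End F V) = a • α - a⁻¹ • γ :=
    fun γ q e a a0 => by
    obtain ⟨g, hg, e1⟩ := qa.mem a
    obtain ⟨g', hg', e2⟩ := q.mem (-a⁻¹)
    refine ⟨_, mul_mem (mul_mem hg hg') hg, ?_⟩
    have e5 : α * γ * α = α := by linear_combination (norm := noncomm_ring) α * e - aa * γ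
    simp only [Units.val_mul, e1, e2, mul_add, add_mul, smul_mul_assoc, mul_smul_comm, one_mul, mul_one, aa, e5,
      smul_add, smul_smul, smul_zero]
    rw [← e]; match_scalars <;> field_simp <;> ring
  obtain ⟨a, a0, a1⟩ : ∃ a : F, a ≠ 0 ∧ a * a - 1 ≠ 0 := by
    by_contra! H
    refine q3 ((Nat.card_congr (Equiv.Set.univ F)).symm.trans ?_)
    rw [show (Set.univ : Set F) = {0, 1, -1} from (Set.eq_univ_of_forall fun a => by
      by_cases a0 : a = 0
      · simp [a0]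
      · simp [mul_self_eq_one_iff.1 (sub_eq_zero.1 (H a a0))]).symm, Nat.card_coe_set_eq, Set.ncard_eq_three]
    exact ⟨0, 1, -1, by simp, by simp, fun e => h.h2 (by linear_combination e), rfl⟩
  obtain ⟨g1, m1, d1⟩ := wy f qf e4 a a0
  obtain ⟨g2, m2, d2⟩ := wy f qf e4 (-1) (by simp)
  obtain ⟨g3, m3, d3⟩ := wy β qb e3 a⁻¹ (by simpa)
  obtain ⟨g4, m4, d4⟩ := wy β qb e3 (-1) (by simp)
  have e5 : α * (f * β) * α = α * f - α * β := by linear_combination (norm := noncomm_ring) α * f * e3 - e1 * β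
  obtain ⟨s, hs⟩ := nz _ (mul_mem (mul_mem m1 m2) (mul_mem m3 m4)) _ (f * β) (by
    have t1 : α * f * (α * β) = α * β := by rw [← mul_assoc, e1]
    have t2 : α * f * (β * α) = α * f - α * β := by rw [← e5]; simp only [mul_assoc]
    have t3 : f * α * (α * β) = 0 := by linear_combination (norm := noncomm_ring) f * aa * β
    have t4 : f * α * (β * α) = 1 - α * f := by linear_combination (norm := noncomm_ring) e4 + f * α * e3 - f * aa * β
    simp only [Units.val_mul, d1, d2, d3, d4, mul_sub, sub_mul, smul_mul_assoc, mul_smul_comm, aa, bb, ff, e5, smul_zero,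
      zero_sub, sub_zero, mul_neg, neg_mul, t1, t2, t3, t4, smul_neg]
    match_scalars <;> field_simp <;> ring) a1
  obtain ⟨m, hm⟩ := rg s
  refine ⟨m, hm ▸ ?_⟩
  have e6 : α * f = α * β + s • α := by rw [← hs, e5]; abel
  have e7 : f * α = β * α - s • α := by linear_combination (norm := module) e4 - e3 - e6
  have e8 : β * α * β = β := by linear_combination (norm := noncomm_ring) β * e3 - bb * α
  rw [← e2, e7, sub_mul, mul_assoc, smul_mul_assoc, e6, mul_add, ← mul_assoc, e8, mul_smul_comm]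
  module

theorem le_wstab [FiniteDimensional F U] : X ≤ wstab E := fun c hc => by
  have := h.nt
  have := h.ntW
  have inj : ∀ {z : End F V}, (c : End F V) * z * (c⁻¹ : V ≃ₗ[F] V) = 0 → z = 0 := fun {z} e => by
    linear_combination (norm := noncomm_ring) (c⁻¹ : V ≃ₗ[F] V).toLinearMap * e * c.toLinearMap -
      coe_inv_mul c * z * (c⁻¹ : V ≃ₗ[F] V).toLinearMap * c.toLinearMap - z * coe_inv_mul c
  have : ∀ i, ∃ j, ∀ a, ∃ a', (c : End F V) * fa (E i) a * (c⁻¹ : V ≃ₗ[F] V) = fa (E j) a' := fun i => by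
    obtain ⟨x, x0⟩ := exists_ne (0 : W)
    obtain ⟨j, m, e⟩ := h.key h3 hS q3 hc i x0
    have k : ∀ y, Ψ.B x y ≠ 0 → ∃ a', (c : End F V) * fa (E i) (rb Ψ y y) * (c⁻¹ : V ≃ₗ[F] V) = fa (E j) a' := fun y n => by
      have y0 : y ≠ 0 := by rintro rfl; simp at n
      obtain ⟨j', m', e'⟩ := h.key h3 hS q3 hc i y0
      by_cases p : j = j'
      · exact ⟨m', p ▸ e'⟩
      have := (h.comm j j' p m m').eq
      rw [← e, ← e'] at this
      have := fa_inj (e := E i) (a := rb Ψ x x * rb Ψ y y - rb Ψ y y * rb Ψ x x) (inj (by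
        simp only [map_sub, map_mul]
        linear_combination (norm := noncomm_ring) this - c.toLinearMap * fa (E i) (rb Ψ x x) * coe_inv_mul c *
          fa (E i) (rb Ψ y y) * (c⁻¹ : V ≃ₗ[F] V).toLinearMap + c.toLinearMap * fa (E i) (rb Ψ y y) * coe_inv_mul c *
          fa (E i) (rb Ψ x x) * (c⁻¹ : V ≃ₗ[F] V).toLinearMap))
      simpa [h.sp.alt, n, x0, h.sp.skew x y] using LinearMap.congr_fun this x
    let S := ((fa (E j)).range.comap (c.conjAlgEquiv F).toAlgHom).comap (fa (E i))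
    obtain ⟨r, hr⟩ := h.sp.nd.exists_eq_one x0
    have a1 : rb Ψ x x ∈ S := ⟨m, e.symm⟩
    have a2 : rb Ψ r r ∈ S := (k r (by simp [hr])).imp fun _ => Eq.symm
    refine ⟨j, fun a => Exists.imp (fun _ => Eq.symm) (show a ∈ S from ?_)⟩
    convert S.add_mem (S.sub_mem (S.smul_mem (S.mul_mem a1 a2) (Ψ.B r (a x))) (S.smul_mem a1 (Ψ.B r (a r))))
      (S.sub_mem (S.smul_mem (S.mul_mem a2 a1) (-Ψ.B x (a r))) (S.smul_mem a2 (Ψ.B x (a x)))) using 1
    ext v
    rw [h.sp.jac h.two hr v, map_add, map_smul, map_smul, h.sp.jac h.two hr (a x), h.sp.jac h.two hr (a r)]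
    simp [hr, h.sp.alt, h.sp.skew x r, h.sp.skew r (a _)]
    module
  choose π hπ using this
  refine ⟨.ofBijective π (Finite.injective_iff_bijective.1 fun i j e => by_contra fun n => ?_), fun i => tst_of_range (hπ i)⟩
  obtain ⟨a, b, e1⟩ := tst_of_range (hπ i)
  obtain ⟨a', b', e2⟩ := tst_of_range (hπ j)
  obtain ⟨x, x0⟩ := exists_ne (0 : W)
  obtain ⟨k, hk⟩ := scal_of_fa (e := E i) (a := rb Ψ x x) fun m => by
    have e3 := conj_fa e1 m 1
    have e4 := conj_fa e2 ((a'⁻¹ : W ≃ₗ[F] W) * (a * m * (a⁻¹ : W ≃ₗ[F] W)) * a') 1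
    simp only [map_one, mul_one, coe_mul_inv, ← mul_assoc, one_mul] at e3 e4
    rw [mul_assoc _ a'.toLinearMap, coe_mul_inv, mul_one, ← e, ← e3] at e4
    rw [← sub_eq_zero.1 (inj ((congrArg (· * _) (mul_sub _ _ _)).trans ((sub_mul _ _ _).trans (sub_eq_zero.2 e4))))]
    exact h.comm i j n _ _
  exact h.sp.rb_ne x0 x0 (by rw [hk, show k = 0 by simpa [h.sp.alt, x0] using (LinearMap.congr_fun hk x).symm, zero_smul])

end SW2

end Cfsg.Agent.Root.Wr
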