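import Cfsg.Agent.Low.WS5
import Cfsg.Agent.Root.Ten8
import Cfsg.Agent.Asch.Forms2

/-! Maximality of the stabiliser of a tensor power of symplectic spaces in the Eichler group (`SW0.isMax`) and its matrix
form (`isMaximalIn_wreathSp`). -/

set_option autoImplicit false

namespace Cfsg.Agent.Root.Wr

open Cfsg.Agent.Geom Cfsg.Agent.AutCl Module TensorProduct Mx Function

variable {F : Type*} [Field F] {V W U : Type*} [AddCommGroup V] [Module F V] [AddCommGroup W] [Module F W]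
  [AddCommGroup U] [Module F U] {ι : Type*} {Ψ : Formed (RingHom.id F) W} {Φ₂ : Formed (RingHom.id F) U}
  {Φ : Formed (RingHom.id F) V} {E : ι → W ⊗[F] U ≃ₗ[F] V} {X : Subgroup (V ≃ₗ[F] V)} {e : W ⊗[F] U ≃ₗ[F] V}

/-- `g` permutes the factors by `π`. -/
def Act (E : ι → W ⊗[F] U ≃ₗ[F] V) (g : V ≃ₗ[F] V) (π : Equiv.Perm ι) : Prop :=
  ∀ i m, (g : End F V) * fa (E i) m = fa (E (π i)) m * g

theorem Act.mul {g g' : V ≃ₗ[F] V} {π π' : Equiv.Perm ι} (h : Act E g π) (h' : Act E g' π') : Act E (g * g') (π * π') :=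
  fun i m => by rw [LinearEquiv.coe_toLinearMap_mul, mul_assoc, h', ← mul_assoc, h, mul_assoc]; rfl

theorem Act.inv {g : V ≃ₗ[F] V} {π : Equiv.Perm ι} (h : Act E g π) : Act E g⁻¹ π⁻¹ := fun i m => by
  have := h (π⁻¹ i) m
  rw [show π (π⁻¹ i) = i by simp] at this
  linear_combination (norm := noncomm_ring) -(g⁻¹ : V ≃ₗ[F] V).toLinearMap * this * (g⁻¹ : V ≃ₗ[F] V).toLinearMap +
    coe_inv_mul g * fa (E (π⁻¹ i)) m * (g⁻¹ : V ≃ₗ[F] V).toLinearMap -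
    (g⁻¹ : V ≃ₗ[F] V).toLinearMap * fa (E i) m * coe_mul_inv g

theorem Act.mem [Nontrivial W] [FiniteDimensional F U] {g : V ≃ₗ[F] V} {π : Equiv.Perm ι} (h : Act E g π) : g ∈ wstab E :=
  ⟨π, fun i => ⟨1, tst_of_conj (h i)⟩⟩

theorem Sw0.act [Fintype ι] [DecidableEq ι] {K : Subgroup (V ≃ₗ[F] V)} (h : Sw0 E K) (π : Equiv.Perm ι) :
    ∃ g ∈ K, Act E g π := by
  induction π using Equiv.Perm.swap_induction_on with
  | one => exact ⟨1, one_mem _, fun i m => by simp [← Module.End.one_eq_id]⟩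
  | swap_mul π a b _ ih =>
    obtain ⟨g, hg, e⟩ := ih
    obtain ⟨τ, hτ, -, e'⟩ := h a b
    exact ⟨_, mul_mem hτ hg, Act.mul e' e⟩

theorem Sw0.ev [Fintype ι] [DecidableEq ι] (h : Sw0 E Φ.isom) (hC : CEG Φ) {a b c d : ι} (n : a ≠ b) (n' : c ≠ d) :
    ∃ g ∈ EG Φ, Act E g (.swap a b * .swap c d) := by
  obtain ⟨s, hs⟩ := isConj_iff.1 (Equiv.Perm.isConj_swap n n')
  obtain ⟨g, hg, e⟩ := h.act (.swap a b)
  obtain ⟨g', hg', e'⟩ := h.act s
  refine ⟨_, hC g hg g' hg', ?_⟩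
  convert ((e.mul e').mul e.inv).mul e'.inv using 1
  rw [← hs, Equiv.swap_inv]; group

theorem exists_F2 [FiniteDimensional F W] [FiniteDimensional F U] [Nontrivial W] [Nontrivial U] (s : SpF Ψ)
    (nd : Φ.Nondeg) (B : U →ₗ[F] U →ₗ[F] F)
    (hB : ∀ w u w' u', Φ.B (e (w ⊗ₜ u)) (e (w' ⊗ₜ u')) = Ψ.B w w' * B u u')
    (sp : ∀ S : Submodule F U, (∀ x, B x x = 0 → x ∈ S) → ∀ x, x ∈ S) :
    ∃ Φ₂ : Formed (RingHom.id F) U, Φ₂.B = B ∧ Φ₂.Nondeg ∧ ∃ u v, Φ₂.IsPair u v := by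
  obtain ⟨w, w0⟩ := exists_ne (0 : W)
  obtain ⟨r, hr⟩ := s.nd.exists_eq_one w0
  have sy : ∀ x y, B y x = -Φ.ε * B x y := fun x y => by
    have := Φ.symm (e (w ⊗ₜ x)) (e (r ⊗ₜ y))
    simp [hB, hr, s.skew w r] at this
    linear_combination -this
  let Φ₂ : Formed (RingHom.id F) U := ⟨B, 0, -Φ.ε, 0, fun _ => rfl, by simp [Φ.εε], rfl, sy, by simp, by simp, by simp,
    by simp, fun x => by
      by_cases n : -Φ.ε + 1 = 0
      · exact ⟨0, by simp, by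
          simpa using (sp ⟨⟨⟨{x | B x x = 0}, fun {a b} (p : B a a = 0) (q : B b b = 0) => by
            simp [p, q, sy a b]; linear_combination B a b * n⟩, by simp⟩, fun c x (p : B x x = 0) => by simp [p]⟩
            (fun _ => id) x).symm⟩
      · exact ⟨B x x / (-Φ.ε + 1), by simp, by simp; field_simp⟩⟩
  have n₂ : Φ₂.Nondeg := fun u H => tmul_inj (F := F) w0 (e.injective (nd.ext fun v => by
    obtain ⟨v, rfl⟩ := e.surjective v
    induction v with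
    | zero => simp
    | tmul a b => simp [hB, show B u b = 0 from H b]
    | add x y a b => simp only [map_add, a, b]))
  obtain ⟨x, x1, x0⟩ : ∃ x, B x x = 0 ∧ x ≠ 0 := by
    by_contra! H
    obtain ⟨u, u0⟩ := exists_ne (0 : U)
    exact u0 (sp ⊥ H u)
  exact ⟨Φ₂, rfl, n₂, x, n₂.exists_isPair x0 ⟨rfl, x1⟩⟩

theorem not_mem_wstab [FiniteDimensional F W] [Nontrivial U] (t : TW E) (s : SpF Ψ) {i : ι} {w : W} (w0 : w ≠ 0)
    {ζ : End F U} (hζ : ∀ k : F, ζ ≠ k • 1) {g : V ≃ₗ[F] V} (hg : (g : End F V) = 1 + fa (E i) (rb Ψ w w) * fb (E i) ζ) :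
    g ∉ wstab E := fun ⟨π, H⟩ => by
  have : Nontrivial W := ⟨⟨_, _, w0⟩⟩
  obtain ⟨a, b, e2⟩ := H i
  obtain ⟨z, hz⟩ := s.nd.exists_eq_one w0
  have e3 : ∀ y u, E (π i) (a y ⊗ₜ b u) = E i (y ⊗ₜ u + (Ψ.B w y • w) ⊗ₜ ζ u) := fun y u => by
    simpa [e2] using LinearMap.congr_fun hg (E i (y ⊗ₜ u))
  by_cases n : π i = i
  · rw [n] at e3
    have d1 := fun u => congrArg (cL (Ψ.B w)) ((E i).injective (e3 z u))
    have d2 := fun u => congrArg (cL (Ψ.B z)) ((E i).injective (e3 z u))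
    simp [hz, s.alt, s.skew w z] at d1 d2
    refine hζ (-(Ψ.B z (a z) / Ψ.B w (a z))) (LinearMap.ext fun u => ?_)
    obtain ⟨u₀, u0⟩ := exists_ne (0 : U)
    have k0 : Ψ.B w (a z) ≠ 0 := fun e => u0 (by simpa [e] using (d1 u₀).symm)
    conv_rhs => rw [← d1 u]
    simp [smul_smul, mul_div_cancel₀ _ k0, div_mul_cancel₀ _ k0, d2]
  have e4 : fa (E i) (rb Ψ w w) = fa (E (π i)) (a * rb Ψ w w * (a⁻¹ : W ≃ₗ[F] W)) := ext_e (E (π i)) fun y v => by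
    obtain ⟨y, rfl⟩ := a.surjective y
    obtain ⟨v, rfl⟩ := b.surjective v
    rw [fa_tmul, e3, map_add, map_add]; simp [← smul_tmul', e3, s.alt]
  obtain ⟨k, e5⟩ := scal_of_fa (e := E i) (a := rb Ψ w w) fun a' => e4 ▸ t.comm _ _ n _ a'
  exact s.rb_ne w0 w0 (by rw [e5, show k = 0 by simpa [s.alt, w0] using (LinearMap.congr_fun e5 w).symm, zero_smul])

theorem SW0.isMax [Finite F] [FiniteDimensional F W] [FiniteDimensional F U] [FiniteDimensional F V] [Nontrivial W]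
    [Fintype ι] [DecidableEq ι] [Nonempty ι] (h : SW0 Ψ Φ₂ Φ E) (hU : UEG Φ) (hC : CEG Φ)
    (ev : (2 : F) ≠ 0 ∨ Even (finrank F U)) (h3 : 3 ≤ finrank F U) (sw : Sw0 E Φ.isom)
    (hsw : Φ.isom ≤ EG Φ ∨ (2 : F) = 0 ∨ Fintype.card ι ≠ 3)
    (H : 4 ≤ finrank F W ∧ ((2 : F) ≠ 0 ∨ 5 ≤ finrank F W) ∨ Nat.card F ≠ 3 ∧ finrank F W = 2 ∧ (2 : F) ≠ 0 ∧
      4 ≤ Fintype.card ι ∧ ∃ (pv : MultilinearMap F (fun _ : ι => W) V) (κ : F),
      (∀ A : Submodule F V, (∀ x, pv x ∈ A) → ∀ v, v ∈ A) ∧ (∀ x y, Φ.B (pv x) (pv y) = κ * ∏ j, Ψ.B (x j) (y j)) ∧ κ ≠ 0 ∧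
      ∀ j a x, fa (E j) a (pv x) = pv (update x j (a (x j)))) : Geo.IsMaximalIn (EG Φ) (wstab E ⊓ EG Φ) := by
  have := h.nt
  have s := h.sp
  obtain ⟨i⟩ := ‹Nonempty ι›
  refine max_crit inf_le_right ?_ fun X x1 x2 g hg hg' => by_contra fun hS => hg' ⟨?_, x2 hg⟩
  · obtain ⟨w, w0⟩ := exists_ne (0 : W)
    obtain ⟨u, v, hu⟩ := h.ex
    have sg : ∀ u, Φ.Sing (E i (w ⊗ₜ u)) := fun u => ⟨h.Q _ _ _, by simp [h.B, s.alt]⟩
    obtain ⟨g, hg⟩ := exists_isE0 (h.nd i) (sg u) (sg v) (by simp [h.B, s.alt])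
    refine ⟨g, IsE_mem_EG hg, fun m => not_mem_wstab h.toTW s (i := i) w0
      (ζ := rk1 u (Φ₂.B v) - Φ.ε • rk1 v (Φ₂.B u)) (fun k e => ?_) (ext_e (E i) fun y z => ?_) m.1⟩
    · have := hu.finrank_pairPerp h.nd₂
      obtain ⟨y, hy, y0⟩ := exists_notMem_of_lt (U := Φ₂.pairPerp u v) (R := ⊥) (by simp; omega)
      obtain ⟨y1, y2⟩ := Φ₂.mem_pairPerp.1 hy
      obtain rfl : k = 0 := by simpa [y1, y2, show y ≠ 0 from y0] using (LinearMap.congr_fun e y).symm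
      simpa [hu.ef, hu.sf.2, Φ.ε_ne_zero, hu.right_ne_zero] using LinearMap.congr_fun e v
    · simp [hg.app, h.B, tmul_sub, ← smul_tmul', smul_smul, smul_sub, add_sub_assoc, mul_left_comm, mul_comm]
  have k : SW Ψ Φ₂ Φ E X := by
    refine ⟨h, x2.trans EG_le_isom, fun i p a d g hg => x1 ⟨h.lf_mem i g, (mem_EG_comap (E i)).1 (hU.comap _ _
      (congr_mem_isom (h.B i) (.inr (h.Q i)) hg.mem_isom (one_mem _)) 2 (by
        rw [Mx.congr_pow, hg.pow_char (ringChar F)]; exact (congrArg _ (one_pow _)).trans TensorProduct.congr_refl_refl)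
      (ev.imp_right fun e => .inr (finrank_mov_lT (U := U) g ▸ e.mul_left _)))⟩, fun i j l nj nl => ?_⟩
    by_cases e : j = l
    · exact ⟨1, one_mem _, by simp [e, ← Module.End.one_eq_id], by simp [← Module.End.one_eq_id]⟩
    obtain ⟨τ, t1, t2, t3⟩ := sw j l
    have t4 := t3 i
    rw [Equiv.swap_apply_of_ne_of_ne nj.symm nl.symm] at t4
    have fin : τ ∈ EG Φ → _ := fun m => (⟨τ, x1 ⟨Act.mem t3, m⟩, by simpa using t3 j, t4⟩ : ∃ τ ∈ X,
      (∀ a, (τ : End F V) * fa (E j) a = fa (E l) a * τ) ∧ ∀ a, (τ : End F V) * fa (E i) a = fa (E i) a * τ)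
    rcases hsw with a | a | a
    · exact fin (a t1)
    · obtain ⟨b, hb⟩ := tst_of_conj t4
      have e1 : τ = autCongr (E i) (TensorProduct.congr (.refl F W) b) := ext_e' (E i) fun w u => by simp [hb]
      obtain ⟨n, -, -, -, hn, -⟩ := s.nd.exists_isHyp_top s.Q s.alt
      refine fin (e1 ▸ (mem_EG_comap (E i)).1 (hU.comap _ _ ⟨fun x y => ?_, fun x => ?_⟩ 1 ?_
        (.inr (.inr (finrank_mov_rT (W := W) b ▸ Even.mul_right ⟨n, by omega⟩ _)))))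
      · simpa [e1] using t1.1 (E i x) (E i y)
      · simpa [e1] using t1.2 (E i x)
      · rw [ringChar.eq_iff.2 (CharTwo.of_one_ne_zero_of_two_eq_zero one_ne_zero a), pow_one, pow_two,
          ← (autCongr (E i)).map_eq_one_iff, map_mul, ← e1, t2]
    obtain ⟨m, -, hm⟩ := Finset.exists_mem_notMem_of_card_lt_card (s := {i, j, l}) (t := Finset.univ) (by
      have := Finset.card_le_univ {i, j, l}
      rw [Finset.card_eq_three.2 ⟨i, j, l, nj.symm, nl.symm, e, rfl⟩] at *; simp; omega)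
    simp only [Finset.mem_insert, Finset.mem_singleton, not_or] at hm
    obtain ⟨g, hg, e1⟩ := sw.ev hC (Ne.symm hm.2.1) e
    exact ⟨g, x1 ⟨e1.mem, hg⟩, by simpa [Equiv.swap_apply_of_ne_of_ne (Ne.symm e) (Ne.symm hm.2.2)] using e1 j, by
      simpa [Equiv.swap_apply_of_ne_of_ne nj.symm nl.symm, Equiv.swap_apply_of_ne_of_ne nj.symm (Ne.symm hm.1)] using e1 i⟩
  rcases H with ⟨a, b⟩ | ⟨a, b, c, d, pv, κ, p1, p2, p3, p4⟩
  · exact k.le_wstab a b hS hg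
  refine SW2.le_wstab ⟨k, b, c, d, p1, p2, p3, p4, fun a b c d n n' => ?_⟩ ?_ hS a hg
  · exact let ⟨g, hg, e⟩ := sw.ev hC n n'; ⟨g, x1 ⟨e.mem, hg⟩, e⟩
  · rw [← (E i).finrank_eq, finrank_tensorProduct, b]; omega

section Std
open Matrix Asch

variable {m n : ℕ} {κ : Type} [Fintype κ] [DecidableEq κ] (e : κ ≃ (Fin n → Fin m)) (P : GL κ F)

/-- The pure tensors of the frame. -/
noncomputable def pvM : MultilinearMap F (fun _ : Fin n => Fin m → F) (κ → F) :=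
  (tv e P).toLinearMap.compMultilinearMap (MultilinearMap.pi fun a =>
    (MultilinearMap.mkPiAlgebra F (Fin n) F).compLinearMap fun i => LinearMap.proj (a i))

theorem pvM_apply (x : Fin n → Fin m → F) : pvM e P x = tv e P (pv x) := rfl

theorem pv_span (A : Submodule F ((Fin n → Fin m) → F)) (h : ∀ x, pv x ∈ A) (v : (Fin n → Fin m) → F) : v ∈ A := by
  rw [pi_eq_sum_univ' v]
  exact sum_mem fun a _ => A.smul_mem _ (single_eq_pv (F := F) a ▸ h _)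

theorem pvM_span (A : Submodule F (κ → F)) (h : ∀ x, pvM e P x ∈ A) (v : κ → F) : v ∈ A := by
  simpa using pv_span (A.comap (tv e P).toLinearMap) h ((tv e P).symm v)

theorem sE_dot (i : Fin (n + 1)) (w w' : Fin m → F) (u u' : (Fin n → Fin m) → F) :
    sE F m i (w ⊗ₜ u) ⬝ᵥ sE F m i (w' ⊗ₜ u') = (w ⬝ᵥ w') * (u ⬝ᵥ u') := by
  rw [dotProduct, ← (Fin.insertNthEquiv (fun _ => Fin m) i).sum_comp, Fintype.sum_prod_type]
  simp only [dotProduct, Finset.sum_mul_sum, sE_tmul]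
  refine Finset.sum_congr rfl fun k _ => Finset.sum_congr rfl fun y _ => ?_
  rw [show i.removeNth (Fin.insertNthEquiv (fun _ => Fin m) i (k, y)) = y from funext fun j => by simp [Fin.removeNth]]
  simp; ring

theorem sE_pv (i : Fin (n + 1)) (w : Fin m → F) (x : Fin n → Fin m → F) :
    sE F m i (w ⊗ₜ pv x) = pv (i.insertNth w x) := funext fun a => by
  simp [sE_tmul, pv, Fin.prod_univ_succAbove _ i, Fin.removeNth]

theorem isMaximalIn_wreathSp [Fintype F] (e : κ ≃ (Fin (n + 1) → Fin m)) {Φ : Formed (RingHom.id F) (κ → F)}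
    (nd : Φ.Nondeg) (ns : NotSp2 Φ) (hU : UEG Φ) (hC : CEG Φ) {f₁ : (Fin m → F) → (Fin m → F) → F}
    (hf₁ : Geo.IsSymplecticForm f₁) (hT : Geo.IsTensorPowerFormStructure id (fun u v => Φ.B u v) f₁ e P)
    (hQ : ∀ x, Φ.Q (tv e P (pv x)) = 0) (hn : 1 ≤ n) (hsw : Φ.isom ≤ EG Φ ∨ (2 : F) = 0 ∨ n ≠ 2)
    (H : 4 ≤ m ∧ ((2 : F) ≠ 0 ∨ 5 ≤ m) ∨ Fintype.card F ≠ 3 ∧ m = 2 ∧ (2 : F) ≠ 0 ∧ 3 ≤ n) {K : Subgroup (GL κ F)}
    (hK : ∀ g, g ∈ K ↔ glEquiv κ F g ∈ EG Φ) : Geo.IsMaximalIn K (Geo.tensorWreathSubgroup m (n + 1) e P ⊓ K) := by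
  have m2 : 2 ≤ m := by omega
  have : Nonempty (Fin m) := ⟨⟨0, by omega⟩⟩
  have : Nontrivial (Fin m → F) := inferInstance
  obtain ⟨Ψ, a1, a2, a3, a4, a5, a6⟩ := exists_symp' hf₁ one_ne_zero
  have s : SpF Ψ := ⟨a1, a3, a4, a5, a6⟩
  obtain ⟨c, c0, hc⟩ := hT
  set G := Geo.gramMatrix f₁ with hG
  have b1 : ∀ u v, Ψ.B u v = u ⬝ᵥ G *ᵥ v := fun u v => by rw [a2, one_mul, ← formOfGram_bilin hf₁.bilinear, formOfGram_eq]; rfl
  have b2 : ∀ x y, Φ.B (tv e P x) (tv e P y) = c * (x ⬝ᵥ ptens (fun _ => G) *ᵥ y) := fun x y =>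
    (hc x y).trans (congrArg _ (formOfGram_eq id (ptens fun _ => G) x y))
  have pB : ∀ x y, Φ.B (pvM e P x) (pvM e P y) = c * ∏ j, Ψ.B (x j) (y j) := fun x y => by
    simp only [pvM_apply, b2, ptens_mulVec_pv, pv_dot, b1]
  have hB : ∀ i w u w' u', Φ.B (pE e P i (w ⊗ₜ u)) (pE e P i (w' ⊗ₜ u')) =
      Ψ.B w w' * (c • Matrix.toBilin' (ptens fun _ : Fin n => G)) u u' := fun i w u w' u' => by
    simp only [pE, LinearEquiv.trans_apply, b2, ptens_sE, sE_dot, b1, LinearMap.smul_apply, toBilin'_apply', smul_eq_mul]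
    exact mul_left_comm _ _ _
  obtain ⟨Φ₂, d1, d2, d3⟩ := exists_F2 s nd _ (hB 0) fun S hS => pv_span S fun x => hS _ (by
    simp only [LinearMap.smul_apply, toBilin'_apply', ptens_mulVec_pv, pv_dot, ← b1]
    rw [Finset.prod_eq_zero (Finset.mem_univ (⟨0, hn⟩ : Fin n)) (a6 _), smul_zero])
  obtain ⟨k, -, -, -, hk, -⟩ := a1.exists_isHyp_top a4 a6
  refine isMaximalIn_inf _ (SW0.isMax (Ψ := Ψ) (Φ₂ := Φ₂) ⟨tw_pE e P, s, d1 ▸ hB, fun i w u => ?_, d2, d3, ns⟩ hU hC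
    (.inr ?_) ?_ (fun j l => ⟨_, ?_, pperm_swap e P j l, pperm_pE e P _⟩) (by simpa using hsw)
    (H.imp (by simp) fun ⟨p, q, r, s⟩ => ⟨by simpa, by simpa, r, by simpa, pvM e P, c, pvM_span e P, pB, c0,
      fun j a x => ?_⟩)) hK fun g => mem_wreath e P
  · exact pv_span ⟨⟨⟨{u | Φ.Q (pE e P i (w ⊗ₜ u)) = 0}, fun {a b} (p : _ = _) (q : _ = _) => by
      simp [tmul_add, Φ.Q_add, p, q, hB, a6]⟩, by simp⟩, fun c x (p : _ = _) => by simp [Φ.Q_smul, p]⟩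
      (fun x => by simpa [pE, sE_pv] using hQ _) u
  · simpa using (Nat.even_pow' (by omega)).2 ⟨k, by simp at hk; omega⟩
  · simp only [finrank_pi, Fintype.card_pi, Fintype.card_fin, Finset.prod_const, Finset.card_univ]
    rcases H with ⟨p, -⟩ | ⟨-, rfl, -, p⟩
    · exact (show 3 ≤ m by omega).trans (Nat.le_self_pow (by omega) m)
    · exact (show 3 ≤ 2 ^ 3 by norm_num).trans (Nat.pow_le_pow_right (by norm_num) p)
  · generalize Equiv.swap j l = π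
    have e1 : ∀ x, glEquiv κ F (tg e P (pperm F m π)) (pvM e P x) = pvM e P (x ∘ π.symm) := fun x => by
      rw [pvM_apply, glEquiv_apply, tg_mulVec]; exact congrArg _ (pperm_mulVec_pv π x)
    generalize glEquiv κ F (tg e P (pperm F m π)) = g at e1
    have e2 : ∀ u v, Φ.B (g u) (g v) = Φ.B u v := fun u v =>
      pvM_span e P (LinearMap.eqLocus (Φ.B (g u) ∘ₗ g.toLinearMap) (Φ.B u)) (fun y =>
        pvM_span e P (LinearMap.eqLocus (Φ.B.flip (g (pvM e P y)) ∘ₗ g.toLinearMap) (Φ.B.flip (pvM e P y))) (fun x => by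
          simpa [e1, pB, c0] using Equiv.prod_comp π.symm fun j => Ψ.B (x j) (y j)) u) v
    exact ⟨e2, pvM_span e P ⟨⟨⟨{u | Φ.Q (g u) = Φ.Q u}, fun {a b} (p : _ = _) (q : _ = _) => by
      simp [Φ.Q_add, p, q, e2]⟩, by simp⟩, fun c x (p : _ = _) => by simp [Φ.Q_smul, p]⟩
      fun x => show Φ.Q (g _) = _ by rw [e1]; simp [pvM_apply, hQ]⟩
  obtain ⟨a, rfl⟩ := toLin'.surjective a
  rw [fa_pE, pvM_apply, toLin'_apply, tp_mulVec, fac_apply, ptens_mulVec_pv, pvM_apply]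
  congr 2; funext l
  by_cases e : l = j
  · simp [e]
  · simp [e]

end Std

end Cfsg.Agent.Root.Wr
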