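import Cfsg.Agent.Low.WS6

/-! Arithmetic glue for the symplectic tensor wreath rows: the dimension of a symplectic factor is even (`even_of_symp`). -/

set_option autoImplicit false

namespace Cfsg.Agent.Root.Wr

open Cfsg.Agent.Geom Module Mx

theorem even_of_symp {F : Type*} [Field F] {k : ℕ} {f₁ : (Fin k → F) → (Fin k → F) → F}
    (hf₁ : Geo.IsSymplecticForm f₁) : Even k := by
  obtain ⟨Ψ, a1, -, -, a4, -, a6⟩ := exists_symp' hf₁ one_ne_zero
  obtain ⟨j, -, -, -, hj, -⟩ := a1.exists_isHyp_top a4 a6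
  exact ⟨j, by simp at hj; omega⟩

theorem card_of_equiv {κ : Type*} [Fintype κ] {k t : ℕ} (e : κ ≃ (Fin t → Fin k)) : Fintype.card κ = k ^ t := by
  simpa using Fintype.card_congr e

end Cfsg.Agent.Root.Wr
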