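import Cfsg.Agent.Low.WS6

/-! Unitary factors of a tensor-power frame (`UF`): the maps `N_x` (`x` isotropic) span the trace zero maps (`UF.span`),
extraction from invariant subspaces (`UF.exists_blk`) and invariant algebras (`UF.alg`). -/

set_option autoImplicit false

namespace Cfsg.Agent.Root.Wr

open Cfsg.Agent.Geom Cfsg.Agent.AutCl Module TensorProduct Mx

variable {F : Type*} [Field F] {σ : F →+* F} {V W U : Type*} [AddCommGroup V] [Module F V] [AddCommGroup W] [Module F W]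
  [AddCommGroup U] [Module F U] {ι : Type*} {e : W ⊗[F] U ≃ₗ[F] V} {Ψ : Formed σ W}

/-- A unitary space of dimension at least three. -/
structure UF (Ψ : Formed σ W) : Prop extends Mx.HD Ψ where
  ne : σ ≠ RingHom.id F
  three : 3 ≤ finrank F W

/-- The map `v ↦ B(x, v) x`. -/
abbrev nx (Ψ : Formed σ W) (x : W) : End F W := rk1 x (Ψ.B x)

/-- Invariance under the Eichler maps of the first factor. -/
def Iu (Ψ : Formed σ W) (e : W ⊗[F] U ≃ₗ[F] V) (R : Set (End F V)) : Prop :=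
  ∀ ρ ∈ R, ∀ p a d g, IsE Ψ p a d g → fa e g * ρ * fa e (g⁻¹ : W ≃ₗ[F] W) ∈ R

theorem conj_rk {g : W ≃ₗ[F] W} (hg : g ∈ Ψ.isom) (y z : W) (b : End F U) :
    fa e g * (fa e (rk1 y (Ψ.B z)) * fb e b) * fa e (g⁻¹ : W ≃ₗ[F] W) = fa e (rk1 (g y) (Ψ.B (g z))) * fb e b :=
  ext_e e fun w u => by simp [← hg.1 z (g.symm w)]

theorem nx_sq {x : W} (hx : Ψ.Sing x) : nx Ψ x * nx Ψ x = 0 := rk1_mul_zero hx.2

theorem nx_smul (c : F) (x : W) : nx Ψ (c • x) = (c * σ c) • nx Ψ x := by ext; simp [smul_smul]; ring_nf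

namespace UF
variable (s : UF Ψ)
include s

theorem symm (x y : W) : Ψ.B y x = σ (Ψ.B x y) := by simp [Ψ.symm x y, s.ε]

theorem sing {x : W} (h : Ψ.B x x = 0) : Ψ.Sing x := ⟨s.Q x, h⟩

theorem tp : ∃ t : F, t ≠ 0 ∧ σ t = -t :=
  let ⟨t, a, _, b⟩ := exists_TP s.ne s.τ s.ε; ⟨t, a, by rw [s.ε] at b; linear_combination b⟩

theorem mkTP {t : F} (a : t ≠ 0) (b : σ t = -t) : TP Ψ t := ⟨a, by simp [s.τ], by simp [s.ε, b]⟩

theorem kap : ∃ k : F, σ k - k ≠ 0 := let ⟨a, ha⟩ := DFunLike.ne_iff.1 s.ne; ⟨a, sub_ne_zero.2 ha⟩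

theorem ntW : Nontrivial W := nontrivial_of_finrank_pos (R := F) (by have := s.three; omega)

theorem pair_symm {e f : W} (h : Ψ.IsPair e f) : Ψ.IsPair f e := ⟨h.sf, h.se, by simp [s.symm e f, h.ef]⟩

variable [FiniteDimensional F W]

theorem tv {x : W} (hx : Ψ.Sing x) {c : F} (hc : σ c = -c) : ∃ g, IsE Ψ x 0 c g ∧ (g : End F W) = 1 - c • nx Ψ x ∧
    ((g⁻¹ : W ≃ₗ[F] W) : End F W) = 1 + c • nx Ψ x := by
  obtain ⟨g, hg⟩ := exists_isE s.nd (a := 0) (d := c) hx (by simp) (by simp [s.τ, s.Q]) (by simp [s.ε, hc])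
  exact ⟨g, hg, LinearMap.ext fun v => by simp [hg.app, smul_smul, sub_eq_add_neg],
    LinearMap.ext fun v => g.symm_apply_eq.2 (by simp [hg.app, hx.2, smul_smul])⟩

theorem nx_ne {x : W} (x0 : x ≠ 0) : nx Ψ x ≠ 0 := fun e => by
  obtain ⟨r, hr⟩ := s.nd.exists_eq_one x0
  simpa [hr, x0] using LinearMap.congr_fun e r

theorem both {w z : W} (hw : Ψ.Sing w) (w0 : w ≠ 0) (hz : Ψ.Sing z) (z0 : z ≠ 0) :
    ∃ r, Ψ.Sing r ∧ Ψ.B w r ≠ 0 ∧ Ψ.B z r ≠ 0 := by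
  by_cases e : Ψ.B w z = 0
  · obtain ⟨r, -, a⟩ := exists_sing_both s.nd (nondeg_top s.nd) trivial w0 hw trivial z0 (Ψ.B_eq_zero_symm e)
    exact ⟨r, a⟩
  obtain ⟨t, t0, ht⟩ := s.tp
  have : σ (Ψ.B w z) ≠ 0 := by simpa
  exact ⟨w + (t / Ψ.B w z) • z, s.sing (by simp [hw.2, hz.2, s.symm w z, ht, e, this]), by simp [hw.2, e, t0],
    by simp [hz.2, s.symm w z, e]⟩

theorem trans {P : W → Prop} (hs : ∀ c : F, c ≠ 0 → ∀ w, P w → P (c • w))
    (hE : ∀ p a d g, IsE Ψ p a d g → ∀ w, P w → P (g w)) {w z : W} (hw : Ψ.Sing w) (w0 : w ≠ 0) (H : P w)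
    (hz : Ψ.Sing z) (z0 : z ≠ 0) : P z := by
  obtain ⟨r, hr, a, b⟩ := s.both hw w0 hz z0
  replace a : Ψ.B r w ≠ 0 := fun e => a (Ψ.B_eq_zero_symm e)
  replace b : Ψ.B r z ≠ 0 := fun e => b (Ψ.B_eq_zero_symm e)
  obtain ⟨_, -, d, g, hg, e⟩ := exists_isE_apply s.nd (isPair_smul hr hw a) (isPair_smul hr hz b)
  simpa [e, b] using hs _ b _ (hE _ _ _ _ hg _ (hs _ (inv_ne_zero a) _ H))

theorem shift {w x : W} (hx : Ψ.Sing x) (e : Ψ.B x w = 0) (hv : w ∉ F ∙ x) (k : F) :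
    ∃ a d g, IsE Ψ x a d g ∧ g w = w + k • x := by
  obtain ⟨a, -, a1, a2⟩ := sep s.nd (nondeg_top s.nd) le_top trivial hv
  obtain ⟨d, g, hg⟩ := exists_isE' s.nd hx (a := σ k • a) (by simp [Ψ.mem_perp_span_singleton.1 a1])
  exact ⟨_, d, g, hg, by simp [hg.app, e, s.symm w a, a2, Ψ.σσ]⟩

variable [Finite F]

theorem pair : ∃ e f, Ψ.IsPair e f :=
  let ⟨u, _, r, _, h⟩ := exists_pair s.nd (nondeg_top s.nd) (by simpa using s.three); ⟨u, r, h⟩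

theorem two (T R : Submodule F W) (e : finrank F R + 2 ≤ finrank F T) : ∃ x ∈ T, x ∉ R ∧ Ψ.Sing x := by
  obtain ⟨C, hC⟩ := R.exists_isCompl
  have := Submodule.finrank_add_eq_of_isCompl hC
  have := Submodule.finrank_sup_add_finrank_inf_eq T C
  have := (T ⊔ C).finrank_le
  obtain ⟨x, hx, x0, hs⟩ := exists_sing_herm s.ne s.ε s.Q (T := T ⊓ C) (by omega)
  exact ⟨x, hx.1, fun e => x0 (Submodule.disjoint_def.1 hC.disjoint x e hx.2), hs⟩

theorem sing_perp (h4 : 4 ≤ finrank F W) (w : W) : ∃ x, x ∉ F ∙ w ∧ Ψ.Sing x ∧ Ψ.B w x = 0 := by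
  have := finrank_pf (Φ := Ψ) ![w] ⊤
  obtain ⟨x, hx, a⟩ := s.two (⊤ ⊓ pf Ψ ![w]) (F ∙ w) (by
    have := finrank_span_one (F := F) w; rw [finrank_top] at *; omega)
  exact ⟨x, a.1, a.2, mem_pf.1 hx.2 0⟩

theorem span0 {M : Type*} [AddCommGroup M] [Module F M] (β : W →ₗ[F] Dual F W →ₗ[F] M)
    (h : ∀ x, Ψ.Sing x → β x (Ψ.B x) = 0) {e f : W} (hp : Ψ.IsPair e f) (h1 : β e (Ψ.B f) = 0) (x y : W) :
    β x (Ψ.B y) = 0 := by
  obtain ⟨t, t0, ht⟩ := s.tp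
  obtain ⟨k, hk⟩ := s.kap
  have h2 : β f (Ψ.B e) = 0 := by
    simpa [h _ hp.se, h _ hp.sf, h1, t0] using h (e + t • f) (s.sing (by simp [hp.se.2, hp.sf.2, hp.ef, s.symm e f, ht]))
  have k1 : ∀ {e f}, Ψ.IsPair e f → β e (Ψ.B f) = 0 → β f (Ψ.B e) = 0 → ∀ a, Ψ.B e a = 0 → Ψ.B f a = 0 → ∀ d,
      d + σ d = Ψ.B a a → β e (Ψ.B a) + β a (Ψ.B e) + β a (Ψ.B a) = d • β f (Ψ.B a) + σ d • β a (Ψ.B f) :=
    fun {e f} hp h1 h2 a a1 a2 d hd => by
    have := h (e + a - d • f) (s.sing (by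
      simp [hp.se.2, hp.sf.2, hp.ef, s.symm e f, s.symm e a, s.symm f a, a1, a2]; linear_combination -hd))
    simp [h _ hp.se, h _ hp.sf, h1, h2] at this
    linear_combination (norm := module) this
  have tr : ∀ a, ∃ d, d + σ d = Ψ.B a a := fun a => (Ψ.trace a).imp fun d e => by simpa [s.ε] using e.2
  have k2 : ∀ {e f}, Ψ.IsPair e f → β e (Ψ.B f) = 0 → β f (Ψ.B e) = 0 → ∀ a, Ψ.B e a = 0 → Ψ.B f a = 0 →
      β f (Ψ.B a) = 0 ∧ β a (Ψ.B f) = 0 := fun {e f} hp h1 h2 a a1 a2 => by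
    have k3 : ∀ a, Ψ.B e a = 0 → Ψ.B f a = 0 → β f (Ψ.B a) = β a (Ψ.B f) := fun a a1 a2 => by
      obtain ⟨d, hd⟩ := tr a
      have := (k1 hp h1 h2 a a1 a2 d hd).symm.trans (k1 hp h1 h2 a a1 a2 (d + t) (by rw [map_add, ht, ← hd]; ring))
      rw [map_add, ht] at this
      exact smul_right_injective M t0 (by linear_combination (norm := module) -this)
    have e1 := k3 (k • a) (by simp [a1]) (by simp [a2])
    have e2 := k3 a a1 a2
    simp [e2] at e1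
    have : β a (Ψ.B f) = 0 := (smul_eq_zero.1 (by rw [sub_smul, e1, sub_self])).resolve_left hk
    exact ⟨e2.trans this, this⟩
  have q : ∀ x, β x (Ψ.B x) = 0 := fun x => by
    obtain ⟨α, γ, a, ha, rfl⟩ := hp.exists_decomp x
    obtain ⟨a1, a2⟩ := Ψ.mem_pairPerp.1 ha
    obtain ⟨d, hd⟩ := tr a
    obtain ⟨b1, b2⟩ := k2 hp h1 h2 a a1 a2
    obtain ⟨b3, b4⟩ := k2 (s.pair_symm hp) h2 h1 a a2 a1
    have := k1 hp h1 h2 a a1 a2 d hd
    simp [b1, b2, b3, b4] at this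
    simp [h _ hp.se, h _ hp.sf, h1, h2, b1, b2, b3, b4, this]
  have e1 := q (x + y)
  have e2 := q (x + k • y)
  simp [q] at e1 e2
  exact (smul_eq_zero.1 (by linear_combination (norm := module) e2 - k • e1)).resolve_left hk

theorem span {M : Type*} [AddCommGroup M] [Module F M] (β : W →ₗ[F] Dual F W →ₗ[F] M) (S : Submodule F M)
    (h : ∀ x, Ψ.Sing x → β x (Ψ.B x) ∈ S) (x : W) (ψ : Dual F W) (e : ψ x = 0) : β x ψ ∈ S := by
  obtain ⟨p, f, hp⟩ := s.pair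
  obtain ⟨y, rfl⟩ := s.nd.exists_eq_B ψ
  simpa [e] using s.span0 ((β - (Dual.eval F W).compr₂ (LinearMap.toSpanSingleton F M (β p (Ψ.B f)))).compr₂ S.mkQ)
    (fun x hx => by simpa [hx.2] using h x hx) hp (by simp [s.symm p f, hp.ef]) x y

theorem top (S : Submodule F (End F W)) (hm : ∀ a ∈ S, ∀ b ∈ S, a * b ∈ S) (h : ∀ x, Ψ.Sing x → nx Ψ x ∈ S) (a : End F W) :
    a ∈ S := top_of_rk1 s.three S hm (s.span LinearMap.smulRightₗ.flip S h) a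

theorem exists_blk0 {ρ : End F V} (n : ¬ ∀ a, Commute ρ (fa e a)) : ∃ x, Ψ.Sing x ∧ x ≠ 0 ∧ blk e ρ (Ψ.B x) x ≠ 0 := by
  by_contra! hc
  exact n (comm_of_blk (s.span (LinearMap.mk₂ F (fun x ψ => blk e ρ ψ x) (fun _ _ _ => by ext; simp [blk, add_tmul])
    (fun _ _ _ => by ext; simp [blk, ← smul_tmul']) (fun _ _ _ => by ext; simp [blk]) fun _ _ _ => by ext; simp [blk]) ⊥
    fun x hx => by
      by_cases x0 : x = 0
      · simp [x0]
      · exact hc x hx x0))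

omit [Finite F] in
theorem nn (R : AddSubgroup (End F V)) (h : Iu Ψ e R) {t : F} (ht : σ t = t) (hR : ∀ ρ ∈ R, t • ρ ∈ R) {c : F}
    (hc : σ c = -c) {ρ : End F V} (hρ : ρ ∈ R) {x : W} (hx : Ψ.Sing x) :
    (t * (t - 1) * (c * c)) • (fa e (nx Ψ x) * ρ * fa e (nx Ψ x)) ∈ R := by
  obtain ⟨g, hg, a, b⟩ := s.tv hx hc
  obtain ⟨g', hg', a', b'⟩ := s.tv hx (c := t * c) (by simp [ht, hc])
  convert sub_mem (hR _ (sub_mem (h ρ hρ _ _ _ _ hg) hρ)) (sub_mem (h ρ hρ _ _ _ _ hg') hρ) using 1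
  simp only [a, b, a', b', map_add, map_sub, map_smul, map_one, mul_add, sub_mul, mul_one, one_mul, smul_mul_assoc,
    mul_smul_comm]
  module

omit [Finite F] in
theorem spread {R : Set (End F V)} (h : Iu Ψ e R) (hR : ∀ ρ ∈ R, ∀ c : F, (c * σ c) • ρ ∈ R) {b : End F U} {y : W}
    (hy : Ψ.Sing y) (y0 : y ≠ 0) (H : fa e (nx Ψ y) * fb e b ∈ R) (x : W) (hx : Ψ.Sing x) : fa e (nx Ψ x) * fb e b ∈ R := by
  by_cases x0 : x = 0
  · simpa [x0, show nx Ψ 0 = 0 by ext; simp] using hR _ H 0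
  exact s.trans (P := fun x => fa e (nx Ψ x) * fb e b ∈ R) (fun c _ w H => by simpa [nx_smul] using hR _ H c)
    (fun p a d g hg w H => conj_rk (e := e) hg.mem_isom w w b ▸ h _ H _ _ _ _ hg) hy y0 H hx x0

variable (hq : (∃ t : F, σ t = t ∧ t ≠ 0 ∧ t ≠ 1) ∨ 4 ≤ finrank F W)
include hq

theorem exists_blk (R : Submodule F (End F V)) (h : Iu Ψ e R) {ρ : End F V} (hρ : ρ ∈ R) (n : ¬ ∀ a, Commute ρ (fa e a)) :
    ∃ b ≠ 0, ∀ x ψ, ψ x = 0 → fa e (rk1 x ψ) * fb e b ∈ R := by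
  obtain ⟨x, hx, x0, b0⟩ := s.exists_blk0 n
  obtain ⟨c, c0, hc⟩ := s.tp
  suffices H : ∃ b ≠ 0, fa e (nx Ψ x) * fb e b ∈ R from H.imp fun b H => ⟨H.1, s.span
    (LinearMap.smulRightₗ.flip.compr₂ (LinearMap.mulRight F (fb e b) ∘ₗ (fa e).toLinearMap)) R
    (s.spread h (fun ρ a c => R.smul_mem _ a) hx x0 H.2)⟩
  rcases hq with ⟨t, a1, a2, a3⟩ | h4
  · have := s.nn R.toAddSubgroup h a1 (fun ρ a => R.smul_mem _ a) hc hρ hx
    rw [fa_mul_fa] at this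
    exact ⟨_, b0, (R.smul_mem_iff (by simp [a2, c0, sub_eq_zero, a3])).1 this⟩
  obtain ⟨z, z1, hz, z2, b1⟩ : ∃ z, z ∉ F ∙ x ∧ Ψ.Sing z ∧ Ψ.B x z = 0 ∧ blk e ρ (Ψ.B x) z ≠ 0 := by
    by_contra! hc
    obtain ⟨z, z1, hz, z2⟩ := s.sing_perp h4 x
    have := hc (x + z) (by rwa [add_mem_cancel_left (Submodule.mem_span_singleton_self x)]) (sing_add_of_perp hx hz z2)
      (by simp [hx.2, z2])
    rwa [show blk e ρ (Ψ.B x) (x + z) = blk e ρ (Ψ.B x) x + blk e ρ (Ψ.B x) z by ext; simp [blk, add_tmul],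
      hc z z1 hz z2, add_zero, ← not_ne_iff, not_iff_false_intro b0] at this
  have z3 := Ψ.B_eq_zero_symm z2
  have H : fa e (rk1 x (Ψ.B z)) * fb e (blk e ρ (Ψ.B x) z) + fa e (rk1 z (Ψ.B x)) * fb e (blk e ρ (Ψ.B z) x) ∈ R := by
    obtain ⟨g, hg, a, b⟩ := s.tv hx hc
    obtain ⟨g', hg', a', b'⟩ := s.tv hz hc
    have H1 := R.sub_mem (h ρ hρ _ _ _ _ hg) hρ
    have e1 : fa e (c • nx Ψ x) * fa e (c • nx Ψ z) = 0 := by simp [← map_mul, rk1_mul_zero z2]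
    have e2 : fa e (c • nx Ψ z) * fa e (c • nx Ψ x) = 0 := by simp [← map_mul, rk1_mul_zero z3]
    rw [← R.smul_mem_iff (mul_ne_zero c0 c0), ← fa_mul_fa, ← fa_mul_fa]
    convert R.sub_mem H1 (h _ H1 _ _ _ _ hg') using 1
    rw [show (c * c) • (fa e (nx Ψ x) * ρ * fa e (nx Ψ z) + fa e (nx Ψ z) * ρ * fa e (nx Ψ x)) =
      fa e (c • nx Ψ x) * ρ * fa e (c • nx Ψ z) + fa e (c • nx Ψ z) * ρ * fa e (c • nx Ψ x) by simp [smul_smul]]
    simp only [a, b, a', b', map_add, map_sub, map_one]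
    generalize fa e (c • nx Ψ x) = A at *
    generalize fa e (c • nx Ψ z) = B at *
    linear_combination (norm := noncomm_ring) e2 * ρ + e2 * ρ * A + e2 * ρ * B + e2 * ρ * A * B + ρ * e1 - A * ρ * e1 -
      B * ρ * e1
  have k : ∀ k : F, fa e (nx Ψ x) * fb e (σ k • blk e ρ (Ψ.B x) z + k • blk e ρ (Ψ.B z) x) ∈ R := fun k => by
    obtain ⟨a, d, g, hg, e1⟩ := s.shift hx z2 z1 k
    convert R.sub_mem (h _ H _ _ _ _ hg) H using 1
    rw [mul_add, add_mul, conj_rk hg.mem_isom, conj_rk hg.mem_isom, e1, hg.apply_p]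
    exact ext_e e fun w u => by simp [add_tmul, tmul_add, ← smul_tmul', smul_smul, add_smul]; module
  obtain ⟨κ, hκ⟩ := s.kap
  by_contra! hc
  have e1 := not_imp_not.1 (hc _) (k 1)
  have e2 := not_imp_not.1 (hc _) (k κ)
  rw [map_one] at e1
  exact b1 ((smul_eq_zero.1 (by linear_combination (norm := module) e2 - κ • e1)).resolve_left hκ)

/-- A non-zero invariant subalgebra consists of scalars or contains a factor. -/
theorem alg {E : ι → W ⊗[F] U ≃ₗ[F] V} [Nontrivial U] (h : TW E) (i₀ : ι) (J : Finset ι) (R : Submodule F (End F V))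
    (hm : ∀ a ∈ R, ∀ b ∈ R, a * b ∈ R) (h0 : ∀ ρ ∈ R, ∀ l ∉ J, ∀ a, Commute ρ (fa (E l) a))
    (hc : ∀ j ∈ J, Iu Ψ (E j) R) {ρ : End F V}
    (hρ : ρ ∈ R) : (∃ k : F, ρ = k • 1) ∨ ∃ j ∈ J, ∀ a, fa (E j) a ∈ R := by
  classical
  have h3 := s.three
  have := s.ntW
  induction J using Finset.strongInduction generalizing R ρ with | _ J ih =>
  by_cases H : ∀ j ∈ J, ∀ a, Commute ρ (fa (E j) a)
  · exact .inl (h.scal i₀ fun j => by
      by_cases hj : j ∈ J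
      exacts [H j hj, h0 ρ hρ j hj])
  obtain ⟨j, hj, n⟩ : ∃ j ∈ J, ¬ ∀ a, Commute ρ (fa (E j) a) := by simpa using H
  obtain ⟨b, b0, hb⟩ := s.exists_blk hq R (hc j hj) hρ n
  let R' : Submodule F (End F V) :=
    { carrier := {ρ | (∀ l ∉ J.erase j, ∀ a, Commute ρ (fa (E l) a)) ∧ ∀ x ψ, ψ x = 0 → fa (E j) (rk1 x ψ) * ρ ∈ R}
      zero_mem' := by simp
      add_mem' := fun p q => ⟨fun l hl a => (p.1 l hl a).add_left (q.1 l hl a), fun x ψ e => by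
        rw [mul_add]; exact add_mem (p.2 x ψ e) (q.2 x ψ e)⟩
      smul_mem' := fun k _ p => ⟨fun l hl a => (p.1 l hl a).smul_left k, fun x ψ e => by
        rw [mul_smul_comm]; exact R.smul_mem k (p.2 x ψ e)⟩ }
  have m1 : fb (E j) b ∈ R' := ⟨fun l hl a => by
    by_cases e : l = j
    · exact e ▸ (fa_fb _ _).symm
    obtain ⟨φ, ⟨y, p⟩, -⟩ := exists_fun2 h3 (0 : W) 0
    obtain ⟨x, x0, q, -⟩ := exists_ker2 h3 φ φ
    exact h.cm e (m := rk1 x φ) (fun e => x0 (by simpa [p] using LinearMap.congr_fun e y)) (fun a => (fa_fb _ _).symm)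
      (h0 _ (hb x φ q) l (by simpa [e] using hl) a), hb⟩
  have m2 : 1 ∈ R' := by
    refine (ih _ (Finset.erase_ssubset hj) R' (fun p hp q hq => ⟨fun l hl a => (hp.1 l hl a).mul_left (hq.1 l hl a),
      fun x ψ e => ?_⟩) (fun _ p => p.1) (fun l hl p hp y a d g hg => ⟨fun l' hl' a => ?_, fun x ψ e' => ?_⟩) m1).elim
      (fun ⟨k, e⟩ => ?_) fun ⟨l, _, e⟩ => by simpa using e 1
    rotate_left 3
    · have k0 : k ≠ 0 := by rintro rfl; exact b0 (fb_inj (e := E j) (by simpa using e))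
      simpa [e, k0] using R'.smul_mem k⁻¹ m1
    · obtain ⟨z, z1, z2⟩ := exists_ker_notMem h3 ψ x
      obtain ⟨χ, c1, c2⟩ := exists_fun1 z2
      convert hm _ (hp.2 x χ c2) _ (hq.2 z ψ z1) using 1
      rw [mul_assoc, ← mul_assoc p, (hp.1 j (by simp) _).eq, mul_assoc, ← mul_assoc, ← mul_assoc, ← map_mul, rk1_mul, c1,
        one_smul, mul_assoc]
    · have c := h.comm l l' (by rintro rfl; exact hl' hl)
      exact ((c _ a).mul_left (hp.1 l' hl' a)).mul_left (c _ a)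
    · convert (show _ ∈ R from hc l (Finset.mem_of_mem_erase hl) _ (hp.2 x ψ e') _ _ _ _ hg) using 1
      simp only [← mul_assoc, (h.comm l j (Finset.ne_of_mem_erase hl) _ _).eq]
  exact .inr ⟨j, hj, top_of_rk1 h3 (R.comap (fa (E j)).toLinearMap) (fun a ha b hb => by simpa using hm _ ha _ hb)
    fun x ψ e => by simpa using m2.2 x ψ e⟩

end UF

end Cfsg.Agent.Root.Wr
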