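import Cfsg.Agent.Low.WU1

/-! Overgroups `X` of `SU(W) ⊗ 1` in a unitary group (`FU`), for `W` of dimension three (`F3`): vector parts and central
parts of the unipotent radical at an isotropic point, `F3.win`, and the two-frame parabolic lemma `F3.par`. -/

set_option autoImplicit false

namespace Cfsg.Agent.Root.Wr

open Cfsg.Agent.Geom Cfsg.Agent.AutCl Module TensorProduct Mx

variable {F : Type*} [Field F] {σ : F →+* F} {W U : Type*} [AddCommGroup W] [Module F W] [AddCommGroup U] [Module F U]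
  {Φ₁ : Formed σ W} {Φ₂ : Formed σ U} {Φ : Formed σ (W ⊗[F] U)} {X : Subgroup (W ⊗[F] U ≃ₗ[F] W ⊗[F] U)}

/-- An overgroup of `SU(W) ⊗ 1`. -/
structure FU (Φ₁ : Formed σ W) (Φ₂ : Formed σ U) (Φ : Formed σ (W ⊗[F] U)) (X : Subgroup (W ⊗[F] U ≃ₗ[F] W ⊗[F] U)) :
    Prop where
  B : ∀ w u w' u', Φ.B (w ⊗ₜ u) (w' ⊗ₜ u') = Φ₁.B w w' * Φ₂.B u u'
  Q : ∀ x, Φ.Q x = 0
  uf : UF Φ₁
  nd₂ : Φ₂.Nondeg
  ε₂ : Φ₂.ε = 1
  ex : ∃ u v, Φ₂.IsPair u v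
  iso : X ≤ Φ.isom
  l : ∀ g ∈ Φ₁.isom, g ∈ SLg F W → lT U g ∈ X

/-- The central parts. -/
def ZF (Φ₁ : Formed σ W) (X : Subgroup (W ⊗[F] U ≃ₗ[F] W ⊗[F] U)) (ζ : End F U) : Prop :=
  ∀ x, Φ₁.Sing x → HasL X (tt x (Φ₁.B x) ζ)

theorem isE_SL [Finite F] {p a : W} {d : F} {g : W ≃ₗ[F] W} (hg : IsE Φ₁ p a d g) : g ∈ SLg F W :=
  mem_SLg_of_pow (hg.pow_char (ringChar F))

variable [Finite F] [FiniteDimensional F W] [FiniteDimensional F U]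

theorem FU.fs (h : FU Φ₁ Φ₂ Φ X) (h4 : 4 ≤ finrank F W) : FS Φ₁ Φ₂ Φ X :=
  ⟨h.B, fun _ _ _ => h.Q _, h.uf.τ, h.uf.Q, h.uf.nd, h4, h.uf.two, exists_TP h.uf.ne h.uf.τ h.uf.ε, h.nd₂, h.ex, h.iso,
    fun _ _ _ _ hg => h.l _ hg.mem_isom (isE_SL hg), notSp2_of_ne h.uf.ne⟩

/-- The case of dimension three. -/
structure F3 (Φ₁ : Formed σ W) (Φ₂ : Formed σ U) (Φ : Formed σ (W ⊗[F] U)) (X : Subgroup (W ⊗[F] U ≃ₗ[F] W ⊗[F] U)) :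
    Prop extends FU Φ₁ Φ₂ Φ X where
  d3 : finrank F W = 3
  nm : ∃ l : F, l ≠ 0 ∧ l * σ l ≠ 1
  cb : ∃ l : F, σ l ^ 3 ≠ l ^ 3

/-- `g` lies in the Borel subgroup at `w` with weight `l`. -/
def Tor (Φ₁ : Formed σ W) (U : Type*) [AddCommGroup U] [Module F U] (w : W) (l : F) (g : W ≃ₗ[F] W) : Prop :=
  g ∈ Φ₁.isom ∧ g ∈ SLg F W ∧ g w = l • w ∧ ∀ v, cL (Φ₁.B w) v = 0 → ∃ u, lT U g v = (σ l / l) • v + w ⊗ₜ u

namespace F3
variable (h : F3 Φ₁ Φ₂ Φ X)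
include h

omit [Finite F] [FiniteDimensional F U] in
theorem dec {w f : W} (hp : Φ₁.IsPair w f) : ∃ a, Φ₁.B w a = 0 ∧ Φ₁.B f a = 0 ∧ Φ₁.B a a ≠ 0 ∧
    ∀ v, v = Φ₁.B f v • w + Φ₁.B w v • f + (Φ₁.B a v / Φ₁.B a a) • a := by
  have s := h.uf
  have d := hp.finrank_pairPerp s.nd
  obtain ⟨⟨a, ha⟩, a0, H⟩ := finrank_eq_one_iff'.1 (show finrank F (Φ₁.pairPerp w f) = 1 by have := h.d3; omega)
  obtain ⟨a1, a2⟩ := Φ₁.mem_pairPerp.1 ha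
  have k : ∀ v, ∃ c : F, v = Φ₁.B f v • w + Φ₁.B w v • f + c • a := fun v => (H ⟨_, hp.sub_mem_pairPerp v⟩).imp fun c e => by
    have := congrArg Subtype.val e
    simp only [s.ε, one_mul, SetLike.val_smul] at this
    rw [this]; abel
  have n : Φ₁.B a a ≠ 0 := fun e => a0 (Subtype.ext (s.nd _ fun v => by
    obtain ⟨c, e'⟩ := k v
    rw [e']; simp [e, Φ₁.B_eq_zero_symm a1, Φ₁.B_eq_zero_symm a2]))
  refine ⟨a, a1, a2, n, fun v => ?_⟩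
  obtain ⟨c, e⟩ := k v
  rwa [show Φ₁.B a v / Φ₁.B a a = c by
    rw [e]; simp [Φ₁.B_eq_zero_symm a1, Φ₁.B_eq_zero_symm a2, n]]

omit [Finite F] [FiniteDimensional F W] [FiniteDimensional F U] h in
theorem tdec {w f a : W} (H : ∀ v, v = Φ₁.B f v • w + Φ₁.B w v • f + (Φ₁.B a v / Φ₁.B a a) • a) (v : W ⊗[F] U) :
    v = w ⊗ₜ cL (Φ₁.B f) v + f ⊗ₜ cL (Φ₁.B w) v + a ⊗ₜ ((Φ₁.B a a)⁻¹ • cL (Φ₁.B a) v) := by
  induction v with
  | zero => simp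
  | tmul y u =>
    conv_lhs => rw [H y]
    simp [add_tmul, ← smul_tmul', smul_smul, div_eq_inv_mul]
  | add x y p q =>
    conv_lhs => rw [p, q]
    simp only [map_add, smul_add, tmul_add]; abel

omit [Finite F] [FiniteDimensional F U] in
theorem tor {w f : W} (hp : Φ₁.IsPair w f) {l : F} (l0 : l ≠ 0) : ∃ g, Tor Φ₁ U w l g ∧ g f = (σ l)⁻¹ • f ∧
    ∀ a, Φ₁.B w a = 0 → Φ₁.B f a = 0 → g a = (σ l / l) • a := by
  have s := h.uf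
  obtain ⟨a, a1, a2, n, H⟩ := h.dec hp
  have l1 : σ l ≠ 0 := by simpa
  have sa : σ (Φ₁.B a a) = Φ₁.B a a := (s.symm a a).symm
  have hc : σ ((σ l / l - 1) / Φ₁.B a a) + Φ₁.ε * ((σ l / l - 1) / Φ₁.B a a) +
      σ ((σ l / l - 1) / Φ₁.B a a) * ((σ l / l - 1) / Φ₁.B a a) * Φ₁.B a a = 0 := by
    simp [sa, s.ε, Φ₁.σσ]; field_simp; ring
  have e : ∀ y, Φ₁.B w y = 0 → Φ₁.B f y = 0 → ((hp.torus (.mk0 l l0)).1 * Formed.qrefl s.nd a _ hc) y = (σ l / l) • y :=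
    fun y y1 y2 => by
    rw [H y]; simp [y1, y2, hp.torus_apply, a1, a2, n, smul_smul]
    match_scalars; field_simp; ring
  have e1 : ((hp.torus (.mk0 l l0)).1 * Formed.qrefl s.nd a _ hc) w = l • w := by
    simp [Φ₁.B_eq_zero_symm a1, hp.torus_left]
  refine ⟨_, ⟨mul_mem (hp.torus _).2 (Formed.qrefl_mem _ _ _ _ (by simp [s.Q, s.τ])), mem_SLg.2 ?_, e1, fun v hv =>
    ⟨(l - σ l / l) • cL (Φ₁.B f) v, ?_⟩⟩, by simp [Φ₁.B_eq_zero_symm a2, hp.torus_right], e⟩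
  · rw [LinearEquiv.coe_toLinearMap_mul, map_mul, hp.det_torus, Formed.det_qrefl]; simp; field_simp; ring
  · generalize cL (Φ₁.B f) v = p, (Φ₁.B a a)⁻¹ • cL (Φ₁.B a) v = q, hv ▸ tdec H v = e2
    rw [e2]; simp only [map_add, TensorProduct.congr_tmul, e1, e a a1 a2]
    simp [← smul_tmul']; module

theorem trans {P : W → Prop} (hE : ∀ g ∈ Φ₁.isom, g ∈ SLg F W → ∀ w, P w → P (g w)) {w z : W} (hw : Φ₁.Sing w)
    (w0 : w ≠ 0) (H : P w) (hz : Φ₁.Sing z) (z0 : z ≠ 0) : P z :=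
  (h.uf.trans (P := fun w => Φ₁.Sing w ∧ w ≠ 0 ∧ P w) (fun c c0 w ⟨p, q, r⟩ => ⟨p.smul c, by simp [c0, q], by
    obtain ⟨f, hf⟩ := h.uf.nd.exists_isPair q p
    obtain ⟨g, hg, -⟩ := h.tor hf c0
    exact hg.2.2.1 ▸ hE g hg.1 hg.2.1 w r⟩) (fun _ _ _ g hg w ⟨p, q, r⟩ =>
    ⟨h.uf.sing ((hg.mem_isom.1 w w).trans p.2), by simpa, hE g hg.mem_isom (isE_SL hg) w r⟩) hw w0 ⟨hw, w0, H⟩ hz z0).2.2

omit [Finite F] [FiniteDimensional F W] [FiniteDimensional F U] in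
theorem Bl (w : W) (u : U) (x : W ⊗[F] U) : Φ.B (w ⊗ₜ u) x = Φ₂.B u (cL (Φ₁.B w) x) := by
  induction x with
  | zero => simp
  | tmul w u => simp [h.B]
  | add x y a b => simp only [map_add, a, b]

omit [Finite F] [FiniteDimensional F W] [FiniteDimensional F U] in
theorem Br (w : W) (u : U) (x : W ⊗[F] U) : Φ.B x (w ⊗ₜ u) = Φ₂.B (cL (Φ₁.B w) x) u := by
  induction x with
  | zero => simp
  | tmul w' u => simp [h.B, h.uf.symm w w']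
  | add x y a b => simp only [map_add, LinearMap.add_apply, a, b]

omit [Finite F] [FiniteDimensional F U] in
theorem nondeg : Φ.Nondeg := fun x e => eq_of_cL fun φ => by
  obtain ⟨w, rfl⟩ := h.uf.nd.exists_eq_B φ
  exact h.nd₂.ext fun u => by simpa [h.Br] using e (w ⊗ₜ u)

omit [Finite F] [FiniteDimensional F W] [FiniteDimensional F U] in
theorem sing {w : W} (hw : Φ₁.Sing w) (u : U) : Φ.Sing (w ⊗ₜ u) := ⟨h.Q _, by simp [h.B, hw.2]⟩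

omit [FiniteDimensional F U] in
theorem ε : Φ.ε = 1 := by
  obtain ⟨w, r, a⟩ := h.uf.pair
  obtain ⟨u, v, b⟩ := h.ex
  simpa [h.B, a.ef, b.ef, a.fe, b.fe, h.uf.ε, h.ε₂] using (Φ.symm (w ⊗ₜ u) (r ⊗ₜ v)).symm

omit [Finite F] [FiniteDimensional F W] [FiniteDimensional F U] in
theorem nt : Nontrivial U := let ⟨_, _, e⟩ := h.ex; nontrivial_of_ne _ _ e.left_ne_zero

omit [Finite F] [FiniteDimensional F U] in
theorem spec {w v : W} (hw : Φ₁.Sing w) (w0 : w ≠ 0) (e0 : Φ₁.B w v = 0) {ρ ρ' : End F U} (a : IsAdj Φ₂ ρ ρ')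
    {g : W ⊗[F] U ≃ₗ[F] W ⊗[F] U} (hg : g ∈ Φ.isom) (e : ∀ x, ∃ u, g x = x - v ⊗ₜ ρ (cL (Φ₁.B w) x) + w ⊗ₜ u)
    {x : W ⊗[F] U} (hx : cL (Φ₁.B w) x = 0) : g x = x + w ⊗ₜ ρ' (cL (Φ₁.B v) x) := by
  obtain ⟨r, hr⟩ := h.uf.nd.exists_eq_one w0
  obtain ⟨y', e1⟩ := e x
  rw [e1, hx, map_zero, tmul_zero, sub_zero, h.nd₂.ext (x := ρ' _) (x' := y') fun u => ?_]
  obtain ⟨z, e2⟩ := e (r ⊗ₜ u)
  have := hg.1 x (r ⊗ₜ u)
  simp [e1, e2, hx, hr, h.Bl, h.Br w, h.Br v, e0, hw.2] at this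
  rw [a]; linear_combination -this

omit [Finite F] in
theorem quot {w v : W} (hw : Φ₁.Sing w) (w0 : w ≠ 0) (e0 : Φ₁.B w v = 0) {ρ : End F U} {g g' : W ⊗[F] U ≃ₗ[F] W ⊗[F] U}
    (hg : g ∈ Φ.isom) (e : ∀ x, ∃ u, g x = x - v ⊗ₜ ρ (cL (Φ₁.B w) x) + w ⊗ₜ u) (hg' : g' ∈ Φ.isom)
    (e' : ∀ x, ∃ u, g' x = x - v ⊗ₜ ρ (cL (Φ₁.B w) x) + w ⊗ₜ u) :
    ∃ ζ, IsAdj Φ₂ ζ (-ζ) ∧ ∀ x, (g'⁻¹ * g) x = x + tt w (Φ₁.B w) ζ x := by
  obtain ⟨ρ', a⟩ := exists_isAdj h.nd₂ ρ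
  obtain ⟨r, hr⟩ := h.uf.nd.exists_isPair w0 hw
  have fe := (h.uf.pair_symm hr).ef
  let ζ := cL (Φ₁.B r) ∘ₗ (g'⁻¹ * g).toLinearMap ∘ₗ TensorProduct.mk F W U r
  have e1 : ∀ u, (g'⁻¹ * g) (r ⊗ₜ u) = r ⊗ₜ u + w ⊗ₜ ζ u := fun u => by
    obtain ⟨p, e1⟩ := e (r ⊗ₜ u)
    obtain ⟨q, e2⟩ := e' (r ⊗ₜ u)
    have : (g'⁻¹ * g) (r ⊗ₜ u) = r ⊗ₜ u + w ⊗ₜ (p - q) := inv_mul_apply.2 (by
      rw [map_add, h.spec hw w0 e0 a hg' e' (x := w ⊗ₜ _) (by simp [hw.2]), e1, e2]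
      simp [Φ₁.B_eq_zero_symm e0, tmul_sub])
    simp only [ζ, LinearMap.comp_apply, mk_apply, LinearEquiv.coe_coe, this]
    simp [hr.sf.2, fe]
  refine ⟨ζ, fun u u' => ?_, fun x => ?_⟩
  · have := (mul_mem (inv_mem hg') hg).1 (r ⊗ₜ u) (r ⊗ₜ u')
    simp only [e1] at this
    simp [h.B, hr.ef, fe, hw.2, hr.sf.2] at this ⊢
    linear_combination -this
  have n : cL (Φ₁.B w) (x - r ⊗ₜ cL (Φ₁.B w) x) = 0 := by simp [hr.ef]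
  have : (g'⁻¹ * g) (x - r ⊗ₜ cL (Φ₁.B w) x) = x - r ⊗ₜ cL (Φ₁.B w) x :=
    inv_mul_apply.2 ((h.spec hw w0 e0 a hg e n).trans (h.spec hw w0 e0 a hg' e' n).symm)
  rw [map_sub, e1] at this
  rw [tt_apply]; linear_combination (norm := abel) this

theorem rf_one : RF Φ₁ X (1 : End F U) := fun w v hw _ e => by
  obtain ⟨d, g, hg⟩ := exists_isE' h.uf.nd hw e
  exact ⟨fun u => by simp [e], _, h.l _ hg.mem_isom (isE_SL hg), fun x => ⟨_, by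
    rw [lT_isE hg, h.uf.ε, one_smul, add_sub_right_comm]; rfl⟩⟩

omit [Finite F] [FiniteDimensional F W] [FiniteDimensional F U] in
theorem he_E {w v : W} {ρ : End F U} (H : HE Φ₁ X w (TensorProduct.mk F W U v ∘ₗ ρ)) {g : W ≃ₗ[F] W}
    (hg : g ∈ Φ₁.isom) (hg' : g ∈ SLg F W) : HE Φ₁ X (g w) (TensorProduct.mk F W U (g v) ∘ₗ ρ) :=
  (H.conj (h.l _ hg hg') (fun u => ⟨u, rfl⟩) (γ := LinearMap.id) Function.injective_id
    fun x => (cL_lT hg w x).symm).congr fun u => rfl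

theorem rf_of {w v : W} (hw : Φ₁.Sing w) (w0 : w ≠ 0) (e : Φ₁.B w v = 0) (hv : v ∉ F ∙ w) {ρ : End F U}
    (H : HE Φ₁ X w (TensorProduct.mk F W U v ∘ₗ ρ)) : RF Φ₁ X ρ := by
  intro z y hz z0
  revert y
  refine h.trans (P := fun w => ∀ v, Φ₁.B w v = 0 → HE Φ₁ X w (TensorProduct.mk F W U v ∘ₗ ρ))
    (fun g hg hg' w H v e => ?_) hw w0 ?_ hz z0
  · obtain ⟨v, rfl⟩ := g.surjective v
    exact h.he_E (H v (hg.1 w v ▸ e)) hg hg'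
  obtain ⟨f, hf⟩ := h.uf.nd.exists_isPair w0 hw
  obtain ⟨a, a1, a2, n, D⟩ := h.dec hf
  let A : AddSubgroup F := .ofSub {k | HE Φ₁ X w (TensorProduct.mk F W U (k • a) ∘ₗ ρ)}
    ⟨0, (H.sub hw H).congr (by simp)⟩
    fun a ha b hb => (HE.sub hw ha hb).congr fun u => by simp [add_tmul, neg_tmul, sub_eq_add_neg, add_smul]
  have m : ∀ l : F, l ≠ 0 → ∀ k ∈ A, σ l * (σ l / l) * k ∈ A := fun l l0 k hk => by
    obtain ⟨g, ⟨a, b, c, -⟩, -, d⟩ := h.tor hf l0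
    have := (h.he_E hk a b).smul (inv_ne_zero l0)
    rw [c, inv_smul_smul₀ l0] at this
    exact this.congr fun u => by simp [d _ a1 a2, ← smul_tmul', smul_smul, mul_assoc, mul_comm k]
  have m0 : ∀ l : F, σ l = l → ∀ k ∈ A, l * k ∈ A := fun l e k hk => by
    by_cases l0 : l = 0
    · simp [l0]
    · simpa [e, l0] using m l l0 k hk
  have b0 : Φ₁.B a v / Φ₁.B a a ≠ 0 := fun e' => hv (by rw [D v, e, e']; simp [Submodule.smul_mem])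
  have b1 : Φ₁.B a v / Φ₁.B a a ∈ A := (H.add_w hw (-Φ₁.B f v • ρ)).congr fun u => by
    have := D v
    rw [e] at this
    generalize Φ₁.B f v = α, Φ₁.B a v / Φ₁.B a a = β at *
    simp [this, add_tmul, ← smul_tmul', tmul_neg]
  obtain ⟨l, hl⟩ := h.cb
  have l0 : l ≠ 0 := by rintro rfl; simp at hl
  have l1 : σ l ≠ 0 := by simpa
  have all : ∀ k, k ∈ A := fun k => by
    have n : σ (σ l * (σ l / l)) - σ l * (σ l / l) ≠ 0 := fun e =>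
      hl (by simp [Φ₁.σσ] at e; field_simp at e; linear_combination -e)
    have m1 := m l l0 _ b1
    generalize σ l * (σ l / l) = μ at *
    have n' : μ - σ μ ≠ 0 := by rwa [← neg_sub, neg_ne_zero]
    generalize Φ₁.B a v / Φ₁.B a a = b at *
    convert add_mem (m0 ((σ (k / b) - k / b) / (σ μ - μ)) ?_ _ m1)
      (m0 ((k / b * σ μ - σ (k / b) * μ) / (σ μ - μ)) ?_ b b1) using 1
    · field_simp; ring
    all_goals simp only [map_div₀, map_sub, map_mul σ (_ / _), map_mul σ (σ _) μ, Φ₁.σσ]; field_simp; ring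
  intro y hy
  exact (HE.add_w hw (all (Φ₁.B a y / Φ₁.B a a)) (Φ₁.B f y • ρ)).congr fun u => by
    conv_rhs => rw [D y, hy]
    simp [add_tmul, ← smul_tmul', add_comm]

/-- The occurring vector parts. -/
def rfS : Submodule F (End F U) where
  carrier := {ρ | RF Φ₁ X ρ}
  zero_mem' := fun w v a b c => (h.rf_one w 0 a b (by simp)).congr (by simp)
  add_mem' := fun ha hb w v a b c => ((ha w v a b c).sub a (hb w (-v) a b (by simpa))).congr fun u => by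
    simp [tmul_add, neg_tmul]
  smul_mem' := fun k ρ ha w v a b c => (ha w (k • v) a b (by simp [c])).congr fun u => by simp [smul_tmul]

theorem zf_of {w : W} (hw : Φ₁.Sing w) (w0 : w ≠ 0) {ζ : End F U} (H : HasL X (tt w (Φ₁.B w) ζ)) : ZF Φ₁ X ζ := fun x hx => by
  by_cases x0 : x = 0
  · exact HasL.zero.congr (by simp [x0])
  exact h.trans (P := fun x => HasL X (tt x (Φ₁.B x) ζ)) (fun g hg hg' w H => H.conj (h.l g hg hg') fun v => by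
    simp [cL_lT hg]) hw w0 H hx x0

theorem zf_comm {ρ₁ ρ₁' ρ₂ ρ₂' : End F U} (h₁ : IsAdj Φ₂ ρ₁ ρ₁') (h₂ : IsAdj Φ₂ ρ₂ ρ₂') (H₁ : RF Φ₁ X ρ₁)
    (H₂ : RF Φ₁ X ρ₂) (k : F) : ZF Φ₁ X (k • (ρ₁' * ρ₂) - σ k • (ρ₂' * ρ₁)) := by
  obtain ⟨w, f, hf⟩ := h.uf.pair
  have hw := hf.se
  have w0 := hf.left_ne_zero
  obtain ⟨a, a1, -, n, -⟩ := h.dec hf
  have b1 : Φ₁.B w ((k / Φ₁.B a a) • a) = 0 := by simp [a1]
  have b2 : Φ₁.B a ((k / Φ₁.B a a) • a) = k := by simp [n]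
  generalize (k / Φ₁.B a a) • a = b at *
  obtain ⟨-, g₁, hg₁, e1⟩ := H₁ w a hw w0 a1
  obtain ⟨-, g₂, hg₂, e2⟩ := H₂ w b hw w0 b1
  have e1' := fun x => h.spec hw w0 a1 h₁ (h.iso hg₁) e1 (x := x)
  have e2' := fun x => h.spec hw w0 b1 h₂ (h.iso hg₂) e2 (x := x)
  refine h.zf_of hw w0 (.of_apply (mul_mem (inv_mem (mul_mem hg₁ hg₂)) (mul_mem hg₂ hg₁)) fun x => inv_mul_apply.2 ?_)
  have f1 : ∀ u, g₁ (w ⊗ₜ u) = w ⊗ₜ u := fun u => by simp [e1' (w ⊗ₜ u) (by simp [hw.2]), Φ₁.B_eq_zero_symm a1]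
  have f2 : ∀ u, g₂ (w ⊗ₜ u) = w ⊗ₜ u := fun u => by simp [e2' (w ⊗ₜ u) (by simp [hw.2]), Φ₁.B_eq_zero_symm b1]
  obtain ⟨y₁, e1⟩ := e1 x
  obtain ⟨y₂, e2⟩ := e2 x
  have f3 := fun u => e1' (b ⊗ₜ u) (by simp [b1])
  have f4 := fun u => e2' (a ⊗ₜ u) (by simp [a1])
  simp only [LinearMap.comp_apply, mk_apply] at e1 e2
  simp only [LinearEquiv.mul_apply, map_add, map_sub, map_smul, e1, e2, f1, f2, f3, f4, cL_tmul, smul_sub, tmul_sub,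
    LinearMap.sub_apply, LinearMap.smul_apply, End.mul_apply, tt_apply, b2, h.uf.symm a b]
  abel

theorem rf_eta {η ρ : End F U} (hη : ZF Φ₁ X η) (e : η * η = 0) (H : RF Φ₁ X ρ) : RF Φ₁ X (ρ * η) := by
  obtain ⟨w, f, hf⟩ := h.uf.pair
  obtain ⟨a, a1, a2, n, -⟩ := h.dec hf
  obtain ⟨t, t0, ht⟩ := h.uf.tp
  have fe := (h.uf.pair_symm hf).ef
  have ee : ∀ u, η (η u) = 0 := LinearMap.congr_fun e
  obtain ⟨g, hg, e1⟩ := (((hη (w + t • f) (h.uf.sing (by simp [hf.se.2, hf.sf.2, hf.ef, fe, ht]))).add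
    ((hη w hf.se).neg (by ext; simp [ee])) (by ext; simp [ee])).add ((hη _ (hf.sf.smul t)).neg (by ext; simp [ee]))
    (by ext; simp [ee])).exists_apply
  have e2 : ∀ v, g v = v - w ⊗ₜ (t • η (cL (Φ₁.B f) v)) + f ⊗ₜ (t • η (cL (Φ₁.B w) v)) := fun v => by
    simp [e1, ht, add_tmul, tmul_add, ← smul_tmul', tmul_neg]; module
  have H1 := H w a hf.se hf.left_ne_zero a1
  refine h.rf_of hf.se hf.left_ne_zero (v := t • a) (by simp [a1]) (fun e => ?_) ((H1.sub hf.se (H1.conj hg (w' := w)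
    (fun u => ⟨u - t • η u, by simp [e2, fe, hf.se.2, tmul_sub]⟩) (γ := 1 - t • η) (fun u v e => ?_) fun x => ?_)).congr
    fun u => ?_)
  · obtain ⟨k, e⟩ := Submodule.mem_span_singleton.1 e
    simpa [t0, n, Φ₁.B_eq_zero_symm a1, eq_comm (a := (0 : F))] using congrArg (Φ₁.B a) e
  · simpa [ee] using congrArg (1 + t • η : End F U) e
  · simp [e2, hf.se.2, hf.ef, ee]
  · simp [e2, a1, a2, tmul_sub, ← smul_tmul']

theorem win (all : ∀ ρ : End F U, RF Φ₁ X ρ) : EG Φ ≤ X := by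
  obtain ⟨u₂, u₁, hu⟩ := h.ex
  have sb : ∀ {w} (hw : Φ₁.Sing w), w ≠ 0 → ∀ z a y, Φ₁.B w a = 0 → a ⊗ₜ y ∈ AE Φ X (h.sing hw z) :=
    fun {w} hw w0 z a y ha => by
    obtain ⟨d, g, hg⟩ := exists_isE' h.nondeg (h.sing hw z) (a := a ⊗ₜ y) (by simp [h.B, ha])
    obtain ⟨-, g', hg', e⟩ := all (rk1 y (Φ₂.B z)) w a hw w0 ha
    obtain ⟨ζ, e1, e2⟩ := h.quot hw w0 ha hg.mem_isom (fun x => ⟨(Φ.B (a ⊗ₜ y) x - d * Φ.B (w ⊗ₜ z) x) • z, by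
      rw [hg.app, h.ε, h.Bl w]; simp [add_sub_right_comm]⟩) (h.iso hg') e
    obtain ⟨s, hs⟩ := exists_trace_one h.uf.ne Φ₁.σσ
    have := h.zf_comm (ρ₁ := 1) (ρ₁' := 1) (fun _ _ => rfl) e1 (all _) (all _) s w hw
    rw [one_mul, mul_one, smul_neg, sub_neg_eq_add, ← add_smul, hs, one_smul] at this
    exact ⟨d, g, by simpa using mul_mem hg' (this.mem e2), hg⟩
  have sc : ∀ {w} (hw : Φ₁.Sing w), w ≠ 0 → ∀ z, z ≠ 0 → Full Φ X (w ⊗ₜ z) := fun {w} hw w0 z z0 => by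
    obtain ⟨r, hr⟩ := h.uf.nd.exists_isPair w0 hw
    refine full_of_AE' h.nondeg ?_ (notSp2_of_ne h.uf.ne) (fun e => z0 (tmul_inj w0 (e.trans (tmul_zero _ _).symm)))
      (h.sing hw z) fun v hv => ?_
    · have := h.d3
      have : 0 < finrank F U := finrank_pos_iff_exists_ne_zero.2 ⟨z, z0⟩
      rw [finrank_tensorProduct]; nlinarith
    rw [← sub_add_cancel v (r ⊗ₜ cL (Φ₁.B w) v)]
    refine add_mem (tperp_ind hr _ (sb hw w0 z) v) ?_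
    obtain ⟨b, b1, b2, n, -⟩ := h.dec hr
    obtain ⟨d, g, hg, e1⟩ := sb hr.2 hr.right_ne_zero (cL (Φ₁.B w) v) b u₂ b2
    have m := sb hw w0 z ((Φ₁.B b b)⁻¹ • b) u₁ (by simp [b1])
    have := map_mem_AE hg (h.iso hg) (by
      simp [e1.app, h.B, Φ₁.B_eq_zero_symm b1, Φ₂.B_eq_zero_symm (h.Bl _ _ _ ▸ hv)]) m
    simpa [e1.app, h.B, b2, n, hu.ef, add_mem_cancel_left m] using this
  obtain ⟨w, r, hp⟩ := h.uf.pair
  exact EG_le_of_full h.nondeg (sc hp.1 hp.left_ne_zero _ hu.left_ne_zero) (sc hp.2 hp.right_ne_zero _ hu.right_ne_zero)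
    (by simp [h.B, hp.ef, hu.ef])

variable (hS : ∀ ρ : End F U, RF Φ₁ X ρ → ∃ k : F, ρ = k • 1) (hZ : ∀ ζ : End F U, ZF Φ₁ X ζ → ∃ k : F, ζ = k • 1)
include hS hZ

theorem qfa {w : W} (hw : Φ₁.Sing w) (w0 : w ≠ 0) {g : W ⊗[F] U ≃ₗ[F] W ⊗[F] U} (hg : g ∈ X)
    (h1 : ∀ u, g (w ⊗ₜ u) = w ⊗ₜ u) (h2 : ∀ v, cL (Φ₁.B w) v = 0 → ∃ u, g v = v + w ⊗ₜ u) :
    ∃ m : End F W, ∀ y u, g (y ⊗ₜ u) = m y ⊗ₜ u := by
  obtain ⟨r, hr⟩ := h.uf.nd.exists_isPair w0 hw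
  obtain ⟨a, a1, a2, n, D⟩ := h.dec hr
  let ρ := (Φ₁.B a a)⁻¹ • cL (Φ₁.B a) ∘ₗ (1 - g.toLinearMap) ∘ₗ TensorProduct.mk F W U r
  have e : ∀ x, ∃ u, g x = x - a ⊗ₜ ρ (cL (Φ₁.B w) x) + w ⊗ₜ u := fun x => by
    obtain ⟨u, e⟩ := h2 (x - r ⊗ₜ cL (Φ₁.B w) x) (by simp [hr.ef])
    generalize cL (Φ₁.B w) x = y at *
    have e1 := tdec D (r ⊗ₜ y - g (r ⊗ₜ y))
    rw [show cL (Φ₁.B w) (r ⊗ₜ y - g (r ⊗ₜ y)) = 0 from h.nd₂.ext_right fun u => by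
      rw [← h.Bl, map_sub, ← h1 u, (h.iso hg).1, h1]; simp, tmul_zero, add_zero] at e1
    refine ⟨u - cL (Φ₁.B r) (r ⊗ₜ y - g (r ⊗ₜ y)), ?_⟩
    rw [map_sub] at e
    rw [tmul_sub, show ρ y = (Φ₁.B a a)⁻¹ • cL (Φ₁.B a) (r ⊗ₜ y - g (r ⊗ₜ y)) from rfl]
    linear_combination (norm := abel) e - e1
  obtain ⟨k, hk⟩ := hS ρ (h.rf_of hw w0 a1 (notMem_of_fun n (Φ₁.B_eq_zero_symm a1)) ⟨fun u => by simp [a1], g, hg, e⟩)
  obtain ⟨d, g₁, hg₁⟩ := exists_isE' h.uf.nd hw (a := k • a) (by simp [a1])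
  have m := h.l _ hg₁.mem_isom (isE_SL hg₁)
  obtain ⟨ζ, -, e2⟩ := h.quot hw w0 a1 (h.iso hg) e (h.iso m) fun x => ⟨_, by
    rw [lT_isE hg₁, h.uf.ε, one_smul, add_sub_right_comm, hk, smul_tmul]; rfl⟩
  obtain ⟨k', rfl⟩ := hZ ζ (h.zf_of hw w0 (.of_apply (mul_mem (inv_mem m) hg) e2))
  exact ⟨g₁ * (1 + k' • nx Φ₁ w), fun y u => by
    simp [inv_mul_apply.1 (e2 (y ⊗ₜ u)), add_tmul, ← smul_tmul', smul_smul, mul_comm]⟩

variable {Φ₀ : Formed σ (W ⊗[F] U)} {c : W ⊗[F] U ≃ₗ[F] W ⊗[F] U}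
  (h₀ : ∀ w u w' u', Φ.B (c (w ⊗ₜ u)) (c (w' ⊗ₜ u')) = Φ₁.B w w' * Φ₂.B u u')
  (hc : ∀ g ∈ Φ₁.isom, g ∈ SLg F W → c * lT U g * c⁻¹ ∈ X)
include h₀ hc

theorem step {w w' : W} (hw : Φ₁.Sing w) (w0 : w ≠ 0) (H : ∀ u, ∃ u', c (w ⊗ₜ u) = w' ⊗ₜ u') {l : F} (l0 : l ≠ 0)
    {g : W ≃ₗ[F] W} (hg : Tor Φ₁ U w l g) : ∃ m, (c : End F (W ⊗[F] U)) * fa (.refl F (W ⊗[F] U)) g *
      (c⁻¹ : W ⊗[F] U ≃ₗ[F] W ⊗[F] U) = fa (.refl F (W ⊗[F] U)) m := by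
  obtain ⟨β, hβ⟩ := exists_beta w0 H
  obtain ⟨u₀, u₁, hu⟩ := h.ex
  have w1 : w' ≠ 0 := by
    rintro rfl
    exact hu.left_ne_zero (tmul_inj (F := F) w0 (by simpa using hβ u₀))
  have hw' : Φ₁.Sing w' := h.uf.sing (by simpa [hβ, h.B, hu.ef, hw.2] using h₀ w (β.symm u₀) w (β.symm u₁))
  have g1 : ∀ x, cL (Φ₁.B w') (c x) = 0 → cL (Φ₁.B w) x = 0 := fun x e => h.nd₂.ext_right fun u => by
    have : Φ.B (c (w ⊗ₜ u)) (c x) = Φ₂.B u (cL (Φ₁.B w) x) := by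
      clear e
      induction x with
      | zero => simp
      | tmul y v => simp [h₀]
      | add x y a b => simp only [map_add, a, b]
    rw [← this, hβ, h.Bl, e, map_zero, map_zero]
  obtain ⟨f', hf'⟩ := h.uf.nd.exists_isPair w1 hw'
  obtain ⟨g', hg', -⟩ := h.tor hf' l0
  obtain ⟨m, hm⟩ := h.qfa hS hZ hw' w1 (mul_mem (inv_mem (h.l _ hg'.1 hg'.2.1)) (hc g hg.1 hg.2.1))
    (fun u => inv_mul_apply.2 (by
      obtain ⟨u, rfl⟩ := β.surjective u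
      simp only [LinearEquiv.mul_apply, LinearEquiv.coe_inv, ← hβ, c.symm_apply_apply]
      simp [hβ, hg.2.2.1, hg'.2.2.1, ← smul_tmul'])) fun v hv => by
      obtain ⟨v, rfl⟩ := c.surjective v
      obtain ⟨p, e1⟩ := hg.2.2.2 v (g1 v hv)
      obtain ⟨q, e2⟩ := hg'.2.2.2 _ hv
      exact ⟨l⁻¹ • (β p - q), inv_mul_apply.2 (by
        simp only [LinearEquiv.mul_apply, LinearEquiv.coe_inv, c.symm_apply_apply, map_add, e1, e2]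
        simp [hβ, hg'.2.2.1, smul_tmul, tmul_sub, l0, ← smul_sub])⟩
  exact ⟨g' * m, ext_e (.refl F (W ⊗[F] U)) fun y u => by
    rw [fa_tmul, ← coe_lf]; exact inv_mul_apply.1 (hm y u) |>.trans rfl⟩

/-- An element mapping an isotropic point `w ⊗ U` into a point is a tensor product. -/
theorem par {w w' : W} (hw : Φ₁.Sing w) (w0 : w ≠ 0) (H : ∀ u, ∃ u', c (w ⊗ₜ u) = w' ⊗ₜ u') : c ∈ tstab F W U := by
  have := h.nt
  have := h.uf.ntW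
  let S := ((fa (.refl F (W ⊗[F] U))).range.comap (c.conjAlgEquiv F).toAlgHom).comap (fa (.refl F (W ⊗[F] U)))
  have mS : ∀ {a}, a ∈ S ↔ ∃ m, (c : End F (W ⊗[F] U)) * fa (.refl F (W ⊗[F] U)) a * (c⁻¹ : W ⊗[F] U ≃ₗ[F] W ⊗[F] U) =
      fa (.refl F (W ⊗[F] U)) m := exists_congr fun _ => eq_comm
  have k : ∀ {w}, Φ₁.Sing w → w ≠ 0 → (∃ w', ∀ u, ∃ u', c (w ⊗ₜ u) = w' ⊗ₜ u') → ∀ f, Φ₁.Sing f → Φ₁.B w f ≠ 0 →
      ∃ f', ∀ u, ∃ u', c (f ⊗ₜ u) = f' ⊗ₜ u' := fun {w} hw w0 ⟨w', H⟩ f hf n => by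
    have hp := isPair_smul hw hf n
    obtain ⟨l, l0, l1⟩ := h.nm
    have l2 : σ l ≠ 0 := by simpa
    have t1 : σ (l * σ l) = l * σ l := by simp [Φ₁.σσ, mul_comm]
    obtain ⟨g, hg, a1, -⟩ := h.tor hp l0
    obtain ⟨g', hg', a2, a3⟩ := h.tor hp (mul_ne_zero l0 l2)
    have m : rk1 f (Φ₁.B w) ∈ S := by
      convert S.smul_mem (S.mul_mem (S.sub_mem (mS.2 (h.step hS hZ h₀ hc hw w0 H l0 hg)) (S.smul_mem S.one_mem l))
        (S.sub_mem (mS.2 (h.step hS hZ h₀ hc hw w0 H (mul_ne_zero l0 l2) hg')) S.one_mem))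
        (Φ₁.B w f / (((σ l)⁻¹ - l) * ((l * σ l)⁻¹ - 1))) using 1
      ext v
      obtain ⟨α, γ, a, ha, rfl⟩ := hp.exists_decomp v
      obtain ⟨b1, b2⟩ := Φ₁.mem_pairPerp.1 ha
      have := a3 a b1 b2
      rw [t1] at a2 this
      have n1 : 1 - σ l * l ≠ 0 := sub_ne_zero.2 (mul_comm l _ ▸ l1.symm)
      have n2 : 1 - l * σ l ≠ 0 := sub_ne_zero.2 l1.symm
      simp only [LinearMap.smul_apply, End.mul_apply, LinearMap.sub_apply, LinearEquiv.coe_coe, End.one_apply, map_add,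
        map_sub, g'.map_smul α, g'.map_smul γ, hg'.2.2.1, a2, this, div_self (mul_ne_zero l0 l2), one_smul, g.map_smul α,
        g.map_smul γ, g.map_smul (l * σ l), g.map_smul (l * σ l)⁻¹, hg.2.2.1, a1]
      simp [hw.2, b1, n]
      match_scalars <;> field_simp <;> ring
    obtain ⟨m', e⟩ := mS.1 m
    obtain ⟨x, hx⟩ : ∃ x, m' x ≠ 0 := by
      by_contra! hx
      obtain ⟨u, u0⟩ := exists_ne (0 : U)
      have := LinearMap.congr_fun e (c (f ⊗ₜ u))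
      rw [show m' = 0 from LinearMap.ext hx, map_zero] at this
      refine u0 (tmul_inj (F := F) (w := Φ₁.B w f • f) (by rintro e; simp [show f = 0 by simpa [n] using e] at n) ?_)
      simpa [fa_rk1, smul_tmul] using this
    let L : End F U := cL (Φ₁.B w) ∘ₗ c.symm.toLinearMap ∘ₗ TensorProduct.mk F W U x
    have e2 : ∀ u, c (f ⊗ₜ L u) = m' x ⊗ₜ u := fun u => by
      have := LinearMap.congr_fun e (LinearEquiv.refl F (W ⊗[F] U) (x ⊗ₜ u))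
      rw [fa_tmul] at this
      simpa [fa_rk1, L] using this
    have := LinearMap.injective_iff_surjective.1 (show Function.Injective L from fun u u' e3 =>
      tmul_inj hx (by rw [← e2, ← e2, e3]))
    exact ⟨_, fun u => let ⟨u', e3⟩ := this u; ⟨u', e3 ▸ e2 u'⟩⟩
  refine tst_of_range (e := .refl F _) (e' := .refl F _) fun a => mS.1 (h.uf.top S.toSubmodule
    (fun _ p _ q => S.mul_mem p q) (fun x hx => ?_) a)
  by_cases x0 : x = 0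
  · rw [show nx Φ₁ x = 0 by ext; simp [x0]]; exact zero_mem _
  obtain ⟨r, hr, r1, r2⟩ := h.uf.both hw w0 hx x0
  obtain ⟨x', H'⟩ := k hr (by rintro rfl; simp at r1) (k hw w0 ⟨w', H⟩ r hr r1) x hx fun e => r2 (Φ₁.B_eq_zero_symm e)
  obtain ⟨t, t0, ht⟩ := h.uf.tp
  obtain ⟨g, hg, e, -⟩ := h.uf.tv hx ht
  have := S.smul_mem (S.sub_mem S.one_mem (mS.2 (h.step hS hZ h₀ hc hx x0 H' one_ne_zero (g := g)
    ⟨hg.mem_isom, isE_SL hg, by simp [hg.apply_p], fun v hv => ⟨0, by simp [lT_isE hg, hv]⟩⟩))) t⁻¹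
  simpa [e, t0] using this

end F3

end Cfsg.Agent.Root.Wr
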