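import Cfsg.Agent.Low.WU2

/-! A variant of the odd characteristic criterion for permuting the factors of a frame (`TG.le_odd'`) that only needs
points of `P` in hyperplanes. -/

set_option autoImplicit false

namespace Cfsg.Agent.Root.Wr

open Cfsg.Agent.Geom Cfsg.Agent.AutCl Module TensorProduct Mx

variable {F : Type*} [Field F] {V W U : Type*} [AddCommGroup V] [Module F V] [AddCommGroup W] [Module F W]
  [AddCommGroup U] [Module F U] {ι : Type*} {e : W ⊗[F] U ≃ₗ[F] V} {E : ι → W ⊗[F] U ≃ₗ[F] V} {X : Subgroup (V ≃ₗ[F] V)}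
  {T : Set (W ≃ₗ[F] W)} {P : Set W} [FiniteDimensional F W] [FiniteDimensional F U]

/-- A central involution of the group generated by `r ⊗ 1` and a conjugate `d` forces `d` to fix many points. -/
theorem quad_fix' [FiniteDimensional F V] [Nontrivial U] (h2 : (2 : F) ≠ 0) (h3 : 3 ≤ finrank F W) {r : W ≃ₗ[F] W} {w : W}
    {φ : Dual F W} (w0 : w ≠ 0) (φ0 : φ ≠ 0) (hr : ∀ x, r x = x + φ x • w) (hw : φ w = 0) {d z : V ≃ₗ[F] V}
    (hd : ∀ x, d (d x - x) = d x - x) {Y : Submodule F V} (hY : finrank F Y ≤ finrank F U) (dY : d ∈ mvS Y)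
    (hz : z ∈ Subgroup.closure {lf e r, d}) (z1 : z ≠ 1) (z2 : z * z = 1) (zs : Commute z (lf e r)) (zd : Commute z d)
    (zt : tst e e z) : ∃ S : Submodule F W, finrank F W ≤ finrank F S + 2 ∧ (∀ x ∈ S, φ x = 0) ∧
      ∀ x ∈ S, ∀ u, d (e (x ⊗ₜ u)) = e (x ⊗ₜ u) := by
  obtain ⟨u₀, u0⟩ := exists_ne (0 : U)
  obtain ⟨x₀, x1⟩ : ∃ x, φ x = 1 := by
    obtain ⟨x, hx⟩ : ∃ x, φ x ≠ 0 := by by_contra! hc; exact φ0 (LinearMap.ext hc)
    exact ⟨(φ x)⁻¹ • x, by simp [hx]⟩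
  obtain ⟨a, b, e1, aw, aφ⟩ : ∃ (a : End F W) (b : End F U), (∀ x u, z (e (x ⊗ₜ u)) = e (a x ⊗ₜ b u)) ∧ a w = w ∧
      ∀ x, φ (a x) = φ x := by
    obtain ⟨a, b, e1⟩ := zt
    have k : ∀ x, φ x • a w = φ (a x) • w := fun x => by
      simpa [hr] using tmul_inj2 (b.map_ne_zero_iff.2 u0) (x := a (r x)) (y := r (a x)) (e.injective (by
        simpa only [LinearEquiv.mul_apply, lf_tmul, e1] using LinearEquiv.congr_fun zs.eq (e (x ⊗ₜ u₀))))
    have k1 := k x₀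
    rw [x1, one_smul] at k1
    have m0 : φ (a x₀) ≠ 0 := fun e => w0 (by simpa [e] using k1)
    exact ⟨(φ (a x₀))⁻¹ • a.toLinearMap, φ (a x₀) • b.toLinearMap, fun x u => by simp [e1, smul_tmul, m0],
      by simp [k1, m0], fun x => by
        have := smul_left_injective F w0 (show (φ x * φ (a x₀)) • w = _ by rw [mul_smul, ← k1, k])
        simp [← this, mul_comm, m0]⟩
  have zz : ∀ v, z (z v) = v := LinearEquiv.congr_fun z2
  have bb : ∀ u, b (b u) = u := fun u => tmul_inj (F := F) w0 (e.injective (by simpa [e1, aw] using zz (e (w ⊗ₜ u))))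
  have aa : ∀ x, a (a x) = x := fun x => tmul_inj2 u0 (e.injective (by simpa [e1, bb] using zz (e (x ⊗ₜ u₀))))
  let M := LinearMap.ker ((z : End F V) + 1)
  have mM : ∀ {v}, v ∈ M ↔ z v = -v := by simp [M, add_eq_zero_iff_eq_neg]
  have cM : ∀ g, Commute z g → ∀ v ∈ M, g v ∈ M := fun g hg v hv => mM.2 (by
    rw [← LinearEquiv.mul_apply, hg.eq, LinearEquiv.mul_apply, mM.1 hv, map_neg])
  have le : ∀ g, Commute z g → (∀ x, g (g x - x) = g x - x) →
      M.map ((g : End F V) - 1) ≤ M ⊓ LinearMap.ker ((g : End F V) - 1) := by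
    rintro g hg h _ ⟨v, hv, rfl⟩
    exact ⟨sub_mem (cM g hg v hv) hv, sub_eq_zero.2 (h v)⟩
  have l1 := le _ zs fun v => by simp [lf_rk1 hr, hw]
  have l2 := le _ zd hd
  let Z := M.map ((lf e r : End F V) - 1) ⊔ M.map ((d : End F V) - 1)
  let Γ : Subgroup (V ≃ₗ[F] V) :=
    { carrier := {g | Commute z g ∧ ∀ v ∈ M, g v - v ∈ Z}
      one_mem' := ⟨Commute.one_right _, by simp⟩
      mul_mem' := fun {p q} hp hq => ⟨hp.1.mul_right hq.1, fun v hv => by
        simpa using add_mem (hp.2 _ (cM q hq.1 v hv)) (hq.2 v hv)⟩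
      inv_mem' := fun {p} hp => ⟨hp.1.inv_right, fun v hv => by
        simpa using neg_mem (hp.2 _ (cM _ hp.1.inv_right v hv))⟩ }
  have MZ : M ≤ Z := fun v hv => by
    have := ((Subgroup.closure_le Γ).2 (by
      rintro _ (rfl | rfl)
      exacts [⟨zs, fun v hv => Submodule.mem_sup_left ⟨v, hv, rfl⟩⟩,
        ⟨zd, fun v hv => Submodule.mem_sup_right ⟨v, hv, rfl⟩⟩]) hz).2 v hv
    rwa [mM.1 hv, ← neg_add', neg_mem_iff, ← two_smul F, Z.smul_mem_iff h2] at this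
  have d1 := finrank_map_ker M ((lf e r : End F V) - 1)
  have d2 := finrank_map_ker M ((d : End F V) - 1)
  have d3 := Submodule.finrank_mono l1
  have d4 := Submodule.finrank_mono l2
  have d5 := (Submodule.finrank_mono MZ).trans (Submodule.finrank_add_le_finrank_add_finrank _ _)
  have K : ∀ x u, u ≠ 0 → φ x = 0 → a x ⊗ₜ[F] b u = -(x ⊗ₜ u) → x ∈ F ∙ w := fun x u u0 hx H => by
    obtain ⟨v, -, hv⟩ := (Submodule.eq_of_le_of_finrank_le l1 (by omega)).ge (show e (x ⊗ₜ u) ∈ _ from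
      ⟨mM.2 (by rw [e1, H, map_neg]), by simp [hr, hx]⟩)
    exact mem_span_of_tmul u0 (e.injective (by simpa [lf_rk1 hr] using hv.symm))
  have K' : ∀ x u, u ≠ 0 → a x = -x → b u = u → x = 0 := fun x u u0 h1 h4 => by
    obtain ⟨k, rfl⟩ := Submodule.mem_span_singleton.1 (K x u u0 (eq_zero_of_neg h2 ((aφ x).symm.trans (by rw [h1, map_neg])))
      (by rw [h1, h4, neg_tmul]))
    exact eq_zero_of_neg h2 (x := k • w) (by rw [← h1, map_smul, aw])
  obtain ⟨u₁, u1, b1⟩ : ∃ u, u ≠ 0 ∧ b u = -u := by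
    by_contra! hc
    have b1 : ∀ u, b u = u := fun u => by_contra fun n => hc (b u - u) (sub_ne_zero.2 n) (by simp [bb])
    exact z1 (ext_e' e fun x u => by
      rw [e1, b1, sub_eq_zero.1 (K' (a x - x) u₀ u0 (by simp [aa]) (b1 _))]; rfl)
  have d6 := (a + 1).finrank_range_add_finrank_ker
  have d7 := Submodule.finrank_mono (show LinearMap.range (a + 1) ≤ (F ∙ w) ⊔ F ∙ (a x₀ + x₀) by
    rintro _ ⟨x, rfl⟩
    have := K (a x + x - φ x • (a x₀ + x₀)) u₁ u1 (by simp [aφ, x1]) (by simp [aa, b1, tmul_neg, add_comm])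
    have := add_mem (Submodule.mem_sup_left this) (Submodule.smul_mem _ (φ x) (mem_sup_self _ (a x₀ + x₀)))
    rwa [sub_add_cancel] at this)
  have d8 := finrank_sup_one (F ∙ w) (a x₀ + x₀)
  have d9 := finrank_span_one (F := F) w
  have mS : ∀ {x}, x ∈ LinearMap.ker (a + 1) ↔ a x = -x := by simp [add_eq_zero_iff_eq_neg]
  obtain ⟨y, hy, y0⟩ := exists_notMem_of_lt (U := LinearMap.ker (a + 1)) (R := ⊥) (by simp; omega)
  have b2 : ∀ u, b u = -u := fun u => by_contra fun n => y0 (K' y (b u + u) (by rwa [Ne, add_eq_zero_iff_eq_neg])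
    (mS.1 hy) (by simp [bb, add_comm]))
  have d10 := Submodule.finrank_mono (show LinearMap.range (e.toLinearMap ∘ₗ TensorProduct.mk F W U w) ≤
      M ⊓ LinearMap.ker ((lf e r : End F V) - 1) by
    rintro _ ⟨u, rfl⟩
    exact ⟨mM.2 (by simp [e1, aw, b2, tmul_neg]), by simp [hr, hw]⟩)
  rw [LinearMap.finrank_range_of_inj fun u u' h => tmul_inj w0 (e.injective h)] at d10
  have YM : Y ≤ M := (Submodule.eq_of_le_of_finrank_le (show M.map ((d : End F V) - 1) ≤ Y by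
    rintro _ ⟨v, -, rfl⟩; exact dY v) (by omega)).ge.trans (l2.trans inf_le_left)
  refine ⟨LinearMap.ker (a + 1), by omega, fun x hx => eq_zero_of_neg h2 ((aφ x).symm.trans (by rw [mS.1 hx, map_neg])),
    fun x hx u => sub_eq_zero.1 (eq_zero_of_neg h2 ?_)⟩
  rw [← mM.1 (YM (dY _)), map_sub, ← LinearEquiv.mul_apply, zd.eq, LinearEquiv.mul_apply, e1, mS.1 hx, b2, neg_tmul,
    tmul_neg, neg_neg]

variable [Finite ι] [Finite (V ≃ₗ[F] V)] [Finite F]

/-- The criterion for unipotent root elements in odd characteristic. -/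
theorem TG.le_odd' (h : TG E X T P) [FiniteDimensional F V] (h2 : (2 : F) ≠ 0) (un : ∀ r ∈ T, ∀ x, r (r x - x) = r x - x)
    (hP : ∀ S : Submodule F W, finrank F W ≤ finrank F S + 1 → ∃ w ∈ S, w ∈ P ∧ w ≠ 0)
    (mv : ∀ y ≠ 0, ∃ r ∈ T, r y ≠ y) : X ≤ wstab E := by
  have := h.nt
  have un' : ∀ r ∈ T, ∀ i (c : V ≃ₗ[F] V) x, (c * lf (E i) r * c⁻¹) ((c * lf (E i) r * c⁻¹) x - x) =
      (c * lf (E i) r * c⁻¹) x - x := fun r hr i c x => by
    have := LinearMap.congr_fun (ext_e (E i) (x := lf (E i) r * (lf (E i) r - 1)) (y := lf (E i) r - 1) fun w u => by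
      simpa [sub_tmul] using congrArg (fun x => E i (x ⊗ₜ u)) (un r hr w)) (c⁻¹ x)
    simpa using congrArg c this
  refine h.le_wstab (h.wrA.ind ?_ fun X' a I i _ _ hi _ k => ?_)
  · rintro c hc i _ ⟨r, hr, rfl⟩ H j
    obtain ⟨j', m⟩ := H j
    obtain ⟨j'', m'⟩ := H j'
    by_contra n
    replace n : j ≠ j' := by rintro rfl; exact n m
    obtain ⟨s, hs⟩ := h.ne
    obtain ⟨s', hs', e1⟩ := m.1 _ ⟨s, hs, rfl⟩
    obtain ⟨s'', hs'', e2⟩ := m'.1 _ ⟨s', hs', rfl⟩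
    have n' : j'' ≠ j' := by rintro rfl; exact n (h.wrA.idx' m.inv m'.inv)
    have e3 := un' r hr i c
    generalize c * lf (E i) r * c⁻¹ = d at *
    replace e1 := congrArg LinearEquiv.toLinearMap (eq_mul_inv_iff_mul_eq.1 e1)
    replace e2 := congrArg LinearEquiv.toLinearMap (eq_mul_inv_iff_mul_eq.1 e2)
    replace e3 : ((d : End F V) - 1) * (d - 1) = 0 := LinearMap.ext fun x => by simpa [sub_eq_zero] using e3 x
    simp only [LinearEquiv.coe_toLinearMap_mul, coe_lf] at e1 e2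
    obtain ⟨w, -, -, φ, -, a1⟩ := h.rk s hs
    obtain ⟨w', -, -, φ', -, a2⟩ := h.rk s'' hs''
    have fin : ∀ y : End F V, y * fa (E j) s = y → y * fa (E j'') s'' = y → y * (fa (E j') s' - 1) = 0 := fun y b1 b2 =>
      (smul_eq_zero.1 (by
        rw [two_smul]
        linear_combination (norm := noncomm_ring) (b2 - b1) * d + b1 + b1 - y * e2 + y * (2 - d) * e1 * (2 - d) +
          y * (2 - d) * fa (E j') s' * e3 - y * e3 * fa (E j) s * (2 - d))).resolve_left h2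
    have cm : ∀ l ≠ j', ∀ a, Commute (fa (E j') s' - 1) (fa (E l) a) := fun l n a =>
      (h.comm j' l n.symm _ a).sub_left (Commute.one_left _)
    refine h.not_scal hs' 1 (sub_eq_zero.1 (fa_inj (e := E j') ?_))
    rw [one_smul, map_sub, map_one]
    obtain ⟨y, y0, y1, y2⟩ := exists_rk1_kill h.three w w'
    have b1 : y * s = y := LinearMap.ext fun x => by simp [a1, y1]
    have b2 : y * s'' = y := LinearMap.ext fun x => by simp [a2, y2]
    by_cases n'' : j'' = j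
    · subst n''
      exact indep y0 (cm _ n) (fin _ (by rw [← map_mul, b1]) (by rw [← map_mul, b2]))
    refine indep y0 (cm _ n') (indep y0 (fun a => (h.comm j'' j n'' y a).mul_left (cm _ n a)) ?_)
    rw [← mul_assoc]
    exact fin _ (by rw [mul_assoc, (h.comm j'' j n'' y s).eq, ← mul_assoc, ← map_mul, b1]) (by rw [mul_assoc, ← map_mul, b2])
  have h' := h.mono a k.le
  obtain ⟨r, hr⟩ := h.ne
  have m := h'.le i r hr
  have rc : ∀ r ∈ T, ∀ c ∈ X', c⁻¹ * lf (E i) r * c ∈ HD (DT E T) → c ∈ HD (DT E T) := fun r hr c hc H =>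
    inv_mem_iff.1 (k.rc i hi _ ⟨r, hr, rfl⟩ _ (inv_mem hc) (by rwa [inv_inv]))
  refine quad_engine h2 m (fun l => ⟨l, k.self ⟨r, hr, rfl⟩ l⟩) (by simpa using un' r hr i 1) (rc r hr)
    fun c hc z hz z1 z2 z3 z4 => ?_
  have md := mul_mem (mul_mem (inv_mem hc) m) hc
  have ud : ∀ x, (c⁻¹ * lf (E i) r * c) ((c⁻¹ * lf (E i) r * c) x - x) = (c⁻¹ * lf (E i) r * c) x - x := by
    simpa using un' r hr i c⁻¹
  obtain ⟨Y, y1, y2⟩ : ∃ Y : Submodule F V, finrank F Y ≤ finrank F U ∧ c⁻¹ * lf (E i) r * c ∈ mvS Y := by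
    obtain ⟨w, -, w0, φ, φ0, e1⟩ := h.rk r hr
    exact ⟨LinearMap.range (c.symm.toLinearMap ∘ₗ (E i).toLinearMap ∘ₗ TensorProduct.mk F W U w),
      LinearMap.finrank_range_le _, fun x => ⟨cL φ ((E i).symm (c x)), by simp [lf_rk1 e1]⟩⟩
  generalize c⁻¹ * lf (E i) r * c = d at *
  have le : ∀ r ∈ T, Subgroup.closure {lf (E i) r, d} ≤ X' := fun r hr =>
    (Subgroup.closure_le _).2 (by rintro _ (rfl | rfl); exacts [h'.le i r hr, md])
  have fx : ∀ r ∈ T, ∀ z ∈ Subgroup.closure {lf (E i) r, d}, z ≠ 1 → z * z = 1 → Commute z (lf (E i) r) → Commute z d →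
      ∃ S : Submodule F W, finrank F W ≤ finrank F S + 2 ∧ (∀ x ∈ S, r x = x) ∧
      ∀ x ∈ S, ∀ u, d (E i (x ⊗ₜ u)) = E i (x ⊗ₜ u) := fun r hr z hz z1 z2 z3 z4 => by
    obtain ⟨w, -, w0, φ, φ0, e1⟩ := h.rk r hr
    obtain ⟨x, hx⟩ : ∃ x, φ x ≠ 0 := by by_contra! hc; exact φ0 (LinearMap.ext hc)
    exact (quad_fix' h2 h.three w0 φ0 e1 (by simpa [e1, hx, w0] using un r hr x) ud y1 y2 hz z1 z2 z3 z4
      (h'.pt (le r hr hz) hr (by rw [z3.eq, mul_inv_cancel_right]))).imp fun S H =>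
      ⟨H.1, fun x hx => by simp [e1, H.2.1 x hx], H.2.2⟩
  obtain ⟨S, s1, -, s2⟩ := fx r hr z hz z1 z2 z3 z4
  obtain ⟨y, hy, y0⟩ := exists_notMem_of_lt (U := S) (R := ⊥) (by have := h.three; simp; omega)
  obtain ⟨r', hr', n⟩ := mv y y0
  have : Fact (ringChar F).Prime := ⟨CharP.char_is_prime F _⟩
  rcases quad_pair h2 (s := lf (E i) r') (by simpa using un' r' hr' i 1) ud with H | ⟨z, hz, z1, z2, z3, z4⟩
  · by_contra hd
    obtain ⟨t, a1, a2, a3⟩ := Invol.exists_mem_normalizer_of_lt H (X := Subgroup.closure {lf (E i) r', d} ⊓ HD (DT E T))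
      (lt_of_le_of_ne inf_le_left fun e => hd (e.ge (Subgroup.subset_closure (by simp))).2)
    exact a2 ⟨a1, rc r' hr' t (le r' hr' a1) (by
      simpa using ((Subgroup.mem_normalizer_iff.1 (inv_mem a3) _).1 ⟨Subgroup.subset_closure (by simp),
        fun l => ⟨l, k.self ⟨r', hr', rfl⟩ l⟩⟩).2)⟩
  obtain ⟨S', b1, b2, b3⟩ := fx r' hr' z hz z1 z2 z3 z4
  obtain ⟨x, x1, x2, x0⟩ := hP (S' ⊔ F ∙ y) (by
    have := Submodule.finrank_lt_finrank_of_lt (show S' < S' ⊔ F ∙ y from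
      left_lt_sup.2 fun e => n (b2 y (e (Submodule.mem_span_singleton_self y)))); omega)
  refine k.N i hi _ md (h'.mp md (h'.par _ md i i x x2 x0 x fun u => ⟨u, ?_⟩))
  obtain ⟨p, hp, q, hq, rfl⟩ := Submodule.mem_sup.1 x1
  obtain ⟨t, rfl⟩ := Submodule.mem_span_singleton.1 hq
  simp [add_tmul, ← smul_tmul', b3 p hp, s2 y hy]

end Cfsg.Agent.Root.Wr
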