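import Cfsg.Agent.Low.WU3

/-! Groups of isometries containing the special unitary groups of all factors of a tensor-power frame (`UW`) contain the
Eichler group or permute the factors (`UW.le_wstab`). -/

set_option autoImplicit false

namespace Cfsg.Agent.Root.Wr

open Cfsg.Agent.Geom Cfsg.Agent.AutCl Module TensorProduct Mx

variable {F : Type*} [Field F] {σ : F →+* F} {V W U : Type*} [AddCommGroup V] [Module F V] [AddCommGroup W] [Module F W]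
  [AddCommGroup U] [Module F U] {ι : Type*} {Ψ : Formed σ W} {Φ₂ : Formed σ U} {Φ : Formed σ V}
  {E : ι → W ⊗[F] U ≃ₗ[F] V} {X : Subgroup (V ≃ₗ[F] V)}

/-- A tensor power of a unitary space. -/
structure UW0 (Ψ : Formed σ W) (Φ₂ : Formed σ U) (Φ : Formed σ V) (E : ι → W ⊗[F] U ≃ₗ[F] V) : Prop extends TW E where
  uf : UF Ψ
  B : ∀ i w u w' u', Φ.B (E i (w ⊗ₜ u)) (E i (w' ⊗ₜ u')) = Ψ.B w w' * Φ₂.B u u'
  Q : ∀ x, Φ.Q x = 0
  nd₂ : Φ₂.Nondeg
  ε₂ : Φ₂.ε = 1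
  ex : ∃ u v, Φ₂.IsPair u v
  hk : 4 ≤ finrank F W ∨ finrank F W = 3 ∧ (∃ l : F, l ≠ 0 ∧ l * σ l ≠ 1) ∧ ∃ l : F, σ l ^ 3 ≠ l ^ 3

/-- A group of isometries containing the special unitary groups of the factors and enough permutations. -/
structure UW (Ψ : Formed σ W) (Φ₂ : Formed σ U) (Φ : Formed σ V) (E : ι → W ⊗[F] U ≃ₗ[F] V) (X : Subgroup (V ≃ₗ[F] V)) :
    Prop extends UW0 Ψ Φ₂ Φ E where
  iso : X ≤ Φ.isom
  l : ∀ i, ∀ g ∈ Ψ.isom, g ∈ SLg F W → lf (E i) g ∈ X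
  sw : ∀ i j l, j ≠ i → l ≠ i → ∃ τ ∈ X, (∀ a, (τ : End F V) * fa (E j) a = fa (E l) a * τ) ∧
    ∀ a, (τ : End F V) * fa (E i) a = fa (E i) a * τ

/-- The unitary transvections. -/
def TU (Ψ : Formed σ W) : Set (W ≃ₗ[F] W) :=
  {r | ∃ w, Ψ.Sing w ∧ w ≠ 0 ∧ ∃ c : F, c ≠ 0 ∧ σ c = -c ∧ ∀ x, r x = x + (c * Ψ.B w x) • w}

theorem UW0.nt (h : UW0 Ψ Φ₂ Φ E) : Nontrivial U := let ⟨_, _, e⟩ := h.ex; nontrivial_of_ne _ _ e.left_ne_zero

theorem UW0.hq (h : UW0 Ψ Φ₂ Φ E) : (∃ t : F, σ t = t ∧ t ≠ 0 ∧ t ≠ 1) ∨ 4 ≤ finrank F W :=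
  h.hk.symm.imp_left fun ⟨_, ⟨l, a, b⟩, _⟩ => ⟨l * σ l, by simp [Ψ.σσ, mul_comm], by simpa, b⟩

variable [FiniteDimensional F W]

theorem UF.tu (s : UF Ψ) {x : W} (hx : Ψ.Sing x) (x0 : x ≠ 0) {c : F} (c0 : c ≠ 0) (hc : σ c = -c) :
    ∃ g ∈ TU Ψ, ∀ v, g v = v + (c * Ψ.B x v) • x := by
  obtain ⟨g, hg, -⟩ := s.tv hx (c := -c) (by simp [hc])
  have e : ∀ v, g v = v + (c * Ψ.B x v) • x := fun v => by simp [hg.app]
  exact ⟨g, ⟨x, hx, x0, c, c0, hc, e⟩, e⟩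

theorem UF.tu_isE (s : UF Ψ) {r : W ≃ₗ[F] W} (hr : r ∈ TU Ψ) : ∃ p d, IsE Ψ p 0 d r :=
  let ⟨w, a, _, c, _, b, e⟩ := hr
  ⟨w, -c, a, by simp, by simp [s.τ, s.Q], by simp [s.ε, b], fun x => by simp [e]⟩

variable [Finite F]

theorem UW0.sim (h : UW0 Ψ Φ₂ Φ E) {c : V ≃ₗ[F] V} (hc : c ∈ Φ.isom) {i j : ι} {a : W ≃ₗ[F] W} {b : U ≃ₗ[F] U}
    (e : ∀ w u, c (E i (w ⊗ₜ u)) = E j (a w ⊗ₜ b u)) :
    ∃ μ, μ ≠ 0 ∧ σ μ = μ ∧ ∀ x y, Ψ.B (a x) (a y) = μ * Ψ.B x y := by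
  obtain ⟨u, v, hu⟩ := h.ex
  have m : ∀ x y, Ψ.B (a x) (a y) = Φ₂.B (b.symm u) (b.symm v) * Ψ.B x y := fun x y => by
    simpa [e, h.B, hu.ef, mul_comm] using hc.1 (E i (x ⊗ₜ b.symm u)) (E i (y ⊗ₜ b.symm v))
  obtain ⟨x, y, p⟩ := h.uf.pair
  refine ⟨_, fun e => p.left_ne_zero (a.map_eq_zero_iff.1 (h.uf.nd _ fun y => by simpa [e] using m x (a.symm y))), ?_, m⟩
  simpa [m, p.ef, (h.uf.pair_symm p).ef] using (h.uf.symm (a x) (a y)).symm

namespace UW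
variable [FiniteDimensional F U] (h : UW Ψ Φ₂ Φ E X)
include h

omit [FiniteDimensional F W] [Finite F] [FiniteDimensional F U] in
theorem fu (i : ι) : FU Ψ Φ₂ (Φ.comap (E i).toLinearMap) (X.comap (autCongr (E i)).toMonoidHom) :=
  ⟨h.B i, fun _ => h.Q _, h.uf, h.nd₂, h.ε₂, h.ex,
    fun g hg => ⟨fun x y => by simpa using (h.iso hg).1 (E i x) (E i y), fun x => by simp [h.Q]⟩, h.l i⟩

omit [Finite F] h in
theorem cjb [Nontrivial W] {i : ι} {g : V ≃ₗ[F] V} (hg : g ∈ X) (e : ∀ a, (g : End F V) * fa (E i) a = fa (E i) a * g) :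
    ∃ b : U ≃ₗ[F] U, TensorProduct.congr (.refl F W) b ∈ X.comap (autCongr (E i)).toMonoidHom ∧
      ∀ p, (g : End F V) * fb (E i) p * (g⁻¹ : V ≃ₗ[F] V) = fb (E i) (b * p * (b⁻¹ : U ≃ₗ[F] U)) := by
  obtain ⟨b, e⟩ := tst_of_conj e
  refine ⟨b, ?_, fun p => ext_e (E i) fun w u => by simp [tst_inv (a := 1) e, e]⟩
  change autCongr (E i) _ ∈ X
  rwa [show autCongr (E i) (TensorProduct.congr (.refl F W) b) = g from ext_e' (E i) fun w u => by simp [e]]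

theorem iu {i j : ι} (n : j ≠ i) {S : Set (End F U)} (hS : ∀ b : U ≃ₗ[F] U, TensorProduct.congr (.refl F W) b ∈
    X.comap (autCongr (E i)).toMonoidHom → ∀ z ∈ S, (b : End F U) * z * (b⁻¹ : U ≃ₗ[F] U) ∈ S) :
    Iu Ψ (E j) (fb (E i) '' S) := by
  rintro _ ⟨z, hz, rfl⟩ p a d g hg
  have := h.uf.ntW
  obtain ⟨b, hb, e⟩ := cjb (i := i) (h.l j g hg.mem_isom (isE_SL hg)) fun a => coe_lf (e := E j) g ▸ (h.comm j i n _ a).eq
  exact ⟨_, hS b hb z hz, by rw [← e, ← map_inv, coe_lf, coe_lf]⟩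

variable [Finite ι]

theorem algA (i : ι) (A : Subalgebra F (End F U)) (hA : ∀ b : U ≃ₗ[F] U, TensorProduct.congr (.refl F W) b ∈
    X.comap (autCongr (E i)).toMonoidHom → ∀ z ∈ A, (b : End F U) * z * (b⁻¹ : U ≃ₗ[F] U) ∈ A) :
    (∀ z ∈ A, ∃ k : F, z = k • 1) ∨ ∀ z, z ∈ A := by
  classical
  have := Fintype.ofFinite ι
  have := h.uf.ntW
  have := h.nt
  refine or_iff_not_imp_right.2 fun n z hz => ((h.uf.alg h.hq h.toTW i (Finset.univ.erase i) (A.map (fb (E i))).toSubmodule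
    (fun _ p _ q => (A.map (fb (E i))).mul_mem p q) (by
      rintro _ ⟨p, -, rfl⟩ l hl a
      rw [show l = i by simpa using hl]; exact (fa_fb _ _).symm)
    (fun j hj => h.iu (Finset.ne_of_mem_erase hj) hA) ⟨z, hz, rfl⟩).resolve_right fun ⟨j, hj, e1⟩ => n fun z => ?_).imp
    fun k e => fb_inj (e := E i) (e.trans (by simp))
  obtain ⟨p, hp, e⟩ := h.gen i (A.map (fb (E i))) (fun l hl a => by
    obtain ⟨τ, hτ, e2, e3⟩ := h.sw i j l (Finset.ne_of_mem_erase hj) hl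
    obtain ⟨b, hb, e4⟩ := cjb hτ e3
    obtain ⟨p, hp, e5⟩ := e1 a
    exact ⟨_, hA b hb p hp, (e4 p).symm.trans (by
      rw [show fb (E i) p = fa (E j) a from e5, e2, mul_assoc, coe_mul_inv, mul_one])⟩) z
  exact fb_inj e ▸ hp

variable (hS : ¬ EG Φ ≤ X)
include hS

omit [FiniteDimensional F W] [Finite F] [FiniteDimensional F U] [Finite ι] h in
theorem not_le (i : ι) : ¬ EG (Φ.comap (E i).toLinearMap) ≤ X.comap (autCongr (E i)).toMonoidHom := fun H =>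
  hS fun g hg => by simpa using H (x := (autCongr (E i)).symm g) ((mem_EG_comap _).2 (by simpa))

theorem scal4 (h4 : 4 ≤ finrank F W) (i : ι) (ρ : End F U) (hρ : RF Ψ (X.comap (autCongr (E i)).toMonoidHom) ρ) :
    ∃ k : F, ρ = k • 1 := by
  have f := (h.fu i).fs h4
  let A : Subalgebra F (End F U) :=
    { carrier := {z | ∀ ρ ∈ f.rfS, z * ρ ∈ f.rfS}
      add_mem' := fun hp hq ρ e => by rw [add_mul]; exact add_mem (hp ρ e) (hq ρ e)
      algebraMap_mem' := fun k ρ e => by simpa [Algebra.algebraMap_eq_smul_one] using f.rfS.smul_mem k e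
      mul_mem' := fun hp hq ρ e => by rw [mul_assoc]; exact hp _ (hq ρ e) }
  refine (h.algA i A fun b hb z hz ρ hρ => ?_).resolve_right (fun all => not_le hS i (f.win fun y φ =>
    mul_one (rk1 y φ) ▸ all (rk1 y φ) 1 f.rf_one)) ρ fun p hp => ?_
  · change RF _ _ _
    convert FS.rf_conj (hz _ (FS.rf_conj hρ (g := b.symm) (inv_mem hb))) hb using 1
    ext u; simp
  obtain ⟨ρ', e⟩ := exists_isAdj h.nd₂ ρ
  obtain ⟨k, hk⟩ := h.uf.kap
  have w := fun k => f.rf_weak (a' := 1) f.rf_one hρ (fun _ _ => rfl) e k hp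
  rw [← f.rfS.smul_mem_iff hk]
  convert f.rfS.sub_mem (f.rfS.smul_mem (σ k) (w 1)) (w k) using 1
  simp only [h.uf.ε, sub_mul, smul_mul_assoc, one_mul, mul_one, map_one]; module

theorem scal3 {i : ι} (f : F3 Ψ Φ₂ (Φ.comap (E i).toLinearMap) (X.comap (autCongr (E i)).toMonoidHom)) :
    (∀ ρ, RF Ψ (X.comap (autCongr (E i)).toMonoidHom) ρ → ∃ k : F, ρ = k • 1) ∧
      ∀ ζ, ZF Ψ (X.comap (autCongr (E i)).toMonoidHom) ζ → ∃ k : F, ζ = k • 1 := by
  have := h.uf.ntW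
  have := h.nt
  let A : Subalgebra F (End F U) :=
    { carrier := {z | ∀ ρ ∈ f.rfS, ρ * z ∈ f.rfS}
      add_mem' := fun hp hq ρ e => by rw [mul_add]; exact add_mem (hp ρ e) (hq ρ e)
      algebraMap_mem' := fun k ρ e => by simpa [Algebra.algebraMap_eq_smul_one] using f.rfS.smul_mem k e
      mul_mem' := fun hp hq ρ e => by rw [← mul_assoc]; exact hq _ (hp ρ e) }
  have hA := (h.algA i A fun b hb z hz ρ hρ => by
    change RF _ _ _
    convert FS.rf_conj (hz _ (FS.rf_conj hρ (g := b.symm) (inv_mem hb))) hb using 1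
    ext u; simp).resolve_right fun all => not_le hS i (f.win fun ρ => one_mul ρ ▸ all ρ 1 f.rf_one)
  have hZ : ∀ ζ, ZF Ψ (X.comap (autCongr (E i)).toMonoidHom) ζ → ∃ k : F, ζ = k • 1 := fun ζ hζ => by
    by_contra n
    obtain ⟨j, n⟩ : ∃ j, ¬ ∀ a, Commute (fb (E i) ζ) (fa (E j) a) := not_forall.1 fun H =>
      n ((h.toTW.scal i H).imp fun k e => fb_inj (e := E i) (e.trans (by simp)))
    have ji : j ≠ i := by rintro rfl; exact n fun a => (fa_fb _ _).symm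
    obtain ⟨x, hx, x0, b0⟩ := h.uf.exists_blk0 n
    let Z : AddSubgroup (End F U) := .ofSub {ζ | ZF Ψ (X.comap (autCongr (E i)).toMonoidHom) ζ} ⟨ζ, hζ⟩
      fun a ha b hb x hx => ((ha x hx).add ((hb x hx).neg (tt_mul_zero hx.2)) (by ext; simp [hx.2])).congr
        fun v => by simp [tmul_add, tmul_neg]
    obtain ⟨l, l0, l1⟩ := f.nm
    obtain ⟨c, c0, hc⟩ := h.uf.tp
    obtain ⟨η, hη, e⟩ := h.uf.nn (Z.map (fb (E i)).toAddMonoidHom) (h.iu ji fun b hb z hz x hx =>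
      (hz x hx).conj hb fun v => by
        induction v with
        | zero => simp
        | tmul w u => simp
        | add x y p q => simp only [map_add, p, q]) (t := l * σ l) (by simp [Ψ.σσ, mul_comm]) (by
      rintro _ ⟨z, hz, rfl⟩
      exact ⟨(l * σ l) • z, fun x hx => (hz _ (hx.smul l)).congr fun v => by simp [smul_tmul, smul_smul, mul_comm], by simp⟩)
      hc ⟨ζ, hζ, rfl⟩ hx
    replace e : fb (E i) η = _ := e
    have e2 : η * η = 0 := fb_inj (e := E i) (by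
      rw [map_mul, e, smul_mul_smul_comm, mul_assoc _ (fa _ _), mul_assoc (fa _ _) _ (fa _ _),
        ← mul_assoc (fa _ _) (fa _ _), ← map_mul, nx_sq hx]; simp)
    obtain ⟨k, rfl⟩ := hA η fun ρ => f.rf_eta hη e2
    rw [show k = 0 by simpa using e2, zero_smul, map_zero, fa_mul_fa, eq_comm, smul_eq_zero] at e
    exact b0 (fb_inj (e := E j) ((indep (h.uf.nx_ne x0) (fun a => (fa_fb _ _).symm)
      (e.resolve_left (by simp [l0, c0, sub_eq_zero, l1]))).trans (map_zero _).symm))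
  refine ⟨fun ρ hρ => ?_, hZ⟩
  obtain ⟨ρ', e⟩ := exists_isAdj h.nd₂ ρ
  obtain ⟨k, hk⟩ := h.uf.kap
  have w := fun k => hZ _ (f.zf_comm (ρ₁' := 1) (fun _ _ => rfl) e f.rf_one hρ k)
  obtain ⟨a, ha⟩ := w 1
  obtain ⟨b, hb⟩ := w k
  simp only [one_mul, mul_one, map_one] at ha hb
  exact ⟨(σ k - k)⁻¹ * (σ k * a - b), by
    rw [mul_smul, eq_inv_smul_iff₀ hk]; linear_combination (norm := module) σ k • ha - hb⟩

theorem tg : TG E X (TU Ψ) {w | Ψ.Sing w} := by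
  have s := h.uf
  refine ⟨h.toTW, s.three, h.nt, fun i r hr => ?_, fun r ⟨w, p, a, c, b, _, e⟩ => ⟨w, p, a, c • Ψ.B w,
    fun e => a (s.nd _ fun y => by simpa [b] using LinearMap.congr_fun e y), e⟩, fun S hS => ?_,
    fun c hc i j w hw w0 w' H => ?_, fun c hc i j a b e r ⟨w, o, p, k, q, q', t⟩ => ?_⟩
  · obtain ⟨p, d, hg⟩ := s.tu_isE hr
    exact h.l i _ hg.mem_isom (isE_SL hg)
  · refine eq_top_iff.2 fun a _ => s.top S.toSubmodule (fun _ p _ q => S.mul_mem p q) (fun x hx => ?_) a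
    by_cases x0 : x = 0
    · rw [show nx Ψ x = 0 by ext; simp [x0]]; exact zero_mem _
    obtain ⟨t, t0, ht⟩ := s.tp
    obtain ⟨g, hg, e⟩ := s.tu hx x0 t0 ht
    rw [Subalgebra.mem_toSubmodule]
    convert S.smul_mem (S.sub_mem (hS g hg) S.one_mem) t⁻¹ using 1
    ext v; simp [e, smul_smul, t0]
  · have iso : ∀ x y, (Φ.comap (E j).toLinearMap).B (((E i).trans (c.trans (E j).symm)) x)
        (((E i).trans (c.trans (E j).symm)) y) = (Φ.comap (E i).toLinearMap).B x y := fun x y => by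
      simpa using (h.iso hc).1 (E i x) (E i y)
    have cj : ∀ g ∈ X.comap (autCongr (E i)).toMonoidHom, (E i).trans (c.trans (E j).symm) * g *
        ((E i).trans (c.trans (E j).symm))⁻¹ ∈ X.comap (autCongr (E j)).toMonoidHom := fun g hg => by
      change autCongr (E j) _ ∈ X
      convert mul_mem (mul_mem hc hg) (inv_mem hc) using 1
      ext v
      simp only [autCongr_apply, LinearEquiv.mul_apply, LinearEquiv.coe_inv]
      simp
    have H' : ∀ u, ∃ u', ((E i).trans (c.trans (E j).symm)) (w ⊗ₜ u) = w' ⊗ₜ u' := fun u => (H u).imp fun u' e => by simp [e]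
    refine Exists.imp (fun a ⟨b, e⟩ => ⟨b, fun w u => by rw [← e]; simp⟩)
      (show (E i).trans (c.trans (E j).symm) ∈ tstab F W U from ?_)
    rcases h.hk with h4 | ⟨a, b, d⟩
    · exact ((h.fu j).fs h4).par (h.scal4 hS h4 j) ((h.fu i).fs h4) iso cj hw w0 H'
    have f : F3 _ _ _ _ := ⟨h.fu j, a, b, d⟩
    exact f.par (h.scal3 hS f).1 (h.scal3 hS f).2 (fun _ _ _ _ => (iso _ _).trans (h.B i _ _ _ _))
      (fun g p q => cj _ (h.l i g p q)) hw w0 H'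
  obtain ⟨μ, m0, m1, m⟩ := h.sim (h.iso hc) e
  refine ⟨a w, s.sing (by simp [m, o.2]), by simpa, k / μ, by simp [q, m0], by simp [q', m1, neg_div], fun x => ?_⟩
  obtain ⟨x, rfl⟩ := a.surjective x
  simp [t, m, ← mul_assoc, m0]

theorem le_wstab [FiniteDimensional F V] : X ≤ wstab E := by
  have : Finite V := Module.finite_of_finite F
  have : Finite (V ≃ₗ[F] V) := Finite.of_injective _ DFunLike.coe_injective
  have k := h.tg hS
  have s := h.uf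
  obtain ⟨c, c0, hc⟩ := s.tp
  obtain ⟨w, f, hp⟩ := s.pair
  by_cases h2 : (2 : F) = 0
  swap
  · refine k.le_odd' h2 (fun r ⟨w, o, _, c, _, _, q⟩ x => by simp [q, o.2]) (fun S hS => ?_) fun y y0 => ?_
    · obtain ⟨x, a, b, c⟩ := exists_sing_herm s.ne s.ε s.Q (T := S) (by have := s.three; omega)
      exact ⟨x, a, c, b⟩
    obtain ⟨x, hx, n⟩ : ∃ x, Ψ.Sing x ∧ Ψ.B x y ≠ 0 := by
      by_contra! H
      exact y0 (s.nd _ fun x => Ψ.B_eq_zero_symm (sing_induction hp (P := fun x => Ψ.B x y = 0) H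
        (fun a b p q => by simp [p, q]) x))
    have x0 : x ≠ 0 := by rintro rfl; simp at n
    obtain ⟨g, hg, e⟩ := s.tu hx x0 c0 hc
    exact ⟨g, hg, by simp [e, c0, n, x0]⟩
  have sq : ∀ r ∈ TU Ψ, r * r = 1 := fun r ⟨w, o, _, c, _, _, q⟩ => LinearEquiv.ext fun x => by
    simp [q, o.2, add_assoc, ← two_smul F, h2]
  have inv : ∀ a : W ≃ₗ[F] W, (∀ x y, Ψ.B (a x) (a y) = Ψ.B x y) → a * a = 1 → a ≠ 1 → ∃ q ∈ TU Ψ, Commute q a ∧
      ∃ θ : End F W, (q : End F W) = 1 + ((a : End F W) - 1) * θ * ((a : End F W) - 1) := fun a ha e n => by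
    obtain ⟨x, hx⟩ : ∃ x, a x - x ≠ 0 := by
      by_contra! hc; exact n (LinearEquiv.ext fun x => sub_eq_zero.1 (hc x))
    have aa : ∀ y, a (a y) = y := LinearEquiv.congr_fun e
    have e1 : a (a x - x) = a x - x := by
      rw [map_sub, aa, ← neg_sub, neg_eq_iff_add_eq_zero, ← two_smul F, h2, zero_smul]
    have e2 : ∀ y, Ψ.B (a x - x) y = Ψ.B x (a y - y) := fun y => by simp [← ha x (a y), aa]
    obtain ⟨q, hq, e3⟩ := s.tu (s.sing (by rw [e2, e1, sub_self, map_zero])) hx c0 hc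
    exact ⟨q, hq, LinearEquiv.ext fun y => by
      simp only [LinearEquiv.mul_apply, e3, map_add, map_smul, e1]; rw [← ha (a x - x) y, e1], c • nx Ψ x,
      LinearMap.ext fun y => by simp [e3, e2, -map_sub, smul_sub, smul_smul]⟩
  have iso : ∀ r ∈ TU Ψ, ∀ x y, Ψ.B (r x) (r y) = Ψ.B x y := fun r hr => let ⟨_, _, e⟩ := s.tu_isE hr; e.mem_isom.1
  refine k.le_even h2 sq (fun r hr t ht n c => ?_) (fun r ⟨w, o, w0, c, c0, hc, q⟩ => ?_) (fun c hc l a b e e' => ?_) ?_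
  · refine (inv _ (fun x y => by simp [iso r hr, iso t ht]) ?_ fun e => n ?_).imp fun q H => ⟨H.1, H.2.2⟩
    · rw [mul_assoc, ← mul_assoc t, ← c.eq, mul_assoc, sq t ht, mul_one, sq r hr]
    · rw [← inv_eq_of_mul_eq_one_right e, inv_eq_of_mul_eq_one_right (sq r hr)]
  · rcases h.hq with ⟨t, t1, t2, t3⟩ | h4
    · obtain ⟨x, hx, e⟩ := s.tu o w0 (mul_ne_zero t2 c0) (by simp [t1, hc])
      obtain ⟨z, hz⟩ := s.nd.exists_eq_one w0
      exact ⟨x, hx, fun e' => by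
        simpa [e, q, hz, c0, t3, (smul_left_injective F w0).eq_iff] using LinearEquiv.congr_fun e' z,
        LinearEquiv.ext fun v => by simp [q, e, o.2, add_right_comm]⟩
    obtain ⟨y, y2, hy, y1⟩ := s.sing_perp h4 w
    obtain ⟨z, -, z1, z2⟩ := sep s.nd (nondeg_top s.nd) le_top trivial y2
    have y0 : y ≠ 0 := by rintro rfl; simp at y2
    obtain ⟨x, hx, e⟩ := s.tu hy y0 c0 hc
    exact ⟨x, hx, fun e' => by
      simpa [e, q, Ψ.mem_perp_span_singleton.1 z1, z2, y0, c0] using LinearEquiv.congr_fun e' z,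
      LinearEquiv.ext fun v => by simp [q, e, y1, Ψ.B_eq_zero_symm y1, add_right_comm]⟩
  · by_cases n : a = 1
    · obtain ⟨r, hr, -⟩ := s.tu hp.se hp.left_ne_zero c0 ‹_›
      exact ⟨r, hr, n ▸ Commute.one_right _⟩
    obtain ⟨μ, -, -, m⟩ := h.sim (h.iso hc) e
    have m1 : μ = 1 := by
      have := m (a w) (a f)
      rw [show a (a w) = w from LinearEquiv.congr_fun e' w, show a (a f) = f from LinearEquiv.congr_fun e' f, m,
        hp.ef] at this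
      exact sub_eq_zero.1 (pow_eq_zero_iff two_ne_zero |>.1 (by linear_combination (1 - μ) * h2 - this))
    exact (inv a (by simpa [m1] using m) e' n).imp fun q H => ⟨H.1, H.2.1⟩
  have o := hp.se
  have w0 := hp.left_ne_zero
  rcases h.hq with ⟨t, t1, t2, t3⟩ | h4
  · obtain ⟨r1, a1, b1⟩ := s.tu o w0 c0 hc
    obtain ⟨r2, a2, b2⟩ := s.tu o w0 (mul_ne_zero t2 c0) (by simp [t1, hc])
    obtain ⟨r3, a3, b3⟩ := s.tu o w0 (c := (1 + t) * c) (mul_ne_zero (fun e => t3 (by linear_combination e - h2)) c0)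
      (by simp [t1, hc])
    refine ⟨[r1, r2, r3], ⟨1, rfl⟩, by simp [*], LinearEquiv.ext fun x => ?_⟩
    simp [b1, b2, b3, o.2]
    linear_combination (norm := module) (h2 * ((1 + t) * c * Ψ.B w x)) • w
  obtain ⟨y, y2, hy, y1⟩ := s.sing_perp h4 w
  obtain ⟨κ, hκ⟩ := s.kap
  have tv : ∀ k : F, ∃ g ∈ TU Ψ, ∀ v, g v = v + (c * Ψ.B (w + k • y) v) • (w + k • y) := fun k =>
    s.tu (sing_add_of_perp o (hy.smul k) (by simp [y1])) (fun e => by
      obtain rfl : k = 0 := eq_zero_of_smul_mem y2 (eq_neg_of_add_eq_zero_right e ▸ neg_mem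
        (Submodule.mem_span_singleton_self _))
      exact w0 (by simpa using e)) c0 hc
  obtain ⟨r1, a1, b1⟩ := tv 0
  obtain ⟨r2, a2, b2⟩ := tv 1
  obtain ⟨r3, a3, b3⟩ := tv κ
  obtain ⟨r4, a4, b4⟩ := tv (1 + κ)
  obtain ⟨r5, a5, b5⟩ := s.tu hy (by rintro rfl; simp at y2) (c := (κ + σ κ) * c)
    (mul_ne_zero (fun e => hκ (by linear_combination e - κ * h2)) c0) (by simp [hc, Ψ.σσ, add_comm])
  refine ⟨[r1, r2, r3, r4, r5], ⟨2, rfl⟩, by simp [*], LinearEquiv.ext fun x => ?_⟩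
  simp [b1, b2, b3, b4, b5, o.2, hy.2, y1, Ψ.B_eq_zero_symm y1]
  linear_combination (norm := module) (h2 * c * (2 * Ψ.B w x + (1 + σ κ) * Ψ.B y x)) • w +
    (h2 * c * ((1 + κ) * Ψ.B w x + (1 + κ * σ κ + κ + σ κ) * Ψ.B y x)) • y

end UW

end Cfsg.Agent.Root.Wr
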