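import Cfsg.Agent.Low.WU4
import Cfsg.Agent.Low.WS7

/-! Maximality of the stabiliser of a tensor power of unitary spaces (`UW0.isMax`) and its matrix form
(`isMaximalIn_wreathSU`). -/

set_option autoImplicit false

namespace Cfsg.Agent.Root.Wr

open Cfsg.Agent.Geom Cfsg.Agent.AutCl Module TensorProduct Mx Function

variable {F : Type*} [Field F] {σ : F →+* F} {V W U : Type*} [AddCommGroup V] [Module F V] [AddCommGroup W] [Module F W]
  [AddCommGroup U] [Module F U] {ι : Type*} {Ψ : Formed σ W} {Φ₂ : Formed σ U} {Φ : Formed σ V}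
  {E : ι → W ⊗[F] U ≃ₗ[F] V} {e : W ⊗[F] U ≃ₗ[F] V} [FiniteDimensional F W]

theorem not_mem_wstab' [Nontrivial U] (t : TW E) {i : ι} {w z : W} (hw : Ψ.B w w = 0) (hz : Ψ.B w z = 1)
    {ζ : End F U} (hζ : ∀ k : F, ζ ≠ k • 1) {g : V ≃ₗ[F] V} (hg : (g : End F V) = 1 + fa (E i) (nx Ψ w) * fb (E i) ζ) :
    g ∉ wstab E := fun ⟨π, H⟩ => by
  have w0 : w ≠ 0 := by rintro rfl; simp at hz
  have : Nontrivial W := ⟨⟨_, _, w0⟩⟩
  obtain ⟨a, b, e2⟩ := H i
  obtain ⟨χ, c1, c2⟩ := exists_fun1 (notMem_symm (notMem_of_fun (hz ▸ one_ne_zero) hw) w0)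
  have e3 : ∀ y u, E (π i) (a y ⊗ₜ b u) = E i (y ⊗ₜ u + (Ψ.B w y • w) ⊗ₜ ζ u) := fun y u => by
    simpa [e2] using LinearMap.congr_fun hg (E i (y ⊗ₜ u))
  by_cases n : π i = i
  · rw [n] at e3
    have d1 := fun u => congrArg (cL (Ψ.B w)) ((E i).injective (e3 z u))
    have d2 := fun u => congrArg (cL χ) ((E i).injective (e3 z u))
    simp [hz, hw, c1, c2] at d1 d2
    refine hζ (χ (a z) / Ψ.B w (a z)) (LinearMap.ext fun u => ?_)
    obtain ⟨u₀, u0⟩ := exists_ne (0 : U)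
    have k0 : Ψ.B w (a z) ≠ 0 := fun e => u0 (by simpa [e] using (d1 u₀).symm)
    conv_rhs => rw [← d1 u]
    simp [smul_smul, mul_div_cancel₀ _ k0, d2]
  have e4 : fa (E i) (nx Ψ w) = fa (E (π i)) (a * nx Ψ w * (a⁻¹ : W ≃ₗ[F] W)) := ext_e (E (π i)) fun y v => by
    obtain ⟨y, rfl⟩ := a.surjective y
    obtain ⟨v, rfl⟩ := b.surjective v
    rw [fa_tmul, e3, map_add, map_add]; simp [← smul_tmul', e3, hw]
  obtain ⟨k, e5⟩ := scal_of_fa (e := E i) (a := nx Ψ w) fun a' => e4 ▸ t.comm _ _ n _ a'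
  simpa [show k = 0 by simpa [hw, w0] using (LinearMap.congr_fun e5 w).symm, hz, w0] using LinearMap.congr_fun e5 z

variable [Finite F] [FiniteDimensional F U]

theorem exists_F2U (s : UF Ψ) (nd : Φ.Nondeg) (hε : Φ.ε = 1) (h2 : 2 ≤ finrank F U) (β : U → U → F)
    (hB : ∀ w u w' u', Φ.B (e (w ⊗ₜ u)) (e (w' ⊗ₜ u')) = Ψ.B w w' * β u u') :
    ∃ Φ₂ : Formed σ U, (∀ u v, Φ₂.B u v = β u v) ∧ Φ₂.Nondeg ∧ Φ₂.ε = 1 ∧ ∃ u v, Φ₂.IsPair u v := by
  obtain ⟨w, r, hp⟩ := s.pair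
  let Φ₂ : Formed σ U := .ofHerm s.ne Ψ.σσ ((Φ.B.comp (e.toLinearMap ∘ₗ TensorProduct.mk F W U w)).compl₂
    (e.toLinearMap ∘ₗ TensorProduct.mk F W U r)) ⟨fun x y => by
      simpa [hB, hp.ef, (s.pair_symm hp).ef, hε] using (Φ.symm (e (w ⊗ₜ x)) (e (r ⊗ₜ y))).symm⟩
  have b : ∀ u v, Φ₂.B u v = β u v := fun u v => (hB w u r v).trans (by simp [hp.ef])
  have n₂ : Φ₂.Nondeg := fun u H => tmul_inj (F := F) hp.left_ne_zero (e.injective (nd.ext fun v => by
    obtain ⟨v, rfl⟩ := e.surjective v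
    induction v with
    | zero => simp
    | tmul a c => simp [hB, ← b, H c]
    | add x y a b => simp only [map_add, a, b]))
  obtain ⟨x, -, x0, hx⟩ := exists_sing_herm (Φ₁ := Φ₂) s.ne rfl (fun _ => rfl) (T := ⊤) (by simpa)
  exact ⟨Φ₂, b, n₂, rfl, x, n₂.exists_isPair x0 hx⟩

theorem UW0.isMax [FiniteDimensional F V] [Finite ι] [DecidableEq ι] [Nonempty ι] (h : UW0 Ψ Φ₂ Φ E) (nd : Φ.Nondeg)
    (hτ : Φ.τ = 0) (hε : Φ.ε = 1) (hE : SEG Φ) (ho : Odd (finrank F W) → Odd (finrank F U)) (sw : Sw0 E Φ.isom) :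
    Geo.IsMaximalIn (EG Φ) (wstab E ⊓ EG Φ) := by
  have := h.nt
  have s := h.uf
  have := s.ntW
  obtain ⟨i⟩ := ‹Nonempty ι›
  refine max_crit inf_le_right ?_ fun X x1 x2 g hg hg' => by_contra fun hS => hg' ⟨?_, x2 hg⟩
  · obtain ⟨w, z, hp⟩ := s.pair
    obtain ⟨u, v, hu⟩ := h.ex
    obtain ⟨t, t0, ht⟩ := s.tp
    obtain ⟨g, hg⟩ := isE_T nd (u := E i (w ⊗ₜ u)) (t := t) ⟨h.Q _, by simp [h.B, hp.se.2]⟩
      ⟨t0, by simp [hτ], by simp [hε, ht]⟩
    refine ⟨g, IsE_mem_EG hg, fun m => not_mem_wstab' h.toTW (i := i) hp.se.2 hp.ef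
      (ζ := -t • rk1 u (Φ₂.B u)) (fun k e => ?_) (ext_e (E i) fun y z => ?_) m.1⟩
    · obtain rfl : k = 0 := by simpa [hu.se.2, hu.left_ne_zero] using (LinearMap.congr_fun e u).symm
      simpa [hu.ef, t0, hu.left_ne_zero] using LinearMap.congr_fun e v
    · simp [hg.app, h.B, tmul_neg, ← smul_tmul', smul_smul, sub_eq_add_neg, mul_left_comm, mul_comm]
  have dt : ∀ i (a : W ≃ₗ[F] W) (b : U ≃ₗ[F] U), LinearMap.det (autCongr (E i) (TensorProduct.congr a b) : End F V) =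
      LinearMap.det (a : End F W) ^ finrank F U * LinearMap.det (b : End F U) ^ finrank F W := fun i a b => by
    rw [← det_congr, ← LinearEquiv.coe_det, det_autCongr, LinearEquiv.coe_det]
  refine UW.le_wstab ⟨h, x2.trans EG_le_isom, fun i g p q => x1 ⟨h.lf_mem i g, hE ⟨mem_isom_comap (E i)
    (congr_mem_isom (h.B i) (.inr fun _ _ => h.Q _) p (one_mem _)), mem_SLg.2 ((dt i g 1).trans (by
      simp [mem_SLg.1 q, ← Module.End.one_eq_id]))⟩⟩, fun i j l nj nl => ?_⟩ hS hg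
  obtain ⟨τ, t1, t2, t3⟩ := sw j l
  have fin : ∀ τ ∈ Φ.isom, τ ∈ SLg F V → Act E τ (.swap j l) → _ := fun τ a b c => (⟨τ, x1 ⟨c.mem, hE ⟨a, b⟩⟩,
    by simpa using c j, by simpa [Equiv.swap_apply_of_ne_of_ne nj.symm nl.symm] using c i⟩ : ∃ τ ∈ X,
      (∀ a, (τ : End F V) * fa (E j) a = fa (E l) a * τ) ∧ ∀ a, (τ : End F V) * fa (E i) a = fa (E i) a * τ)
  obtain ⟨b, e1⟩ := tst_of_conj (e := E i) (e' := E i) (g := τ) (by
    simpa [Equiv.swap_apply_of_ne_of_ne nj.symm nl.symm] using t3 i)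
  obtain ⟨w, w0⟩ := exists_ne (0 : W)
  have d1 : LinearMap.det (b : End F U) * LinearMap.det (b : End F U) = 1 := by
    rw [← map_mul, show (b : End F U) * b = 1 from LinearMap.ext fun u => tmul_inj (F := F) w0 ((E i).injective (by
      simpa [e1] using LinearEquiv.congr_fun t2 (E i (w ⊗ₜ u)))), map_one]
  have d0 : LinearMap.det (τ : End F V) = LinearMap.det (b : End F U) ^ finrank F W := by
    rw [show τ = autCongr (E i) (TensorProduct.congr 1 b) from ext_e' (E i) fun w u => by simp [e1], dt]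
    simp [← Module.End.one_eq_id]
  by_cases d2 : LinearMap.det (b : End F U) ^ finrank F W = 1
  · exact fin τ t1 (mem_SLg.2 (d0.trans d2)) t3
  have d3 := (mul_self_eq_one_iff.1 d1).resolve_left fun e => d2 (by simp [e])
  have o : Odd (finrank F W) := Nat.not_even_iff_odd.1 fun e => d2 (by rw [d3, e.neg_one_pow])
  have e2 : ((LinearEquiv.neg F * τ : V ≃ₗ[F] V) : End F V) = (-1 : F) • (τ : End F V) := LinearMap.ext fun x => by simp
  refine fin (LinearEquiv.neg F * τ) ⟨fun x y => by simpa using t1.1 x y, fun x => by simp [h.Q]⟩ (mem_SLg.2 ?_)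
    fun i a => by rw [e2, smul_mul_assoc, mul_smul_comm, t3]
  rw [e2, LinearMap.det_smul, d0, d3, ← (E i).finrank_eq, finrank_tensorProduct, (o.mul (ho o)).neg_one_pow, o.neg_one_pow]
  simp

section Std
open Matrix Asch

omit [Finite F] in
theorem isMaximalIn_wreathSU [Fintype F] {N q m n : ℕ} (hF : Fintype.card F = q ^ 2) (hN : 4 ≤ N) (hm : 3 ≤ m) (hn : 1 ≤ n)
    (hex : ¬ (q = 2 ∧ m = 3)) (e : Fin N ≃ (Fin (n + 1) → Fin m)) (P : GL (Fin N) F)
    {f₁ : (Fin m → F) → (Fin m → F) → F} (hf₁ : Geo.IsUnitaryFormPow q f₁)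
    (hT : Geo.IsTensorPowerFormStructure (fun x : F => x ^ q) (hermForm N F q) f₁ e P) :
    Geo.IsMaximalIn (GU N F q ⊓ Geo.specialLinear (Fin N) F)
      (Geo.tensorWreathSubgroup m (n + 1) e P ⊓ (GU N F q ⊓ Geo.specialLinear (Fin N) F)) := by
  have : Nonempty (Fin m) := ⟨⟨0, by omega⟩⟩
  obtain ⟨Ψ, a1, a2⟩ := exists_herm' hF hf₁ one_ne_zero (one_pow q)
  have s : UF Ψ := ⟨a1, frobq_ne_id hF, by simpa⟩
  obtain ⟨c, c0, hc⟩ := hT
  set G := Geo.gramMatrix f₁ with hG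
  have b1 : ∀ u v, Ψ.B u v = v ⬝ᵥ G *ᵥ (frobq hF ∘ u) := fun u v => by
    rw [a2, one_mul, ← formOfGram_B Ψ.B (f := f₁) fun u v => by simp [a2], formOfGram_eq]
  have b2 : ∀ x y, (hermFormed hF N).B (tv e P x) (tv e P y) = c * (y ⬝ᵥ ptens (fun _ => G) *ᵥ (frobq hF ∘ x)) := fun x y =>
    (hc y x).trans (congrArg _ (formOfGram_eq (frobq hF) (ptens fun _ => G) y x))
  have pB : ∀ x y, (hermFormed hF N).B (pvM e P x) (pvM e P y) = c * ∏ j, Ψ.B (x j) (y j) := fun x y => by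
    rw [pvM_apply, pvM_apply, b2, show frobq hF ∘ pv x = pv fun j => frobq hF ∘ x j from funext fun a => by simp [pv]]
    simp only [ptens_mulVec_pv, pv_dot, b1]
  have hB : ∀ i w u w' u', (hermFormed hF N).B (pE e P i (w ⊗ₜ u)) (pE e P i (w' ⊗ₜ u')) =
      Ψ.B w w' * (c * (u' ⬝ᵥ ptens (fun _ : Fin n => G) *ᵥ (frobq hF ∘ u))) := fun i w u w' u' => by
    simp only [pE, LinearEquiv.trans_apply, b2]
    rw [show frobq hF ∘ sE F m i (w ⊗ₜ u) = sE F m i ((frobq hF ∘ w) ⊗ₜ (frobq hF ∘ u)) from funext fun a => by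
      simp [sE_tmul, mul_pow], ptens_sE, sE_dot, b1]
    exact mul_left_comm _ _ _
  obtain ⟨Φ₂, d1, d2, d3, d4⟩ := exists_F2U s (hermFormed_nondeg hF N) rfl
    (by simpa using (show 2 ≤ m by omega).trans (Nat.le_self_pow (by omega) m)) _ (hB 0)
  refine isMaximalIn_inf _ (UW0.isMax (Ψ := Ψ) (Φ₂ := Φ₂) ⟨tw_pE e P, s, fun i w u w' u' => by rw [hB, d1], fun _ => rfl,
    d2, d3, d4, or_iff_not_imp_left.2 fun h4 => ?_⟩ (hermFormed_nondeg hF N) rfl rfl (EG_herm hF hN).ge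
    (fun h => by simpa using Odd.pow (by simpa using h)) fun j l => ⟨_, ?_, pperm_swap e P j l, pperm_pE e P _⟩)
    (fun g => mem_suGL hF hN) fun g => mem_wreath e P
  · have m3 : m = 3 := by simp at h4; omega
    have hq := two_le_of_card_eq_sq hF
    have h3 : 3 ≤ q := by omega
    refine ⟨by simpa, ?_, ?_⟩ <;> by_contra! H
    · have := Nat.le_of_dvd (by omega) ((FiniteField.forall_pow_eq_one_iff F (q + 1)).1 fun x => Units.ext (by
        simpa [pow_succ'] using H x x.ne_zero))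
      have : q + 2 < q ^ 2 := by nlinarith
      omega
    · have := (FiniteField.forall_pow_eq_one_iff F ((q - 1) * 3)).1 fun x => Units.ext (by
        have := H x
        rw [frobq_apply, ← pow_mul, show q * 3 = (q - 1) * 3 + 3 by omega, pow_add] at this
        simpa using this)
      rw [hF, show q ^ 2 - 1 = (q - 1) * (q + 1) by rw [mul_comm, ← Nat.sq_sub_sq]] at this
      have := Nat.le_of_dvd (by omega) (Nat.dvd_of_mul_dvd_mul_left (by omega) this)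
      omega
  generalize Equiv.swap j l = π
  have e1 : ∀ x, glEquiv _ F (tg e P (pperm F m π)) (pvM e P x) = pvM e P (x ∘ π.symm) := fun x => by
    rw [pvM_apply, glEquiv_apply, tg_mulVec]; exact congrArg _ (pperm_mulVec_pv π x)
  generalize glEquiv _ F (tg e P (pperm F m π)) = g at e1
  generalize hermFormed hF N = Φ, (show ∀ x, (hermFormed hF N).Q x = 0 from fun _ => rfl) = hQ at pB
  refine ⟨fun u v => pvM_span e P (LinearMap.eqLocus (Φ.B (g u) ∘ₗ g.toLinearMap) (Φ.B u)) (fun y =>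
    pvM_span e P (LinearMap.eqLocus (Φ.B.flip (g (pvM e P y)) ∘ₛₗ g.toLinearMap) (Φ.B.flip (pvM e P y))) (fun x => by
      simpa [e1, pB, c0] using Equiv.prod_comp π.symm fun j => Ψ.B (x j) (y j)) u) v, fun x => by rw [hQ, hQ]⟩

end Std

end Cfsg.Agent.Root.Wr
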